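import Cfsg.Agent.H16.NEng3
import Cfsg.Agent.H10.Basic
import Cfsg.Agent.H3.SylowIn

/-! Correspondences between two subgroups with isomorphic quotients. -/

set_option autoImplicit false

namespace Cfsg.Agent.LL

open Cfsg Cfsg.Agent.H16 Cfsg.Agent.H3 MulAction Subgroup
open scoped commutatorElement Pointwise

variable {G : Type*} [Group G]

theorem cm_of_gens {A P : Subgroup G} {s : Set G} (hP : P ≤ closure s) (hs : ∀ u ∈ s, u ∈ normalizer (A : Set G))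
    {x : G} (h : ∀ u ∈ s, ⁅x, u⁆ ∈ A) : ∀ u ∈ P, ⁅x, u⁆ ∈ A := fun u hu => by
  have : ∀ u ∈ closure s, u ∈ normalizer (A : Set G) ∧ ⁅x, u⁆ ∈ A := fun u hu => by
    induction hu using closure_induction with
    | mem u hu => exact ⟨hs u hu, h u hu⟩
    | one => exact ⟨one_mem _, by simp⟩
    | mul u v _ _ a b =>
      refine ⟨mul_mem a.1 b.1, ?_⟩
      convert mul_mem a.2 ((mem_normalizer_iff.mp a.1 _).mp b.2) using 1
      simp only [commutatorElement_def]; group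
    | inv u _ a =>
      refine ⟨inv_mem a.1, ?_⟩
      convert (mem_normalizer_iff.mp (inv_mem a.1) _).mp (inv_mem a.2) using 1
      simp only [commutatorElement_def]; group
  exact (this u (hP hu)).2

theorem sq_mem_of_card {A B : Subgroup G} [Finite B] (h : A ≤ B) (hc : Nat.card B ≤ 2 * Nat.card A) {x : G}
    (hx : x ∈ B) : x * x ∈ A := by
  have h1 := (A.subgroupOf B).card_mul_index
  rw [Nat.card_congr (subgroupOfEquivOfLe h).toEquiv] at h1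
  have h2 : 0 < Nat.card B := Nat.card_pos
  have h3 : (A.subgroupOf B).index = 1 ∨ (A.subgroupOf B).index = 2 := by
    generalize (A.subgroupOf B).index = i at *
    have : i ≠ 0 := by rintro rfl; omega
    have : ¬ 3 ≤ i := fun h => by nlinarith
    omega
  rcases h3 with e | e
  · exact (index_eq_one.mp e).ge (mem_top (⟨x, hx⟩ * ⟨x, hx⟩ : B))
  · exact mul_self_mem_of_index_two e ⟨x, hx⟩

theorem sylowIn_of_card {p k m : ℕ} [hp : Fact p.Prime] {Q H : Subgroup G} (h : Q ≤ H) (h1 : Nat.card Q = p ^ k)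
    (h2 : Nat.card H = p ^ k * m) (hm : ¬ p ∣ m) : SylowIn p Q H :=
  ⟨h, IsPGroup.of_card h1, by
    rw [card_eq_card_mul_relIndex h, h1, Nat.mul_right_inj (pow_pos hp.out.pos k).ne'] at h2; rwa [h2]⟩

/-- a correspondence respecting `Z` and `P` -/
structure Cor (K K0 Z P : Subgroup G) (R : G → G → Prop) : Prop where
  exl : ∀ k ∈ K, ∃ k0 ∈ K0, R k k0
  exr : ∀ k0 ∈ K0, ∃ k ∈ K, R k k0
  mul : ∀ {a b c d}, R a b → R c d → R (a * c) (b * d)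
  inv : ∀ {a b}, R a b → R a⁻¹ b⁻¹
  z : ∀ {a b}, R a b → (a ∈ Z ↔ b ∈ Z)
  p : ∀ {a b}, R a b → (a ∈ P ↔ b ∈ P)

namespace Cor
variable {K K0 Z P D : Subgroup G} {R : G → G → Prop} (c : Cor K K0 Z P R)
include c

theorem symm : Cor K0 K Z P fun a b => R b a :=
  ⟨c.exr, c.exl, c.mul, c.inv, fun h => (c.z h).symm, fun h => (c.p h).symm⟩

theorem comm {a b x y : G} (h : R a b) (h' : R x y) : R ⁅a, x⁆ ⁅b, y⁆ :=
  c.mul (c.mul (c.mul h h') (c.inv h)) (c.inv h')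

theorem d (hP : P ≤ K0) (hD : ∀ x, x ∈ D ↔ x ∈ P ∧ ∀ u ∈ P, ∀ v ∈ P, ⁅x, ⁅u, v⁆⁆ ∈ Z) {a b : G} (h : R a b)
    (ha : a ∈ D) : b ∈ D := by
  rw [hD] at ha ⊢
  refine ⟨(c.p h).mp ha.1, fun u hu v hv => ?_⟩
  obtain ⟨u', -, h1⟩ := c.exr u (hP hu)
  obtain ⟨v', -, h2⟩ := c.exr v (hP hv)
  exact (c.z (c.comm h (c.comm h1 h2))).mp (ha.2 _ ((c.p h1).mpr hu) _ ((c.p h2).mpr hv))

theorem norm (hP : P ≤ K) (hP0 : P ≤ K0) (hD : ∀ x, x ∈ D ↔ x ∈ P ∧ ∀ u ∈ P, ∀ v ∈ P, ⁅x, ⁅u, v⁆⁆ ∈ Z) {a b : G}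
    (h : R a b) (ha : ∀ x ∈ D, a * x * a⁻¹ ∈ D) : ∀ x ∈ D, b * x * b⁻¹ ∈ D := fun x hx => by
  obtain ⟨y, -, e⟩ := c.exr x (hP0 ((hD x).mp hx).1)
  exact c.d hP0 hD (c.mul (c.mul h e) (c.inv h)) (ha y (c.symm.d hP hD e hx))

end Cor

theorem exists_cor [Finite G] {U : Type*} [Group U] {p : ℕ} [Fact p.Prime] {K K0 Z P : Subgroup G} (π : K →* U)
    (π0 : K0 →* U) (hs : Function.Surjective π) (hs0 : Function.Surjective π0) (hk : ∀ g, π g = 1 ↔ (g : G) ∈ Z)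
    (hk0 : ∀ g, π0 g = 1 ↔ (g : G) ∈ Z) (hZ : Z ≤ P) (hP : SylowIn p P K) (hP0 : SylowIn p P K0) :
    ∃ R, Cor K K0 Z P R ∧ ∀ B ≤ K0, ∃ A ≤ K, Nat.card B ≤ Nat.card A ∧ ∀ k ∈ A, ∃ k0 ∈ B, R k k0 := by
  have : Finite U := Finite.of_surjective π hs
  have sy : ∀ {K : Subgroup G} (π : K →* U), Function.Surjective π → SylowIn p P K →
      SylowIn p ((P.subgroupOf K).map π) ⊤ := fun π hs hP => by
    have := (sylowIn_top hP.toSylow).map π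
    rwa [map_top_of_surjective π hs] at this
  obtain ⟨u, -, hu⟩ := (sy π hs hP).exists_conj (sy π0 hs0 hP0)
  have mp : ∀ {K : Subgroup G} (π : K →* U), (∀ g, π g = 1 ↔ (g : G) ∈ Z) → ∀ x : K,
      π x ∈ (P.subgroupOf K).map π ↔ (x : G) ∈ P := fun π hk x =>
    show x ∈ ((P.subgroupOf _).map π).comap π ↔ _ by
      rw [comap_map_eq_self fun y hy => mem_subgroupOf.mpr (hZ ((hk y).mp hy))]; rfl
  have ck : ∀ {K : Subgroup G} (π : K →* U), (∀ g, π g = 1 ↔ (g : G) ∈ Z) → Z ≤ K → Nat.card π.ker = Nat.card Z :=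
    fun π hk h => by
      rw [show π.ker = Z.subgroupOf _ from Subgroup.ext hk]; exact Nat.card_congr (subgroupOfEquivOfLe h).toEquiv
  let π' : K →* U := (MulAut.conj u).toMonoidHom.comp π
  have hs' : Function.Surjective π' := (MulAut.conj u).surjective.comp hs
  have hk' : ∀ g, π' g = 1 ↔ (g : G) ∈ Z := fun g => (map_eq_one_iff _ (MulAut.conj u).injective).trans (hk g)
  refine ⟨fun a b => ∃ ha hb, π' ⟨a, ha⟩ = π0 ⟨b, hb⟩, ⟨fun k hk => ?_, fun k hk => ?_, ?_, ?_, ?_, ?_⟩, fun B hB => ?_⟩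
  · obtain ⟨y, e⟩ := hs0 (π' ⟨k, hk⟩); exact ⟨y, y.2, hk, y.2, e.symm⟩
  · obtain ⟨y, e⟩ := hs' (π0 ⟨k, hk⟩); exact ⟨y, y.2, y.2, hk, e⟩
  · rintro a b c d ⟨ha, hb, e⟩ ⟨hc, hd, e'⟩
    exact ⟨mul_mem ha hc, mul_mem hb hd, (map_mul π' ⟨a, ha⟩ ⟨c, hc⟩).trans
      (by rw [e, e']; exact (map_mul π0 ⟨b, hb⟩ ⟨d, hd⟩).symm)⟩
  · rintro a b ⟨ha, hb, e⟩
    exact ⟨inv_mem ha, inv_mem hb, (map_inv π' ⟨a, ha⟩).trans (by rw [e]; exact (map_inv π0 ⟨b, hb⟩).symm)⟩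
  · rintro a b ⟨ha, hb, e⟩
    exact (hk' ⟨a, ha⟩).symm.trans (e ▸ hk0 ⟨b, hb⟩)
  · rintro a b ⟨ha, hb, e⟩
    rw [← mp π hk ⟨a, ha⟩, ← mp π0 hk0 ⟨b, hb⟩, ← e, ← hu]
    exact conj_mem_conj_smul.symm
  · have h1 := H10.card_map_mul_card_inf_ker π0 (B.subgroupOf K0)
    have h2 := H10.card_map_mul_card_inf_ker π' (((B.subgroupOf K0).map π0).comap π')
    rw [map_comap_eq_self_of_surjective hs', inf_eq_right.mpr (ker_le_comap _ _), ck π' hk' (hZ.trans hP.le)] at h2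
    have h3 := card_le_of_le (inf_le_right : B.subgroupOf K0 ⊓ π0.ker ≤ _)
    rw [ck π0 hk0 (hZ.trans hP0.le)] at h3
    rw [Nat.card_congr (subgroupOfEquivOfLe hB).toEquiv] at h1
    refine ⟨_, map_subtype_le (((B.subgroupOf K0).map π0).comap π'), ?_, ?_⟩
    · rw [card_map_of_injective K.subtype_injective, ← h1, ← h2]; exact Nat.mul_le_mul_left _ h3
    · rintro _ ⟨x, ⟨y, hy, e⟩, rfl⟩; exact ⟨y, hy, x.2, y.2, e.symm⟩

section cosets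
variable {o : Ops} {Ω : Type*} [MulAction G Ω] {M : Mdl o G Ω}

noncomputable def cosB (o : Ops) (lv : List N.Lv) (T S : List (ℕ × ℕ)) : Bool :=
  allP S fun s s' => allP T fun t _ =>
    andB (force (o.mul s t) fun x => anyP T fun _ u => force (o.mul u x) (N.sift o lv))
      (force (o.mul s' t) fun x => anyP T fun _ u => force (o.mul u x) (N.sift o lv))

theorem cosets {lv : List N.Lv} {H K0 : Subgroup G} (hc : N.Chain M lv H) {T S : List (ℕ × ℕ)} (hS : M.PrL K0 S)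
    (hT : M.PrL K0 T) (h1 : (o.one, o.one) ∈ T) (h : cosB o lv T S = true) {g : G} (hg : g ∈ M.clo (S.map Prod.fst)) :
    ∃ t ∈ T, ∃ τ, M.R t.1 τ ∧ M.R t.2 τ⁻¹ ∧ τ⁻¹ * g ∈ H := by
  have k : ∀ {s : ℕ} {σ g : G}, M.R s σ → (∀ t ∈ T, (force (o.mul s t.1) fun x => anyP T fun _ u =>
      force (o.mul u x) (N.sift o lv)) = true) → (∃ t ∈ T, ∃ τ, M.R t.1 τ ∧ M.R t.2 τ⁻¹ ∧ τ⁻¹ * g ∈ H) →
      ∃ t ∈ T, ∃ τ, M.R t.1 τ ∧ M.R t.2 τ⁻¹ ∧ τ⁻¹ * (σ * g) ∈ H := by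
    rintro s σ g r e ⟨t, ht, τ, r1, -, hg⟩
    have := e t ht
    rw [force_eq] at this
    obtain ⟨u, hu, e⟩ := anyP_iff.mp this
    rw [force_eq] at e
    obtain ⟨υ, -, s1, s2⟩ := hT u hu
    exact ⟨u, hu, υ, s1, s2, by simpa [mul_assoc] using mul_mem (hc.sift (M.R_mul s2 (M.R_mul r r1)) e) hg⟩
  induction hg using closure_induction_left with
  | one => exact ⟨_, h1, 1, M.R_one, by rw [inv_one]; exact M.R_one, by simp⟩
  | mul_left x hx y _ ih =>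
    obtain ⟨p, hp, r⟩ := hx
    obtain ⟨s, hs, rfl⟩ := List.mem_map.mp hp
    exact k r (fun t ht => (andB_iff.mp (allP_iff.mp (allP_iff.mp h s hs) t ht)).1) ih
  | inv_mul_cancel x hx y _ ih =>
    obtain ⟨p, hp, r⟩ := hx
    obtain ⟨s, hs, rfl⟩ := List.mem_map.mp hp
    obtain ⟨σ, -, r1, r2⟩ := hS s hs
    exact k (Mdl.R_fun r1 r ▸ r2) (fun t ht => (andB_iff.mp (allP_iff.mp (allP_iff.mp h s hs) t ht)).2) ih

end cosets

end Cfsg.Agent.LL
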