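import Cfsg.Agent.H21.Leech12
import Cfsg.Agent.H10.Xsp4
import Cfsg.Agent.H26.ES4
import Cfsg.Agent.S5552
import Cfsg.Prelude.Def_MonsterType

/-! The 2-local structure of groups of Monster type. -/

set_option autoImplicit false
set_option linter.style.haveILetI false

namespace Cfsg.Agent.LL

open Cfsg Cfsg.Agent.H16 Cfsg.Agent.H10 MulAction Subgroup
open scoped symmDiff Pointwise

/-- the sign changes -/
def Eps : Subgroup Co0 where
  carrier := {g | ∃ c, g = eps c}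
  one_mem' := ⟨c0, eps_c0.symm⟩
  mul_mem' := by rintro _ _ ⟨c, rfl⟩ ⟨d, rfl⟩; exact ⟨_, eps_mul c d⟩
  inv_mem' := by rintro _ ⟨c, rfl⟩; exact ⟨c, eps_inv c⟩

theorem neg1_mem_Eps : neg1 ∈ Eps := ⟨_, rfl⟩

theorem Eps_conj (σ : M24) {e : Co0} (he : e ∈ Eps) : permHom σ * e * (permHom σ)⁻¹ ∈ Eps := by
  obtain ⟨c, rfl⟩ := he; exact ⟨_, eps_conj σ c⟩

theorem perm_mem_Eps {σ : M24} (h : permHom σ ∈ Eps) : σ = 1 := by
  obtain ⟨c, hc⟩ := h
  have : mono σ c0 = mono 1 c := by rw [mono_eq, eps_c0, one_mul, hc]; rfl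
  exact (mono_inj this).1

theorem card_Eps : Nat.card Eps = 4096 := by
  rw [← card_gSets]
  refine (Nat.card_congr (Equiv.ofBijective (fun c : gSets => (⟨eps c, c, rfl⟩ : Eps)) ⟨?_, ?_⟩)).symm
  · intro c d h
    have h' : mono 1 c = mono 1 d := congrArg (fun x : Eps => (x : Co0)) h
    exact (mono_inj h').2
  · rintro ⟨_, c, rfl⟩; exact ⟨c, rfl⟩

theorem mem_NN' {g : Co0} : g ∈ NN ↔ ∃ e ∈ Eps, ∃ σ, g = e * permHom σ := by
  rw [mem_NN]
  constructor
  · rintro ⟨σ, c, rfl⟩; exact ⟨_, ⟨c, rfl⟩, σ, mono_eq σ c⟩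
  · rintro ⟨_, ⟨c, rfl⟩, σ, rfl⟩; exact ⟨σ, c, (mono_eq σ c).symm⟩

theorem Eps_le_NN : Eps ≤ NN := fun e he => mem_NN'.mpr ⟨e, he, 1, by simp⟩

theorem perm_mem_NN (σ : M24) : permHom σ ∈ NN := mem_NN'.mpr ⟨1, one_mem _, σ, by simp⟩

theorem neg1_sq : neg1 * neg1 = 1 := eps_sq _

/-- congruence modulo twice the lattice -/
def Cg (v w : L) : Prop := ∃ u : L, v = w + (u + u)

theorem Cg.refl (v : L) : Cg v v := ⟨0, by simp⟩
theorem Cg.symm {v w : L} (h : Cg v w) : Cg w v := by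
  obtain ⟨u, rfl⟩ := h; exact ⟨-u, by abel⟩
theorem Cg.trans {v w x : L} (h : Cg v w) (h' : Cg w x) : Cg v x := by
  obtain ⟨u, rfl⟩ := h; obtain ⟨u', rfl⟩ := h'; exact ⟨u + u', by abel⟩
theorem Cg.smul {v w : L} (h : Cg v w) (g : Co0) : Cg (g • v) (g • w) := by
  obtain ⟨u, rfl⟩ := h; exact ⟨g • u, by simp only [smul_add]⟩
theorem cg_neg (v : L) : Cg (-v) v := ⟨-v, by abel⟩

theorem exists_short_cg (v : L) : ∃ w : L, Cg w v ∧ sqNorm (w : V) ≤ 64 := by
  obtain ⟨y, hy, hn, u, hu, e⟩ := exists_short v.2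
  refine ⟨⟨y, hy⟩, ⟨-⟨u, hu⟩, Subtype.ext ?_⟩, hn⟩
  simp only [AddSubgroup.coe_add, AddSubgroup.coe_neg]
  rw [two_smul] at e
  rw [← sub_eq_zero] at e ⊢
  rw [← neg_eq_zero, ← e]; abel

theorem Cg.short {v w : L} (h : Cg v w) (hv : sqNorm (v : V) ≤ 64) (hw : sqNorm (w : V) ≤ 64) :
    v = w ∨ v = -w ∨ (sqNorm (v : V) = 64 ∧ sqNorm (w : V) = 64) := by
  by_cases h1 : v = w
  · exact Or.inl h1
  by_cases h2 : v = -w
  · exact Or.inr (Or.inl h2)
  obtain ⟨u, e⟩ := h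
  have := leech_cong v.2 w.2 (fun e => h1 (Subtype.ext e)) (fun e => h2 (Subtype.ext e)) hv hw
    ⟨u, u.2, by rw [e, two_smul]; simp⟩
  exact Or.inr (Or.inr ⟨this.1, this.2.1⟩)

theorem norm_cases {v : L} (h0 : v ≠ 0) (h : sqNorm (v : V) ≤ 64) :
    sqNorm (v : V) = 32 ∨ sqNorm (v : V) = 48 ∨ sqNorm (v : V) = 64 := by
  have h1 := min_norm v.2 (fun e => h0 (Subtype.ext e))
  have h2 := sixteen_dvd v.2
  omega

theorem cg_U_iff {g : Co0} : Cg (g • U) U ↔ g ∈ K2 ∨ neg1 * g ∈ K2 := by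
  constructor
  · intro h
    rcases h.short (by rw [sqNorm_co, norm_U]; norm_num) (by rw [norm_U]; norm_num) with e | e | e
    · exact Or.inl e
    · right; rw [mem_stabilizer_iff, mul_smul, e, neg1_smul, neg_neg]
    · rw [norm_U] at e; omega
  · rintro (h | h)
    · rw [mem_stabilizer_iff.mp h]; exact Cg.refl _
    · rw [mem_stabilizer_iff, mul_smul, neg1_smul, neg_eq_iff_eq_neg] at h
      rw [h]; exact cg_neg _

theorem cg_e8 (i j : GolayPt) : Cg (e8 i) (e8 j) := by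
  obtain ⟨u, e⟩ := e8_cong i j
  exact ⟨u, by rw [← two_smul ℕ, ← e]; abel⟩

theorem cg_e8_iff {g : Co0} {i : GolayPt} : Cg (g • e8 i) (e8 i) ↔ g ∈ NN := by
  constructor
  · intro h
    obtain ⟨u, e⟩ := h.symm
    obtain ⟨j, hj⟩ := std_of_cong (v := g • e8 i) (by rw [sqNorm_co, sqNorm_e8]) (i := i)
      ⟨u, by rw [two_smul, sub_eq_iff_eq_add']; exact e⟩
    exact mem_NN.mpr (mono_of_one hj)
  · intro h
    obtain ⟨σ, c, rfl⟩ := mem_NN.mp h
    rw [mono_e8]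
    split_ifs
    · exact (cg_neg _).trans (cg_e8 _ _)
    · exact cg_e8 _ _

theorem not_cg_zero {v : L} (h0 : v ≠ 0) (h : sqNorm (v : V) ≤ 64) : ¬ Cg v 0 := fun hc => by
  rcases hc.short h (by simp [sqNorm_zero]) with e | e | e
  · exact h0 e
  · exact h0 (by simpa using e)
  · simp [sqNorm_zero] at e

section
variable {G A : Type*} [Group G] [Group A]

/-- the data of a group of Monster type: `R v x` says that `x ∈ Q` lies over the class of `v` -/
structure MT (z : G) (Q : Subgroup G) (ρ : centralizer ({z} : Set G) →* A) (π : Co0 →* A)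
    (R : L → G → Prop) : Prop where
  lx : LX Q z
  card : Nat.card Q = 2 ^ 25
  ρ_surj : Function.Surjective ρ
  ρ_ker : ∀ h, ρ h = 1 ↔ (h : G) ∈ Q
  π_surj : Function.Surjective π
  π_ker : ∀ g, π g = 1 ↔ g = 1 ∨ g = neg1
  mem : ∀ {v x}, R v x → x ∈ Q
  ex : ∀ v, ∃ x, R v x
  ex' : ∀ x ∈ Q, ∃ v, R v x
  mul : ∀ {v w x y}, R v x → R w y → R (v + w) (x * y)
  zmul : ∀ {v x}, R v x → R v (z * x)
  uniq : ∀ {v x y}, R v x → R v y → y = x ∨ y = z * x
  zero : ∀ {v x}, R v x → (x ∈ zpowers z ↔ Cg v 0)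
  act : ∀ {g h v x}, π g = ρ h → R v x → R (g • v) (h * x * (h : G)⁻¹)

theorem exists_MT [Finite G] {z : G} {Q : Subgroup (centralizer ({z} : Set G))} [Q.Normal]
    (hS : IsExtraspecialCentralizerSetting z Q 12) {e : centralizer ({z} : Set G) ⧸ Q ≃* Spor.Co1}
    {ψ : leechLattice → Q ⧸ center Q} (hψ : IsLeechModTwoIso Q e ψ) :
    MT z (Q.map (centralizer ({z} : Set G)).subtype) (QuotientGroup.mk' Q)
      (e.symm.toMonoidHom.comp (QuotientGroup.mk' _))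
      (fun v x => ∃ q : Q, ((q : centralizer ({z} : Set G)) : G) = x ∧ ψ v = QuotientGroup.mk q) := by
  obtain ⟨hz, hF, hQ, hc, -⟩ := hS
  obtain ⟨h1, h2, h3, h4⟩ := hψ
  have eq := Q.equivMapOfInjective _ (centralizer ({z} : Set G)).subtype_injective
  have hl : LX (Q.map (centralizer ({z} : Set G)).subtype) z :=
    lx_of_fstar hz (by rw [FstarOf, hF]) (H26.isExtraspecial_congr hQ eq)
  have hcen : ∀ q : Q, q ∈ center Q ↔ ((q : centralizer ({z} : Set G)) : G) ∈ zpowers z := by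
    intro q
    constructor
    · intro h
      refine hl.zc _ ⟨q, q.2, rfl⟩ ?_
      rintro _ ⟨r, hr, rfl⟩
      exact congrArg (fun x : Q => ((x : centralizer ({z} : Set G)) : G)) (Subgroup.mem_center_iff.mp h ⟨r, hr⟩)
    · intro h
      exact Subgroup.mem_center_iff.mpr fun r => Subtype.ext (Subtype.ext
        (hl.comm_of_mem_z h (mem_centralizer_singleton_iff.mp r.1.2)))
  obtain ⟨z0, hz0, ez⟩ := hl.mem
  refine ⟨hl, by rw [← hc]; exact (Nat.card_congr eq.toEquiv).symm, QuotientGroup.mk'_surjective _,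
    fun h => ?_, ?_, fun g => ?_, ?_, fun v => ?_, ?_, ?_, ?_, ?_, ?_, ?_⟩
  · rw [QuotientGroup.mk'_apply, QuotientGroup.eq_one_iff]
    exact ⟨fun e => ⟨h, e, rfl⟩, fun ⟨r, hr, e⟩ => (Subtype.ext e : r = h) ▸ hr⟩
  · exact e.symm.surjective.comp (QuotientGroup.mk'_surjective _)
  · rw [← LL.mem_center_iff, ← QuotientGroup.eq_one_iff]
    simp
  · rintro v x ⟨q, rfl, -⟩; exact ⟨q, q.2, rfl⟩
  · obtain ⟨q, hq⟩ := QuotientGroup.mk_surjective (ψ v)
    exact ⟨_, q, rfl, hq.symm⟩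
  · rintro _ ⟨q, hq, rfl⟩
    obtain ⟨v, hv⟩ := h2 (QuotientGroup.mk ⟨q, hq⟩)
    exact ⟨v, ⟨q, hq⟩, rfl, hv⟩
  · rintro v w _ _ ⟨q, rfl, hq⟩ ⟨r, rfl, hr⟩
    exact ⟨q * r, rfl, by rw [h1, hq, hr]; rfl⟩
  · rintro v _ ⟨q, rfl, hq⟩
    refine ⟨⟨z0, hz0⟩ * q, congrArg (· * _) ez, ?_⟩
    rw [hq, QuotientGroup.mk_mul, (QuotientGroup.eq_one_iff _).mpr ((hcen ⟨z0, hz0⟩).mpr _), one_mul]
    change (z0 : G) ∈ _
    rw [show (z0 : G) = z from ez]; exact mem_zpowers z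
  · rintro v _ _ ⟨q, rfl, hq⟩ ⟨r, rfl, hr⟩
    have := (hcen _).mp (QuotientGroup.eq.mp (hq.symm.trans hr))
    simp only [coe_mul, coe_inv] at this
    rcases hl.mem_z.mp this with e | e
    · left; exact (inv_mul_eq_one.mp e).symm
    · right; rw [inv_mul_eq_iff_eq_mul] at e
      rw [e]; exact mem_centralizer_singleton_iff.mp q.1.2
  · rintro v _ ⟨q, rfl, hq⟩
    rw [← hcen, ← QuotientGroup.eq_one_iff, ← hq, h3]
    simp [Cg]
  · rintro g h v _ e' ⟨q, rfl, hq⟩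
    exact ⟨_, rfl, h4 h g (by rw [← e.symm_apply_eq]; exact e') v q hq⟩

namespace MT
variable {z : G} {Q : Subgroup G} {ρ : centralizer ({z} : Set G) →* A} {π : Co0 →* A}
  {R : L → G → Prop} (m : MT z Q ρ π R)
include m

/-- change of the identification by an inner automorphism -/
theorem shift (k : Co0) : MT z Q ρ (π.comp (MulAut.conj k⁻¹).toMonoidHom) fun v x => R (k⁻¹ • v) x := by
  refine ⟨m.lx, m.card, m.ρ_surj, m.ρ_ker, m.π_surj.comp (MulAut.conj k⁻¹).surjective, fun g => ?_,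
    m.mem, fun v => m.ex _, fun x hx => ?_, fun h h' => ?_, m.zmul, m.uniq, fun {v x} h => ?_,
    fun {g h v x} e h' => ?_⟩
  · have := Subgroup.mem_center_iff.mp neg1_mem_center k
    simp only [MonoidHom.comp_apply, MulEquiv.coe_toMonoidHom, MulAut.conj_apply, m.π_ker, inv_inv]
    refine or_congr ?_ ?_
    · constructor
      · intro h; have : g = k * (k⁻¹ * g * k) * k⁻¹ := by group
        rw [this, h]; simp
      · rintro rfl; simp
    · constructor
      · intro h; have e : g = k * (k⁻¹ * g * k) * k⁻¹ := by group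
        rw [e, h, this]; simp
      · rintro rfl; rw [mul_assoc, ← this]; simp
  · obtain ⟨v, hv⟩ := m.ex' x hx
    exact ⟨k • v, by rwa [inv_smul_smul]⟩
  · rw [smul_add]; exact m.mul h h'
  · rw [m.zero h]
    exact ⟨fun e => by simpa using e.smul k, fun e => by simpa using e.smul k⁻¹⟩
  · have := m.act e h'
    simpa [mul_smul] using this

theorem cg {v w : L} {x : G} (h : R v x) (e : Cg w v) : R w x := by
  obtain ⟨u, rfl⟩ := e
  obtain ⟨y, hy⟩ := m.ex (u + u)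
  have := m.mul h hy
  rcases m.lx.mem_z.mp ((m.zero hy).mpr ⟨u, by simp⟩) with e | e
  · simpa [e] using this
  · have h2 := m.zmul this
    rwa [e, m.lx.cent x (m.mem h), ← mul_assoc, m.lx.zz, one_mul] at h2

theorem inj {v w : L} {x : G} (h : R v x) (h' : R w x) : Cg v w := by
  obtain ⟨u, e⟩ := (m.zero (m.mul h h')).mp (m.lx.sq x (m.mem h))
  exact ⟨u - w, by rw [zero_add] at e; rw [← sub_eq_zero] at e ⊢; rw [← e]; abel⟩

theorem short {x : G} (hx : x ∈ Q) : ∃ v : L, R v x ∧ sqNorm (v : V) ≤ 64 := by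
  obtain ⟨v, hv⟩ := m.ex' x hx
  obtain ⟨w, h1, h2⟩ := exists_short_cg v
  exact ⟨w, m.cg hv h1, h2⟩

theorem exists_ρ (g : Co0) : ∃ h, π g = ρ h := by
  obtain ⟨h, e⟩ := m.ρ_surj (π g); exact ⟨h, e.symm⟩

theorem exists_π (h : centralizer ({z} : Set G)) : ∃ g, π g = ρ h := m.π_surj _

theorem π_neg1 : π neg1 = 1 := (m.π_ker _).mpr (Or.inr rfl)

theorem not_mem {v : L} {x : G} (h : R v x) (h0 : v ≠ 0) (hn : sqNorm (v : V) ≤ 64) : x ∉ zpowers z :=
  fun e => not_cg_zero h0 hn ((m.zero h).mp e)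

/-- elements over `g v` are conjugate to elements over `v` -/
theorem conj_of {v w : L} {s t : G} (hs : R v s) (ht : R w t) (htz : t ∉ zpowers z) {g : Co0}
    (e : Cg (g • v) w) : ∃ h : centralizer ({z} : Set G), ρ h = π g ∧ h * s * (h : G)⁻¹ = t := by
  obtain ⟨h, hh⟩ := m.exists_ρ g
  rcases m.uniq ht (m.cg (m.act hh hs) e.symm) with e1 | e1
  · exact ⟨h, hh.symm, e1⟩
  · obtain ⟨q, hq, hne⟩ := m.lx.exists_ne_comm (m.mem ht) htz
    have h2 := m.lx.conj_eq_of_ne hq (m.mem ht) hne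
    refine ⟨(⟨q, m.lx.le_centralizer hq⟩ : centralizer ({z} : Set G))⁻¹ * h, ?_, ?_⟩
    · rw [map_mul, map_inv, (m.ρ_ker _).mpr hq, hh]; simp
    · rw [← h2] at e1
      simp only [coe_mul, coe_inv]
      calc q⁻¹ * h * s * (q⁻¹ * h)⁻¹ = q⁻¹ * (h * s * (h : G)⁻¹) * q := by group
        _ = t := by rw [e1]; group

/-- the squaring map is the quadratic form of the lattice -/
theorem sq_iff [Finite G] {v : L} {x : G} (h : R v x) : x * x = 1 ↔ (32 : ℤ) ∣ sqNorm (v : V) := by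
  obtain ⟨n, c, hc⟩ := m.lx.toSymT.exists_ES
  choose f hf using m.ex
  let φ : L → Fin n → ZMod 2 := fun v => c.π ⟨f v, m.mem (hf v)⟩
  have h0 : c.π ⟨z, m.lx.mem⟩ = 0 := c.mem_Z.mp ((hc _).mpr (mem_zpowers z))
  have h1 : ∀ {v x} (h : R v x), φ v = c.π ⟨x, m.mem h⟩ := by
    intro v x h
    rcases m.uniq (hf v) h with e | e
    · simp only [φ, e]
    · have : (⟨x, m.mem h⟩ : Q) = ⟨z, m.lx.mem⟩ * ⟨f v, m.mem (hf v)⟩ := Subtype.ext e
      rw [this, c.π_mul, h0, zero_add]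
  have h2 : ∀ v w, φ (v + w) = φ v + φ w := fun v w => by
    rw [h1 (m.mul (hf v) (hf w)), ← c.π_mul]; rfl
  have h3 : ∀ {v x}, R v x → (x * x = 1 ↔ c.pw (φ v) = 0) := fun {v x} h => by
    rw [h1 h, ← c.pow_eq_one_iff, pow_two, Subtype.ext_iff]; rfl
  have h4 : ∀ a b : ZMod 2, (a = 0 ↔ b = 0) → a = b := by decide
  have key := S5552.result (fun v => c.pw (φ v))
    (fun v w => h4 _ _ (by rw [← h3 (hf v), ← h3 (m.cg (hf v) ⟨w, rfl⟩)]))
    (fun u v w => by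
      simp only [h2, c.pw_add_two, map_add, LinearMap.add_apply]
      generalize c.pw (φ u) = a, c.pw (φ v) = b, c.pw (φ w) = d, c.B (φ u) (φ v) = e,
        c.B (φ u) (φ w) = f, c.B (φ v) (φ w) = g
      revert a b d e f g; decide)
    (fun g v => h4 _ _ (by
      obtain ⟨h, hh⟩ := m.exists_ρ g
      rw [← h3 (hf v), ← h3 (m.act hh (hf v)), conj_mul, conj_eq_one_iff]))
    (by
      by_contra hn
      push Not at hn
      obtain ⟨a, ha, haz⟩ := m.lx.na
      obtain ⟨q, hq, hne⟩ := m.lx.exists_ne_comm ha haz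
      refine hne (H11.comm_of_sq_eq_one (fun y hy => ?_) hq ha)
      obtain ⟨w, hw⟩ := m.ex' y hy
      exact (h3 hw).mpr (hn w)) v
  rw [h3 h, key, ZMod.intCast_zmod_eq_zero_iff_dvd]
  have := sixteen_dvd v.2
  omega

/-- involutions of `Q` outside the centre have type two or four -/
theorem invol [Finite G] {x : G} (hx : x ∈ Q) (h2 : x * x = 1) (hz : x ∉ zpowers z) :
    ∃ v : L, R v x ∧ (sqNorm (v : V) = 32 ∨ sqNorm (v : V) = 64) := by
  obtain ⟨v, hv, hn⟩ := m.short hx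
  have := (m.sq_iff hv).mp h2
  have h0 : v ≠ 0 := fun e => hz ((m.zero hv).mpr (e ▸ Cg.refl _))
  exact ⟨v, hv, by have := norm_cases h0 hn; omega⟩

/-- image of a subgroup of `G` in `C / Q` -/
theorem mem_bar_cent {v : L} {t : G} (ht : R v t) (htz : t ∉ zpowers z) {g : Co0} :
    π g ∈ ((centralizer ({z} : Set G) ⊓ centralizer ({t} : Set G)).subgroupOf
      (centralizer ({z} : Set G))).map ρ ↔ Cg (g • v) v := by
  constructor
  · rintro ⟨h, hh, e⟩
    have h1 := m.act e.symm ht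
    rw [show (h : G) * t = t * h from mem_centralizer_singleton_iff.mp hh.2, mul_inv_cancel_right] at h1
    exact m.inj h1 ht
  · intro e
    obtain ⟨h, h1, h2⟩ := m.conj_of ht ht htz e
    exact ⟨h, ⟨h.2, mem_centralizer_singleton_iff.mpr (mul_inv_eq_iff_eq_mul.mp h2)⟩, h1⟩

theorem card_le {E : Subgroup G} [Finite G] (hE : E ≤ Q) (h2 : ∀ x ∈ E, x * x = 1) : Nat.card E ≤ 2 ^ 13 := by
  obtain ⟨n, c, hc⟩ := H26.exists_ES_of_isExtraspecial m.lx.isExtraspecial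
  have h1 := c.card_eq_pow
  rw [m.card] at h1
  have h3 := Nat.pow_right_injective (le_refl 2) h1
  have := hc.pRankLE_succ (m := 12) (by omega) (E.subgroupOf Q)
    ⟨⟨fun x y => Subtype.ext (Subtype.ext (H11.comm_of_sq_eq_one h2 x.2 y.2))⟩⟩
    fun a ha => Subtype.ext (by rw [pow_two]; exact h2 _ ha)
  rwa [Nat.card_congr (subgroupOfEquivOfLe hE).toEquiv] at this

omit m in
theorem card_half [Finite G] {P : Subgroup G} {t : G} (hp : LPr Q P z t) :
    Nat.card ↥(P ⊓ centralizer ({z} : Set G)) * 2 = Nat.card P := by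
  have h1 : (P ⊓ centralizer ({z} : Set G)).relIndex P = 2 := by
    rw [relIndex, index_eq_two_iff']
    obtain ⟨a, ha, hne⟩ := hp.symm.pr.exists_q
    refine ⟨⟨a, ha⟩, fun b => ?_⟩
    have := hp.hP.comm_mul_iff hp.zP ha b.2
    simp only [mem_subgroupOf, mem_inf, coe_mul, mem_centralizer_singleton_iff, b.2, mul_mem ha b.2,
      true_and]
    rw [eq_comm, this, eq_comm (a := z * a), eq_comm (a := z * b)]
    by_cases hb : b * z = z * b <;> simp [hb, hne]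
  rw [← h1, card_mul_relIndex inf_le_left]

section pair
variable [Finite G] {P : Subgroup G} {t : G} (hp : LPr Q P z t) (hP : Nat.card P = 2 ^ 25)
  {X E : Subgroup A}
  (hX : X = ((centralizer ({z} : Set G) ⊓ centralizer ({t} : Set G)).subgroupOf
      (centralizer ({z} : Set G))).map ρ)
  (hE : E = ((P ⊓ centralizer ({z} : Set G)).subgroupOf (centralizer ({z} : Set G))).map ρ)
include hp

omit m in
theorem sq_inf : ∀ x ∈ Q ⊓ P, x * x = 1 := fun x hx => hp.pr.eq_one (hp.hQ.sq x hx.1) (hp.hP.sq x hx.2)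

omit m in
include hX hE in
theorem E_le : E ≤ X := by
  rw [hX, hE]
  exact map_mono fun h hh => ⟨h.2, hp.hP.le_centralizer hh.1⟩

omit m in
include hX hE in
theorem E_conj : ∀ x ∈ X, ∀ y ∈ E, x * y * x⁻¹ ∈ E := by
  rw [hX, hE]
  rintro _ ⟨x, hx, rfl⟩ _ ⟨y, hy, rfl⟩
  exact ⟨x * y * x⁻¹, ⟨hp.hP.conj_mem (mem_centralizer_singleton_iff.mp hx.2) hy.1, (x * y * x⁻¹).2⟩,
    by simp⟩

include hE in
theorem E_sq : ∀ y ∈ E, y * y = 1 := by
  rw [hE]
  rintro _ ⟨y, hy, rfl⟩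
  rw [← map_mul, m.ρ_ker]
  exact zpowers_le.mpr hp.tQ (hp.hP.sq _ hy.1)

include hP hE in
theorem card_E : Nat.card E * Nat.card ↥(Q ⊓ P) = 2 ^ 24 := by
  have h1 := card_half hp
  have h2 := card_map_mul_card_inf_ker ρ ((P ⊓ centralizer ({z} : Set G)).subgroupOf (centralizer ({z} : Set G)))
  have h3 : (P ⊓ centralizer ({z} : Set G)).subgroupOf (centralizer ({z} : Set G)) ⊓ ρ.ker =
      (Q ⊓ P).subgroupOf (centralizer ({z} : Set G)) := by
    ext x; simp [mem_subgroupOf, m.ρ_ker, and_comm]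
  rw [h3, Nat.card_congr (subgroupOfEquivOfLe inf_le_right).toEquiv,
    Nat.card_congr (subgroupOfEquivOfLe (inf_le_left.trans hp.hQ.le_centralizer)).toEquiv, ← hE] at h2
  omega

include hP hE in
theorem le_card_E : 2 ^ 11 ≤ Nat.card E := by
  have h1 := m.card_E hp hP hE
  have h2 := m.card_le inf_le_left (sq_inf hp)
  by_contra h
  have := Nat.mul_lt_mul_of_lt_of_le (not_le.mp h) h2 (by norm_num)
  omega

omit hp in
theorem sq_of {g : Co0} (h : π g * π g = 1) (h3 : orderOf g = 3) : False := by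
  rw [← map_mul, m.π_ker] at h
  have : g ^ 4 = 1 := by
    rw [show g ^ 4 = g * g * (g * g) by rw [← pow_two g, ← pow_add]]
    rcases h with e | e <;> rw [e]
    · simp
    · exact neg1_sq
  have := orderOf_dvd_of_pow_eq_one this
  rw [h3] at this; omega

include hP in
theorem not_U (ht : R U t) : False := by
  obtain ⟨X, hX⟩ : ∃ X, X = ((centralizer ({z} : Set G) ⊓ centralizer ({t} : Set G)).subgroupOf
      (centralizer ({z} : Set G))).map ρ := ⟨_, rfl⟩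
  obtain ⟨E, hE⟩ : ∃ E, E = ((P ⊓ centralizer ({z} : Set G)).subgroupOf
      (centralizer ({z} : Set G))).map ρ := ⟨_, rfl⟩
  have hx : ∀ g, π g ∈ X ↔ g ∈ K2 ∨ neg1 * g ∈ K2 := fun g => by
    rw [hX, m.mem_bar_cent ht hp.pr.t_not, cg_U_iff]
  haveI := simple_K2
  have hn : ((E.comap π).subgroupOf K2).Normal := ⟨fun a ha b => by
    simpa [mem_subgroupOf] using E_conj hp hX hE _ ((hx b).mpr (Or.inl b.2)) _ ha⟩
  rcases hn.eq_bot_or_eq_top with e | e
  · have h1 := m.le_card_E hp hP hE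
    have : E = ⊥ := eq_bot_iff.mpr fun y hy => by
      obtain ⟨g, rfl⟩ := m.π_surj y
      rcases (hx g).mp (E_le hp hX hE hy) with h | h
      · have : (⟨g, h⟩ : K2) ∈ (E.comap π).subgroupOf K2 := hy
        rw [e, mem_bot, Subtype.ext_iff] at this
        rw [show g = 1 from this, map_one]; exact one_mem _
      · have : (⟨_, h⟩ : K2) ∈ (E.comap π).subgroupOf K2 := by
          simpa [mem_subgroupOf, m.π_neg1] using hy
        rw [e, mem_bot, Subtype.ext_iff] at this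
        have := congrArg π this
        simpa [m.π_neg1] using this
    rw [this, card_bot] at h1; omega
  · haveI : Fact (Nat.Prime 3) := ⟨by norm_num⟩
    obtain ⟨g, hg⟩ := exists_prime_orderOf_dvd_card' (G := K2) 3 (by rw [card_K2]; norm_num)
    have : g ∈ (E.comap π).subgroupOf K2 := e ▸ mem_top g
    exact m.sq_of (m.E_sq hp hE _ this) ((orderOf_coe g).trans hg)

include hP in
/-- conjugates of `z` in `Q` have type four -/
theorem type4 : ∃ v : L, R v t ∧ sqNorm (v : V) = 64 := by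
  obtain ⟨v, hv, h | h⟩ := m.invol hp.tQ hp.hP.zz hp.pr.t_not
  · obtain ⟨k, hk⟩ := to_U h
    exact ((m.shift k).not_U hp hP (by rwa [← hk, inv_smul_smul])).elim
  · exact ⟨v, hv, h⟩

include hX in
theorem X_eq {i : GolayPt} (ht : R (e8 i) t) : X = NN.map π := by
  ext y
  obtain ⟨g, rfl⟩ := m.π_surj y
  rw [hX, m.mem_bar_cent ht hp.pr.t_not, cg_e8_iff]
  refine ⟨fun h => ⟨g, h, rfl⟩, fun ⟨k, hk, e⟩ => ?_⟩
  rw [← inv_mul_eq_one, ← map_inv, ← map_mul, m.π_ker] at e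
  have : k⁻¹ * g ∈ NN := by
    rcases e with e | e <;> rw [e]
    · exact one_mem _
    · exact Eps_le_NN neg1_mem_Eps
  simpa using mul_mem hk this

omit hp in
theorem perm_eq_one {e : Co0} (he : e ∈ Eps) {σ : M24} (h : π (e * permHom σ) = 1) : σ = 1 := by
  refine perm_mem_Eps ((mul_mem_cancel_left he).mp ?_)
  rcases (m.π_ker _).mp h with e | e <;> rw [e]
  · exact one_mem _
  · exact neg1_mem_Eps

omit hp in
theorem card_map_Eps : Nat.card (Eps.map π) ≤ 2 ^ 11 := by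
  have h1 := card_map_mul_card_inf_ker π Eps
  have h2 : 1 < Nat.card ↥(Eps ⊓ π.ker) := (one_lt_card_iff_ne_bot _).mpr fun e =>
    neg1_ne_one (mem_bot.mp (e ▸ ⟨neg1_mem_Eps, m.π_neg1⟩))
  rw [card_Eps] at h1
  nlinarith

include hP hE in
theorem E_eq {i : GolayPt} (ht : R (e8 i) t) : E = Eps.map π ∧ Nat.card E = 2 ^ 11 := by
  obtain ⟨X, hX⟩ : ∃ X, X = ((centralizer ({z} : Set G) ⊓ centralizer ({t} : Set G)).subgroupOf
      (centralizer ({z} : Set G))).map ρ := ⟨_, rfl⟩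
  have hx := m.X_eq hp hX ht
  let T : Subgroup M24 :=
    { carrier := {σ | ∃ e ∈ Eps, π (e * permHom σ) ∈ E}
      one_mem' := ⟨1, one_mem _, by simp⟩
      mul_mem' := by
        rintro σ τ ⟨e, he, h⟩ ⟨f, hf, h'⟩
        refine ⟨_, mul_mem he (Eps_conj σ hf), ?_⟩
        convert mul_mem h h' using 1
        rw [← map_mul, map_mul permHom]; congr 1; group
      inv_mem' := by
        rintro σ ⟨e, he, h⟩
        refine ⟨_, Eps_conj σ⁻¹ (inv_mem he), ?_⟩
        convert inv_mem h using 1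
        rw [← map_inv π, map_inv permHom]; congr 1; group }
  have hn : T.Normal := ⟨by
    rintro σ ⟨e, he, h⟩ τ
    refine ⟨_, Eps_conj τ he, ?_⟩
    convert E_conj hp hX hE _ (hx ▸ mem_map_of_mem π (perm_mem_NN τ)) _ h using 1
    rw [← map_inv π, ← map_mul π, ← map_mul π]; congr 1
    simp only [map_mul, map_inv]; group⟩
  haveI := simple_M24
  have hT : T = ⊥ := by
    refine hn.eq_bot_or_eq_top.resolve_right fun e => ?_
    haveI : Fact (Nat.Prime 3) := ⟨by norm_num⟩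
    obtain ⟨σ, hσ⟩ := exists_prime_orderOf_dvd_card' (G := M24) 3 (by rw [card_M24]; norm_num)
    obtain ⟨e, he, h⟩ : σ ∈ T := e ▸ mem_top σ
    have h1 := m.E_sq hp hE _ h
    have h2 : σ * σ = 1 := m.perm_eq_one (mul_mem he (Eps_conj σ he)) (by
      rw [← h1, ← map_mul, map_mul permHom]; congr 1; group)
    have := orderOf_dvd_of_pow_eq_one (pow_two σ ▸ h2)
    rw [hσ] at this; omega
  have hle : E ≤ Eps.map π := fun y hy => by
    obtain ⟨g, hg, rfl⟩ := hx ▸ E_le hp hX hE hy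
    obtain ⟨e, he, σ, rfl⟩ := mem_NN'.mp hg
    have : σ ∈ T := ⟨e, he, hy⟩
    rw [hT, mem_bot] at this
    exact ⟨e, he, by simp [this]⟩
  have h1 := m.le_card_E hp hP hE
  have h2 := m.card_map_Eps
  haveI : Finite A := Finite.of_surjective π m.π_surj
  have h3 := card_le_of_le hle
  exact ⟨eq_of_le_of_card_ge hle (by omega), by omega⟩

include hP hE in
theorem card_E' : Nat.card E = 2 ^ 11 := by
  obtain ⟨v, hv, h⟩ := m.type4 hp hP
  obtain ⟨k, hk⟩ := to_e8 h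
  exact ((m.shift k).E_eq hp hP hE (i := pI) (by rwa [← hk, inv_smul_smul])).2

include hP in
theorem card_inf : Nat.card ↥(Q ⊓ P) = 2 ^ 13 := by
  have h1 := m.card_E hp hP rfl
  rw [m.card_E' hp hP rfl] at h1
  omega

include hP hX hE in
theorem split' {i : GolayPt} (ht : R (e8 i) t) :
    ∃ K : Subgroup A, K ≤ X ∧ E ⊓ K = ⊥ ∧ E ⊔ K = X ∧ Nonempty (K ≃* M24) := by
  have h1 := m.X_eq hp hX ht
  have h2 := (m.E_eq hp hP hE ht).1
  have h3 : (π.comp permHom).range ≤ X := by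
    rintro _ ⟨σ, rfl⟩; exact h1 ▸ mem_map_of_mem π (perm_mem_NN σ)
  refine ⟨(π.comp permHom).range, h3, eq_bot_iff.mpr ?_, le_antisymm (sup_le (E_le hp hX hE) h3) ?_,
    ⟨(MonoidHom.ofInjective ((injective_iff_map_eq_one _).mpr fun σ h =>
      m.perm_eq_one (one_mem _) (by simpa using h))).symm⟩⟩
  · rintro _ ⟨hy, σ, rfl⟩
    obtain ⟨e, he, h⟩ := h2 ▸ hy
    have : σ = 1 := m.perm_eq_one (inv_mem he) (by rw [map_mul, map_inv, h]; simp)
    simp [this]
  · rw [h1, h2]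
    rintro _ ⟨g, hg, rfl⟩
    obtain ⟨e, he, σ, rfl⟩ := mem_NN'.mp hg
    rw [map_mul]
    exact mul_mem_sup (mem_map_of_mem π he) ⟨σ, rfl⟩

include hP hX hE in
theorem split : ∃ K : Subgroup A, K ≤ X ∧ E ⊓ K = ⊥ ∧ E ⊔ K = X ∧ Nonempty (K ≃* M24) := by
  obtain ⟨v, hv, h⟩ := m.type4 hp hP
  obtain ⟨k, hk⟩ := to_e8 h
  exact (m.shift k).split' hp hP hX hE (i := pI) (by rwa [← hk, inv_smul_smul])

end pair

theorem card_conj (g : G) : Nat.card (Q.map (MulAut.conj g).toMonoidHom) = 2 ^ 25 := by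
  rw [← m.card]; exact (Nat.card_congr (Q.equivMapOfInjective _ (MulAut.conj g).injective).toEquiv).symm

theorem type4' [Finite G] {s : G} (hQ : s ∈ Q) (hs : IsConj z s) (h1 : s ≠ z) :
    ∃ v : L, R v s ∧ sqNorm (v : V) = 64 := by
  obtain ⟨g, rfl⟩ := isConj_iff.mp hs
  exact m.type4 (m.lx.lpr hQ h1) (m.card_conj g)

theorem conj_of_norm {v w : L} {s t : G} (hs : R v s) (ht : R w t)
    (h : sqNorm (v : V) = 32 ∧ sqNorm (w : V) = 32 ∨ sqNorm (v : V) = 64 ∧ sqNorm (w : V) = 64) :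
    ∃ h ∈ centralizer ({z} : Set G), h * s * h⁻¹ = t := by
  have h0 : w ≠ 0 := by rintro rfl; simp [sqNorm_zero] at h
  obtain ⟨g, hg⟩ : ∃ g : Co0, g • v = w := by
    rcases h with h | h
    · exact trans_of_to (to_U h.1) (to_U h.2)
    · exact trans_of_to (to_e8 h.1) (to_e8 h.2)
  obtain ⟨k, -, e⟩ := m.conj_of hs ht (m.not_mem ht h0 (by omega)) (g := g) (by rw [hg]; exact Cg.refl _)
  exact ⟨k, k.2, e⟩

theorem isConj_of_type4 [Finite G] (hw : ∃ g : G, g * z * g⁻¹ ∈ Q ∧ g * z * g⁻¹ ≠ z) {v : L} {x : G}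
    (h : R v x) (hn : sqNorm (v : V) = 64) : IsConj z x ∧ x ≠ z := by
  obtain ⟨g, h1, h2⟩ := hw
  have h3 : IsConj z (g * z * g⁻¹) := isConj_iff.mpr ⟨g, rfl⟩
  obtain ⟨w, hw, e⟩ := m.type4' h1 h3 h2
  obtain ⟨k, -, hk⟩ := m.conj_of_norm hw h (Or.inr ⟨e, hn⟩)
  refine ⟨h3.trans (isConj_iff.mpr ⟨k, hk⟩), fun e => m.not_mem h ?_ hn.le (e ▸ mem_zpowers _)⟩
  rintro rfl; simp [sqNorm_zero] at hn

end MT

theorem mem_map_cent {z : G} {Q : Subgroup (centralizer ({z} : Set G))} {s : G} :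
    s ∈ Q.map (centralizer ({z} : Set G)).subtype ↔ ∃ h : s ∈ centralizer ({z} : Set G), ⟨s, h⟩ ∈ Q :=
  ⟨fun ⟨q, hq, e⟩ => e ▸ ⟨q.2, hq⟩, fun ⟨h, hq⟩ => ⟨_, hq, rfl⟩⟩

theorem setting_nwc {z : G} {Q : Subgroup (centralizer ({z} : Set G))} {w : ℕ}
    (hS : IsExtraspecialCentralizerSetting z Q w) :
    ∃ g : G, g * z * g⁻¹ ∈ Q.map (centralizer ({z} : Set G)).subtype ∧ g * z * g⁻¹ ≠ z := by
  obtain ⟨g, h1, h2⟩ := hS.2.2.2.2
  exact ⟨g, mem_map_cent.mpr h1, h2⟩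

end

end Cfsg.Agent.LL
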