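import Cfsg.Agent.H21.Su5
import Cfsg.Agent.H13.Forms
import Cfsg.Agent.H21.Monster

/-! Twelve-dimensional orthogonal representations of `3.U4(3)` over the field with two elements. -/

set_option autoImplicit false
set_option maxRecDepth 100000
set_option linter.style.haveILetI false

namespace Cfsg.Agent.LL.U6

open Cfsg Cfsg.Agent.H16 Cfsg.Agent.H3 MulAction Mdl Subgroup Module
open scoped commutatorElement Pointwise

theorem exists_lift {L A B : Type*} [Group L] [Group A] [Group B] (π : L →* A) (hs : Function.Surjective π)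
    (φ : L →* B) (h : ∀ x, π x = 1 → φ x = 1) : ∃ ψ : A →* B, ∀ x, ψ (π x) = φ x :=
  ⟨π.liftOfSurjective hs ⟨φ, h⟩, fun x => π.liftOfRightInverse_comp_apply _ _ _ x⟩

theorem hom_cases {L B : Type*} [Group L] [Group B] (π : L →* U43) (hs : Function.Surjective π)
    (φ : L →* B) (h : ∀ x, π x = 1 → φ x = 1) :
    (∀ x, φ x = 1) ∨ ∃ ψ : U43 →* B, Function.Injective ψ := by
  obtain ⟨ψ, e⟩ := exists_lift π hs φ h
  rcases (ψ.normal_ker).eq_bot_or_eq_top with h | h
  · exact Or.inr ⟨ψ, (MonoidHom.ker_eq_bot_iff _).mp h⟩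
  · exact Or.inl fun x => e x ▸ (show π x ∈ ψ.ker from h ▸ mem_top _)

theorem hom_triv {L B : Type*} [Group L] [Group B] (π : L →* U43) (hs : Function.Surjective π)
    (φ : L →* B) (h : ∀ x, π x = 1 → φ x = 1) (hB : ¬ 3265920 ∣ Nat.card B) (x : L) : φ x = 1 :=
  ((hom_cases π hs φ h).resolve_right fun ⟨ψ, e⟩ => hB (card_PSUU43 ▸ card_dvd_of_injective ψ e)) x

theorem ker_central {L : Type*} [Group L] (π : L →* U43) (hs : Function.Surjective π) (hk : Nat.card π.ker = 3) {x : L}
    (hx : π x = 1) (g : L) : g * x = x * g := by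
  haveI : Finite π.ker := Nat.finite_of_card_ne_zero (by omega)
  haveI : IsCyclic π.ker := isCyclic_of_prime_card hk
  have := hom_triv π hs ((toPermHom (MulAut π.ker) π.ker).comp MulAut.conjNormal) (fun y hy => Equiv.ext fun w =>
    Subtype.ext (mul_inv_eq_iff_eq_mul.mpr (congrArg Subtype.val (IsCyclic.commGroup.mul_comm (⟨y, hy⟩ : π.ker) w))))
    (by rw [Nat.card_perm, hk]; decide) g
  exact mul_inv_eq_iff_eq_mul.mp (congrArg Subtype.val (DFunLike.congr_fun this (⟨x, hx⟩ : π.ker)) :)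

theorem exists_pi {C A : Type*} [Group C] [Group A] [Finite C] {N M : Subgroup C} [N.Normal] (σ : C →* A)
    (hQ : σ.ker ≤ N) (hM : N ≤ M) (hN : Nat.card N = 3 * Nat.card σ.ker) (u : M ⧸ N.subgroupOf M ≃* U43) :
    ∃ π : M.map σ →* U43, Function.Surjective π ∧ Nat.card π.ker = 3 ∧ ∀ g, π g = 1 ↔ (g : A) ∈ N.map σ := by
  obtain ⟨π, e⟩ := exists_lift (σ.subgroupMap M) (σ.subgroupMap_surjective M) (u.toMonoidHom.comp (QuotientGroup.mk' _))
    fun x hx => (map_eq_one_iff _ u.injective).mpr ((QuotientGroup.eq_one_iff _).mpr (hQ (congrArg Subtype.val hx)))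
  have h : ∀ g, π g = 1 ↔ (g : A) ∈ N.map σ := fun g => by
    obtain ⟨g, rfl⟩ := σ.subgroupMap_surjective M g
    rw [e]
    refine (map_eq_one_iff _ u.injective).trans ((QuotientGroup.eq_one_iff _).trans ?_)
    change _ ↔ (g : C) ∈ (N.map σ).comap σ
    rw [comap_map_eq, sup_eq_left.mpr hQ]; rfl
  refine ⟨π, fun y => ?_, ?_, h⟩
  · obtain ⟨x, rfl⟩ := (u.surjective.comp (QuotientGroup.mk'_surjective _)) y
    exact ⟨_, e x⟩
  · have := H10.card_map_mul_card_inf_ker σ N
    rw [inf_eq_right.mpr hQ, hN, Nat.mul_left_inj Nat.card_pos.ne'] at this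
    rw [show π.ker = (N.map σ).subgroupOf _ from Subgroup.ext h,
      Nat.card_congr (subgroupOfEquivOfLe (map_mono hM)).toEquiv, this]

theorem comm_mem_of_card {G : Type*} [Group G] [Finite G] {B S : Subgroup G} (h : B ≤ S) (hB : Nat.card B = 243)
    (hS : Nat.card S = 729) {u v : G} (hu : u ∈ S) (hv : v ∈ S) : ⁅u, v⁆ ∈ B := by
  have h1 : (B.subgroupOf S).index = 3 := by
    have := (B.subgroupOf S).card_mul_index
    rw [Nat.card_congr (subgroupOfEquivOfLe h).toEquiv, hB, hS] at this; omega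
  haveI : (B.subgroupOf S).Normal := normal_of_index_eq_minFac_card (by rw [h1, hS]; norm_num)
  haveI : IsCyclic (S ⧸ B.subgroupOf S) := isCyclic_of_prime_card (p := 3) h1
  have : ⁅(⟨u, hu⟩ : S), ⟨v, hv⟩⁆ ∈ B.subgroupOf S := by
    rw [← QuotientGroup.eq_one_iff, ← QuotientGroup.mk'_apply, map_commutatorElement,
      commutatorElement_eq_one_iff_mul_comm]
    exact IsCyclic.commGroup.mul_comm _ _
  exact this

section
variable {W : Type*} [AddCommGroup W] [Module (ZMod 2) W] [Finite W]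

theorem card_gl : Nat.card (W →ₗ[ZMod 2] W)ˣ =
    ∏ i : Fin (finrank (ZMod 2) W), (2 ^ finrank (ZMod 2) W - 2 ^ (i : ℕ)) := by
  have := Matrix.card_GL_field (𝔽 := ZMod 2) (finrank (ZMod 2) W)
  rw [ZMod.card] at this
  rw [← this]
  exact (Nat.card_congr (Matrix.GeneralLinearGroup.toLin' (finBasis (ZMod 2) W)).toEquiv).symm

theorem not_dvd_gl (h : finrank (ZMod 2) W ≤ 11) : ¬ 2187 ∣ Nat.card (W →ₗ[ZMod 2] W)ˣ := by
  rw [card_gl]
  generalize finrank (ZMod 2) W = n at h
  interval_cases n <;> decide +kernel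

theorem exists_ab (h : finrank (ZMod 2) W = 10) :
    ∃ B : Subgroup (W →ₗ[ZMod 2] W)ˣ, Nat.card B = 243 ∧ ∀ a ∈ B, ∀ b ∈ B, a * b = b * a := by
  have h1 : finrank (ZMod 2) (Fin 5 → F4) = 10 := by
    rw [Module.finrank_pi_fintype, Finset.sum_const, Finset.card_univ, Fintype.card_fin,
      QuadraticAlgebra.finrank_eq_two]; rfl
  let e : (Fin 5 → F4) ≃ₗ[ZMod 2] W := LinearEquiv.ofFinrankEq _ _ (h1.trans h.symm)
  let f : (Fin 5 → F4)ˣ →* (W →ₗ[ZMod 2] W)ˣ := Units.map
    (e.conjRingEquiv.toRingHom.comp (Algebra.lmul (ZMod 2) (Fin 5 → F4)).toRingHom).toMonoidHom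
  have hf : Function.Injective f := Units.map_injective
    (e.conjRingEquiv.injective.comp Algebra.lmul_injective)
  refine ⟨f.range, ?_, ?_⟩
  · rw [← Nat.card_congr (MonoidHom.ofInjective hf).toEquiv, Nat.card_congr MulEquiv.piUnits.toEquiv,
      Nat.card_fun, Nat.card_units, Nat.card_eq_fintype_card, card_F4]
    simp
  · rintro _ ⟨a, rfl⟩ _ ⟨b, rfl⟩
    rw [← map_mul, mul_comm, map_mul]

theorem not_inj (h : finrank (ZMod 2) W ≤ 10) (φ : U43 →* (W →ₗ[ZMod 2] W)ˣ) : ¬ Function.Injective φ := by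
  intro hφ
  have h0 := card_dvd_of_injective φ hφ
  rw [card_PSUU43] at h0
  have hc := card_gl (W := W)
  have h1 : finrank (ZMod 2) W = 10 := by
    by_contra hn
    rw [hc] at h0
    generalize finrank (ZMod 2) W = n at h h0 hn
    interval_cases n <;> first | omega | exact absurd h0 (by decide +kernel)
  obtain ⟨B, hB, hc'⟩ := exists_ab h1
  obtain ⟨π, hs, hk⟩ := exists_U
  have hk' : ∀ g, (φ.comp π) g = 1 ↔ (g : Γ) ∈ Z := fun g => by
    rw [← hk, MonoidHom.comp_apply, map_eq_one_iff φ hφ]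
  have key : ∀ A ≤ K0, Z ≤ A → Nat.card ((A.subgroupOf K0).map (φ.comp π)) * 3 = Nat.card A := fun A h1 h2 => by
    have := H10.card_map_mul_card_inf_ker (φ.comp π) (A.subgroupOf K0)
    rwa [show A.subgroupOf K0 ⊓ (φ.comp π).ker = Z.subgroupOf K0 from Subgroup.ext fun g => by
      rw [mem_inf, MonoidHom.mem_ker, hk']; exact ⟨fun h => h.2, fun h => ⟨h2 h, h⟩⟩,
      Nat.card_congr (subgroupOfEquivOfLe h1).toEquiv, Nat.card_congr (subgroupOfEquivOfLe Z_K0).toEquiv, card_Z] at this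
  have h2 := key P P_K0 (Z_D.trans D_P)
  have h3 := key D (D_P.trans P_K0) Z_D
  rw [P_card] at h2
  rw [D_card] at h3
  have h4 : Nat.card ((P.subgroupOf K0).map (φ.comp π)) = 3 ^ 6 := by omega
  rw [h1] at hc
  haveI : Finite (W →ₗ[ZMod 2] W)ˣ := Nat.finite_of_card_ne_zero (by rw [hc]; decide +kernel)
  obtain ⟨g, -, e⟩ := (sylowIn_of_card (H := ⊤) (m := 502661368038337624722636800) le_top h4
    (by rw [card_top, hc]; decide +kernel) (by omega)).exists_conj_le (R := B)
    (IsPGroup.of_card (n := 5) (hB.trans (by norm_num))) le_top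
  have : MulAut.conj g • B ≤ (D.subgroupOf K0).map (φ.comp π) := fun b hb => by
    obtain ⟨x, hx, rfl⟩ := e hb
    refine mem_map_of_mem _ ((D_char x).mpr ⟨hx, fun u hu v hv => ?_⟩)
    have := comm_mem_of_card e (by rw [card_conj_smul, hB]) h4 (mem_map_of_mem _ (x := ⟨u, P_K0 hu⟩) hu)
      (mem_map_of_mem _ (x := ⟨v, P_K0 hv⟩) hv)
    refine (hk' ⁅x, ⁅(⟨u, P_K0 hu⟩ : K0), ⟨v, P_K0 hv⟩⁆⁆).mp ?_
    rw [map_commutatorElement, map_commutatorElement, commutatorElement_eq_one_iff_mul_comm]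
    obtain ⟨a, ha, e1⟩ := hb
    obtain ⟨b, hb, e2⟩ := this
    rw [← e1, ← e2]
    exact (map_mul _ _ _).symm.trans ((congrArg _ (hc' a ha b hb)).trans (map_mul _ _ _))
  have := card_le_of_le this
  rw [card_conj_smul, hB] at this
  omega

theorem fpf {L : Type*} [Group L] (h : finrank (ZMod 2) W = 12) (σ : Representation (ZMod 2) L W)
    (hσ : ∀ g, σ g = 1 → g = 1) (π : L →* U43) (hs : Function.Surjective π) (hk : Nat.card π.ker = 3) {x : L}
    (hx : π x = 1) (h1 : x ≠ 1) (v : W) : σ x (σ x v) = v + σ x v := by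
  have hc := ker_central π hs hk hx
  have h2 : ∀ v : W, v + v = 0 := fun v => by rw [← two_smul (ZMod 2) v]; exact zero_smul _ _
  have hz : π.ker = zpowers x := by
    haveI : Finite π.ker := Nat.finite_of_card_ne_zero (by omega)
    have := (card_dvd_of_le (zpowers_le.mpr (show x ∈ π.ker from hx)))
    rw [hk] at this
    refine (eq_of_le_of_card_ge (zpowers_le.mpr hx) ?_).symm
    rw [hk, ((Nat.dvd_prime Nat.prime_three).mp this).resolve_left (by simpa using h1)]
  have h3 : x * x * x = 1 := by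
    have := pow_card_eq_one' (x := (⟨x, hx⟩ : π.ker))
    rw [hk, Subtype.ext_iff] at this
    rw [← pow_three']; exact this
  have h4 : ∀ v, σ x (σ x (σ x v)) = v := fun v => by
    rw [← Module.End.mul_apply, ← Module.End.mul_apply, ← map_mul, ← map_mul, h3, map_one]; rfl
  have h5 : ∀ g v, σ g (σ x v) = σ x (σ g v) := fun g v => by
    rw [← Module.End.mul_apply, ← map_mul, hc, map_mul]; rfl
  let W1 : Submodule (ZMod 2) W := LinearMap.ker (σ x - 1)
  let W2 : Submodule (ZMod 2) W := LinearMap.ker (σ x * σ x - 1 - σ x)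
  have m1 : ∀ v, v ∈ W1 ↔ σ x v = v := fun v => by simp [W1, sub_eq_zero]
  have m2 : ∀ v, v ∈ W2 ↔ σ x (σ x v) = v + σ x v := fun v => by simp [W2, sub_sub, sub_eq_zero]
  have d1 : ∀ v, v + σ x v + σ x (σ x v) ∈ W1 := fun v => by rw [m1, map_add, map_add, h4]; abel
  have d2 : ∀ v, σ x v + σ x (σ x v) ∈ W2 := fun v => by
    simp only [m2, map_add, h4]
    rw [add_assoc, ← add_assoc (σ x (σ x v)), h2, zero_add, add_comm]
  have d3 : ∀ v, v = (v + σ x v + σ x (σ x v)) + (σ x v + σ x (σ x v)) := fun v => by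
    rw [add_assoc v, add_assoc v, h2, add_zero]
  have hd : IsCompl W1 W2 := ⟨Submodule.disjoint_def.mpr fun v a b => by
    rw [m1] at a; rw [m2, a, a, h2] at b; exact b,
    codisjoint_iff.mpr (Submodule.eq_top_iff'.mpr fun v => d3 v ▸ Submodule.add_mem_sup (d1 v) (d2 v))⟩
  have hr := Submodule.finrank_add_eq_of_isCompl hd
  let σ1 := (σ.subrepresentation W1 fun g v a => by rw [Submodule.mem_comap, m1, ← h5, (m1 v).mp a]).asGroupHom
  let σ2 := (σ.subrepresentation W2 fun g v a => by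
    rw [Submodule.mem_comap, m2, ← h5 g, ← h5 g, (m2 v).mp a, map_add]).asGroupHom
  have e1 : ∀ g, σ1 g = 1 ↔ ∀ v ∈ W1, σ g v = v := fun g => by
    simp [σ1, Units.ext_iff, Representation.asGroupHom_apply, LinearMap.ext_iff, Subtype.ext_iff]
  have e2 : ∀ g, σ2 g = 1 ↔ ∀ v ∈ W2, σ g v = v := fun g => by
    simp [σ2, Units.ext_iff, Representation.asGroupHom_apply, LinearMap.ext_iff, Subtype.ext_iff]
  have e3 : ∀ g, σ1 g = 1 → σ2 g = 1 → g = 1 := fun g a b => hσ g (LinearMap.ext fun v => by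
    rw [d3 v, map_add, (e1 g).mp a _ (d1 v), (e2 g).mp b _ (d2 v)]; rfl)
  have e4 : σ1 x = 1 := (e1 x).mpr fun v => (m1 v).mp
  by_contra hn
  have n1 : finrank (ZMod 2) W1 ≠ 0 := fun e => hn ((m2 v).mp (by
    rw [Submodule.finrank_eq_zero] at e
    rw [eq_top_of_bot_isCompl (x := W2) (e ▸ hd)]; trivial))
  rcases hom_cases π hs σ1 (fun g hg => by
    obtain ⟨k, rfl⟩ : g ∈ zpowers x := hz ▸ hg
    rw [map_zpow, e4, one_zpow]) with e | ⟨ψ, e⟩
  · refine not_dvd_gl (W := W2) (by omega) (dvd_trans ?_ (card_dvd_of_injective σ2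
      ((injective_iff_map_eq_one _).mpr fun g => e3 g (e g))))
    rw [← card_ker_mul π hs, hk, card_PSUU43]; norm_num
  · refine not_inj (W := W1) ?_ ψ e
    by_contra hn
    refine h1 (e3 x e4 ?_)
    have := card_gl (W := W2)
    have : Subsingleton (W2 →ₗ[ZMod 2] W2)ˣ := by
      refine (Nat.card_eq_one_iff_unique.mp ?_).1
      rw [this]
      generalize finrank (ZMod 2) W2 = n at hr
      have : n ≤ 1 := by omega
      interval_cases n <;> simp
    exact Subsingleton.elim _ _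

theorem exists_herm (h : finrank (ZMod 2) W = 12) (q : QuadraticForm (ZMod 2) W)
    (nd : ∀ v, (∀ w, QuadraticMap.polar q v w = 0) → v = 0) (x : W →ₗ[ZMod 2] W)
    (hx : ∀ v, x (x v) = v + x v) (hq : ∀ v, q (x v) = q v) :
    ∃ e : W ≃+ V6, (∀ v, e (x v) = ω • e v) ∧ ∀ v, q v = 0 ↔ hf (e v) (e v) = 0 := by
  have h2 : ∀ v : W, v + v = 0 := fun v => by rw [← two_smul (ZMod 2) v]; exact zero_smul _ _
  letI : Module F4 W := Module.compHom W (QuadraticAlgebra.lift (R := ZMod 2) (a := 1) (b := 1)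
    ⟨x, LinearMap.ext fun v => by simpa using hx v⟩).toRingHom
  have sm : ∀ (c : F4) (v : W), c • v = c.re • v + c.im • x v := fun c v => rfl
  let b := QuadraticMap.polarBilin q
  have b0 : ∀ u v, b u v = q (u + v) - q u - q v := fun u v => rfl
  have b1 : ∀ u v, b (x u) (x v) = b u v := fun u v => by rw [b0, b0, ← map_add, hq, hq, hq]
  have b2 : ∀ u v, b u v = b v u := fun u v => QuadraticMap.polar_comm q u v
  have b3 : ∀ u v, b (x u) v = b u v + b u (x v) := fun u v => by
    rw [← map_add, ← hx, ← b1 u, hx (x v), hx v, add_comm v, ← add_assoc, h2, zero_add]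
  let s : F4 →+* F4 := starRingEnd F4
  let B : W →ₛₗ[s] W →ₗ[F4] F4 := LinearMap.mk₂'ₛₗ s (RingHom.id _) (fun u v => ⟨b u v + b u (x v), b u v⟩)
    (fun u u' v => by ext <;> simp [add_add_add_comm]) (fun c u v => by
      simp only [sm, map_add, map_smul, LinearMap.add_apply, LinearMap.smul_apply, b1, b3 u v]
      generalize b u v = α, b u (x v) = β
      revert c α β; decide) (fun u v v' => by ext <;> simp [add_add_add_comm]) (fun c u v => by
      simp only [sm, map_add, map_smul, hx]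
      generalize b u v = α, b u (x v) = β
      revert c α β; decide)
  have B0 : ∀ u v, B u v = ⟨b u v + b u (x v), b u v⟩ := fun u v => rfl
  obtain ⟨f, hf'⟩ := H13.exists_orthonormal_basis_herm (σ := s) (fun e => absurd (DFunLike.congr_fun e ω) (by decide))
    (by decide) B (fun u v => by
      rw [B0, B0, b2 v, b2 v, b3]
      generalize b u v = α, b u (x v) = β
      revert α β; decide) fun v hv => nd v fun w => congrArg QuadraticAlgebra.im (hv w)
  have h6 : finrank F4 W = 6 := by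
    have a := Module.natCard_eq_pow_finrank (K := F4) (V := W)
    rw [Module.natCard_eq_pow_finrank (K := ZMod 2), h, Nat.card_zmod, Nat.card_eq_fintype_card, card_F4] at a
    exact Nat.pow_right_injective (show 2 ≤ 4 by norm_num) (a.symm.trans (by norm_num : 2 ^ 12 = 4 ^ 6))
  let g := f.reindex (finCongr h6)
  have hg : ∀ i j, B (g i) (g j) = if i = j then 1 else 0 := fun i j => by simp [g, hf']
  refine ⟨g.equivFun.toAddEquiv, fun v => ?_, fun v => ?_⟩
  · rw [show x v = ω • v by rw [sm]; exact (by simp [el4])]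
    exact map_smul g.equivFun _ _
  · have : B v v = hf (g.equivFun v) (g.equivFun v) := by
      conv_lhs => rw [← g.sum_equivFun v]
      simp only [map_sum, map_smul, LinearMap.map_smulₛₗ, LinearMap.sum_apply, LinearMap.smul_apply, hg, smul_eq_mul,
        mul_ite, mul_one, mul_zero, Finset.sum_ite_eq', Finset.mem_univ, if_true, hf, hermForm]
      exact Finset.sum_congr rfl fun i _ => (by decide : ∀ c : F4, c * s c = c * c ^ 2) _
    change _ ↔ hf (g.equivFun v) (g.equivFun v) = 0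
    rw [← this, B0, b0, b0, ← hx, h2, map_zero, hq, hq]
    generalize q v = α
    revert α; decide

end

end Cfsg.Agent.LL.U6
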