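import Cfsg.Agent.H16.M24d

/-! Elementary abelian subgroups identified with the even half of the Golay cocode, and their normalizers. -/

set_option autoImplicit false

namespace Cfsg.Agent.LL

open Cfsg Cfsg.Agent.H16 Subgroup
open scoped Pointwise symmDiff

theorem eq_pair {α : Type*} [DecidableEq α] {e : Finset α} (h : e.card = 2) {a b : α} (ha : a ∈ e) (hb : b ∈ e) (n : a ≠ b) :
    e = {a, b} := (Finset.eq_of_subset_of_card_le (by simp [Finset.insert_subset_iff, ha, hb])
  (by rw [h, Finset.card_pair n])).symm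

theorem star {α : Type*} [DecidableEq α] {F : Finset (Finset α)} (h2 : ∀ e ∈ F, e.card = 2)
    (hi : ∀ e ∈ F, ∀ f ∈ F, ∃ x ∈ e, x ∈ f) (h4 : 3 < F.card) : ∃ a, ∀ e ∈ F, a ∈ e := by
  by_contra! h
  obtain ⟨e0, h0⟩ := Finset.card_pos.mp (by omega : 0 < F.card)
  obtain ⟨a, b, ab, rfl⟩ := Finset.card_eq_two.mp (h2 e0 h0)
  obtain ⟨e1, h1, a1⟩ := h a
  obtain ⟨f, hf, b2⟩ := h b
  have b1 : b ∈ e1 := by obtain ⟨x, hx, h⟩ := hi _ h0 _ h1; grind
  have a2 : a ∈ f := by obtain ⟨x, hx, h⟩ := hi _ h0 _ hf; grind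
  obtain ⟨c, c1, c2⟩ := hi _ h1 _ hf
  have k1 := eq_pair (h2 _ h1) b1 c1 (by grind)
  have k2 := eq_pair (h2 _ hf) a2 c2 (by grind)
  refine h4.not_ge ((Finset.card_le_card (t := {{a, b}, e1, f}) fun e he => ?_).trans Finset.card_le_three)
  obtain ⟨x, x1, x2⟩ := hi _ h0 _ he
  obtain ⟨y, y1, y2⟩ := hi _ h1 _ he
  obtain ⟨w, w1, w2⟩ := hi _ hf _ he
  have := fun a b => eq_pair (h2 e he) (a := a) (b := b)
  grind

theorem even_sd {S T : Finset GolayPt} (h : Even S.card) (h' : Even T.card) : Even (S ∆ T).card := by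
  have := card_symmDiff_add S T
  grind

variable {G : Type*} [Group G]

/-- `t` identifies `A` with the even half of the cocode -/
structure Todd (A : Subgroup G) (t : Finset GolayPt → G) : Prop where
  mem : ∀ S, t S ∈ A
  mul : ∀ S T, t (S ∆ T) = t S * t T
  ker : ∀ S, Even S.card → (t S = 1 ↔ S ∈ gSets)
  surj : ∀ a ∈ A, ∃ S, Even S.card ∧ t S = a

namespace Todd
variable {A : Subgroup G} {t : Finset GolayPt → G} (h : Todd A t)
include h

theorem empty : t ∅ = 1 := (h.ker _ (by simp)).mpr empty_mem_gSets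
theorem sq (S : Finset GolayPt) : t S * t S = 1 := by rw [← h.mul, symmDiff_self]; exact h.empty

theorem inj {S T : Finset GolayPt} (hS : Even S.card) (hT : Even T.card) (hc : S.card + T.card < 8) (e : t S = t T) :
    S = T := by
  have h1 := card_of_mem_gSets ((h.ker _ (even_sd hS hT)).mp (by rw [h.mul, e, h.sq]))
  have := card_symmDiff_add S T
  exact symmDiff_eq_bot.mp (Finset.card_eq_zero.mp (by omega))

theorem exists_perm {n : G} (hn : ∀ S, S.card = 2 → ∃ T, T.card = 2 ∧ n * t S * n⁻¹ = t T) :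
    ∃ σ ∈ M24, ∀ S, Even S.card → n * t S * n⁻¹ = t (σ • S) := by
  choose! F c2 hF using hn
  have pc : ∀ {i j : GolayPt}, i ≠ j → (F {i, j}).card = 2 := fun n => c2 _ (Finset.card_pair n)
  have k1 : ∀ {i j k : GolayPt}, i ≠ j → i ≠ k → j ≠ k → F {i, j} ∆ F {i, k} = F {j, k} := fun {i j k} a b c => by
    have := card_symmDiff_add (F {i, j}) (F {i, k})
    refine h.inj (even_sd (by simp [pc a]) (by simp [pc b])) (by simp [pc c]) (by rw [pc a, pc b] at this; rw [pc c]; omega) ?_
    rw [h.mul, ← hF _ (Finset.card_pair a), ← hF _ (Finset.card_pair b), ← hF _ (Finset.card_pair c), conj_mul, ← h.mul]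
    congr 3; ext x; simp only [Finset.mem_symmDiff, Finset.mem_insert, Finset.mem_singleton]; grind
  have k2 : ∀ i, ∃ a, ∀ j ≠ i, a ∈ F {i, j} := fun i => by
    obtain ⟨a, ha⟩ := star (F := (Finset.univ.erase i).image fun j => F {i, j}) (by simpa using fun j n => pc (Ne.symm n))
      (by
        simp only [Finset.mem_image, Finset.mem_erase]
        rintro _ ⟨j, a, rfl⟩ _ ⟨k, b, rfl⟩
        obtain ⟨x, hx⟩ : (F {i, j} ∩ F {i, k}).Nonempty := Finset.card_pos.mp (by
          by_cases e : j = k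
          · simp [e, pc b.1.symm]
          · have := card_symmDiff_add (F {i, j}) (F {i, k})
            rw [k1 a.1.symm b.1.symm e, pc a.1.symm, pc b.1.symm, pc e] at this; omega)
        exact ⟨x, Finset.mem_inter.mp hx⟩)
      (by
        rw [Finset.card_image_of_injOn fun j a k b e => by_contra fun n => by
          have := pc n
          rw [← k1 (Finset.mem_erase.mp a).1.symm (Finset.mem_erase.mp b).1.symm n, show F {i, j} = F {i, k} from e] at this
          simp at this]
        simp [card_golayPt])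
    exact ⟨a, fun j n => ha _ (Finset.mem_image_of_mem _ (by simp [n]))⟩
  choose s hs using k2
  have k3 : Function.Injective s := fun i j e => by_contra fun n => by
    obtain ⟨k, a, b⟩ := (by decide : ∀ i j : GolayPt, ∃ k, k ≠ i ∧ k ≠ j) i j
    have := hs i j (Ne.symm n)
    rw [← k1 a b n, Finset.mem_symmDiff, Finset.pair_comm k i, Finset.pair_comm k j] at this
    simp [hs i k a, e ▸ hs j k b] at this
  let σ := Equiv.ofBijective s (Finite.injective_iff_bijective.mp k3)
  have k4 : ∀ m S, S.card = 2 * m → n * t S * n⁻¹ = t (σ • S) := fun m => by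
    induction m with
    | zero => intro S e; simp [Finset.card_eq_zero.mp e, h.empty]
    | succ m ih =>
      intro S e
      obtain ⟨T, h1, h2⟩ := Finset.exists_subset_card_eq (n := 2) (s := S) (by omega)
      have e1 : S = T ∆ (S \ T) := by ext x; simp only [Finset.mem_symmDiff, Finset.mem_sdiff]; grind
      obtain ⟨i, j, ij, rfl⟩ := Finset.card_eq_two.mp h2
      rw [e1, Finset.smul_finset_symmDiff, h.mul, h.mul, ← conj_mul, ih (S \ {i, j}) (by rw [Finset.card_sdiff_of_subset h1]; omega),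
        hF _ h2, eq_pair (pc ij) (hs i j ij.symm) (Finset.pair_comm j i ▸ hs j i ij) (k3.ne ij)]
      simp [σ, Finset.smul_finset_insert]
  have k5 : ∀ S, Even S.card → n * t S * n⁻¹ = t (σ • S) := fun S ⟨m, e⟩ => k4 m S (by omega)
  refine ⟨σ, mem_M24_of_subset fun S hS => ?_, k5⟩
  have : Even S.card := Nat.even_iff.mpr (by have := card_of_mem_gSets hS; omega)
  refine (h.ker (σ • S) (by simpa using this)).mp ?_
  rw [← k5 S this, (h.ker S this).mpr hS]; simp

theorem perm_eq {σ τ : Equiv.Perm GolayPt} (e : ∀ S, S.card = 2 → t (σ • S) = t (τ • S)) : σ = τ := Equiv.ext fun i => by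
  obtain ⟨j, k, a, b, c⟩ := (by decide : ∀ i : GolayPt, ∃ j k, i ≠ j ∧ i ≠ k ∧ j ≠ k) i
  have l : ∀ j, i ≠ j → σ i = τ i ∨ σ i = τ j := fun j a => by
    have := h.inj (by simp [a]) (by simp [a]) (by simp [a]) (e _ (Finset.card_pair a))
    simpa [Finset.smul_finset_insert] using this.le (Finset.smul_mem_smul_finset (Finset.mem_insert_self i {j}))
  exact (l j a).elim id fun x => (l k b).resolve_right fun y => c (τ.injective (x.symm.trans y))

end Todd

/-- the non-conjugates of `z` in `A` are the duads -/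
structure MS (z : G) (A : Subgroup G) (t : Finset GolayPt → G) : Prop extends Todd A t where
  duad : ∀ a ∈ A, a ≠ 1 → (¬ IsConj z a ↔ ∃ S, S.card = 2 ∧ t S = a)
  cent : centralizer (A : Set G) ≤ A
  cardA : Nat.card A = 2 ^ 11
  cardN : 2 ^ 11 * 244823040 ≤ Nat.card (normalizer (A : Set G))

namespace MS
variable {z : G} {A : Subgroup G} {t : Finset GolayPt → G} (h : MS z A t)
include h

theorem A_sq {a : G} (ha : a ∈ A) : a * a = 1 := by obtain ⟨S, -, rfl⟩ := h.surj a ha; exact h.sq S

theorem comm {a b : G} (ha : a ∈ A) (hb : b ∈ A) : a * b = b * a := by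
  obtain ⟨S, -, rfl⟩ := h.surj a ha
  obtain ⟨T, -, rfl⟩ := h.surj b hb
  rw [← h.mul, symmDiff_comm, h.mul]

theorem ne_one {S : Finset GolayPt} (e : S.card = 2) : t S ≠ 1 := fun f => by
  have := card_of_mem_gSets ((h.ker S (by simp [e])).mp f)
  omega

theorem conj (g : G) : MS z (A.map (MulAut.conj g).toMonoidHom) fun S => g * t S * g⁻¹ where
  mem S := mem_map_of_mem _ (h.mem S)
  mul S T := by rw [h.mul, conj_mul]
  ker S e := by rw [conj_eq_one_iff, h.ker S e]
  surj := by rintro _ ⟨a, ha, rfl⟩; obtain ⟨S, e, rfl⟩ := h.surj a ha; exact ⟨S, e, rfl⟩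
  duad := by
    rintro _ ⟨a, ha, rfl⟩ n
    have e : IsConj a (g * a * g⁻¹) := isConj_iff.mpr ⟨g, rfl⟩
    simpa using (not_congr ⟨fun x => x.trans e.symm, fun x => x.trans e⟩).trans (h.duad a ha (by simpa using n))
  cent c hc := ⟨g⁻¹ * c * g, h.cent fun a ha => by
    have : g * a * g⁻¹ * c = c * (g * a * g⁻¹) := hc _ ⟨a, ha, rfl⟩
    calc a * (g⁻¹ * c * g) = g⁻¹ * (g * a * g⁻¹ * c) * g := by group
      _ = _ := by rw [this]; group, by simp [mul_assoc]⟩
  cardA := by rw [card_map_of_injective (MulAut.conj g).injective, h.cardA]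
  cardN := by
    rw [← map_equiv_normalizer_eq, card_map_of_injective (MulAut.conj g).injective]; exact h.cardN

theorem exists_hom [Finite G] : ∃ Φ : normalizer (A : Set G) →* M24, Function.Surjective Φ ∧ Φ.ker = A.subgroupOf _ ∧
    ∀ (n : normalizer (A : Set G)) S, Even S.card → n * t S * (n : G)⁻¹ = t (Φ n • S) := by
  have k : ∀ n : normalizer (A : Set G), ∃ σ : M24, ∀ S, Even S.card → n * t S * (n : G)⁻¹ = t (σ • S) := fun n => by
    obtain ⟨σ, h1, h2⟩ := h.exists_perm (n := n) fun S e => by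
      have c : IsConj (t S) (n * t S * (n : G)⁻¹) := isConj_iff.mpr ⟨n, rfl⟩
      obtain ⟨T, a, b⟩ := (h.duad _ ((mem_normalizer_iff.mp n.2 _).mp (h.mem S)) (by simpa using h.ne_one e)).mp fun x =>
        (h.duad _ (h.mem S) (h.ne_one e)).mpr ⟨S, e, rfl⟩ (x.trans c.symm)
      exact ⟨T, a, b.symm⟩
    exact ⟨⟨σ, h1⟩, h2⟩
  choose f hf using k
  let Φ := MonoidHom.mk' f fun a b => Subtype.ext (h.perm_eq fun S e => by
    have := hf (a * b) S (by simp [e])
    rw [coe_mul, mul_inv_rev, show a * b * t S * ((b : G)⁻¹ * (a : G)⁻¹) = a * (b * t S * (b : G)⁻¹) * (a : G)⁻¹ by group,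
      hf b S (by simp [e]), hf a _ (by simp [e]), smul_smul] at this
    exact this.symm)
  have hk : Φ.ker = A.subgroupOf _ := Subgroup.ext fun n => ⟨fun e => h.cent fun a ha => by
    obtain ⟨S, h1, rfl⟩ := h.surj a ha
    have := hf n S h1
    rw [show f n = 1 from e, one_smul, mul_inv_eq_iff_eq_mul] at this
    exact this.symm, fun e => Subtype.ext (h.perm_eq fun S h1 => (hf n S (by simp [h1])).symm.trans (by
      rw [h.comm (a := n) e (h.mem S)]; simp))⟩
  refine ⟨Φ, MonoidHom.range_eq_top.mp (eq_top_of_le_card _ ?_), hk, hf⟩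
  have := Φ.ker.card_mul_index
  rw [index_ker, hk, Nat.card_congr (subgroupOfEquivOfLe le_normalizer).toEquiv, h.cardA] at this
  have := h.cardN
  rw [card_M24]; omega

end MS

end Cfsg.Agent.LL
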