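import Cfsg.Agent.H21.Fi8
import Cfsg.Agent.H21.Fi9
import Cfsg.Agent.H21.Todd

/-! Coordinates on the elementary abelian subgroup of order `2 ^ 11`. -/

set_option autoImplicit false
set_option maxRecDepth 100000
set_option linter.style.haveILetI false

namespace Cfsg.Agent.LL.U6

open Cfsg Cfsg.Agent.H16 Cfsg.Agent.H3 Cfsg.Agent.H10 MulAction Mdl Subgroup
open scoped commutatorElement Pointwise symmDiff

noncomputable def fx (i : ℕ) : ℕ := xc (get 12 FXR) 6 i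
noncomputable def ix (v : ℕ) : ℕ := get 6 IXT v
noncomputable def fe (e : ℕ) : ℕ := nth o.one FE e
noncomputable def nb (a b : ℕ) : ℕ := ifB (ort a b) 0 1
noncomputable def nf (u : ℕ) : ℕ := get 11 NFT u
noncomputable def chi (d0 d1 b : Bool) (u : ℕ) : Bool :=
  ifB (Nat.blt u 128) (andB (notB (Nat.beq u 0)) (tb SG (Nat.div u 2)))
    (force (Nat.mod (nf u) 128) fun n => ifB (Nat.beq n 0) d0 (ifB (Nat.beq n 1) d1 b))
noncomputable def cc (c1 c2 f : ℕ) : ℕ := ifB (Nat.blt f 2) 0 (ifB (tb TY f) c1 c2)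
noncomputable def cnt (χ : ℕ → Bool) (w : ℕ) (c : ℕ → ℕ) : ℕ :=
  cntB2 32 64 fun v => andB (χ v) (force (Nat.xor (Nat.xor w v) (c (Nat.div v 128))) χ)
noncomputable def tab (j f : ℕ) : ℕ := get 4 (nthP 0 YT j).1 f
noncomputable def gm (e : ℕ) : ℕ := get 1 gam e

theorem fx_lt (i : ℕ) : fx i < 4096 := xc_lt (w := 12) (fun _ _ => get_lt _ _ _) i
theorem fx_xor (i j : ℕ) : vc (fx (i ^^^ j)) = vc (fx i) + vc (fx j) := by rw [fx, xc_xor, vc_xor]; rfl
theorem fx_iff {x : ℕ} (hx : x < 4096) : (∀ e ∈ F16, e (vc x) = vc x) ↔ fx (ix x) = x := by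
  have : allQ 4096 (fun x => Nat.beq (ifB (allL fg fun a => Nat.beq (mul12Ap a x) x) 1 0)
    (ifB (Nat.beq (fx (ix x)) x) 1 0)) = true := by decide +kernel
  have := allQ_iff.mp this x hx
  rw [F16_fix hx, ← Nat.beq_eq]
  revert this; cases (allL fg fun a => Nat.beq (mul12Ap a x) x) <;> cases Nat.beq (fx (ix x)) x <;> simp [ifB_eq]
theorem ix_fx {i : ℕ} (h : i < 64) : ix (fx i) = i :=
  Nat.eq_of_beq_eq_true (allB_iff.mp (by decide +kernel : allB 64 (fun i => Nat.beq (ix (fx i)) i) = true) i h)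

theorem FE_in : M.InL F16 FE :=
  F16_ch.inL ((prL_top (S := FE.map fun a => (a, a)) (by decide +kernel)).inL.sub (by decide +kernel)) (by decide +kernel)
theorem R_fe (e : ℕ) : M.R (fe e) (el (fe e)) ∧ el (fe e) ∈ F16 :=
  let ⟨_, h, r⟩ := FE_in.nth e; ⟨R_el r, R_fun (R_el r) r ▸ h⟩
theorem fe_xor {e f : ℕ} (he : e < 16) (hf : f < 16) : el (fe e) * el (fe f) = el (fe (e ^^^ f)) :=
  R_fun (M.R_mul (R_fe e).1 (R_fe f).1) (Nat.eq_of_beq_eq_true (allB_iff.mp (allB_iff.mp (by decide +kernel : allB 16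
    (fun e => allB 16 fun f => Nat.beq (fe (Nat.xor e f)) (o.mul (fe e) (fe f))) = true) e he) f hf) ▸ (R_fe _).1)
theorem fe_surj {g : Γ} (h : g ∈ F16) : ∃ e < 16, el (fe e) = g := by
  obtain ⟨a, r, k⟩ := F16_ch.forall (Lf := fun a => force a fun a => anyB 16 fun e => Nat.beq (fe e) a) (by decide +kernel) h
  obtain ⟨e, he, k⟩ := anyB_iff.mp (force_eq _ _ ▸ k)
  exact ⟨e, he, R_fun (R_fe e).1 (Nat.eq_of_beq_eq_true k ▸ r)⟩
theorem fe_zero : el (fe 0) = 1 := isOne_spec (R_fe 0).1 (by decide +kernel)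
theorem nb_lt (a b : ℕ) : nb a b < 2 := by rw [nb, ifB_eq]; split_ifs <;> norm_num

theorem YL_ok {j : ℕ} (hj : j < 50) {g : Γ} (r : M.R (nthP o.one YL j).1 g) : g * Wm = Wm * g ∧
    g (vc (fx i0)) = vc (fx (nthP 0 YT j).2) ∧ ∀ f < 16, g * el (fe f) * g⁻¹ = el (fe (tab j f)) := by
  have := allB_iff.mp (by decide +kernel : allB 50 (fun j => force (nthP o.one YL j).1 fun y => andB (cjM o y cW cW)
    (andB (Nat.beq (mul12Ap y (fx i0)) (fx (nthP 0 YT j).2)) (allB 16 fun f => cjM o y (fe f) (fe (tab j f))))) = true) j hj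
  simp only [force_eq, andB_iff, allB_iff, Nat.beq_eq] at this
  exact ⟨mul_inv_eq_iff_eq_mul.mp (cjM_spec r R_W R_W this.1), (R_ap r (fx_lt _)).2.trans (congrArg vc this.2.1),
    fun f hf => cjM_spec r (R_fe f).1 (R_fe _).1 (this.2.2 f hf)⟩

theorem ind_eq {α : Type*} {av : ℕ → α} {A : Set α} (h1 : ∀ a ∈ A, ∃ u < 2048, av u = a) (h2 : ∀ u, av u ∈ A)
    (h3 : Set.InjOn av (Finset.range 2048)) {P : α → Prop} {f : ℕ → Bool} (h : ∀ u < 2048, P (av u) ↔ f u = true) :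
    {a | a ∈ A ∧ P a}.ncard = cntB2 32 64 f := by
  rw [cntB2_eq, ← Set.ncard_coe_finset, ← Set.InjOn.ncard_image (h3.mono fun x hx => (Finset.mem_filter.mp hx).1)]
  congr 1
  ext a
  refine ⟨fun e => ?_, fun ⟨u, hu, e⟩ => ?_⟩
  · obtain ⟨u, hu, rfl⟩ := h1 a e.1
    exact ⟨u, by simpa [hu] using (h u hu).mp e.2, rfl⟩
  · simp only [Finset.coe_filter, Finset.mem_range, Set.mem_ofPred_eq] at hu
    exact e ▸ ⟨h2 u, (h u hu.1).mpr hu.2⟩

variable {G : Type*} [Group G] {z : G} {Q : Subgroup G} {ρ : centralizer ({z} : Set G) →* Γ} {p : G → V6}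

namespace FT
variable (m : FT z Q ρ p)
include m

/-- the elementary abelian subgroup of order `2 ^ 11` -/
noncomputable def AG : Subgroup G := m.AA.map (centralizer ({z} : Set G)).subtype

theorem zx (a b : ℕ) : z ^ (a ^^^ b) = z ^ a * z ^ b := by
  rw [← pow_add, pow_eq_pow_iff_modEq, m.lx.ord]; exact Nat.xor_mod_two_eq

theorem cj_nb {q b : G} (hq : q ∈ Q) (hb : b ∈ Q) {k v : ℕ} (e : p q = vc k) (f : p b = vc v) :
    q * b * q⁻¹ = z ^ nb k v * b := by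
  rw [nb, ifB_eq]
  split_ifs with h
  · simp [(m.comm_ort hq hb e f).mpr h]
  · simpa using m.lx.conj_eq_of_ne hq hb (mt (m.comm_ort hq hb e f).mp h)

theorem tr_mem {x : centralizer ({z} : Set G)} (hx : ρ x = Wm) {a : G} (ha : a ∈ Q) : tr3 (x : G) a ∈ zpowers z := by
  have h1 := m.conj_mem x ha
  have h2 := m.conj_mem x h1
  rw [tr3, ← m.zero (mul_mem (mul_mem ha h1) h2), m.mul (mul_mem ha h1) h2, m.mul ha h1, m.act x h1, m.act x ha, hx, Wm_apply,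
    Wm_apply, smul_smul]
  nth_rw 1 [← one_smul F4 (p a)]
  rw [← add_smul, ← add_smul, show 1 + ω + ω * ω = 0 by decide, zero_smul]

theorem Y_lift [Finite G] {x : centralizer ({z} : Set G)} (hx : ρ x = Wm) (h3 : x ^ 3 = 1) {k : Γ} (hk : k ∈ ρ.range)
    (h : k * Wm = Wm * k) : ∃ y, y * x = x * y ∧ ρ y = k := by
  obtain ⟨c, rfl⟩ := hk
  obtain ⟨q, h1, h2⟩ := conj_of_ker ρ ((Subgroup.ext m.ker : ρ.ker = Q.subgroupOf _) ▸ m.lx.isPGroup.comap_subtype)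
    Nat.prime_three (by norm_num) (x := c * x * c⁻¹) (by rw [conj_pow, h3, mul_one, mul_inv_cancel]) h3
    (by rw [map_mul, map_mul, hx, h, map_inv, mul_inv_cancel_right])
  exact ⟨q * c, mul_inv_eq_iff_eq_mul.mp (by simpa [mul_assoc] using h2), by simp [h1]⟩

end FT

/-- coordinates -/
structure Co (m : FT z Q ρ p) (x : centralizer ({z} : Set G)) (b : ℕ → G) (d : ℕ → centralizer ({z} : Set G)) : Prop where
  hx : ρ x = Wm
  x3 : x ^ 3 = 1
  sq : ∀ a ∈ m.AA, a * a = 1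
  bA : ∀ i, b i ∈ m.A0
  pb : ∀ i < 64, p (b i) = vc (fx i)
  tb : ∀ i, tr3 (x : G) (b i) = 1
  dA : ∀ e, d e ∈ m.AA
  dx : ∀ e, d e * x = x * d e
  pd : ∀ e, ρ (d e) = el (fe e)
  d0 : d 0 = 1
  dz : ∀ e, IsConj z (d e) → IsConj z (z * d e)

theorem W_norm : Wm ∈ normalizer (F16 : Set Γ) := mem_normalizer_of_conj_mem fun x hx => by
  rwa [← W_comm (SUg_le (K0_SU (F16_K0 hx))), mul_inv_cancel_right]

theorem FT.tr_z (m : FT z Q ρ p) (x : centralizer ({z} : Set G)) (n : ℕ) : tr3 (x : G) (z ^ n) = z ^ n := by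
  have xz : x * z ^ n * (x : G)⁻¹ = z ^ n := by
    rw [← conj_pow, mul_inv_eq_iff_eq_mul.mpr (mem_centralizer_singleton_iff.mp x.2)]
  rw [tr3, xz, xz, ← (Commute.refl z).mul_pow, m.lx.zz, one_pow, one_mul]

theorem FT.tr_z1 (m : FT z Q ρ p) (x : centralizer ({z} : Set G)) : tr3 (x : G) z = z := by simpa using m.tr_z x 1

theorem FT.exists_co' [Finite G] (m : FT z Q ρ p) {x : centralizer ({z} : Set G)} (hx : ρ x = Wm) (x3 : x ^ 3 = 1)
    (hm : m.AA.map ρ = F16) (h2 : ∀ a ∈ m.AA, a * a = 1) : ∃ b d, Co m x b d := by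
  have hn : ρ x ∈ normalizer (F16 : Set Γ) := hx ▸ W_norm
  have k1 : ∀ i, ∃ b ∈ m.A0, (i < 64 → p b = vc (fx i)) ∧ tr3 (x : G) b = 1 := fun i => by
    obtain ⟨q, hq, e⟩ := m.surj (vc (fx (i % 64)))
    have h : q ∈ m.A0 := ⟨hq, e ▸ (fx_iff (fx_lt _)).mpr (by rw [ix_fx (Nat.mod_lt _ (by norm_num))])⟩
    rcases m.lx.mem_z.mp (m.tr_mem hx hq) with f | f
    · exact ⟨q, h, fun l => by rw [e, Nat.mod_eq_of_lt l], f⟩
    · exact ⟨z * q, mul_mem m.z_A0 h, fun l => by rw [m.p_zmul hq, e, Nat.mod_eq_of_lt l], by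
        rw [tr3_mul (fun _ => m.A0_sq) (fun _ => m.A0_conj hn) m.z_A0 h, f, m.tr_z1, m.lx.zz]⟩
  have k2 : ∀ e, ∃ d ∈ m.AA, d * x = x * d ∧ ρ d = el (fe e) ∧ (e = 0 → d = 1) ∧ (IsConj z d → IsConj z (z * d)) := fun e => by
    by_cases h0 : e = 0
    · exact ⟨1, one_mem _, by simp, by simp [h0, fe_zero], fun _ => rfl, fun _ => (mul_one z).symm ▸ IsConj.refl z⟩
    obtain ⟨a, ha, f⟩ := hm.ge (R_fe e).2
    have h1 := tr3_mem (fun _ => m.AA_conj hn) ha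
    have h3 := tr3_cent h2 (fun _ => m.AA_conj hn) x3 ha
    have h4 : ρ (tr3 x a) = el (fe e) := by
      simp only [tr3, map_mul, map_inv, hx, f, ← W_comm (SUg_le (K0_SU (F16_K0 (R_fe e).2))), mul_inv_cancel_right,
        F16_sq (R_fe e).2, one_mul]
    by_cases h : IsConj z (tr3 x a : centralizer ({z} : Set G))
    · let z' : centralizer ({z} : Set G) := ⟨z, mem_centralizer_singleton_iff.mpr rfl⟩
      refine ⟨z' * tr3 x a, mul_mem (m.AA_ker.mpr m.z_A0).1 h1, ?_, by rw [map_mul, (m.ker z').mpr m.lx.mem, one_mul, h4],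
        fun e => (h0 e).elim, fun _ => by rwa [coe_mul, ← mul_assoc, m.lx.zz, one_mul]⟩
      rw [mul_assoc, h3, ← mul_assoc, ← mul_assoc, show x * z' = z' * x from Subtype.ext (mem_centralizer_singleton_iff.mp x.2)]
    · exact ⟨_, h1, h3, h4, fun e => (h0 e).elim, fun e => (h e).elim⟩
  choose b b1 b2 b3 using k1
  choose d d1 d2 d3 d4 d5 using k2
  exact ⟨b, d, hx, x3, h2, b1, b2, b3, d1, d2, d3, d4 0 rfl, d5⟩

theorem FT.exists_co [Finite G] (m : FT z Q ρ p) (hW : Wm ∈ ρ.range) (hm : m.AA.map ρ = F16) (h2 : ∀ a ∈ m.AA, a * a = 1) :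
    ∃ x b d, Co m x b d := by
  obtain ⟨c, e⟩ := hW
  have h3 : Wm ^ 3 = 1 := orderOf_W ▸ pow_orderOf_eq_one _
  refine ⟨c ^ 4, m.exists_co' (by rw [map_pow, e, pow_succ, h3, one_mul]) ?_ hm h2⟩
  have := m.lx.sq_of_mem_z (m.lx.sq _ ((m.ker (c ^ 3)).mp (by rw [map_pow, e, h3])))
  rw [← pow_mul, mul_comm, pow_mul]
  exact Subtype.ext (by simpa [pow_succ, mul_assoc] using this)

/-- the element with given coordinates -/
def av (z : G) (b : ℕ → G) (d : ℕ → centralizer ({z} : Set G)) (u : ℕ) : G := z ^ u * b (u / 2 % 64) * d (u / 128)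

namespace Co
variable {m : FT z Q ρ p} {x : centralizer ({z} : Set G)} {b : ℕ → G} {d : ℕ → centralizer ({z} : Set G)} (c : Co m x b d)
include c

theorem xA {a : G} (h : a ∈ m.A0) : x * a * (x : G)⁻¹ ∈ m.A0 := m.A0_conj (c.hx ▸ W_norm) h

theorem tr_mul {a a' : G} (h : a ∈ m.A0) (h' : a' ∈ m.A0) : tr3 (x : G) (a * a') = tr3 (x : G) a * tr3 (x : G) a' :=
  tr3_mul (fun _ => m.A0_sq) (fun _ => c.xA) h h'

theorem char {a : G} (ha : a ∈ m.A0) {j n : ℕ} (hj : j < 64) (e : p a = vc (fx j)) (f : tr3 (x : G) a = z ^ n) :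
    a = z ^ n * b j := by
  rcases m.uniq (c.bA j).1 ha.1 ((c.pb j hj).trans e.symm) with h | h
  · rw [← f, h, c.tb, one_mul]
  · rw [← f, h, c.tr_mul m.z_A0 (c.bA j), c.tb, m.tr_z1, mul_one]

theorem b_xor {i j : ℕ} (hi : i < 64) (hj : j < 64) : b i * b j = b (i ^^^ j) := by
  simpa using c.char (mul_mem (c.bA i) (c.bA j)) (n := 0) (Nat.xor_lt_two_pow (n := 6) hi hj)
    (by rw [m.mul (c.bA i).1 (c.bA j).1, c.pb i hi, c.pb j hj, fx_xor]) (by simp [c.tr_mul (c.bA i) (c.bA j), c.tb])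

theorem b_zero : b 0 = 1 := by simpa using c.b_xor (i := 0) (j := 0) (by norm_num) (by norm_num)

theorem d_eq {y : centralizer ({z} : Set G)} (h : y * x = x * y) {e : ℕ} (f : ρ y = el (fe e)) :
    ∃ k < 2, (y : G) = z ^ k * d e := by
  rcases m.lx.mem_z.mp (m.Y_ker c.hx (y := y * (d e)⁻¹) (Commute.mul_left h (Commute.inv_left (c.dx e)))
    (by simp [f, c.pd])) with h | h
  exacts [⟨0, by norm_num, by simpa [mul_inv_eq_one] using h⟩, ⟨1, by norm_num, by simpa [mul_inv_eq_iff_eq_mul] using h⟩]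

theorem d_mul {e f : ℕ} (he : e < 16) (hf : f < 16) : ∃ k < 2, (d e : G) * d f = z ^ k * d (e ^^^ f) :=
  c.d_eq (y := d e * d f) (Commute.mul_left (c.dx e) (c.dx f)) (by rw [map_mul, c.pd, c.pd, fe_xor he hf])

variable [Finite G]

omit c in
theorem A0_AG : m.A0 ≤ m.AG := m.AA_ker' ▸ map_mono inf_le_left

omit [Finite G] in
theorem comm {a a' : G} (h : a ∈ m.AG) (h' : a' ∈ m.AG) : Commute a a' :=
  H11.comm_of_sq_eq_one (by rintro _ ⟨a, ha, rfl⟩; exact congrArg Subtype.val (c.sq a ha)) h h'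

omit [Finite G] in
theorem d_mem (e : ℕ) : (d e : G) ∈ m.AG := ⟨_, c.dA _, rfl⟩

theorem av_mem (u : ℕ) : av z b d u ∈ m.AG := mul_mem (A0_AG (mul_mem (pow_mem m.z_A0 _) (c.bA _))) (c.d_mem _)

theorem av_mul {w v k : ℕ} (hk : k < 2) (h : (d (w / 128) : G) * d (v / 128) = z ^ k * d (w / 128 ^^^ v / 128)) :
    av z b d w * av z b d v = av z b d (w ^^^ v ^^^ k) := by
  have h1 : (w ^^^ v ^^^ k) / 2 % 64 = w / 2 % 64 ^^^ v / 2 % 64 := by
    rw [Nat.xor_div_two, Nat.div_eq_of_lt hk, Nat.xor_zero, Nat.xor_div_two]; exact Nat.xor_mod_two_pow (n := 6)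
  have h2 : (w ^^^ v ^^^ k) / 128 = w / 128 ^^^ v / 128 := by
    rw [Nat.xor_div_two_pow (n := 7), Nat.div_eq_of_lt (by omega : k < 2 ^ 7), Nat.xor_zero]; exact Nat.xor_div_two_pow (n := 7)
  have hz := fun n => A0_AG (pow_mem m.z_A0 n)
  rw [av, av, av, (c.comm (c.d_mem _) (mul_mem (hz _) (A0_AG (c.bA _)))).mul_mul_mul_comm, h,
    (c.comm (A0_AG (c.bA _)) (hz _)).mul_mul_mul_comm, c.b_xor (Nat.mod_lt _ (by norm_num)) (Nat.mod_lt _ (by norm_num)),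
    h1, h2, m.zx, m.zx, ← mul_assoc, mul_assoc _ _ (z ^ k), (c.comm (A0_AG (c.bA _)) (hz _)).eq, ← mul_assoc]

omit [Finite G] in
theorem av_lo {k j : ℕ} (hk : k < 2) (hj : j < 64) : av z b d (k + 2 * j) = z ^ k * b j := by
  rw [av, show (k + 2 * j) / 2 % 64 = j by omega, show (k + 2 * j) / 128 = 0 by omega, c.d0, pow_add, pow_mul, pow_two, m.lx.zz]
  simp

omit [Finite G] in
theorem av_hi {k j e : ℕ} (hk : k < 2) (hj : j < 64) : av z b d (k + 2 * j + 128 * e) = z ^ k * b j * d e := by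
  rw [av, show (k + 2 * j + 128 * e) / 2 % 64 = j by omega, show (k + 2 * j + 128 * e) / 128 = e by omega,
    show k + 2 * j + 128 * e = k + 2 * (j + 64 * e) by omega, pow_add, pow_mul, pow_two, m.lx.zz]
  simp

theorem lo_mul {w : ℕ} (hw : w < 128) (v : ℕ) : av z b d w * av z b d v = av z b d (w ^^^ v ^^^ 0) :=
  c.av_mul (by norm_num) (by simp [Nat.div_eq_of_lt hw, c.d0])

theorem av_surj {a : G} (ha : a ∈ m.AG) : ∃ u < 2048, av z b d u = a := by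
  obtain ⟨a, ha, rfl⟩ := ha
  obtain ⟨e, he, f⟩ := fe_surj ha.1
  have h := (m.AA_ker (a := a * (d e)⁻¹)).mp ⟨m.AA.mul_mem ha (m.AA.inv_mem (c.dA e)), by simp [c.pd, f]⟩
  obtain ⟨v, hv, g⟩ := vc_surj (p (a * (d e)⁻¹ : centralizer ({z} : Set G)))
  obtain ⟨k, hk, l⟩ := exists_pow_of_mem (by norm_num) m.lx.ord (m.tr_mem c.hx h.1)
  have hj : ix v < 64 := get_lt _ _ _
  have := c.char h hj (by rw [(fx_iff hv).mp (g ▸ h.2), g]) l
  exact ⟨k + 2 * ix v + 128 * e, by omega, by rw [c.av_hi hk hj, ← this]; simp⟩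

theorem av_z {n : ℕ} (hn : n < 2) (v : ℕ) : z ^ n * av z b d v = av z b d (n ^^^ v) := by
  simpa [show av z b d n = z ^ n by simpa [c.b_zero] using c.av_lo hn (j := 0) (by norm_num)] using
    c.lo_mul (w := n) (by omega) v

theorem qmove {u : ℕ} (h1 : 128 ≤ u) (h2 : u < 2048) : IsConj (av z b d u) (av z b d (nf u)) := by
  have := allQ_iff.mp (by decide +kernel : allQ 2048 (fun u => orB (Nat.blt u 128) (force (get 12 KT u) fun k =>
    force (Nat.xor k (mul12Ap (fe (Nat.div u 128)) k)) fun w => andB (Nat.beq (fx (ix w)) w) (Nat.beq (nf u) (Nat.xor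
      (nb k (fx (Nat.mod (Nat.div u 2) 64))) (Nat.xor (Nat.add (Nat.xor (nb (Nat.xor k (om 6 k)) (om 6 (om 6 w)))
        (nb k (om 6 w))) (Nat.mul 2 (ix w))) u))))) = true) u h2
  simp only [orB_iff, Nat.blt_eq, force_eq, andB_iff, Nat.beq_eq, h1.not_gt, false_or] at this
  have hk : get 12 KT u < 4096 := get_lt _ _ _
  generalize get 12 KT u = k at this hk
  have r := R_ap (R_fe (u / 128)).1 hk
  have hw : k ^^^ mul12Ap (fe (u / 128)) k < 4096 := Nat.xor_lt_two_pow (n := 12) hk r.1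
  obtain ⟨q, hq, e⟩ := m.surj (vc k)
  have a0 : ⁅q, (d (u / 128) : G)⁆ = q * (d (u / 128) * q⁻¹ * (d (u / 128) : G)⁻¹) := by simp [commutatorElement_def, mul_assoc]
  have a1 := m.conj_mem (d (u / 128)) (inv_mem hq)
  have a2 : p ⁅q, (d (u / 128) : G)⁆ = vc (k ^^^ mul12Ap (fe (u / 128)) k) := by
    rw [a0, m.mul hq a1, m.act _ (inv_mem hq), m.p_inv hq, e, c.pd, r.2, vc_xor]
  change fx (ix (k ^^^ mul12Ap (fe (u / 128)) k)) = k ^^^ mul12Ap (fe (u / 128)) k ∧ nf u = nb k (fx (u / 2 % 64)) ^^^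
    (((nb (k ^^^ om 6 k) (om 6 (om 6 (k ^^^ mul12Ap (fe (u / 128)) k))) ^^^ nb k (om 6 (k ^^^ mul12Ap (fe (u / 128)) k))) +
      2 * ix (k ^^^ mul12Ap (fe (u / 128)) k)) ^^^ u) at this
  generalize k ^^^ mul12Ap (fe (u / 128)) k = w at this hw a2
  have a3 : ⁅q, (d (u / 128) : G)⁆ ∈ m.A0 := ⟨a0 ▸ mul_mem hq a1, a2 ▸ (fx_iff hw).mpr this.1⟩
  have xd : (x : G) * d (u / 128) * (x : G)⁻¹ = d (u / 128) := mul_inv_eq_iff_eq_mul.mpr (congrArg Subtype.val (c.dx _).symm)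
  have xp : ∀ {a : G} {k : ℕ}, a ∈ Q → k < 4096 → p a = vc k → p (x * a * (x : G)⁻¹) = vc (om 6 k) := fun h l e => by
    rw [m.act x h, c.hx, e, vc_om l]; rfl
  have a4 := c.xA a3
  have a5 := c.xA a4
  have a6 := m.cj_nb hq a4.1 e (xp a3.1 hw a2)
  have a7 := m.cj_nb (mul_mem hq (m.conj_mem x hq)) a5.1 (by rw [m.mul hq (m.conj_mem x hq), e, xp hq hk e, ← vc_xor])
    (xp a4.1 (show om 6 w < 4096 from b4.ap_W q6 hw ▸ (R_ap R_W hw).1) (xp a3.1 hw a2))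
  have a8 := mul_inv_eq_iff_eq_mul.mpr (m.lx.comm_of_mem_z (m.tr_mem c.hx hq)
    (mem_centralizer_singleton_iff.mp (d (u / 128)).2)).symm
  have cz := fun n => pow_mem m.z_A0 n
  have cm : ∀ {a a'}, a ∈ m.A0 → a' ∈ m.A0 → Commute a a' := fun h h' => m.A0_cent h' _ h
  have hi : ix w < 64 := get_lt _ _ _
  have a9 := c.char a3 hi (n := nb (k ^^^ om 6 k) (om 6 (om 6 w)) ^^^ nb k (om 6 w))
    (by rw [this.1, a2]) (by
      rw [show tr3 (x : G) q * d (u / 128) * (tr3 (x : G) q)⁻¹ = q * (x * q * (x : G)⁻¹) * ⁅x * (x * q * (x : G)⁻¹) * (x : G)⁻¹,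
        (d (u / 128) : G)⁆ * (q * (x * q * (x : G)⁻¹))⁻¹ * (q * ⁅x * q * (x : G)⁻¹, (d (u / 128) : G)⁆ * q⁻¹) *
          ⁅q, (d (u / 128) : G)⁆ * d (u / 128) by simp only [tr3, commutatorElement_def]; group, mul_eq_right, ← xd,
        ← conjugate_commutatorElement, xd, ← xd, ← conjugate_commutatorElement, xd, a6, a7,
        (cm a5 (cz _)).mul_mul_mul_comm, mul_assoc, mul_eq_one_iff_eq_inv] at a8
      rw [m.zx, a8, mul_inv_rev, mul_inv_rev, inv_eq_of_mul_eq_one_left (m.A0_sq a3), inv_eq_of_mul_eq_one_left (m.A0_sq a4),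
        inv_eq_of_mul_eq_one_left (m.A0_sq a5), tr3, mul_assoc])
  have hl := Nat.xor_lt_two_pow (n := 1) (nb_lt (k ^^^ om 6 k) (om 6 (om 6 w))) (nb_lt k (om 6 w))
  refine isConj_iff.mpr ⟨q, ?_⟩
  rw [this.2, ← c.av_z (nb_lt _ _), ← Nat.xor_zero (_ ^^^ u), ← c.lo_mul (by omega), c.av_lo hl hi, ← a9, av, ← conj_mul,
    ← conj_mul, (m.lx.comm_of_mem_z (npow_mem_zpowers z u) (m.lx.cent q hq)), mul_inv_cancel_right,
    m.cj_nb hq (c.bA _).1 e (c.pb _ (Nat.mod_lt _ (by norm_num))), (cm (cz _) (cz _)).left_comm, ← mul_assoc _ _ (d _ : G),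
    ← mul_assoc _ _ (d _ : G), (cm a3 (mul_mem (cz _) (c.bA _))).eq, ← mul_assoc _ _ ⁅q, _⁆, commutatorElement_def]
  group

end Co

end Cfsg.Agent.LL.U6
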