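import Cfsg.Agent.H21.Fi10

/-! The elementary abelian subgroup of order `2 ^ 11` is the even half of the Golay cocode. -/

set_option autoImplicit false
set_option maxRecDepth 100000
set_option linter.style.haveILetI false

namespace Cfsg.Agent.LL.U6

open Cfsg Cfsg.Agent.H16 Cfsg.Agent.H3 Cfsg.Agent.H10 MulAction Mdl Subgroup
open scoped commutatorElement Pointwise symmDiff

variable {G : Type*} [Group G] {z : G} {Q : Subgroup G} {ρ : centralizer ({z} : Set G) →* Γ} {p : G → V6}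

/-- the facts about the centralizer of `z` that determine the normalizer of the subgroup of order `2 ^ 11` -/
structure AH0 (m : FT z Q ρ p) : Prop where
  map : m.AA.map ρ = F16
  sq : ∀ a ∈ m.AA, a * a = 1
  yl : ∀ j < 50, ∃ g ∈ ρ.range, g * Wm = Wm * g ∧ g (vc (fx i0)) = vc (fx (nthP 0 YT j).2) ∧
    ∀ f < 16, g * el (fe f) * g⁻¹ = el (fe (tab j f))
  nf : ∃ K ≤ ρ.range, NormBy K F16 ∧ 34560 ≤ Nat.card K
  fus : ∀ a ∈ m.AG, IsConj z a → ∃ n ∈ normalizer (m.AG : Set G), n * z * n⁻¹ = a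
  cent : ∀ g ∈ ρ.range, (∀ i < 64, g (vc (fx i)) = vc (fx i)) → g ∈ F16

/-- with the fusion of `z` into `Q` -/
structure AH (m : FT z Q ρ p) : Prop extends AH0 m where
  sig : ∀ a ∈ m.A0, ∀ i < 64, p a = vc (fx i) → a ≠ 1 → (IsConj z a ↔ tb SG i = true)

theorem cnt1 : ∀ d0 d1 β : Bool, cnt (chi d0 d1 β) s0 (fun _ => 0) = cnt (chi d0 d1 β) 1 (fun _ => 0) →
    (d0 = true → d1 = true) → d0 = false ∧ d1 = true := by decide +kernel
theorem cnt2 : ∀ β : Bool, ∀ c1 < 2, ∀ c2 < 2, cnt (chi false true β) 129 (cc c1 c2) = cnt (chi false true β) 1 (fun _ => 0) →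
    β = true ∧ c1 = 0 ∧ c2 = 1 := by decide +kernel

noncomputable def msk (S : Finset GolayPt) : ℕ := (exists_toSet S).choose
theorem msk_lt (S : Finset GolayPt) : msk S < 2 ^ 24 := (exists_toSet S).choose_spec.1
theorem toSet_msk (S : Finset GolayPt) : toSet (msk S) = S := (exists_toSet S).choose_spec.2
theorem msk_toSet {a : ℕ} (h : a < 2 ^ 24) : msk (toSet a) = a := toSet_inj (msk_lt _) h (toSet_msk _)
noncomputable def syn (a : ℕ) : ℕ := xc (get 11 TG) 24 a
theorem syn_lt (a : ℕ) : syn a < 2048 := xc_lt (w := 11) (fun _ _ => get_lt _ _ _) a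
theorem syn_xor (a b : ℕ) : syn (a ^^^ b) = syn a ^^^ syn b := xc_xor _ _ _ _
noncomputable def chi' (u : ℕ) : Bool := force (Nat.xor u (gm (Nat.div u 128))) (chi false true true)

theorem syn_zero {S : Finset GolayPt} (h : Even S.card) : syn (msk S) = 0 ↔ S ∈ gSets := by
  have k : ∀ a, isCode a = true → syn a = 0 := fun a h =>
    Nat.eq_of_beq_eq_true (codeAll_spec (P := fun a => Nat.beq (syn a) 0) (by decide +kernel) h)
  refine ⟨fun e => ?_, fun e => by obtain ⟨a, l, rfl⟩ := exists_mask e; rw [msk_toSet (isCode_lt l), k a l]⟩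
  have h0 : msk S % 4096 < 4096 := Nat.mod_lt _ (by norm_num)
  have h1 := isCode_cw h0
  have h2 : msk S ^^^ cw (msk S % 4096) < 2 ^ 24 := Nat.xor_lt_two_pow (msk_lt S) (cw_lt _)
  have h3 : (msk S ^^^ cw (msk S % 4096)) % 4096 = 0 := by
    rw [show 4096 = 2 ^ 12 by norm_num, Nat.xor_mod_two_pow, ← show 4096 = 2 ^ 12 by norm_num, cw_mod h0, Nat.xor_self]
  have h4 := even_sd (T := toSet (cw (msk S % 4096))) h (Nat.even_iff.mpr (by have := card_of_mem_gSets (toSet_mem_of_isCode h1); omega))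
  have h5 : syn (msk S ^^^ cw (msk S % 4096)) = 0 := by rw [syn_xor, e, k _ h1, Nat.xor_self]
  rw [← toSet_msk S, ← toSet_xor, card_toSet, toSet_msk] at h4
  obtain ⟨a, ha⟩ := Nat.dvd_of_mod_eq_zero h3
  have := allQ_iff.mp (by decide +kernel : allQ 4096 (fun a => force (Nat.mul 4096 a) fun b =>
    impB (Nat.beq (syn b) 0) (impB (Nat.beq (Nat.mod (pc24 b) 2) 0) (Nat.beq a 0))) = true) a (by omega)
  simp only [force_eq, impB_iff, Nat.beq_eq] at this
  rw [ha] at h4 h5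
  rw [this h5 (Nat.even_iff.mp h4), mul_zero, Nat.xor_eq_zero_iff] at ha
  rw [← toSet_msk S, ha]; exact toSet_mem_of_isCode h1

theorem syn_surj {u : ℕ} (hu : u < 2048) : ∃ S, Even S.card ∧ syn (msk S) = u := by
  have k := allB_iff.mp (by decide +kernel : allB 11 (fun i => andB (Nat.beq (syn (get 24 MB i)) (bit i))
    (Nat.beq (Nat.mod (pc24 (get 24 MB i)) 2) 0)) = true)
  simp only [andB_iff, Nat.beq_eq] at k
  refine ⟨toSet (xc (get 24 MB) 11 u), xc_ind (P := fun a => Even (toSet a).card) (by simp [toSet_zero])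
    (fun a b ha hb => toSet_xor a b ▸ even_sd ha hb) (fun i hi => card_toSet _ ▸ Nat.even_iff.mpr (k i hi).2) u, ?_⟩
  rw [msk_toSet (xc_lt (fun _ _ => get_lt _ _ _) u), map_xc (φ := syn) (xc_of_zero _ _) syn_xor,
    xc_congr (fun i hi => (k i hi).1) fun _ _ => rfl, xc_bit_self]
  exact Nat.mod_eq_of_lt hu

theorem syn_duad {u : ℕ} (hu : u < 2048) (h0 : u ≠ 0) : ¬ chi' u = true ↔ ∃ S, S.card = 2 ∧ syn (msk S) = u := by
  have k : ∀ i < 24, ∀ j < 24, i ≠ j → toSet (bit i ^^^ bit j) = {gpt i, gpt j} ∧ bit i ^^^ bit j < 2 ^ 24 := by decide +kernel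
  have l := fun i hi => allB_iff.mp (allB_iff.mp (by decide +kernel : allB 24 (fun i => allB 24 fun j => andB (Nat.beq
    (syn (Nat.xor (bit i) (bit j))) (Nat.xor (get 11 TG i) (get 11 TG j))) (notB (force (Nat.xor (get 11 TG i) (get 11 TG j))
      chi'))) = true) i hi)
  simp only [andB_iff, Nat.beq_eq, notB_iff, force_eq] at l
  refine ⟨fun h => ?_, ?_⟩
  · have := allQ_iff.mp (by decide +kernel : allQ 2048 (fun u => orB (chi' u) (anyB 24 fun i =>
      force (Nat.xor (get 11 TG i) u) fun w => anyB 24 fun j => Nat.beq (get 11 TG j) w)) = true) u hu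
    simp only [orB_iff, h, anyB_iff, force_eq, Nat.beq_eq] at this
    obtain ⟨i, hi, j, hj, e⟩ := this.resolve_left (by simp)
    have e' : get 11 TG i ^^^ get 11 TG j = u := by rw [e]; exact Nat.xor_xor_cancel_left _ _
    have n : i ≠ j := fun f => h0 (by rw [← e', f, Nat.xor_self])
    exact ⟨_, Finset.card_pair fun f => n (gpt_inj i hi j hj f), by
      rw [← (k i hi j hj n).1, msk_toSet (k i hi j hj n).2]; exact (l i hi j hj).1.trans e'⟩
  · rintro ⟨S, h, rfl⟩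
    obtain ⟨a, b, n, rfl⟩ := Finset.card_eq_two.mp h
    obtain ⟨i, hi, rfl⟩ := exists_gpt a
    obtain ⟨j, hj, rfl⟩ := exists_gpt b
    have n' : i ≠ j := fun f => n (f ▸ rfl)
    rw [← (k i hi j hj n').1, msk_toSet (k i hi j hj n').2]
    exact (l i hi j hj).1 ▸ (l i hi j hj).2

theorem isConj_congr {a b c : G} (h : IsConj b c) : IsConj a b ↔ IsConj a c := ⟨fun e => e.trans h, fun e => e.trans h.symm⟩

theorem FT.AG_norm [Finite G] (m : FT z Q ρ p) {y : centralizer ({z} : Set G)} (h : ρ y ∈ normalizer (F16 : Set Γ)) :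
    (y : G) ∈ normalizer (m.AG : Set G) :=
  mem_normalizer_of_conj_mem (by rintro _ ⟨g, hg, rfl⟩; exact ⟨_, m.AA_conj h hg, rfl⟩)

namespace Co
variable {m : FT z Q ρ p} {x : centralizer ({z} : Set G)} {b : ℕ → G} {d : ℕ → centralizer ({z} : Set G)} (c : Co m x b d)
  [Finite G]

section
variable (h : AH0 m)
include h

theorem card_AG : Nat.card m.AG = 2 ^ 11 := by
  rw [FT.AG, card_map_of_injective (subtype_injective _), ← m.card_inf, h.map, m.AA_ker', F16_card, m.card_A0]; norm_num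

include c

theorem av_inj : Set.InjOn (av z b d) (Finset.range 2048) := by
  classical
  refine Finset.injOn_of_surjOn_of_card_le (t := (Set.toFinite (m.AG : Set G)).toFinset) _ (fun u _ => by simpa using c.av_mem u)
    (fun a ha => by simpa using c.av_surj (by simpa using ha)) ?_
  rw [← Set.ncard_eq_toFinset_card, Finset.card_range]
  exact (card_AG h).ge

theorem ymove {j : ℕ} (hj : j < 50) : ∃ y : G, y * z * y⁻¹ = z ∧ (∀ f < 16, ∃ k < 2, y * d f * y⁻¹ = z ^ k * d (tab j f)) ∧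
    y * b i0 * y⁻¹ = b (nthP 0 YT j).2 ∧ (nthP 0 YT j).2 < 64 := by
  obtain ⟨g, hg, h1, h2, h3⟩ := h.yl j hj
  obtain ⟨y, hy, rfl⟩ := m.Y_lift c.hx c.x3 hg h1
  have h4 := Nat.blt_eq.mp (allB_iff.mp (by decide +kernel : allB 50 (fun j => Nat.blt (nthP 0 YT j).2 64) = true) j hj)
  refine ⟨y, mul_inv_eq_iff_eq_mul.mpr (mem_centralizer_singleton_iff.mp y.2), fun f hf => c.d_eq (y := y * d f * y⁻¹)
    ((Commute.mul_left hy (c.dx f)).mul_left (Commute.inv_left hy)) (by simp [c.pd, h3 f hf]), ?_, h4⟩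
  simpa using c.char (n := 0) (m.A0_conj (mem_normalizer_of_conj_mem fun e he => by
    obtain ⟨f, hf, rfl⟩ := fe_surj he; exact h3 f hf ▸ (R_fe _).2) (c.bA i0)) h4
    (by rw [m.act y (c.bA _).1, c.pb _ (by decide), h2]) (by simp [tr3_conj (congrArg Subtype.val hy.symm), c.tb])

theorem unif0 : ∃ d0 d1 β : Bool, (d0 = true → d1 = true) ∧
    ∀ u < 2048, ¬ u < 128 → (IsConj z (av z b d u) ↔ chi d0 d1 β u = true) := by
  classical
  have a0 : ∀ k < 2, ∀ e, av z b d (k + 128 * e) = z ^ k * d e := fun k hk e => by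
    simpa [c.b_zero] using c.av_hi hk (j := 0) (e := e) (by norm_num)
  have a1 : ∀ e < 16, e ≠ 0 → (IsConj z (d e) ↔ IsConj z (d 1)) ∧ (IsConj z (z * d e) ↔ IsConj z (z * d 1)) := fun e he n => by
    obtain ⟨j, hj, f⟩ := anyB_iff.mp ((orB_iff.mp (allB_iff.mp (by decide +kernel : allB 16 (fun e => orB (Nat.beq e 0)
      (anyB 50 fun j => Nat.beq (tab j 1) e)) = true) e he)).resolve_left (by simpa using n))
    obtain ⟨y, y1, y2, -⟩ := c.ymove h hj
    obtain ⟨k, hk, l⟩ := y2 1 (by norm_num)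
    rw [Nat.eq_of_beq_eq_true f] at l
    have b1 := isConj_congr (a := z) (isConj_iff.mpr ⟨y, l⟩)
    have b2 := isConj_congr (a := z) (isConj_iff.mpr ⟨y, (conj_mul.symm.trans (by rw [y1, l]) : y * (z * d 1) * y⁻¹ = _)⟩)
    have := c.dz 1
    have := c.dz e
    interval_cases k <;> simp only [pow_zero, pow_one, one_mul, ← mul_assoc, m.lx.zz] at b1 b2 <;> tauto
  refine ⟨decide (IsConj z (d 1)), decide (IsConj z (z * d 1)), decide (IsConj z (b i0 * d 1)),
    by simpa only [decide_eq_true_eq] using c.dz 1, fun u hu h1 => ?_⟩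
  simp only [chi, ifB_eq, Nat.blt_eq]
  · rw [if_neg h1]
    have := allQ_iff.mp (by decide +kernel : allQ 2048 (fun u => orB (Nat.blt u 128) (force (nf u) fun n =>
      ifB (Nat.blt (Nat.mod n 128) 2) (Nat.beq (Nat.div n 128) (Nat.div u 128)) (anyB 50 fun j =>
        force (Nat.add (Nat.mul 2 (nthP 0 YT j).2) (Nat.mul 128 (tab j 1))) fun v =>
          andB (Nat.ble 128 v) (andB (Nat.beq (nf v) n) (Nat.beq (nf (Nat.add 1 v)) n))))) = true) u hu
    simp only [orB_iff, Nat.blt_eq, h1, false_or, force_eq, ifB_eq, Nat.beq_eq] at this ⊢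
    rw [isConj_congr (c.qmove (by omega) hu)]
    change (if nf u % 128 < 2 then Nat.beq (nf u / 128) (u / 128) else _) = true at this
    change _ ↔ (if nf u % 128 = 0 then _ else if nf u % 128 = 1 then _ else _) = true
    by_cases h2 : nf u % 128 < 2
    · rw [if_pos h2, Nat.beq_eq] at this
      rw [← Nat.mod_add_div (nf u) 128, a0 _ h2, Nat.mod_add_div, this]
      have := a1 (u / 128) (by omega) (by omega)
      by_cases h3 : nf u % 128 = 0
      · simp only [h3, pow_zero, one_mul, if_true, this.1, decide_eq_true_eq]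
      · simp only [show nf u % 128 = 1 by omega, pow_one, this.2, if_true, decide_eq_true_eq, one_ne_zero, if_false]
    · rw [if_neg h2, anyB_iff] at this
      obtain ⟨j, hj, f⟩ := this
      obtain ⟨y, -, y2, y3, y4⟩ := c.ymove h hj
      obtain ⟨k, hk, l⟩ := y2 1 (by norm_num)
      have t1 : tab j 1 < 16 := get_lt _ _ _
      simp only [andB_iff, Nat.ble_eq, Nat.beq_eq, Nat.add_eq, Nat.mul_eq] at f
      rw [if_neg (by omega), if_neg (by omega), decide_eq_true_eq, isConj_congr (isConj_iff.mpr ⟨y, conj_mul.symm⟩), y3, l,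
        ← mul_assoc, show b _ * z ^ k = z ^ k * b _ from m.A0_cent (pow_mem m.z_A0 k) _ (c.bA _), ← c.av_hi hk y4,
        isConj_congr (c.qmove (u := k + _ + _) (by omega) (by omega))]
      interval_cases k
      · rw [zero_add, f.2.1]
      · rw [add_assoc, f.2.2]

theorem count {χ : ℕ → Bool} (hχ : ∀ u < 2048, IsConj z (av z b d u) ↔ χ u = true) {w : ℕ} (hw : w < 2048) (h1 : χ w = true)
    {k : ℕ → ℕ} (hk : ∀ f < 16, k f < 2 ∧ (d (w / 128) : G) * d f = z ^ k f * d (w / 128 ^^^ f)) :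
    cnt χ w k = cnt χ 1 fun _ => 0 := by
  have l : ∀ {w k}, w < 2048 → (∀ f < 16, k f < 2 ∧ (d (w / 128) : G) * d f = z ^ k f * d (w / 128 ^^^ f)) →
      {a | a ∈ m.AG ∧ IsConj z a ∧ IsConj z (av z b d w * a)}.ncard = cnt χ w k := fun {w k} hw hk =>
    ind_eq (fun _ => c.av_surj) c.av_mem (c.av_inj h) fun v hv => by
      have := hk (v / 128) (by omega)
      rw [andB_iff, force_eq, c.av_mul this.1 this.2, hχ v hv, hχ _ (Nat.xor_lt_two_pow (n := 11)
        (Nat.xor_lt_two_pow (n := 11) hw hv) (by omega))]; rfl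
  obtain ⟨n, hn, e⟩ := h.fus _ (c.av_mem w) ((hχ w hw).mpr h1)
  rw [← l hw hk, ← l (by norm_num) (by simp [c.d0]), show av z b d 1 = z by simp [av, c.b_zero, c.d0], ← e]
  symm
  refine Set.ncard_congr (fun a _ => n * a * n⁻¹) (fun a ha => ⟨(mem_normalizer_iff.mp hn a).mp ha.1,
    ha.2.1.trans (isConj_iff.mpr ⟨n, rfl⟩), ha.2.2.trans (isConj_iff.mpr ⟨n, conj_mul.symm⟩)⟩) (by simp)
    fun a ha => ⟨n⁻¹ * a * n⁻¹⁻¹, ⟨(mem_normalizer_iff.mp (inv_mem hn) a).mp ha.1, ha.2.1.trans (isConj_iff.mpr ⟨_, rfl⟩),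
      ha.2.2.trans (isConj_iff.mpr ⟨n⁻¹, by group⟩)⟩, by group⟩

theorem cent_le : centralizer (m.AG : Set G) ≤ m.AG := fun g hg =>
  let g' : centralizer ({z} : Set G) := ⟨g, mem_centralizer_singleton_iff.mpr (hg z (A0_AG m.z_A0)).symm⟩
  ⟨g', ⟨h.cent _ ⟨g', rfl⟩ fun i hi => c.pb i hi ▸ m.fix_of (c.bA i).1 (hg _ (A0_AG (c.bA i))),
    fun y hy => hg y (A0_AG hy)⟩, rfl⟩

theorem orb {χ : ℕ → Bool} (hχ : ∀ u < 2048, IsConj z (av z b d u) ↔ χ u = true) :
    ∃ k, 2 ^ 13 * 34560 ≤ k ∧ k * cntB2 32 64 χ = Nat.card (normalizer (m.AG : Set G)) := by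
  obtain ⟨K, k1, k2, k3⟩ := h.nf
  letI := MulAction.compHom G ((MulAut.conj (G := G)).comp (normalizer (m.AG : Set G)).subtype)
  have b1 := (stabilizer (normalizer (m.AG : Set G)) z).card_mul_index
  rw [index_stabilizer, show orbit (normalizer (m.AG : Set G)) z = {g | g ∈ (m.AG : Set G) ∧ IsConj z g} from Set.ext fun g =>
    ⟨fun ⟨n, e⟩ => e ▸ ⟨(mem_normalizer_iff.mp n.2 z).mp (A0_AG m.z_A0), isConj_iff.mpr ⟨n, rfl⟩⟩,
      fun e => let ⟨n, hn, f⟩ := h.fus g e.1 e.2; ⟨⟨n, hn⟩, f⟩⟩, ind_eq (fun _ => c.av_surj) c.av_mem (c.av_inj h) hχ] at b1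
  have b2 := m.card_inf (B := K.comap ρ)
  rw [map_comap_eq_self k1, show (K.comap ρ ⊓ ρ.ker).map (centralizer ({z} : Set G)).subtype = Q from le_antisymm
    (map_le_iff_le_comap.mpr fun y hy => (m.ker y).mp hy.2) fun q hq => have := (m.ker ⟨q, m.lx.le_centralizer hq⟩).mpr hq
      ⟨_, ⟨mem_comap.mpr (this ▸ one_mem _), this⟩, rfl⟩, m.card] at b2
  have b3 : (K.comap ρ).map (centralizer ({z} : Set G)).subtype ≤
      (stabilizer (normalizer (m.AG : Set G)) z).map (Subgroup.subtype _) := by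
    rintro _ ⟨y, hy, rfl⟩
    exact ⟨⟨y, m.AG_norm (mem_normalizer_of_conj_mem (k2 _ hy))⟩,
      mul_inv_eq_iff_eq_mul.mpr (mem_centralizer_singleton_iff.mp y.2), rfl⟩
  have b4 := card_le_of_le b3
  rw [card_map_of_injective (subtype_injective _), card_map_of_injective (subtype_injective _)] at b4
  exact ⟨_, by omega, b1⟩

end

variable (h : AH m)
include c h

theorem unif : ∃ d0 d1 β : Bool, (d0 = true → d1 = true) ∧ ∀ u < 2048, IsConj z (av z b d u) ↔ chi d0 d1 β u = true := by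
  obtain ⟨d0, d1, β, k1, k2⟩ := c.unif0 h.toAH0
  refine ⟨d0, d1, β, k1, fun u hu => ?_⟩
  by_cases h1 : u < 128
  · simp only [chi, ifB_eq, Nat.blt_eq]
    rw [if_pos h1]
    have e : av z b d u = z ^ u * b (u / 2) := by
      rw [av, Nat.div_eq_of_lt h1, c.d0, Nat.mod_eq_of_lt (by omega)]; simp
    have h2 := mul_mem (pow_mem m.z_A0 u) (c.bA (u / 2))
    rw [andB_iff, notB_iff, Nat.beq_eq]
    by_cases h0 : u = 0
    · simp [h0, av, c.b_zero, c.d0, m.lx.ne_one]
    · rw [e, h.sig _ h2 (u / 2) (by omega) (by rw [m.mul (pow_mem m.lx.mem _) (c.bA _).1,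
        (m.zero (pow_mem m.lx.mem _)).mpr (npow_mem_zpowers z u), zero_add, c.pb _ (by omega)]) fun f => h0 (c.av_inj h.toAH0
          (by simpa using hu) (by simp) (by rw [e, f]; simp [av, c.b_zero, c.d0]))]
      exact (and_iff_right h0).symm
  · exact k2 u hu h1

theorem final : (∀ u < 2048, IsConj z (av z b d u) ↔ chi false true true u = true) ∧
    (∀ e < 16, ¬ IsConj z (d e) ∧ IsConj z (z * d e)) ∧ ∀ e < 16, ∀ f < 16, (d e : G) * d f = z ^ (gm e ^^^ gm f ^^^ gm (e ^^^ f)) * d (e ^^^ f) := by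
  obtain ⟨d0, d1, β, h1, hχ⟩ := c.unif h
  obtain ⟨rfl, rfl⟩ := cnt1 d0 d1 β (c.count h.toAH0 hχ (by decide) ((by decide +kernel : ∀ a b c, chi a b c s0 = true) _ _ _)
    (by simp [s0, c.d0])) h1
  have a0 : ∀ e < 16, ¬ IsConj z (d e) ∧ IsConj z (z * d e) := fun e he => by
    have k := fun k (hk : k < 2) => (hχ (k + 2 * 0 + 128 * e) (by omega)).symm.trans (by rw [c.av_hi hk (by norm_num)])
    have l := (by decide +kernel : ∀ β, ∀ e < 16, ¬ chi false true β (0 + 2 * 0 + 128 * e) = true ∧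
      chi false true β (1 + 2 * 0 + 128 * e) = true) β e he
    rw [k 0 (by norm_num), k 1 (by norm_num)] at l
    simpa only [c.b_zero, mul_one, one_mul, pow_zero, pow_one] using l
  have a1 : ∀ j < 50, ∀ e < 16, ∀ f < 16, ∀ k, (d e : G) * d f = z ^ k * d (e ^^^ f) →
      (d (tab j e) : G) * d (tab j f) = z ^ k * d (tab j (e ^^^ f)) := fun j hj e he f hf k l => by
    obtain ⟨y, y1, y2, -⟩ := c.ymove h.toAH0 hj
    have : ∀ f < 16, y * d f * y⁻¹ = d (tab j f) := fun f hf => by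
      obtain ⟨k, hk, l⟩ := y2 f hf
      interval_cases k
      · simpa using l
      · exact ((a0 f hf).1 ((a0 _ (get_lt _ _ _)).2.trans (isConj_iff.mpr ⟨y, by simpa using l⟩).symm)).elim
    rw [← this e he, ← this f hf, ← this _ (Nat.xor_lt_two_pow (n := 4) he hf), conj_mul, l, ← conj_mul, ← conj_pow, y1]
  obtain ⟨c1, k1, l1⟩ := c.d_mul (e := 1) (f := f1) (by decide) (by decide)
  obtain ⟨c2, k2, l2⟩ := c.d_mul (e := 1) (f := f2) (by decide) (by decide)
  have a2 : ∀ f < 16, cc c1 c2 f < 2 ∧ (d 1 : G) * d f = z ^ cc c1 c2 f * d (1 ^^^ f) := fun f hf => by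
    have := (by decide +kernel : ∀ f < 16, f < 2 ∨ (anyB 50 fun j => force (ifB (H16.tb TY f) f1 f2) fun g => andB (Nat.beq (tab j 1) 1)
      (andB (Nat.beq (tab j g) f) (Nat.beq (tab j (Nat.xor 1 g)) (Nat.xor 1 f)))) = true) f hf
    rw [cc, ifB_eq]
    split_ifs with h2 <;> rw [Nat.blt_eq] at h2
    · interval_cases f
      · simp [c.d0]
      · simpa [c.d0] using congrArg Subtype.val (c.sq _ (c.dA 1))
    · obtain ⟨j, hj, e⟩ := anyB_iff.mp (this.resolve_left h2)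
      simp only [force_eq, andB_iff, Nat.beq_eq, ifB_eq] at e ⊢
      split_ifs at e ⊢
      exacts [⟨k1, by simpa only [e.1, e.2.1, show tab j (1 ^^^ f1) = 1 ^^^ f from e.2.2] using a1 j hj 1 (by decide) f1 (by decide) _ l1⟩,
        ⟨k2, by simpa only [e.1, e.2.1, show tab j (1 ^^^ f2) = 1 ^^^ f from e.2.2] using a1 j hj 1 (by decide) f2 (by decide) _ l2⟩]
  obtain ⟨rfl, rfl, rfl⟩ := cnt2 β c1 k1 c2 k2 (c.count h.toAH0 hχ (by decide) ((by decide +kernel : ∀ c, chi false true c 129 = true) _) a2)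
  refine ⟨hχ, a0, fun e he f hf => ?_⟩
  rcases (by decide +kernel : ∀ e < 16, ∀ f < 16, e = 0 ∨ (anyB 50 fun j => andB (Nat.beq (tab j 1) e) (anyB 16 fun g =>
    andB (Nat.beq (tab j g) f) (andB (Nat.beq (tab j (Nat.xor 1 g)) (Nat.xor e f)) (Nat.beq (cc 0 1 g)
      (Nat.xor (Nat.xor (gm e) (gm f)) (gm (Nat.xor e f))))))) = true) e he f hf with rfl | l
  · simp [c.d0, show gm 0 = 0 by decide +kernel]
  · simp only [anyB_iff, andB_iff, Nat.beq_eq] at l
    obtain ⟨j, hj, e1, g, hg, e2, e3, e4⟩ := l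
    simpa only [e1, e2, show tab j (1 ^^^ g) = e ^^^ f from e3, show cc 0 1 g = gm e ^^^ gm f ^^^ gm (e ^^^ f) from e4] using
      a1 j hj 1 (by decide) g hg _ (a2 g hg).2

theorem ms : ∃ t, MS z m.AG t := by
  obtain ⟨h1, -, h2⟩ := c.final h
  have g2 : ∀ e, gm e < 2 := fun e => get_lt _ _ _
  have x2 : ∀ {a b}, a < 2 → b < 2 → a ^^^ b < 2 := Nat.xor_lt_two_pow (n := 1)
  have dv : ∀ u e, (u ^^^ gm e) / 128 = u / 128 := fun u e => by
    rw [Nat.xor_div_two_pow (n := 7), Nat.div_eq_of_lt (by have := g2 e; omega : gm e < 2 ^ 7), Nat.xor_zero]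
  have lt : ∀ u < 2048, ∀ e, u ^^^ gm e < 2048 := fun u hu e => Nat.xor_lt_two_pow (n := 11) hu (by have := g2 e; omega)
  let a u := av z b d (u ^^^ gm (u / 128))
  have a0 : a 0 = 1 := by simp [a, av, c.b_zero, c.d0, show gm 0 = 0 by decide +kernel]
  have a1 : ∀ u < 2048, ∀ v < 2048, a u * a v = a (u ^^^ v) := fun u hu v hv => by
    have e : (u ^^^ v) / 128 = u / 128 ^^^ v / 128 := Nat.xor_div_two_pow (n := 7)
    refine (c.av_mul (x2 (x2 (g2 _) (g2 _)) (g2 _)) (by rw [dv, dv]; exact h2 _ (by omega) _ (by omega))).trans (congrArg _ ?_)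
    rw [e]; exact Nat.eq_of_testBit_eq fun i => by simp only [Nat.testBit_xor]; grind
  have a2 : ∀ g ∈ m.AG, ∃ u < 2048, a u = g := fun g hg =>
    let ⟨u, hu, e⟩ := c.av_surj hg; ⟨_, lt u hu (u / 128), by simpa [a, dv] using e⟩
  have a3 : ∀ u < 2048, ∀ v < 2048, a u = a v → u = v := fun u hu v hv e => by
    have f := c.av_inj h.toAH0 (by simpa using lt u hu _) (by simpa using lt v hv _) e
    have f' := congrArg (· / 128) f
    simp only [dv] at f'
    simpa [f'] using f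
  have a4 : ∀ u < 2048, IsConj z (a u) ↔ chi' u = true := fun u hu => by rw [chi', force_eq]; exact h1 _ (lt u hu _)
  refine ⟨fun S => a (syn (msk S)), ⟨fun S => c.av_mem _, fun S T => ?_, fun S e => ?_, fun g hg => ?_⟩, fun g hg n => ?_,
    c.cent_le h.toAH0, card_AG h.toAH0, ?_⟩
  · rw [a1 _ (syn_lt _) _ (syn_lt _), ← syn_xor, ← msk_toSet (Nat.xor_lt_two_pow (msk_lt S) (msk_lt T)), toSet_xor,
      toSet_msk, toSet_msk]
  · exact Iff.trans ⟨fun f => a3 _ (syn_lt _) 0 (by norm_num) (f.trans a0.symm), fun f => f ▸ a0⟩ (syn_zero e)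
  · obtain ⟨u, hu, rfl⟩ := a2 g hg
    obtain ⟨S, e, rfl⟩ := syn_surj hu
    exact ⟨S, e, rfl⟩
  · obtain ⟨u, hu, rfl⟩ := a2 g hg
    rw [a4 u hu, syn_duad hu fun e => n (e ▸ a0)]
    exact exists_congr fun S => and_congr_right fun _ => ⟨congrArg a, a3 _ (syn_lt _) u hu⟩
  · obtain ⟨k, k1, k2⟩ := c.orb h.toAH0 h1
    rw [show cntB2 32 64 (chi false true true) = 1771 by decide +kernel] at k2
    omega

end Co

end Cfsg.Agent.LL.U6
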