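import Cfsg.Agent.H21.Fi11

/-! The subgroup `2 ^ 11 . M24` of a group of large Fischer type. -/

set_option autoImplicit false
set_option maxRecDepth 100000
set_option linter.style.haveILetI false

namespace Cfsg.Agent.LL

open Cfsg Cfsg.Agent.H16 Cfsg.Agent.H3 Cfsg.Agent.H10 MulAction Mdl Subgroup
open scoped commutatorElement Pointwise symmDiff

variable {G : Type*} [Group G] {z : G} {Q A : Subgroup G}

/-- every Sylow `2`-subgroup has a unique elementary abelian subgroup of order `2 ^ 11`, a conjugate of `A` -/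
structure U11 (A : Subgroup G) : Prop where
  sq : ∀ a ∈ A, a * a = 1
  card : Nat.card A = 2 ^ 11
  syl : ∀ T : Sylow 2 G, ∃ g : G, A ≤ MulAut.conj g • (T : Subgroup G) ∧
    ∀ B ≤ MulAut.conj g • (T : Subgroup G), (∀ b ∈ B, b * b = 1) → 2 ^ 11 ≤ Nat.card B → B = A

theorem sq_conj {B : Subgroup G} (h : ∀ b ∈ B, b * b = 1) (g : G) : ∀ b ∈ MulAut.conj g • B, b * b = 1 := by
  rintro _ ⟨b, hb, rfl⟩
  exact (map_mul (MulAut.conj g) b b).symm.trans (by rw [h b hb, map_one])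

theorem two_of_sq {B : Subgroup G} (h : ∀ b ∈ B, b * b = 1) : IsPGroup 2 B := fun b =>
  ⟨1, Subtype.ext (by rw [pow_one, pow_two]; exact h b b.2)⟩

namespace U11
variable (h : U11 A)
include h

theorem exists_conj {S : Subgroup G} (hS : IsPGroup 2 S) :
    ∃ g : G, ∀ B ≤ S, (∀ b ∈ B, b * b = 1) → 2 ^ 11 ≤ Nat.card B → MulAut.conj g • B = A := by
  obtain ⟨T, hT⟩ := hS.exists_le_sylow
  obtain ⟨g, -, e⟩ := h.syl T
  exact ⟨g, fun B h1 h2 h3 => e _ (conj_smul_mono g (h1.trans hT)) (sq_conj h2 g) (by rwa [card_conj_smul])⟩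

theorem exists_eq {B : Subgroup G} (h1 : ∀ b ∈ B, b * b = 1) (h2 : 2 ^ 11 ≤ Nat.card B) : ∃ g : G, B = MulAut.conj g • A :=
  let ⟨g, e⟩ := h.exists_conj (two_of_sq h1); ⟨g⁻¹, by rw [← e B le_rfl h1 h2, smul_smul]; simp⟩

theorem uniq {S B C : Subgroup G} (hS : IsPGroup 2 S) (a1 : B ≤ S) (a2 : ∀ b ∈ B, b * b = 1) (a3 : 2 ^ 11 ≤ Nat.card B)
    (b1 : C ≤ S) (b2 : ∀ b ∈ C, b * b = 1) (b3 : 2 ^ 11 ≤ Nat.card C) : B = C :=
  let ⟨g, e⟩ := h.exists_conj hS; smul_left_cancel (MulAut.conj g) ((e B a1 a2 a3).trans (e C b1 b2 b3).symm)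

theorem fusion [Finite G] {B : Subgroup G} (h1 : ∀ b ∈ B, b * b = 1) (h2 : 2 ^ 11 ≤ Nat.card B) {a g : G} (ha : a ∈ B)
    (hb : g * a * g⁻¹ ∈ B) : ∃ n ∈ normalizer (B : Set G), n * a * n⁻¹ = g * a * g⁻¹ := by
  haveI : Fact (Nat.Prime 2) := ⟨Nat.prime_two⟩
  have k : ∀ {C : Subgroup G}, (∀ b ∈ C, b * b = 1) → g * a * g⁻¹ ∈ C → C ≤ centralizer {g * a * g⁻¹} := fun h hc _ hx =>
    mem_centralizer_singleton_iff.mpr (H11.comm_of_sq_eq_one h hx hc)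
  obtain ⟨P, hP, e⟩ := exists_sylowIn_le (two_of_sq h1) (k h1 hb)
  obtain ⟨c, hc, f⟩ := hP.exists_conj_le (two_of_sq (sq_conj h1 g)) (k (sq_conj h1 g) (conj_mem_conj_smul.mpr ha))
  have := h.uniq hP.isPGroup f (sq_conj (sq_conj h1 g) c) (by rwa [card_conj_smul, card_conj_smul]) e h1 h2
  rw [smul_smul, ← map_mul] at this
  refine ⟨c * g, mem_normalizer_of_conj_mem (conj_smul_le_iff.mp this.le), ?_⟩
  rw [show c * g * a * (c * g)⁻¹ = c * (g * a * g⁻¹) * c⁻¹ by group, mem_centralizer_singleton_iff.mp hc, mul_inv_cancel_right]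

theorem thompson [Finite G] (T : Sylow 2 G) : ∃ g : G, thompsonSubgroupOf 2 (T : Subgroup G) = MulAut.conj g • A := by
  obtain ⟨g, h1, -⟩ := h.syl T
  have h2 : MulAut.conj g⁻¹ • A ≤ T := conj_smul_le_iff.mpr fun x hx => by simpa using mem_conj_smul.mp (h1 hx)
  have h3 := sq_conj h.sq g⁻¹
  have h4 := (card_conj_smul A g⁻¹).trans h.card
  have h5 := (Nat.card_congr (subgroupOfEquivOfLe h2).toEquiv).trans h4
  have h6 : ∀ B : Subgroup (T : Subgroup G), IsElementaryAbelian 2 B → 2 ^ 11 ≤ Nat.card B →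
      B = (MulAut.conj g⁻¹ • A).subgroupOf T := fun B hB e => map_injective (subtype_injective _) ((h.uniq T.2 (map_subtype_le B)
    (by rintro _ ⟨b, hb, rfl⟩; rw [← map_mul, ← pow_two, hB.2 b hb, map_one])
    (by rwa [card_map_of_injective (subtype_injective _)]) h2 h3 h4.ge).trans (map_subgroupOf_eq_of_le h2).symm)
  have h7 : ∀ a ∈ (MulAut.conj g⁻¹ • A).subgroupOf T, a * a = 1 := fun a ha => Subtype.ext (h3 a ha)
  have h8 : IsElementaryAbelian 2 ((MulAut.conj g⁻¹ • A).subgroupOf T) :=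
    ⟨⟨⟨fun a b => Subtype.ext (H11.comm_of_sq_eq_one h7 a.2 b.2)⟩⟩, fun a ha => (pow_two a).trans (h7 a ha)⟩
  refine ⟨g⁻¹, ?_⟩
  rw [thompsonSubgroupOf, thompsonSubgroup, show maxElementaryAbelianSubgroups 2 (T : Subgroup G) = {_} from
    Set.eq_singleton_iff_unique_mem.mpr ⟨⟨h8, fun B hB => by_contra fun n => n (h6 B hB (h5 ▸ (not_le.mp n).le) ▸ le_rfl)⟩,
      fun B hB => h6 B hB.1 (h5 ▸ hB.2 _ h8)⟩, sSup_singleton, map_subgroupOf_eq_of_le h2]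

end U11

theorem MS.elem {t : Finset GolayPt → G} (h : MS z A t) : IsElementaryAbelian 2 A :=
  ⟨⟨⟨fun a b => Subtype.ext (h.comm a.2 b.2)⟩⟩, fun a ha => (pow_two a).trans (h.A_sq ha)⟩

namespace U6
variable {ρ : centralizer ({z} : Set G) →* Γ} {p : G → V6} [Finite G]

theorem FT.u11 (m : FT z Q ρ p) {P : Subgroup Γ} (hP : SylowIn 2 P ρ.range) (hF : F16 ≤ P) (h2 : ∀ a ∈ m.AA, a * a = 1)
    (hc : Nat.card m.AA = 2 ^ 11) (hle : ∀ B : Subgroup (centralizer ({z} : Set G)), B.map ρ ≤ P → (∀ b ∈ B, b * b = 1) →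
      2 ^ 11 ≤ Nat.card B → B ≤ m.AA) : U11 m.AG := by
  haveI : Fact (Nat.Prime 2) := ⟨Nat.prime_two⟩
  have h3 : Nat.card m.AG = 2 ^ 11 := (card_map_of_injective (subtype_injective _)).trans hc
  refine ⟨by rintro _ ⟨a, ha, rfl⟩; exact congrArg Subtype.val (h2 a ha), h3, fun T => ?_⟩
  obtain ⟨T0, h0⟩ := ((hP.isPGroup.comap_of_ker_isPGroup ρ ((Subgroup.ext m.ker : ρ.ker = Q.subgroupOf _) ▸
    m.lx.isPGroup.comap_subtype)).map (centralizer ({z} : Set G)).subtype).exists_le_sylow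
  have h4 : (T0 : Subgroup G) ≤ centralizer {z} := le_normalizer.trans (m.lx.normalizer_le_of_le T0.2 fun q hq =>
    h0 ⟨⟨q, m.lx.le_centralizer hq⟩, mem_comap.mpr (by rw [(m.ker _).mpr hq]; exact one_mem _), rfl⟩)
  have h5 := hP.eq_of_le (T0.2.comap_subtype.map ρ) (map_le_range _ _)
    fun e he => let ⟨c, f⟩ := hP.le he; ⟨c, h0 ⟨c, mem_comap.mpr (f ▸ he), rfl⟩, f⟩
  obtain ⟨g, rfl⟩ := exists_smul_eq G T T0
  refine ⟨g, (map_mono (inf_le_left.trans (comap_mono hF))).trans h0, fun B b1 b2 b3 => eq_of_le_of_card_ge ?_ (h3 ▸ b3)⟩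
  rw [← map_subgroupOf_eq_of_le (b1.trans h4)]
  exact map_mono (hle _ ((map_mono (comap_mono b1)).trans h5.le) (fun b hb => Subtype.ext (b2 b hb))
    (by rwa [Nat.card_congr (subgroupOfEquivOfLe (b1.trans h4)).toEquiv]))

theorem NF_norm : NormBy NF F16 := fun _ hk _ => (mem_normalizer_iff.mp (clo_le (fun a ha =>
  let ⟨u, hu, e⟩ := List.mem_map.mp ha
  let ⟨g, _, r1, r2⟩ := NF_top u hu
  ⟨g, mem_normalizer_of_conj_mem (F16_ch.conj_mem F16_clo (U := NFS) (by decide +kernel) hu r1 r2), e ▸ r1⟩) hk) _).mp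

theorem FT.fi (m : FT z Q ρ p) (hr : ρ.range = H1) (hw : ∃ g : G, g * z * g⁻¹ ∈ Q ∧ g * z * g⁻¹ ≠ z) :
    U11 m.AG ∧ ∃ t, MS z m.AG t := by
  have u := m.u11 (hr ▸ sylowIn_of_card (p := 2) (k := 8) (m := 76545) Tb_H1 Tb_card H1_card (by decide)) F16_Tb
    (fun _ => m.AA_sq hr) (m.card_AA hr) fun _ => m.le_AA
  obtain ⟨x, b, d, c⟩ := m.exists_co (hr.ge (K0_H1 (Z_K0 (mem_zpowers _)))) (m.AA_map hr) fun _ => m.AA_sq hr
  refine ⟨u, c.ms ⟨⟨m.AA_map hr, fun _ => m.AA_sq hr, fun j hj => ?_,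
    ⟨NF, hr ▸ NF_le (H1_ch.inL NF_in (by decide +kernel)), NF_norm, NF_card.ge⟩, fun a ha h => ?_,
    fun g hg h => ?_⟩, fun a ha i hi e n => ?_⟩⟩
  rotate_right
  · have := (by decide +kernel : ∀ i < 64, tb SG i = true ↔ fx i = 0 ∨ inOrb o K10 (fx i) = true) i hi
    rw [this]
    refine ⟨fun h => ?_, fun h => h.elim (fun h => ?_) fun h => ?_⟩
    · by_cases f : a = z
      · exact Or.inl (vc_inj (fx_lt _) (by norm_num) (by rw [← e, f, m.p_z, vc_zero]))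
      · obtain ⟨g, hg, f⟩ := m.to_v1' hr ha.1 h f
        exact Or.inr (inOrb_of K1_ch P1' (inv_mem hg) (P_iff.mpr ⟨fx_lt _, by simp [← e, ← f]⟩))
    · rw [(m.lx.mem_z.mp ((m.zero ha.1).mp (by rw [e, h, vc_zero]))).resolve_left n]
    · obtain ⟨g, hg, f⟩ := inOrb_spec (K1_ch.tabIn K10 (by simp [K1L])) P1' (P_vc (fx_lt i)) h
      exact m.isConj_of hr hw ha.1 ⟨g⁻¹, inv_mem hg, by simp [e, ← f]⟩
  · obtain ⟨g, hg, r, -⟩ := (H1_ch.prL (prL_top (S := YL) (by decide +kernel)) (by decide +kernel)).nth j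
    exact ⟨g, hr.ge hg, YL_ok hj r⟩
  · obtain ⟨g, rfl⟩ := isConj_iff.mp h
    exact u.fusion u.sq u.card.ge (Co.A0_AG m.z_A0) ha
  · obtain ⟨a, r, e⟩ := X1_ch.forall (Lf := fun a => force a fun a => impB (allB 6 fun i => force (fx (bit i)) fun v =>
      Nat.beq (mul12Ap a v) v) (N.sift o F16L a)) (by decide +kernel) (k := g)
      ⟨hr.le hg, show g (vc 15) = vc 15 from (show fx 1 = 15 by decide +kernel) ▸ h 1 (by norm_num)⟩
    refine F16_ch.sift r (impB_iff.mp (force_eq _ _ ▸ e) (allB_iff.mpr fun i hi => ?_))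
    rw [force_eq, Nat.beq_eq]
    exact vc_inj (R_ap r (fx_lt _)).1 (fx_lt _) ((R_ap r (fx_lt _)).2.symm.trans (h _ (by
      rw [bit_eq]; exact Nat.pow_lt_pow_right (by norm_num) hi |>.trans_eq (by norm_num))))

theorem fi_main {Q : Subgroup (centralizer ({z} : Set G))} [Q.Normal] (h : IsOfLargeFischerTypeAt z Q) (T : Sylow 2 G) :
    (∃ A : Subgroup G, U11 A) ∧ (∃ a ∈ thompsonSubgroupOf 2 (T : Subgroup G), IsConj z a) ∧
      ∃ t, MS z (thompsonSubgroupOf 2 (T : Subgroup G)) t := by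
  obtain ⟨ρ, p, m, hr⟩ := exists_FT h
  obtain ⟨u, t, ht⟩ := m.fi hr (setting_nwc h.1)
  obtain ⟨g, e⟩ := u.thompson T
  rw [e]
  exact ⟨⟨_, u⟩, ⟨_, conj_mem_conj_smul.mpr (Co.A0_AG m.z_A0), isConj_iff.mpr ⟨g, rfl⟩⟩, _, ht.conj g⟩

end U6

end Cfsg.Agent.LL
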