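import Cfsg.Agent.H21.Fi1

/-! Coordinates for groups of large Fischer type. -/

set_option autoImplicit false
set_option maxRecDepth 100000
set_option linter.style.haveILetI false

namespace Cfsg.Agent.LL.U6

open Cfsg Cfsg.Agent.H16 Cfsg.Agent.H3 Cfsg.Agent.H10 MulAction Mdl Subgroup Module
open scoped commutatorElement Pointwise

open Classical in
/-- the element with code `a` -/
noncomputable def el (a : ℕ) : Γ := if h : ∃ g, M.R a g then h.choose else 1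

theorem R_el {a : ℕ} {g : Γ} (r : M.R a g) : M.R a (el a) := by
  have h : ∃ g, M.R a g := ⟨g, r⟩
  rw [el, dif_pos h]; exact h.choose_spec

def cP : ℕ := (nat_lit 0x4100000082000000208000001040000008200000041000000100000002000000008000000040000000200000001)
def TT : List (ℕ × ℕ) := [(cT, cT), (cF, cF), (cP, cP)]

theorem TT_R {t : ℕ × ℕ} (h : t ∈ TT) : M.R t.1 (el t.1) ∧ M.R t.2 (el t.1)⁻¹ :=
  let ⟨_, _, r, s⟩ := prL_top (S := TT) (by decide +kernel) t h; ⟨R_el r, R_fun r (R_el r) ▸ s⟩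

noncomputable abbrev τ : Γ := el cT
noncomputable abbrev φ : Γ := el cF
noncomputable abbrev ψ : Γ := el cP
theorem mT : (cT, cT) ∈ TT := List.mem_cons_self
theorem mF : (cF, cF) ∈ TT := List.mem_cons_of_mem _ List.mem_cons_self
theorem mP : (cP, cP) ∈ TT := List.mem_cons_of_mem _ (List.mem_cons_of_mem _ List.mem_cons_self)
theorem R_τ : M.R cT τ := (TT_R mT).1
theorem R_φ : M.R cF φ := (TT_R mF).1
theorem R_ψ : M.R cP ψ := (TT_R mP).1
theorem ψ_eq : ψ = τ * φ := M.eq_of R_ψ (M.R_mul R_τ R_φ) (by decide +kernel)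

theorem TT_inv {t : ℕ × ℕ} (h : t ∈ TT) : (el t.1)⁻¹ = el t.1 :=
  R_fun (TT_R h).2 ((by decide : ∀ t ∈ TT, t.2 = t.1) t h ▸ (TT_R h).1)

theorem TT_norm {t : ℕ × ℕ} (h : t ∈ TT) : ∀ x ∈ K0, el t.1 * x * (el t.1)⁻¹ ∈ K0 :=
  K0_ch.conj_mem K0_clo (U := TT) (by decide +kernel) h (TT_R h).1 (TT_R h).2

/-- the isometries of the quadratic form -/
def OG : Subgroup Γ where
  carrier := {g | (∀ u v, g (u + v) = g u + g v) ∧ ∀ v, hf (g v) (g v) = hf v v}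
  one_mem' := ⟨fun _ _ => rfl, fun _ => rfl⟩
  mul_mem' := fun {a b} ha hb => ⟨fun u v => (congrArg a (hb.1 u v)).trans (ha.1 _ _), fun v => (ha.2 _).trans (hb.2 v)⟩
  inv_mem' := fun {a} ha => ⟨fun u v => a.injective (by simp [ha.1]), fun v => by rw [← ha.2]; simp⟩

theorem GU_OG : GUg ≤ OG := fun _ h => ⟨GU_add h, fun v => GU_hf h v v⟩

theorem φ_OG : φ ∈ OG := ⟨R_add R_φ, fun v => by
  obtain ⟨x, hx, e⟩ := en_all (fun x => Nat.beq (herm4 6 (mul12Ap cF x) (mul12Ap cF x)) (herm4 6 x x))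
    (by decide +kernel) v
  obtain ⟨h, rfl⟩ := P_iff.mp hx
  rw [(R_ap R_φ h).2, hf_vc, hf_vc, Nat.eq_of_beq_eq_true e]⟩

theorem φ_W : φ * (Wm * Wm) * φ⁻¹ = Wm :=
  M.eq_of (R_cj3 R_φ (TT_R mF).2 R_W2) R_W (by decide +kernel)

theorem norm_Z {g : Γ} (h : g ∈ normalizer (K0 : Set Γ)) : g * Wm * g⁻¹ ∈ Z := by
  obtain ⟨π, hs, hk⟩ := exists_U
  have h1 := (mem_normalizer_iff.mp h Wm).mp (Z_K0 (mem_zpowers _))
  refine (hk ⟨_, h1⟩).mp ?_
  rw [← mem_bot, ← center_U, Subgroup.mem_center_iff]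
  intro y
  obtain ⟨y, rfl⟩ := hs y
  have := W_comm (SUg_le (K0_SU ((mem_normalizer_iff.mp (inv_mem h) y).mp y.2)))
  rw [← map_mul, ← map_mul]
  refine congrArg π (Subtype.ext ?_)
  calc y * (g * Wm * g⁻¹) = g * (g⁻¹ * y * g⁻¹⁻¹ * Wm) * g⁻¹ := by group
    _ = _ := by rw [this]; simp [mul_assoc]

theorem GU_cases {g : Γ} (hg : g ∈ GUg) (h : g ∈ normalizer (K0 : Set Γ)) : g ∈ K0 ∨ τ * g ∈ K0 := by
  obtain ⟨n, hn, m, hm, rfl⟩ := norm_K0 hg h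
  obtain ⟨t, ht, u, r, -, e⟩ := cosets M0_ch (S := MonS) (T := [(o.one, o.one), (cT, cT)]) Mon_top
    (prL_top (by decide +kernel)) List.mem_cons_self (by decide +kernel) hm
  rcases List.mem_pair.mp ht with rfl | rfl
  · rw [R_fun r M.R_one, inv_one, one_mul] at e
    exact Or.inl (mul_mem hn (M0_K0 e))
  · rw [R_fun r R_τ] at e
    refine Or.inr ?_
    convert mul_mem (TT_norm mT n hn) (TT_inv mT ▸ M0_K0 e) using 1; group

theorem norm_cases {g : Γ} (hg : g ∈ OG) (h : g ∈ normalizer (K0 : Set Γ)) : g ∈ K0 ∨ ∃ t ∈ TT, el t.1 * g ∈ K0 := by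
  have k : ∀ g ∈ OG, g * Wm * g⁻¹ = Wm → g ∈ GUg := fun g hg e =>
    mem_GUg hg.1 (fun v => DFunLike.congr_fun (mul_inv_eq_iff_eq_mul.mp e) v) hg.2
  rcases mem_Z.mp (norm_Z h) with e | e | e
  · have := orderOf_W
    rw [conj_eq_one_iff.mp e, orderOf_one] at this; omega
  · exact (GU_cases (k g hg e) h).imp_right fun e => ⟨_, mT, e⟩
  · refine Or.inr ((GU_cases (k _ (mul_mem φ_OG hg) ?_) (mul_mem (mem_normalizer_of_conj_mem (TT_norm mF)) h)).elim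
      (fun e => ⟨_, mF, e⟩) fun e => ⟨_, mP, by rwa [← mul_assoc, ← ψ_eq] at e⟩)
    refine Eq.trans ?_ φ_W
    rw [← e]; group

theorem hf01 (v : V6) : hf v v = 0 ∨ hf v v = 1 := by
  have h1 : ∀ a : F4, a * a ^ 2 = 0 ∨ a * a ^ 2 = 1 := by decide
  have h2 : ∀ a b : F4, a = 0 ∨ a = 1 → b = 0 ∨ b = 1 → a + b = 0 ∨ a + b = 1 := by decide
  exact Finset.sum_induction (s := Finset.univ) _ (fun a => a = 0 ∨ a = 1) h2 (Or.inl rfl) fun i _ => h1 (v i)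

section
variable {G : Type*} [Group G]

/-- coordinates on `Q / Z(Q)` -/
structure FT (z : G) (Q : Subgroup G) (ρ : centralizer ({z} : Set G) →* Γ) (p : G → V6) : Prop where
  lx : LX Q z
  card : Nat.card Q = 2 ^ 13
  ker : ∀ h, ρ h = 1 ↔ (h : G) ∈ Q
  mul : ∀ {x y}, x ∈ Q → y ∈ Q → p (x * y) = p x + p y
  surj : ∀ v, ∃ x ∈ Q, p x = v
  zero : ∀ {x}, x ∈ Q → (p x = 0 ↔ x ∈ zpowers z)
  act : ∀ (h : centralizer ({z} : Set G)) {x : G}, x ∈ Q → p (h * x * (h : G)⁻¹) = ρ h (p x)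
  sq : ∀ {x}, x ∈ Q → (x * x = 1 ↔ hf (p x) (p x) = 0)

variable {z : G} {Q : Subgroup G} {ρ : centralizer ({z} : Set G) →* Γ} {p : G → V6}

theorem FT.conj_mem (m : FT z Q ρ p) (h : centralizer ({z} : Set G)) {x : G} (hx : x ∈ Q) : h * x * (h : G)⁻¹ ∈ Q :=
  m.lx.conj_mem (mem_centralizer_singleton_iff.mp h.2) hx

theorem FT.og (m : FT z Q ρ p) (h : centralizer ({z} : Set G)) : ρ h ∈ OG := by
  refine ⟨fun u v => ?_, fun v => ?_⟩
  · obtain ⟨x, hx, rfl⟩ := m.surj u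
    obtain ⟨y, hy, rfl⟩ := m.surj v
    rw [← m.mul hx hy, ← m.act h hx, ← m.act h hy, ← m.act h (mul_mem hx hy),
      ← m.mul (m.conj_mem h hx) (m.conj_mem h hy), conj_mul]
  · obtain ⟨x, hx, rfl⟩ := m.surj v
    have := m.sq (m.conj_mem h hx)
    rw [conj_mul, conj_eq_one_iff, m.sq hx, m.act h hx] at this
    rcases hf01 (p x) with a | a <;> rcases hf01 (ρ h (p x)) with b | b <;> simp_all

theorem FT.shift (m : FT z Q ρ p) {a : Γ} (ha : a ∈ OG) :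
    FT z Q ((MulAut.conj a).toMonoidHom.comp ρ) fun x => a (p x) := by
  refine ⟨m.lx, m.card, fun h => by simpa using m.ker h, fun hx hy => by rw [m.mul hx hy, ha.1], fun v => ?_,
    fun hx => ?_, fun h x hx => by simp [m.act h hx], fun hx => by rw [m.sq hx, ha.2]⟩
  · obtain ⟨x, hx, e⟩ := m.surj (a⁻¹ v)
    exact ⟨x, hx, by simp [e]⟩
  · have : a 0 = 0 := by simpa using ha.1 0 0
    rw [← m.zero hx, ← this, a.injective.eq_iff, this]

theorem exists_F0 [Finite G] (hl : LX Q z) (hc : Nat.card Q = 2 ^ 13) {N M : Subgroup (centralizer ({z} : Set G))}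
    [N.Normal] (h1 : Q.subgroupOf _ ≤ N) (h2 : N ≤ M) (h3 : Nat.card N = 3 * Nat.card Q)
    (u : M ⧸ N.subgroupOf M ≃* U43) : ∃ ρ p, FT z Q ρ p ∧ Wm ∈ N.map ρ := by
  classical
  obtain ⟨n, c, hz⟩ := hl.toSymT.exists_ES
  have nd := c.nd_of_isExtraspecial hl.isExtraspecial
  have hn := c.card_eq_pow
  rw [hc] at hn
  replace hn := Nat.pow_right_injective (le_refl 2) hn
  let σ := nd.autHom.comp (Q.normalizerMonoidHom.comp (inclusion hl.nQ))
  have cm : ∀ (h : centralizer ({z} : Set G)) {x}, x ∈ Q → h * x * (h : G)⁻¹ ∈ Q := fun h x =>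
    hl.conj_mem (mem_centralizer_singleton_iff.mp h.2)
  have act : ∀ h x hx, σ h (c.π ⟨x, hx⟩) = c.π ⟨_, cm h hx⟩ := fun h x hx => nd.autHom_π _ _
  have ker : ∀ h, σ h = 1 ↔ (h : G) ∈ Q := fun h => ⟨fun e => hl.hF h (mem_centralizer_singleton_iff.mp h.2) fun q hq =>
    (hz (⟨_, cm h hq⟩ * ⟨q, hq⟩⁻¹)).mp (by rw [c.mem_Z, c.π_mul, ← act h q hq, e, c.π_inv]; simp), fun e =>
    LinearEquiv.ext fun v => by
      obtain ⟨x, rfl⟩ := c.surj v
      rw [act h x x.2]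
      exact (congrArg c.π (c.conj_eq ⟨h, e⟩ x)).trans (by simp [c.π_mul])⟩
  have hk : σ.ker = Q.subgroupOf _ := Subgroup.ext ker
  obtain ⟨π, hs, k3, kπ⟩ := exists_pi σ (hk ▸ h1) h2
    (by rw [hk, Nat.card_congr (subgroupOfEquivOfLe hl.le_centralizer).toEquiv, h3]) u
  obtain ⟨⟨x, hx⟩, h1⟩ := (Subgroup.ne_bot_iff_exists_ne_one (H := π.ker)).mp fun e => by simp [e] at k3
  have h12 : finrank (ZMod 2) (Fin n → ZMod 2) = 12 := by omega
  obtain ⟨e, e1, e2⟩ := exists_herm h12 c.Q (fun v hv => nd v fun w => c.polar_Q v w ▸ hv w) x.1.toLinearMap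
    (fpf h12 (LinearEquiv.automorphismGroup.toLinearMapMonoidHom.comp (M.map σ).subtype)
      (fun g h => Subtype.ext (LinearEquiv.toLinearMap_injective h)) π hs k3 hx fun h => h1 (Subtype.ext h))
    fun v => by obtain ⟨y, -, e⟩ := x.2; exact e ▸ nd.Q_autHom _ v
  let ρ := e.toEquiv.permCongrHom.toMonoidHom.comp ((toPermHom _ _).comp σ)
  have ρa : ∀ h v, ρ h (e v) = e (σ h v) := fun h v => by simp [ρ]
  let p : G → V6 := fun x => if h : x ∈ Q then e (c.π ⟨x, h⟩) else 0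
  have pa : ∀ {x} (h : x ∈ Q), p x = e (c.π ⟨x, h⟩) := fun h => dif_pos h
  refine ⟨ρ, p, ⟨hl, hc, fun h => ?_, fun hx hy => ?_, fun v => ?_, fun hx => ?_, fun h x hx => ?_, fun hx => ?_⟩, ?_⟩
  · rw [← ker]
    exact ⟨fun h => LinearEquiv.ext fun v => e.injective (by rw [← ρa, h]; rfl), fun h => Equiv.ext fun v => by
      obtain ⟨v, rfl⟩ := e.surjective v
      rw [ρa, h]; rfl⟩
  · rw [pa hx, pa hy, pa (mul_mem hx hy), ← map_add, ← c.π_mul]; rfl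
  · obtain ⟨x, h⟩ := c.surj (e.symm v)
    exact ⟨x, x.2, by rw [pa x.2, h, e.apply_symm_apply]⟩
  · rw [pa hx, map_eq_zero_iff _ e.injective, ← c.mem_Z, hz]
  · rw [pa hx, pa (cm h hx), ρa, act]
  · rw [pa hx, ← e2, ← c.sq_eq_one_iff, pow_two, Subtype.ext_iff]; rfl
  · obtain ⟨y, hy, h⟩ := (kπ x).mp hx
    refine ⟨y, hy, Equiv.ext fun v => ?_⟩
    obtain ⟨v, rfl⟩ := e.surjective v
    rw [ρa, h, Wm_apply, ← e1]; rfl

theorem exists_F1 [Finite G] (m : FT z Q ρ p) {N M : Subgroup (centralizer ({z} : Set G))}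
    [N.Normal] (h1 : Q.subgroupOf _ ≤ N) (h2 : N ≤ M) (h3 : Nat.card N = 3 * Nat.card Q)
    (u : M ⧸ N.subgroupOf M ≃* U43) (hW : Wm ∈ N.map ρ) : ∃ ρ p, FT z Q ρ p ∧ M.map ρ = K0 := by
  have hk : ρ.ker = Q.subgroupOf _ := Subgroup.ext m.ker
  obtain ⟨π, hs, k3, kπ⟩ := exists_pi ρ (hk ▸ h1) h2
    (by rw [hk, Nat.card_congr (subgroupOfEquivOfLe m.lx.le_centralizer).toEquiv, h3]) u
  have hG : M.map ρ ≤ GUg := fun g hg => by
    have := congrArg Subtype.val (ker_central π hs k3 ((kπ ⟨_, map_mono h2 hW⟩).mpr hW) ⟨g, hg⟩)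
    obtain ⟨y, -, rfl⟩ := id hg
    exact mem_GUg (m.og y).1 (fun v => DFunLike.congr_fun this v) (m.og y).2
  obtain ⟨dt, hd⟩ := exists_det
  obtain ⟨g, hg, k, hk, e⟩ := cls (fun g hg => (hd _).mp (hom_triv π hs (dt.comp (inclusion hG)) (fun x hx =>
    (hd _).mpr (K0_SU (Z_K0 ((ker_of hG (zpowers_le.mpr (map_mono h2 hW)) π hs k3 x).mp hx))))
    (by rw [Nat.card_units, Nat.card_eq_fintype_card, card_F4]; omega) ⟨g, hg⟩)) π hs k3
  refine ⟨_, _, m.shift (GU_OG (mul_mem (inv_mem (δz_GU hk)) (SUg_le hg))), ?_⟩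
  rw [← map_map, map_conj_eq_smul, ← conj_smul_conj_smul, ← e, conj_inv_smul_conj_smul]

theorem exists_F2 [Finite G] {Q : Subgroup (centralizer ({z} : Set G))} [Q.Normal] (h : IsOfLargeFischerTypeAt z Q) :
    ∃ ρ p, FT z (Q.map (centralizer ({z} : Set G)).subtype) ρ p ∧ K0 ≤ ρ.range ∧
      ∃ t ∈ TT, el t.1 ∈ ρ.range ∧ ∀ h, ρ h ∈ K0 ∨ el t.1 * ρ h ∈ K0 := by
  obtain ⟨⟨hz, hF, hQ, hc, -⟩, N, M, _, _, h1, h2, h3, ⟨K, _, _, hK, ⟨u⟩⟩, h4⟩ := h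
  obtain ⟨f⟩ := H12.nonempty_ringEquiv_of_natCard_eq (F := K) (K := FQ 3 2)
    (by rw [Nat.card_eq_fintype_card, Nat.card_eq_fintype_card, hK, card_FQ]; rfl)
  have eq := Q.equivMapOfInjective _ (centralizer ({z} : Set G)).subtype_injective
  have e1 := Nat.card_congr eq.toEquiv
  have e2 := comap_map_eq_self_of_injective (centralizer ({z} : Set G)).subtype_injective Q
  obtain ⟨ρ, p, m, hW⟩ := exists_F0 (lx_of_fstar hz (by rw [FstarOf, hF]) (H26.isExtraspecial_congr hQ eq))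
    (e1 ▸ hc) (e2.le.trans h1) h2 (e1 ▸ h3) (u.trans (H12.psuCongr 4 3 f))
  obtain ⟨ρ, p, m, hM⟩ := exists_F1 m (e2.le.trans h1) h2 (e1 ▸ h3) (u.trans (H12.psuCongr 4 3 f)) hW
  have k : ∀ h, ρ h ∈ K0 ↔ h ∈ M := fun h => by
    rw [← hM, ← mem_comap, comap_map_eq, sup_eq_left.mpr fun x hx => h2 (h1 (e2.le ((m.ker x).mp hx)))]
  have hle : K0 ≤ ρ.range := hM ▸ map_le_range ρ M
  obtain ⟨a, ha⟩ : ∃ a, a ∉ M := by
    by_contra! hn
    rw [(eq_top_iff' M).mpr hn, index_top] at h4; omega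
  obtain ⟨t, ht, e⟩ := (norm_cases (m.og a) (mem_normalizer_of_conj_mem fun x hx => by
    obtain ⟨y, rfl⟩ := hle hx
    rw [← map_inv, ← map_mul, ← map_mul, k]
    exact Normal.conj_mem ‹_› y ((k y).mp hx) a)).resolve_left (mt (k a).mp ha)
  refine ⟨ρ, p, m, hle, t, ht, (mul_mem_cancel_right (MonoidHom.mem_range.mpr ⟨a, rfl⟩)).mp (hle e), fun h => (em (h ∈ M)).imp (k h).mpr fun hn => ?_⟩
  have := mul_mem e ((k _).mpr ((mul_mem_iff_of_index_two h4 (a := a⁻¹) (b := h)).mpr (by simp [ha, hn])))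
  simpa [mul_assoc] using this

end

end Cfsg.Agent.LL.U6
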