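import Cfsg.Agent.H21.Fi3
import Cfsg.Agent.H16.NEng5
import Cfsg.Agent.H13.Hyp
import Cfsg.Agent.H13.Count

/-! Orbits and stabilisers of `3.U4(3).2` on the singular vectors. -/

set_option autoImplicit false
set_option maxRecDepth 100000
set_option linter.style.haveILetI false

namespace Cfsg.Agent.LL

open Cfsg Cfsg.Agent.H16 Cfsg.Agent.H3 MulAction Mdl Subgroup
open scoped commutatorElement Pointwise

section
variable {o : Ops} {G Ω : Type*} [Group G] [MulAction G Ω] {M : Mdl o G Ω} {K : Subgroup G}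

noncomputable def inOrb (o : Ops) (L : N.Lv) (x : ℕ) : Bool :=
  force (L.find x) fun i => andB (Nat.blt i L.m) (force (L.u o i) fun u => Nat.beq (o.ap u L.b) x)

theorem inOrb_spec {L : N.Lv} (h : N.TabIn M K L) {β v : Ω} (hβ : M.P L.b β) {x : ℕ} (hx : M.P x v)
    (e : inOrb o L x = true) : ∃ g ∈ K, g • β = v := by
  simp only [inOrb, force_eq, andB_iff, Nat.blt_eq, Nat.beq_eq] at e
  obtain ⟨u, hu, r, -⟩ := h _ e.1
  exact ⟨u, hu, M.P_fun (M.P_ap r hβ) (e.2.symm ▸ hx)⟩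

theorem inOrb_of {L : N.Lv} {lv : List N.Lv} (hc : N.Chain M (L :: lv) K) {β : Ω} (hβ : M.P L.b β) {g : G} (hg : g ∈ K)
    {x : ℕ} (hx : M.P x (g • β)) : inOrb o L x = true := by
  obtain ⟨β', h1, -, h2⟩ := hc.step
  obtain ⟨i, hi, -, -, -, -, -, -, e⟩ := h2 g hg
  obtain ⟨e1, e2⟩ := e x (M.P_fun hβ h1 ▸ hx)
  simp only [inOrb, force_eq, andB_iff, Nat.blt_eq, Nat.beq_eq, e1]
  exact ⟨hi, e2⟩

theorem stab_ch {L : N.Lv} {lv : List N.Lv} (hc : N.Chain M (L :: lv) K) {β : Ω} (hβ : M.P L.b β) :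
    N.Chain M lv (K ⊓ stabilizer G β) := let ⟨_, h1, h2, _⟩ := hc.step; M.P_fun hβ h1 ▸ h2

theorem two_core {L : N.Lv} {lv : List N.Lv} (hc : N.Chain M (L :: lv) K) (ho : ¬ 2 ∣ L.m)
    (h : allL ((L :: lv).map N.Lv.b) (inOrb o L) = true) {T : Subgroup G} (hT : T ≤ K) (hn : NormBy K T)
    (h2 : IsPGroup 2 T) : T = ⊥ := by
  haveI : Fact (Nat.Prime 2) := ⟨Nat.prime_two⟩
  obtain ⟨β, h1, -, -⟩ := hc.step
  have h3 := hc.orbit_card h1
  haveI := hc.finite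
  haveI : Finite (orbit K β) := Finite.finite_mulAction_orbit β
  obtain ⟨⟨_, k, rfl⟩, hx⟩ := (h2.of_equiv (subgroupOfEquivOfLe hT).symm).nonempty_fixed_point_of_prime_not_dvd_card
    (orbit K β) (by rwa [Nat.card_coe_set_eq, h3])
  refine eq_bot_iff.mpr fun t ht => hc.eq_one (hT ht) fun L' hL γ hγ => ?_
  obtain ⟨g, hg, rfl⟩ := inOrb_spec (hc.tabIn L List.mem_cons_self) h1 hγ (allL_iff.mp h _ (List.mem_map_of_mem hL))
  have hk := K.mul_mem k.2 (K.inv_mem hg)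
  have := congrArg Subtype.val (hx ⟨⟨_, hT (hn _ hk t ht)⟩, hn _ hk t ht⟩)
  change ((k : G) * g⁻¹ * t * ((k : G) * g⁻¹)⁻¹) • (k : G) • β = (k : G) • β at this
  rwa [mul_inv_rev, inv_inv, ← mul_smul, show (k : G) * g⁻¹ * t * (g * (k : G)⁻¹) * k = k * (g⁻¹ * (t * g)) by group,
    mul_smul, smul_left_cancel_iff, mul_smul, inv_smul_eq_iff, mul_smul] at this

theorem prL_pow {A : List ℕ} (hA : M.InL K A) (prog : List (List ℕ)) {S : List (ℕ × ℕ)}
    (h : andB (slpK o prog (subB (S.map Prod.fst)) A) (allP S fun s s' =>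
      andB (anyB 12 fun n => force (powM o s n) (Nat.beq s')) (isOne o (o.mul s s'))) = true) : M.PrL K S := fun p hp => by
  have h1 := hA.of_slp prog (andB_iff.mp h).1 _ (List.mem_map_of_mem hp)
  obtain ⟨h2, h3⟩ := andB_iff.mp (allP_iff.mp (andB_iff.mp h).2 p hp)
  obtain ⟨n, -, e⟩ := anyB_iff.mp h2
  rw [force_eq] at e
  exact Pr.of_in h1 (Nat.eq_of_beq_eq_true e ▸ h1.pow n) (by rwa [isOne, force_eq] at h3)

theorem two_normal_simple {A : Type*} [Group A] [IsSimpleGroup A] [Finite A] (h3 : 3 ∣ Nat.card A) {T : Subgroup A}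
    (hn : T.Normal) (h2 : IsPGroup 2 T) : T = ⊥ := by
  haveI : Fact (Nat.Prime 2) := ⟨Nat.prime_two⟩
  refine hn.eq_bot_or_eq_top.resolve_right fun e => ?_
  obtain ⟨k, hk⟩ := IsPGroup.iff_card.mp h2
  rw [e, card_top] at hk
  exact absurd (Nat.prime_three.dvd_of_dvd_pow (hk ▸ h3)) (by norm_num)

end

namespace U6

abbrev v0 : V6 := vc 3
abbrev v1 : V6 := vc 15
theorem P0' : M.P 3 v0 := P_vc (by norm_num)
theorem P1' : M.P 15 v1 := P_vc (by norm_num)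

theorem hf_eq {x : ℕ} (h : hf (vc x) (vc x) = 0) : herm4 6 x x = 0 :=
  (herm4_eq (x := 0) (y := 0) (by rw [h, vc_zero]; simp [hf, hermForm])).trans (by decide +kernel)

theorem hf_of {x : ℕ} (h : herm4 6 x x = 0) : hf (vc x) (vc x) = 0 := by rw [hf_vc, h]; decide

theorem sing_cases {v : V6} (h0 : v ≠ 0) (h : hf v v = 0) : ∃ g ∈ K0, g v0 = v ∨ g v1 = v := by
  obtain ⟨x, hx, e⟩ := en_all (fun x => impB (Nat.beq (herm4 6 x x) 0) (orB (Nat.beq x 0)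
    (orB (inOrb o K00 x) (inOrb o K10 x)))) (by decide +kernel) v
  obtain ⟨-, rfl⟩ := P_iff.mp hx
  simp only [impB_iff, orB_iff, Nat.beq_eq] at e
  rcases e (hf_eq h) with rfl | e | e
  · exact absurd vc_zero h0
  · exact (inOrb_spec (K0_ch.tabIn _ List.mem_cons_self) P0' hx e).imp fun g h => ⟨h.1, Or.inl h.2⟩
  · exact (inOrb_spec (K1_ch.tabIn _ List.mem_cons_self) P1' hx e).imp fun g h => ⟨h.1, Or.inr h.2⟩

theorem not_orb {g : Γ} (hg : g ∈ H1) : g v0 ≠ v1 := fun e =>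
  absurd (inOrb_of H1_ch0 P0' hg (x := 15) (by rw [Equiv.Perm.smul_def, e]; exact P1')) (by decide +kernel)

theorem S0_core {T : Subgroup Γ} (hT : T ≤ K0 ⊓ stabilizer Γ v0) (hn : NormBy (K0 ⊓ stabilizer Γ v0) T)
    (h2 : IsPGroup 2 T) : T = ⊥ := two_core (stab_ch K0_ch P0') (by decide) (by decide +kernel) hT hn h2

noncomputable abbrev S1 : Subgroup Γ := K0 ⊓ stabilizer Γ v1
noncomputable abbrev X1 : Subgroup Γ := H1 ⊓ stabilizer Γ v1
noncomputable abbrev Y0 : Subgroup Γ := H1 ⊓ stabilizer Γ v0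
theorem S1_ch : N.Chain M K1L.tail S1 := stab_ch K1_ch P1'
theorem X1_ch : N.Chain M X1L X1 := stab_ch H1_ch P1'
theorem Y0_ch : N.Chain M Y0L Y0 := stab_ch H1_ch0 P0'
theorem S1_X1 : S1 ≤ X1 := inf_le_inf_right _ K0_H1
theorem E32_X1 : E32 ≤ X1 := E32_le (X1_ch.inL E32_in (by decide +kernel))
theorem E16_S1 : E16 ≤ S1 := E16_le (S1_ch.inL E16_in (by decide +kernel))
theorem E16_E32 : E16 ≤ E32 := E16_le (E32_in.sub (by decide +kernel))

theorem E32_K0 {g : Γ} (h : g ∈ E32) (h' : g ∈ K0) : g ∈ E16 := by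
  obtain ⟨p, r, e⟩ := E32_ch.forall (Lf := fun p => impB (N.siftC o K0L p) (N.sift o E16L p)) (by decide +kernel) h
  exact E16_ch.sift r (impB_iff.mp e (K0_ch.siftC r h'))

theorem X1_cases {g : Γ} (h : g ∈ X1) : ∃ y ∈ E32, y * g ∈ S1 := by
  obtain ⟨y, hy, r⟩ := E32_in cY (by decide +kernel)
  rcases h.1 with e | e
  · exact ⟨1, one_mem _, by rw [one_mul]; exact ⟨e, h.2⟩⟩
  · refine ⟨y, hy, ?_, mul_mem (E32_X1 hy).2 h.2⟩
    have := mul_mem (K0_ch.sift (M.R_mul r (TT_R mP).2) (by decide +kernel)) e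
    rwa [mul_assoc, inv_mul_cancel_left] at this

abbrev A6 : Type := alternatingGroup (Fin 6)
instance simpleA6 : IsSimpleGroup A6 := alternatingGroup.isSimpleGroup (by simp)
theorem card_A6 : Nat.card A6 = 360 := by
  have := two_mul_nat_card_alternatingGroup (α := Fin 6)
  rw [Nat.card_perm, Nat.card_eq_fintype_card (α := Fin 6), Fintype.card_fin] at this
  exact Nat.eq_of_mul_eq_mul_left two_pos this

theorem exists_θ : ∃ θ : X1 →* A6, Function.Surjective θ ∧ ∀ g, θ g = 1 ↔ (g : Γ) ∈ E32 := by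
  obtain ⟨h1, h2⟩ := gen_perm_clo (by norm_num) (inj_finPt 6) (faith_finPt 6 ⊤)
    (gen_alt (w := 3) (k := 6) (by norm_num) (by norm_num) (S := ag) 7 aProg aBase (by decide) (by decide +kernel))
  have h0 : M.PrL X1 X1S := X1_ch.prL (prL_top (by decide +kernel)) (by decide +kernel)
  obtain ⟨θ, h3, h4⟩ := N.exists_surj (K := X1) (o := o) b4.fit hv (S := DAS) (lv := DAL)
    (N.PrL.sub h0 (by decide +kernel)) (prL_pow h1 aProg2 (by decide +kernel))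
    ((N.Chain.le_clo hv X1_ch h0 (lv' := X1L) (by decide +kernel)).trans (clo_mono (by decide +kernel)))
    (h2.trans (clo_mono (by decide +kernel))) (by decide +kernel)
  have h5 : E32 ≤ θ.ker.map X1.subtype := E32_le fun p hp => by
    obtain ⟨g, hg, r⟩ := E32_in p hp
    have : ∀ p ∈ yg, lo2 o.W (pr2 o.W p (pid 3 6)) = p ∧ Nat.shiftRight (pr2 o.W p (pid 3 6)) o.W = pid 3 6 ∧
      N.sift (prodOps o (permOps 3 6)) DAL (pr2 o.W p (pid 3 6)) = true := by decide +kernel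
    obtain ⟨a, b, c⟩ := this p hp
    exact ⟨g, ⟨⟨g, E32_X1 hg⟩, Subtype.ext (h4 _ _ 1 (a.symm ▸ r) (b.symm ▸ Mdl.R_one _) c), rfl⟩, r⟩
  have h6 := eq_of_le_of_card_ge h5 (by
    have := card_ker_mul θ h3
    rw [card_A6, X1_ch.card.trans (show _ = 11520 by decide +kernel)] at this
    rw [card_map_of_injective X1.subtype_injective, E32_card]; omega)
  exact ⟨θ, h3, fun g => by rw [h6]; exact (mem_map_iff_mem X1.subtype_injective (K := θ.ker)).symm⟩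

theorem O2_X1 {T : Subgroup Γ} (hT : T ≤ X1) (hn : NormBy S1 T) (h2 : IsPGroup 2 T) : T ≤ E32 := by
  obtain ⟨θ, hs, hk⟩ := exists_θ
  have := two_normal_simple (T := (T.subgroupOf X1).map θ) (by rw [card_A6]; norm_num) ⟨by
    rintro _ ⟨t, ht, rfl⟩ g
    obtain ⟨g, rfl⟩ := hs g
    obtain ⟨y, hy, e⟩ := X1_cases g.2
    refine ⟨⟨y, E32_X1 hy⟩ * g * t * (⟨y, E32_X1 hy⟩ * g)⁻¹, hn _ e t ht, ?_⟩
    simp [(hk ⟨y, _⟩).mpr hy]⟩ ((h2.of_equiv (subgroupOfEquivOfLe hT).symm).map θ)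
  exact fun t ht => (hk ⟨t, hT ht⟩).mp (mem_bot.mp (this ▸ mem_map_of_mem θ ht))

theorem TT_fix {t : ℕ × ℕ} (h : t ∈ TT) : el t.1 v1 = v1 := by
  rw [(R_ap (TT_R h).1 (by norm_num)).2, (by decide +kernel : ∀ t ∈ TT, mul12Ap t.1 15 = 15) t h]

theorem TT_P {t : ℕ × ℕ} (h : t ∈ TT) {s : Γ} (hs : s ∈ S1) (e : ∀ x ∈ E16, el t.1 * s * x = x * (el t.1 * s)) :
    t = (cP, cP) := by
  have : ∀ t ∈ TT, t = (cP, cP) ∨ N.enumM o (fun p => anyL eg (N.ncB o pts p)) K1L.tail t.1 = true := by decide +kernel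
  refine (this t h).resolve_right fun hb => ?_
  obtain ⟨p, r, hp⟩ := N.enumM_sound S1_ch (TT_R h).1 hb hs
  obtain ⟨a, ha, hp⟩ := anyL_iff.mp hp
  obtain ⟨x, hx, rx⟩ := E16_in a ha
  exact N.ncB_spec hv hpt r rx hp (e x hx)

section orth
open H13

abbrev I6 : Type := (Fin 2 ⊕ Fin 2) ⊕ Fin 2
def ix6 : I6 → ℕ := Sum.elim (Sum.elim Fin.val fun a => 2 + a.val) fun a => 4 + a.val
noncomputable def pt6 (x : ℕ) : I6 → ZMod 2 := fun i => (H16.get 1 x (ix6 i) : ℕ)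

theorem Y0_iso : Nonempty (Y0 ≃* isometryGroup (ZMod 2) (quadFormMinus 2 (ZMod 2) 1 1)) := by
  let Q := QMinus 2 (ZMod 2) 1 1
  have ha : ∀ z₁ z₂ : ZMod 2, z₁ ^ 2 + 1 * z₁ * z₂ + 1 * z₂ ^ 2 = 0 → z₁ = 0 ∧ z₂ = 0 := by decide
  have hc : Nat.card (H13.OG Q) = 51840 := by
    rw [(nd_QMinus ha).card_OG_minus (not_isPlus_QMinus ha) (m := 3) (by norm_num) (by simp), Nat.card_zmod]; decide
  have hi : Inj pt6 64 := by decide +kernel
  haveI : Finite (H13.OG Q) := Nat.finite_of_card_ne_zero (by omega)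
  have hg := Gen.of_slp (w := 6) (by norm_num) hi oBase (by decide) (H13.OG Q) (S := og.map Prod.snd) (fun p hp => by
    obtain ⟨p, hq, rfl⟩ := List.mem_map.mp hp
    have : ∀ p ∈ og, quadFormMinus 2 (ZMod 2) 1 1 (pt6 p.1) = 1 ∧ ∀ i < 64, H16.get 6 p.2 i < 64 ∧
      pt6 i - (quadFormMinus 2 (ZMod 2) 1 1 (pt6 p.1 + pt6 i) - quadFormMinus 2 (ZMod 2) 1 1 (pt6 p.1) -
        quadFormMinus 2 (ZMod 2) 1 1 (pt6 i)) • pt6 p.1 = pt6 (H16.get 6 p.2 i) := by decide +kernel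
    obtain ⟨h1, h2⟩ := this p hq
    refine ⟨_, (refl Q (pt6 p.1)).2, fun i hi => ⟨(h2 i hi).1, ?_⟩⟩
    rw [LinearEquiv.smul_def, refl_apply, show Q (pt6 p.1) = 1 from h1, inv_one, mul_one, ← (h2 i hi).2]
    rfl) oProg (hc.trans (by decide +kernel)).le
  obtain ⟨h1, h2⟩ := gen_perm_clo (by norm_num) hi (faith_of_surj (by decide +kernel) ⊤) hg
  haveI := Y0_ch.finite
  obtain ⟨e⟩ := N.exists_iso (K := Y0) (o := o) b4.fit hv (S := DOS) (lv := DOL)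
    (N.PrL.sub (Y0_ch.prL (prL_top (S := Y0S) (by decide +kernel)) (by decide +kernel)) (by decide +kernel))
    (prL_pow h1 oProg2 (by decide +kernel)) (h2.trans (clo_mono (by decide +kernel))) (by decide +kernel)
    (by rw [hc, Y0_ch.card]; decide +kernel)
  exact ⟨e.trans (toOG Q).symm⟩

end orth

end U6

end Cfsg.Agent.LL
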