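import Cfsg.Agent.H21.Fi4

/-! The conjugates of `z` in `Q` for groups of large Fischer type. -/

set_option autoImplicit false
set_option maxRecDepth 100000
set_option linter.style.haveILetI false

namespace Cfsg.Agent.LL.U6

open Cfsg Cfsg.Agent.H16 Cfsg.Agent.H3 Cfsg.Agent.H10 MulAction Mdl Subgroup
open scoped commutatorElement Pointwise

theorem add_self (v : V6) : v + v = 0 := by
  obtain ⟨x, -, rfl⟩ := vc_surj v
  rw [← vc_xor, Nat.xor_self, vc_zero]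

theorem v0_ne : v0 ≠ 0 := fun e => absurd (vc_inj (by norm_num) (by norm_num) (e.trans vc_zero.symm)) (by norm_num)
theorem v1_ne : v1 ≠ 0 := fun e => absurd (vc_inj (by norm_num) (by norm_num) (e.trans vc_zero.symm)) (by norm_num)

theorem card_le_two_mul {A : Type*} [Group A] {E K : Subgroup A} [Finite E] {t : A} (h : ∀ g ∈ E, g ∈ K ∨ t * g ∈ K) :
    Nat.card E ≤ 2 * Nat.card ↥(E ⊓ K) := by
  rw [← card_mul_relIndex (inf_le_left : E ⊓ K ≤ E), mul_comm, inf_relIndex_left]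
  refine Nat.mul_le_mul_right _ ?_
  by_cases e : E ≤ K
  · rw [relIndex_eq_one.mpr e]; norm_num
  · obtain ⟨a, ha, hn⟩ := SetLike.not_le_iff_exists.mp e
    refine (index_eq_two_iff'.mpr ⟨⟨a, ha⟩⁻¹, fun b => ?_⟩).le
    have h1 := (h a ha).resolve_left hn
    simp only [mem_subgroupOf, coe_mul, coe_inv]
    by_cases hb : (b : A) ∈ K
    · exact Or.inr ⟨hb, fun h2 => hn (by simpa using mul_mem hb (inv_mem h2))⟩
    · exact Or.inl ⟨by simpa [mul_assoc] using mul_mem (inv_mem h1) ((h b b.2).resolve_left hb), hb⟩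

variable {G : Type*} [Group G] {z : G} {Q : Subgroup G} {ρ : centralizer ({z} : Set G) →* Γ} {p : G → V6}

theorem range_shift {a : Γ} (ha : a ∈ ρ.range) : ((MulAut.conj a).toMonoidHom.comp ρ).range = ρ.range := by
  obtain ⟨k, rfl⟩ := ha
  exact le_antisymm (by rintro _ ⟨h, rfl⟩; exact ⟨k * h * k⁻¹, by simp⟩)
    (by rintro _ ⟨h, rfl⟩; exact ⟨k⁻¹ * h * k, by simp [mul_assoc]⟩)

namespace FT
variable (m : FT z Q ρ p)
include m

theorem p_z : p z = 0 := (m.zero m.lx.mem).mpr (mem_zpowers z)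
theorem p_zmul {x : G} (hx : x ∈ Q) : p (z * x) = p x := by rw [m.mul m.lx.mem hx, m.p_z, zero_add]
theorem p_inv {x : G} (hx : x ∈ Q) : p x⁻¹ = p x := by
  have := m.mul (inv_mem hx) hx
  rw [inv_mul_cancel, (m.zero (one_mem _)).mpr (one_mem _)] at this
  rw [← add_zero (p x⁻¹), ← add_self (p x), ← add_assoc, ← this, zero_add]

theorem uniq {x y : G} (hx : x ∈ Q) (hy : y ∈ Q) (e : p x = p y) : y = x ∨ y = z * x := by
  have := m.lx.mem_z.mp ((m.zero (mul_mem hy (inv_mem hx))).mp (by rw [m.mul hy (inv_mem hx), m.p_inv hx, e, add_self]))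
  exact this.imp mul_inv_eq_one.mp mul_inv_eq_iff_eq_mul.mp

theorem shift' {a : Γ} (ha : a ∈ ρ.range) : FT z Q ((MulAut.conj a).toMonoidHom.comp ρ) fun x => a (p x) :=
  let ⟨k, e⟩ := ha; m.shift (e ▸ m.og k)

theorem conj_of {s t : G} (hs : s ∈ Q) (ht : t ∈ Q) (htz : p t ≠ 0) {g : Γ} (hg : g ∈ ρ.range) (e : g (p s) = p t) :
    ∃ h : centralizer ({z} : Set G), ρ h = g ∧ h * s * (h : G)⁻¹ = t := by
  obtain ⟨h, rfl⟩ := hg
  rcases m.uniq ht (m.conj_mem h hs) (by rw [m.act h hs, e]) with e1 | e1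
  · exact ⟨h, rfl, e1⟩
  · obtain ⟨q, hq, hne⟩ := m.lx.exists_ne_comm ht (mt (m.zero ht).mpr htz)
    have h2 := m.lx.conj_eq_of_ne hq ht hne
    refine ⟨(⟨q, m.lx.le_centralizer hq⟩ : centralizer ({z} : Set G))⁻¹ * h, ?_, ?_⟩
    · rw [map_mul, map_inv, (m.ker _).mpr hq]; simp
    · rw [← h2] at e1
      simp only [coe_mul, coe_inv]
      calc q⁻¹ * h * s * (q⁻¹ * h)⁻¹ = q⁻¹ * (h * s * (h : G)⁻¹) * q := by group
        _ = t := by rw [e1]; group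

theorem bar_cent {t : G} (ht : t ∈ Q) (htz : p t ≠ 0) : ((centralizer ({z} : Set G) ⊓ centralizer ({t} : Set G)).subgroupOf
      (centralizer ({z} : Set G))).map ρ = ρ.range ⊓ stabilizer Γ (p t) := by
  ext g
  constructor
  · rintro ⟨h, hh, rfl⟩
    have h1 := m.act h ht
    rw [show (h : G) * t = t * h from mem_centralizer_singleton_iff.mp hh.2, mul_inv_cancel_right] at h1
    exact ⟨⟨h, rfl⟩, h1.symm⟩
  · intro e
    obtain ⟨h, h1, h2⟩ := m.conj_of ht ht htz e.1 e.2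
    exact ⟨h, ⟨h.2, mem_centralizer_singleton_iff.mpr (mul_inv_eq_iff_eq_mul.mp h2)⟩, h1⟩

theorem card_le {E : Subgroup G} [Finite G] (hE : E ≤ Q) (h2 : ∀ x ∈ E, x * x = 1) : Nat.card E ≤ 2 ^ 7 := by
  obtain ⟨n, c, hc⟩ := H26.exists_ES_of_isExtraspecial m.lx.isExtraspecial
  have h1 := c.card_eq_pow
  rw [m.card] at h1
  have h3 := Nat.pow_right_injective (le_refl 2) h1
  have := hc.pRankLE_succ (m := 6) (by omega) (E.subgroupOf Q)
    ⟨⟨fun x y => Subtype.ext (Subtype.ext (H11.comm_of_sq_eq_one h2 x.2 y.2))⟩⟩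
    fun a ha => Subtype.ext (by rw [pow_two]; exact h2 _ ha)
  rwa [Nat.card_congr (subgroupOfEquivOfLe hE).toEquiv] at this

theorem invol {x : G} (hx : x ∈ Q) (h2 : x * x = 1) (hz : x ∉ zpowers z) : ∃ g ∈ K0, g (p x) = v0 ∨ g (p x) = v1 := by
  obtain ⟨g, hg, e⟩ := sing_cases (mt (m.zero hx).mp hz) ((m.sq hx).mp h2)
  exact ⟨g⁻¹, inv_mem hg, e.imp (fun e => by simp [← e]) fun e => by simp [← e]⟩

section pair
variable [Finite G] {P : Subgroup G} {s : G} (hp : LPr Q P z s) (hP : Nat.card P = 2 ^ 13) {E : Subgroup Γ}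
  (hE : E = ((P ⊓ centralizer ({z} : Set G)).subgroupOf (centralizer ({z} : Set G))).map ρ)
include hp hE

theorem E_sq : ∀ y ∈ E, y * y = 1 := by
  rw [hE]
  rintro _ ⟨y, hy, rfl⟩
  rw [← map_mul, m.ker]
  exact zpowers_le.mpr hp.tQ (hp.hP.sq _ hy.1)

theorem E_two : IsPGroup 2 E := fun y => ⟨1, Subtype.ext (by rw [pow_one, pow_two]; exact m.E_sq hp hE _ y.2)⟩

theorem E_le : E ≤ ρ.range ⊓ stabilizer Γ (p s) :=
  MT.E_le hp (m.bar_cent hp.tQ (mt (m.zero hp.tQ).mp hp.pr.t_not)).symm hE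

theorem E_norm : NormBy (ρ.range ⊓ stabilizer Γ (p s)) E :=
  MT.E_conj hp (m.bar_cent hp.tQ (mt (m.zero hp.tQ).mp hp.pr.t_not)).symm hE

include hP

theorem card_E : Nat.card E * Nat.card ↥(Q ⊓ P) = 2 ^ 12 := by
  have h1 := MT.card_half hp
  have h2 := card_map_mul_card_inf_ker ρ ((P ⊓ centralizer ({z} : Set G)).subgroupOf (centralizer ({z} : Set G)))
  have h3 : (P ⊓ centralizer ({z} : Set G)).subgroupOf (centralizer ({z} : Set G)) ⊓ ρ.ker =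
      (Q ⊓ P).subgroupOf (centralizer ({z} : Set G)) := by
    ext x; simp [mem_subgroupOf, m.ker, and_comm]
  rw [h3, Nat.card_congr (subgroupOfEquivOfLe inf_le_right).toEquiv,
    Nat.card_congr (subgroupOfEquivOfLe (inf_le_left.trans hp.hQ.le_centralizer)).toEquiv, ← hE] at h2
  omega

theorem le_card_E : 32 ≤ Nat.card E := by
  have h1 := m.card_E hp hP hE
  have h2 := m.card_le inf_le_left (MT.sq_inf hp)
  by_contra h
  have := Nat.mul_lt_mul_of_lt_of_le (not_le.mp h) h2 (by norm_num)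
  omega

theorem not_v0 (hK : K0 ≤ ρ.range) {t : Γ} (hi : ∀ g ∈ ρ.range, g ∈ K0 ∨ t * g ∈ K0) (hs : p s = v0) : False := by
  have h1 := m.E_le hp hE
  have h2 := m.E_norm hp hE
  rw [hs] at h1 h2
  have h3 := card_le_two_mul fun g hg => hi g (h1 hg).1
  rw [S0_core (T := E ⊓ K0) (fun g hg => ⟨hg.2, (h1 hg.1).2⟩) (fun k hk x hx => ⟨h2 k ⟨hK hk.1, hk.2⟩ x hx.1,
    normBy_self K0 k hk.1 x hx.2⟩) (m.E_two hp hE).to_inf_left, card_bot] at h3
  have := m.le_card_E hp hP hE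
  omega

theorem t_eq (hK : K0 ≤ ρ.range) {t : ℕ × ℕ} (ht : t ∈ TT) (hi : ∀ g ∈ ρ.range, g ∈ K0 ∨ el t.1 * g ∈ K0)
    (hs : p s = v1) : t = (cP, cP) := by
  have h1 := m.E_le hp hE
  have h2 := m.E_norm hp hE
  rw [hs] at h1 h2
  have h3 := card_le_two_mul fun g hg => hi g (h1 hg).1
  have h4 := m.le_card_E hp hP hE
  have h5 : E ⊓ K0 ≤ E16 := fun g hg => E32_K0 (O2_X1 (T := E ⊓ K0) (fun g hg => S1_X1 ⟨hg.2, (h1 hg.1).2⟩)
    (fun k hk x hx => ⟨h2 k ⟨hK hk.1, hk.2⟩ x hx.1, normBy_self K0 k hk.1 x hx.2⟩) (m.E_two hp hE).to_inf_left hg) hg.2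
  have h6 := eq_of_le_of_card_ge h5 (by rw [E16_card]; omega)
  obtain ⟨y, hy, hn⟩ := SetLike.not_le_iff_exists.mp fun e : E ≤ K0 => by
    rw [inf_eq_left.mpr e] at h6; rw [h6, E16_card] at h4; omega
  refine TT_P ht (s := el t.1 * y) ⟨(hi y (h1 hy).1).resolve_left hn, mul_mem (TT_fix ht) (h1 hy).2⟩ fun x hx => ?_
  rw [← mul_assoc _ _ y, mul_eq_one_iff_inv_eq.mpr (TT_inv ht), one_mul]
  exact H11.comm_of_sq_eq_one (m.E_sq hp hE) hy (h6.ge hx).1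

theorem E_eq (hr : ρ.range = H1) (hs : p s = v1) : E = E32 := by
  have h1 := m.E_le hp hE
  have h2 := m.E_norm hp hE
  rw [hs, hr] at h1 h2
  exact eq_of_le_of_card_ge (O2_X1 h1 (fun k hk => h2 k (S1_X1 hk)) (m.E_two hp hE)) (E32_card ▸ m.le_card_E hp hP hE)

omit hE in
theorem to_v1 (hK : K0 ≤ ρ.range) {t : Γ} (hi : ∀ g ∈ ρ.range, g ∈ K0 ∨ t * g ∈ K0) : ∃ g ∈ K0, g (p s) = v1 := by
  obtain ⟨g, hg, e | e⟩ := m.invol hp.tQ hp.hP.zz hp.pr.t_not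
  · exact ((m.shift' (hK hg)).not_v0 hp hP rfl ((range_shift (hK hg)).symm ▸ hK) ((range_shift (hK hg)).symm ▸ hi) e).elim
  · exact ⟨g, hg, e⟩

end pair

theorem card_conj (g : G) : Nat.card (Q.map (MulAut.conj g).toMonoidHom) = 2 ^ 13 := by
  rw [← m.card]; exact (Nat.card_congr (Q.equivMapOfInjective _ (MulAut.conj g).injective).toEquiv).symm

theorem to_v1' [Finite G] (hr : ρ.range = H1) {s : G} (hQ : s ∈ Q) (hs : IsConj z s) (h1 : s ≠ z) :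
    ∃ g ∈ K0, g (p s) = v1 := by
  obtain ⟨g, rfl⟩ := isConj_iff.mp hs
  exact m.to_v1 (m.lx.lpr hQ h1) (m.card_conj g) (hr ▸ K0_H1) (t := ψ) fun g hg => hr.le hg

theorem conj_of' (hK : K0 ≤ ρ.range) {s t : G} (hs : s ∈ Q) (ht : t ∈ Q) {v : V6} (hv : v ≠ 0) (h1 : ∃ g ∈ K0, g (p s) = v)
    (h2 : ∃ g ∈ K0, g (p t) = v) : ∃ h : centralizer ({z} : Set G), h * s * (h : G)⁻¹ = t := by
  obtain ⟨g, hg, e⟩ := h1
  obtain ⟨k, hk, e'⟩ := h2
  obtain ⟨h, -, r⟩ := m.conj_of hs ht (fun e => hv (by simpa [e, ← e'] using (GU_OG (SUg_le (K0_SU hk))).1 0 0))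
    (hK (mul_mem (inv_mem hk) hg)) (by simp [e, ← e'])
  exact ⟨h, r⟩

theorem isConj_of [Finite G] (hr : ρ.range = H1) (hw : ∃ g : G, g * z * g⁻¹ ∈ Q ∧ g * z * g⁻¹ ≠ z) {x : G} (hx : x ∈ Q)
    (h : ∃ g ∈ K0, g (p x) = v1) : IsConj z x := by
  obtain ⟨g, h1, h2⟩ := hw
  have h3 : IsConj z (g * z * g⁻¹) := isConj_iff.mpr ⟨g, rfl⟩
  obtain ⟨k, hk⟩ := m.conj_of' (hr ▸ K0_H1) h1 hx v1_ne (m.to_v1' hr h1 h3 h2) h
  exact h3.trans (isConj_iff.mpr ⟨k, hk⟩)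

end FT

theorem exists_FT [Finite G] {Q : Subgroup (centralizer ({z} : Set G))} [Q.Normal] (h : IsOfLargeFischerTypeAt z Q) :
    ∃ ρ p, FT z (Q.map (centralizer ({z} : Set G)).subtype) ρ p ∧ ρ.range = H1 := by
  obtain ⟨ρ, p, m, hK, t, ht, h1, h2⟩ := exists_F2 h
  have hi : ∀ g ∈ ρ.range, g ∈ K0 ∨ el t.1 * g ∈ K0 := by rintro _ ⟨h, rfl⟩; exact h2 h
  obtain ⟨g, h3, h4⟩ := setting_nwc h.1
  obtain ⟨k, hk, e⟩ := m.to_v1 (m.lx.lpr h3 h4) (m.card_conj g) hK hi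
  obtain rfl := (m.shift' (hK hk)).t_eq (m.lx.lpr h3 h4) (m.card_conj g) rfl ((range_shift (hK hk)).symm ▸ hK) ht
    ((range_shift (hK hk)).symm ▸ hi) e
  exact ⟨ρ, p, m, le_antisymm hi fun g hg => hg.elim (fun e => hK e) fun e => (mul_mem_cancel_left h1).mp (hK e)⟩

end Cfsg.Agent.LL.U6
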