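import Cfsg.Agent.H21.Monster6
import Cfsg.Agent.H10.Xsp6

/-! Groups of Monster type: involutions inverting elements of odd order. -/

set_option autoImplicit false
set_option linter.style.haveILetI false

namespace Cfsg.Agent.LL

open Cfsg Cfsg.Agent.H16 Cfsg.Agent.H10 MulAction Subgroup
open scoped Pointwise

variable {G A : Type*} [Group G] [Group A]

theorem conj_of_ker [Finite G] (ρ : G →* A) (hk : IsPGroup 2 ρ.ker) {p : ℕ} (hp : p.Prime) (h2 : p ≠ 2) {x y : G}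
    (hx : x ^ p = 1) (hy : y ^ p = 1) (e : ρ x = ρ y) : ∃ q, ρ q = 1 ∧ q * x * q⁻¹ = y := by
  haveI : Fact p.Prime := ⟨hp⟩
  haveI : Fact (Nat.Prime 2) := ⟨Nat.prime_two⟩
  let K := (zpowers (ρ y)).comap ρ
  have h1 : ∀ u : K, u ^ p = 1 → ∃ P : Sylow p K, u ∈ P := fun u hu => by
    obtain ⟨P, hP⟩ := IsPGroup.exists_le_sylow (P := zpowers u) (p := p) (by
      rintro ⟨_, i, rfl⟩
      exact ⟨1, Subtype.ext (by simp [← zpow_natCast, ← zpow_mul, mul_comm i]; simp [zpow_mul, hu])⟩)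
    exact ⟨P, hP (mem_zpowers u)⟩
  obtain ⟨P, hP⟩ := h1 ⟨x, ⟨1, by simp [e]⟩⟩ (Subtype.ext hx)
  obtain ⟨P', hP'⟩ := h1 ⟨y, mem_zpowers _⟩ (Subtype.ext hy)
  obtain ⟨k, rfl⟩ := exists_smul_eq K P P'
  obtain ⟨i, hi⟩ := k.2
  have h3 := mul_mem (show k * _ * k⁻¹ ∈ (k • P : Sylow p K) from smul_mem_pointwise_smul _ (MulAut.conj k) _ hP)
    (inv_mem hP')
  have h4 : (k : G) * x * (k : G)⁻¹ * y⁻¹ = 1 := disjoint_def.mp (IsPGroup.disjoint_of_ne p 2 h2 _ _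
    ((k • P).isPGroup'.map K.subtype) hk) ⟨_, h3, rfl⟩ (by simp [MonoidHom.mem_ker, ← hi, e, ← zpow_add_one, ← zpow_sub])
  refine ⟨(y ^ i)⁻¹ * k, by simp [← hi], ?_⟩
  rw [show (y ^ i)⁻¹ * k * x * ((y ^ i)⁻¹ * k)⁻¹ = (y ^ i)⁻¹ * ((k : G) * x * (k : G)⁻¹) * y ^ i by group,
    mul_inv_eq_one.mp h4]; group

theorem self_cent [Finite G] {P U : Subgroup G} (hP : IsExtraspecial 2 P) {n : ℕ} (hc : Nat.card P = 2 ^ (2 * n + 1))
    (hU : U ≤ P) (h1 : Nat.card U = 2 ^ (n + 1)) (h2 : U ≤ centralizer (U : Set G)) {x : G} (hx : x ∈ P)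
    (h : x ∈ centralizer (U : Set G)) : x ∈ U := by
  haveI : Fact (Nat.Prime 2) := ⟨Nat.prime_two⟩
  obtain ⟨k, c, hd⟩ := H26.exists_ES_of_isExtraspecial hP
  have h3 := c.card_eq_pow
  have h4 := c.card_le_mul_card_down (U.subgroupOf P)
  have h5 := c.card_up_eq_pow (c.B.orthogonal (c.down (U.subgroupOf P)))
  rw [Nat.card_congr (subgroupOfEquivOfLe hU).toEquiv, h1, c.card_submodule, ← pow_succ'] at h4
  rw [← c.centralizer_eq_up, LinearMap.BilinForm.finrank_orthogonal hd.nondegenerate] at h5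
  have h6 := Nat.pow_right_injective le_rfl (hc.symm.trans h3)
  have h7 := (Nat.pow_le_pow_iff_right (by norm_num)).mp h4
  have h8 : U.subgroupOf P = centralizer (U.subgroupOf P : Set P) := eq_of_le_of_card_ge
    (fun a ha b hb => Subtype.ext (h2 ha _ hb)) (by
      rw [h5, Nat.card_congr (subgroupOfEquivOfLe hU).toEquiv, h1]
      exact Nat.pow_le_pow_right (by norm_num) (by omega))
  exact h8.ge (show (⟨x, hx⟩ : P) ∈ _ from fun b hb => Subtype.ext (h _ hb))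

theorem mem_layer [Finite G] {B : Subgroup G} [B.Normal] (hB : B ≤ center G) (ho : Odd (Nat.card B)) {z : G}
    (hz : z * z = 1) {Q : Subgroup (centralizer ({QuotientGroup.mk z} : Set (G ⧸ B)))} {w : ℕ}
    (hS : IsExtraspecialCentralizerSetting (QuotientGroup.mk z) Q w) {x y : G} (hx : IsConj z x) (hy : IsConj z y)
    (h : (x * y)⁻¹ * (y * x) ∉ B) : z ∈ layer G := by
  haveI : Fact (Nat.Prime 2) := ⟨Nat.prime_two⟩
  have hF : FstarOf (centralizer {(z : G ⧸ B)}) = Q.map (Subgroup.subtype _) := by rw [FstarOf, hS.2.1]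
  have hl := lx_of_fstar hS.1 hF (H26.isExtraspecial_congr hS.2.2.1 (Q.equivMapOfInjective _ (subtype_injective _)))
  obtain ⟨g, h1, h2⟩ := setting_nwc hS
  have h3 : ∀ x, IsConj z x → (x : G ⧸ B) ∈ normalClosure ({QuotientGroup.mk z} : Set (G ⧸ B)) := fun x hx =>
    conjugatesOfSet_subset_normalClosure (Group.mem_conjugatesOfSet_iff.mpr
      ⟨_, rfl, (QuotientGroup.mk' B).map_isConj hx⟩)
  rcases hl.cases (hl.large_of_conj h1 h2).2.2.2 rfl with ⟨e, -⟩ | ⟨-, e1, e2⟩ | ⟨-, -, -, -, -, -, -, -, -, -, -, -, -, -, e⟩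
  · exact (h (QuotientGroup.eq.mp (congrArg Subtype.val (e.1.1 ⟨_, h3 x hx⟩ ⟨_, h3 y hy⟩)))).elim
  · set K := (normalClosure ({QuotientGroup.mk z} : Set (G ⧸ B))).comap (QuotientGroup.mk' B)
    obtain ⟨h4, -, h5⟩ := isQuasisimple_commutator_of_map (K := K) (QuotientGroup.mk' B)
      (commutator_eq_bot_iff_le_centralizer.mpr fun a ha b _ => Subgroup.mem_center_iff.mp (hB (by simpa using ha.2)) b)
      (by rw [map_comap_eq_self_of_surjective (QuotientGroup.mk'_surjective B)]; exact isQuasisimple_of_simple e2)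
    obtain ⟨a, ha, b, hb, e⟩ := mem_sup_of_normal_left.mp (h4.ge (h3 z (IsConj.refl z)))
    rw [QuotientGroup.ker_mk'] at hb
    obtain ⟨n, hn⟩ := ho
    have h6 : z = a ^ Nat.card B := by
      have := congrArg (· ^ Nat.card B) e
      simp only [Commute.mul_pow (Subgroup.mem_center_iff.mp (hB hb.2) a)] at this
      rw [show b ^ Nat.card B = 1 from congrArg Subtype.val (pow_card_eq_one' (x := (⟨b, hb.2⟩ : B))), mul_one] at this
      rw [this, hn, pow_succ, pow_mul, pow_two, hz, one_pow, one_mul]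
    exact le_layer ⟨Normal.isSubnormal inferInstance, h5⟩ (h6 ▸ pow_mem ha _)
  · exact (e (hF ▸ FstarOf_eq_OpOf_iff.mpr (hF ▸ hl.isPGroup))).elim

theorem relIndex_six [Finite G] {h d : G} (h7 : orderOf h = 7) (e : d * h * d⁻¹ = h ^ 3) :
    (centralizer (zpowers h : Set G)).relIndex (normalizer (zpowers h : Set G)) = 6 := by
  have h0 : h ^ 7 = 1 := h7 ▸ pow_orderOf_eq_one h
  have hd : d ∈ normalizer (zpowers h : Set G) := mem_normalizer_fintype (by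
    rintro _ ⟨i, rfl⟩; rw [← conj_zpow, e]; exact zpow_mem (pow_mem (mem_zpowers h) 3) i)
  have h1 := card_subgroup_dvd_card (zpowers h).normalizerMonoidHom.range
  rw [IsCyclic.card_mulAut, Nat.card_zpowers, h7] at h1
  have h2 := orderOf_dvd_natCard _ (show (zpowers h).normalizerMonoidHom ⟨d, hd⟩ ∈ MonoidHom.range _ from ⟨_, rfl⟩)
  have h3 : ∀ k, d ^ k * h * (d ^ k)⁻¹ = h ^ 3 ^ k := fun k => by
    induction k with
    | zero => simp
    | succ k ih => rw [pow_succ d, pow_succ, pow_mul, ← ih, conj_pow, ← e]; group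
  have h4 : ∀ k, (zpowers h).normalizerMonoidHom ⟨d, hd⟩ ^ k = 1 → 3 ^ k ≡ 1 [MOD 7] := fun k hk => by
    rw [← map_pow, ← MonoidHom.mem_ker, normalizerMonoidHom_ker] at hk
    have := (h3 k).symm.trans (mul_inv_eq_iff_eq_mul.mpr (hk h (mem_zpowers h)).symm)
    rwa [← pow_one h, ← pow_mul, one_mul, pow_eq_pow_iff_modEq, h7] at this
  have h5 := h4 _ (orderOf_dvd_iff_pow_eq_one.mp h2)
  rw [relIndex, ← normalizerMonoidHom_ker, index_ker]
  have := Nat.le_of_dvd (by decide) h1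
  revert h1 h5
  generalize Nat.card (zpowers h).normalizerMonoidHom.range = n at this ⊢
  revert n; decide

namespace MT
variable {z : G} {Q : Subgroup G} {ρ : centralizer ({z} : Set G) →* A} {π : Co0 →* A}
  {R : L → G → Prop} (m : MT z Q ρ π R)
include m

theorem ker_two : IsPGroup 2 ρ.ker :=
  (m.lx.isPGroup.comap_subtype (K := centralizer {z})).to_le fun x hx => (m.ρ_ker x).mp hx

theorem invol_over [Finite G] (hw : ∃ g : G, g * z * g⁻¹ ∈ Q ∧ g * z * g⁻¹ ≠ z) (k : Co0) {e : Co0} (he : e ∈ Eps) :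
    ∃ t, t * t = 1 ∧ π (k * e * k⁻¹) = ρ t := by
  have m' := m.shift k⁻¹
  obtain ⟨s, hs⟩ := m'.ex (e8 pI)
  obtain ⟨h1, h2⟩ := m'.isConj_of_type4 hw hs (sqNorm_e8 _)
  obtain ⟨g, rfl⟩ := isConj_iff.mp h1
  have hp := m.lx.lpr (m.mem hs) h2
  obtain ⟨x, hx, e'⟩ := (m'.E_eq hp (m.card_conj g) rfl hs).1.ge ⟨e, he, rfl⟩
  replace e' : π (k * e * k⁻¹) = ρ x := by simpa using e'.symm
  by_cases h3 : x * x = 1
  · exact ⟨x, h3, e'⟩
  have h4 := (hp.hP.mem_z.mp (hp.hP.sq _ hx.1)).resolve_left fun e => h3 (Subtype.ext e)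
  by_cases h5 : (x : G) ∈ centralizer ((Q ⊓ Q.map (MulAut.conj g).toMonoidHom : Subgroup G) : Set G)
  · exact (h3 (Subtype.ext (sq_inf hp _ (self_cent hp.hP.isExtraspecial (n := 12) (m.card_conj g) inf_le_right
      (m.card_inf hp (m.card_conj g)) (fun a ha b hb => H11.comm_of_sq_eq_one (sq_inf hp) hb ha) hx.1 h5)))).elim
  simp only [mem_centralizer_iff, not_forall] at h5
  obtain ⟨u, hu, h5⟩ := h5
  obtain ⟨h6, h7⟩ := mem_inf.mp hu
  have h8 : (x : G) ∈ _ := (mem_inf.mp hx).1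
  refine ⟨x * ⟨u, m.lx.le_centralizer h6⟩, Subtype.ext ?_, by
    rw [map_mul ρ, (m.ρ_ker ⟨u, m.lx.le_centralizer h6⟩).mpr h6, mul_one, e']⟩
  change (x : G) * u * (x * u) = 1
  rw [mul_assoc, ← mul_assoc u, hp.hP.mul_eq_of_ne h7 h8 h5, mul_assoc, mul_assoc (x : G) u, sq_inf hp u hu, mul_one,
    ← mul_assoc, hp.hP.cent _ h8, mul_assoc]
  exact (congrArg (_ * ·) h4).trans hp.hP.zz

theorem invol_inv [Finite G] {p : ℕ} (hp : p.Prime) (h2 : p ≠ 2) {t h : centralizer ({z} : Set G)} (ht : t * t = 1)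
    (hh : h ^ p = 1) (e : ρ t * ρ h * (ρ t)⁻¹ = (ρ h)⁻¹) : ∃ u, u * u = 1 ∧ u * h * u⁻¹ = h⁻¹ := by
  have h1 : t⁻¹ = t := inv_eq_of_mul_eq_one_right ht
  have h3 : t * (h * t * h⁻¹ * t) * t⁻¹ = (h * t * h⁻¹ * t)⁻¹ := by simp [h1, mul_assoc, ht]
  have h4 : ρ (h * t * h⁻¹ * t) = ρ h ^ 2 := by
    have := congrArg Inv.inv e
    rw [← map_inv, h1] at this
    simp only [mul_inv_rev, ← map_inv ρ t, h1, inv_inv] at this
    simp only [map_mul, map_inv, mul_assoc, this, pow_two]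
  generalize h * t * h⁻¹ * t = y at h3 h4
  have h5 : ((y ^ p : centralizer ({z} : Set G)) : G) ∈ Q := (m.ρ_ker _).mp (by
    rw [map_pow, h4, ← pow_mul, mul_comm, pow_mul, ← map_pow, hh]; simp)
  have h6 : (y ^ 4) ^ p = 1 := Subtype.ext (by
    have := m.lx.sq_of_mem_z (m.lx.sq _ h5)
    rw [← pow_two, ← pow_two, ← pow_mul] at this
    rw [← pow_mul, mul_comm, pow_mul]; exact this)
  obtain ⟨q, -, hq⟩ := conj_of_ker ρ m.ker_two hp h2 h6 (y := h ^ 8) (by rw [← pow_mul, mul_comm, pow_mul, hh, one_pow])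
    (by rw [map_pow, h4, ← pow_mul, map_pow])
  refine ⟨q * t * q⁻¹, by rw [conj_mul, ht]; simp, ?_⟩
  have h7 : q * t * q⁻¹ * h ^ 8 * (q * t * q⁻¹)⁻¹ = (h ^ 8)⁻¹ := by
    rw [← hq, mul_inv_rev (q * y ^ 4), mul_inv_rev q, ← inv_pow, ← h3, conj_pow]; group
  obtain ⟨j, hj⟩ := exists_pow_eq_self_of_coprime (x := h) (n := 8) (Nat.Coprime.coprime_dvd_right
    (orderOf_dvd_of_pow_eq_one hh) (((Nat.coprime_primes Nat.prime_two hp).mpr h2.symm).pow_left 3))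
  rw [← hj, ← conj_pow, h7, inv_pow]

end MT

end Cfsg.Agent.LL
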