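import Cfsg.Agent.H21.Fi5
import Cfsg.Agent.H21.Monster7
import Cfsg.Agent.H21.Sing

/-! The elementary abelian subgroup of order `2 ^ 11` in groups of large Fischer type. -/

set_option autoImplicit false
set_option maxRecDepth 100000
set_option linter.style.haveILetI false

namespace Cfsg.Agent.LL.U6

open Cfsg Cfsg.Agent.H16 Cfsg.Agent.H3 Cfsg.Agent.H10 MulAction Mdl Subgroup
open scoped commutatorElement Pointwise

theorem ncard_eq_cnt {X : Set V6} {f : ℕ → Bool} (h : ∀ x < 4096, vc x ∈ X ↔ f x = true) : X.ncard = cntB2 64 64 f := by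
  rw [cntB2_eq, ← Set.ncard_coe_finset, ← Set.InjOn.ncard_image (f := vc) fun x hx y hy => vc_inj
    (Finset.mem_range.mp (Finset.mem_filter.mp hx).1) (Finset.mem_range.mp (Finset.mem_filter.mp hy).1)]
  congr 1
  ext v
  obtain ⟨x, hx, rfl⟩ := vc_surj v
  refine ⟨fun e => ⟨x, by simpa [hx] using (h x hx).mp e, rfl⟩, fun ⟨y, hy, e⟩ => ?_⟩
  simp only [Finset.coe_filter, Finset.mem_range, Set.mem_ofPred_eq] at hy
  exact e ▸ (h y hy.1).mpr hy.2

theorem ncard_le_pc {X : Set V6} {T : ℕ} (h : ∀ x < 4096, vc x ∈ X → T.testBit x = true) : X.ncard ≤ pcB 512 T := by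
  rw [pcB_eq, pcS_eq, ← Set.ncard_coe_finset]
  refine (Set.ncard_le_ncard (fun v hv => ?_) (Set.toFinite _)).trans (Set.ncard_image_le (f := vc) (Set.toFinite _))
  obtain ⟨x, hx, rfl⟩ := vc_surj v
  exact ⟨x, by simpa [hx] using h x hx hv, rfl⟩

noncomputable def cntP (l : List (ℕ × ℕ)) (f : ℕ → ℕ → Bool) : ℕ :=
  List.rec (motive := fun _ => ℕ) 0 (fun e _ ih => ifB (f e.1 e.2) (Nat.succ ih) ih) l

theorem cntP_eq (l : List (ℕ × ℕ)) (f : ℕ → ℕ → Bool) : cntP l f = (l.filter fun e => f e.1 e.2).length := by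
  induction l with
  | nil => rfl
  | cons e l ih =>
    change ifB (f e.1 e.2) (Nat.succ (cntP l f)) (cntP l f) = _
    rw [ifB_eq, ih, List.filter_cons]; split_ifs <;> rfl

theorem card_le_cnt {B : Subgroup Γ} {l : List (ℕ × ℕ)} {f : ℕ → ℕ → Bool}
    (h : ∀ g ∈ B, ∃ b ∈ l, M.R b.1 g ∧ f b.1 b.2 = true) : Nat.card B ≤ cntP l f := by
  classical
  rw [cntP_eq, ← List.length_map (fun e => el e.1)]
  refine le_trans ?_ (List.toFinset_card_le _)
  rw [← Set.ncard_coe_finset]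
  refine Set.ncard_le_ncard (fun g hg => ?_) (Set.toFinite _)
  obtain ⟨b, hb, r, e⟩ := h g hg
  exact List.mem_toFinset.mpr (List.mem_map.mpr ⟨b, List.mem_filter.mpr ⟨hb, e⟩, R_fun (R_el r) r⟩)

theorem IL_all {g : Γ} (hg : g ∈ Tb) (h : g * g = 1) : ∃ a ∈ IL, M.R a.1 g := by
  obtain ⟨p, r, e⟩ := Tb_ch.forall (Lf := fun p => orB (force (o.mul p p) fun q => neB o pts q o.one)
    (anyP IL fun a _ => Nat.beq a p)) (by decide +kernel) hg
  rcases orB_iff.mp e with e | e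
  · exact absurd h (ne_of_neB hv hpt (M.R_mul r r) M.R_one (by rwa [force_eq] at e))
  · obtain ⟨a, ha, e⟩ := anyP_iff.mp e
    exact ⟨a, ha, Nat.eq_of_beq_eq_true e ▸ r⟩

theorem IL_fix {a : ℕ × ℕ} (ha : a ∈ IL) {g : Γ} (r : M.R a.1 g) {x : ℕ} (hx : x < 4096) (h1 : g (vc x) = vc x)
    (h2 : hf (vc x) (vc x) = 0) : a.2.testBit x = true := by
  have : (allP IL fun a T => force a fun a => force T fun T => allQ 4096 fun x =>
    impB (Nat.beq (mul12Ap a x) x) (impB (Nat.beq (herm4 6 x x) 0) (tb T x))) = true := by decide +kernel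
  have := allP_iff.mp this a ha
  simp only [force_eq, allQ_iff, impB_iff, Nat.beq_eq, tb_eq] at this
  exact this x hx (vc_inj (R_ap r hx).1 hx ((R_ap r hx).2.symm.trans h1)) (hf_eq h2)

noncomputable def cntI (m a T : ℕ) : ℕ := cntP IL fun b U => andB (notB (N.ncB o pts a b))
  (orB (Nat.beq m 0) (force (Nat.land T U) fun x => Nat.ble m (pcB 512 x)))

theorem IL_cnt : (allP IL fun a T => orB (N.sift o F16L a)
    (andB (Nat.blt (cntI 0 a T) 64) (andB (Nat.blt (cntI 32 a T) 32) (Nat.blt (cntI 64 a T) 16)))) = true := by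
  decide +kernel

theorem le_F16 {E : Subgroup Γ} (hE : E ≤ Tb) (h2 : ∀ g ∈ E, g * g = 1) {F : Set V6} (h3 : ∀ v ∈ F, hf v v = 0)
    (h4 : ∀ g ∈ E, ∀ v ∈ F, g v = v) (h5 : 16 ≤ Nat.card E) (h6 : 1024 ≤ Nat.card E * F.ncard) : E ≤ F16 := fun e he => by
  obtain ⟨a, ha, r⟩ := IL_all (hE he) (h2 e he)
  refine F16_ch.sift r ((orB_iff.mp (allP_iff.mp IL_cnt a ha)).resolve_right fun h => ?_)
  have k : ∀ m ≤ F.ncard, Nat.card E ≤ cntI m a.1 a.2 := fun m hm => card_le_cnt fun g hg => by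
    obtain ⟨b, hb, s⟩ := IL_all (hE hg) (h2 g hg)
    refine ⟨b, hb, s, andB_iff.mpr ⟨notB_iff.mpr fun e => N.ncB_spec hv hpt r s e (H11.comm_of_sq_eq_one h2 he hg),
      orB_iff.mpr (Or.inr ?_)⟩⟩
    rw [force_eq, Nat.ble_eq]
    refine hm.trans (ncard_le_pc fun x hx hv => ?_)
    change (a.2 &&& b.2).testBit x = true
    rw [Nat.testBit_and, IL_fix ha r hx (h4 e he _ hv) (h3 _ hv), IL_fix hb s hx (h4 g hg _ hv) (h3 _ hv)]; rfl
  simp only [andB_iff, Nat.blt_eq] at h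
  have a1 := (by decide : ∀ k < 64, k ∣ 256 → k ≤ 32 ∧ (k < 32 → k ≤ 16)) _ ((k 0 (by omega)).trans_lt h.1)
    (Tb_card ▸ card_dvd_of_le hE)
  have a2 := a1.2 ((k 32 (by nlinarith)).trans_lt h.2.1)
  have := (k 64 (by nlinarith)).trans_lt h.2.2
  omega

theorem F16_Tb : F16 ≤ Tb := F16_le (Tb_ch.inL F16_in (by decide +kernel))
theorem F16_K0 : F16 ≤ K0 := F16_le (K0_ch.inL F16_in (by decide +kernel))
theorem Tb_H1 : Tb ≤ H1 := Tb_le (H1_ch.inL Tb_in (by decide +kernel))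

theorem F16_sq {e : Γ} (he : e ∈ F16) : e * e = 1 := by
  obtain ⟨p, r, e⟩ := F16_ch.forall (Lf := fun p => isOne o (o.mul p p)) (by decide +kernel) he
  exact isOne_spec (M.R_mul r r) e

theorem F16_fix {x : ℕ} (hx : x < 4096) :
    (∀ e ∈ F16, e (vc x) = vc x) ↔ (allL fg fun a => Nat.beq (mul12Ap a x) x) = true := by
  simp only [allL_iff, Nat.beq_eq]
  refine ⟨fun h a ha => ?_, fun h e he => (F16_le (K := stabilizer Γ (vc x)) fun a ha => ?_) he⟩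
  · obtain ⟨e, he, r⟩ := F16_in a ha
    exact vc_inj (R_ap r hx).1 hx ((R_ap r hx).2.symm.trans (h e he))
  · obtain ⟨e, -, r⟩ := F16_in a ha
    exact ⟨e, (R_ap r hx).2.trans (congrArg vc (h a ha)), r⟩

theorem F16_trans {e f : Γ} (he : e ∈ F16) (h1 : e ≠ 1) (r : M.R (nth o.one fg 0) f) :
    ∃ u ∈ K0 ⊓ normalizer (F16 : Set Γ), u * f * u⁻¹ = e := by
  obtain ⟨p, s, h⟩ := F16_ch.forall (Lf := fun p => orB (isOne o p) (anyP FU fun u _ => cjM o u (nth o.one fg 0) p))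
    (by decide +kernel) he
  obtain ⟨u, hu, h⟩ := anyP_iff.mp ((orB_iff.mp h).resolve_left fun e => h1 (isOne_spec s e))
  obtain ⟨g, hg, r1, r2⟩ := K0_ch.prL (prL_top (S := FU) (by decide +kernel)) (by decide +kernel) u hu
  exact ⟨g, ⟨hg, mem_normalizer_of_conj_mem (F16_ch.conj_mem F16_clo (U := FU) (by decide +kernel) hu r1 r2)⟩,
    cjM_spec r1 r s h⟩

variable {G : Type*} [Group G] {z : G} {Q : Subgroup G} {ρ : centralizer ({z} : Set G) →* Γ} {p : G → V6}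

namespace FT
variable (m : FT z Q ρ p)
include m

theorem card_p {U : Subgroup G} (hU : U ≤ Q) : (p '' U).ncard * Nat.card ↥(U ⊓ zpowers z) = Nat.card U := by
  let f : Q →* Multiplicative V6 := MonoidHom.mk' (fun x => Multiplicative.ofAdd (p x)) fun x y => m.mul x.2 y.2
  have := card_map_mul_card_inf_ker f (U.subgroupOf Q)
  rwa [show U.subgroupOf Q ⊓ f.ker = (U ⊓ zpowers z).subgroupOf Q from Subgroup.ext fun x => and_congr Iff.rfl (m.zero x.2),
    Nat.card_congr (subgroupOfEquivOfLe hU).toEquiv, Nat.card_congr (subgroupOfEquivOfLe (inf_le_left.trans hU)).toEquiv,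
    show Nat.card ((U.subgroupOf Q).map f) = (p '' U).ncard from Nat.card_congr (Equiv.subtypeEquiv Multiplicative.toAdd
      fun v => ⟨fun ⟨x, hx, e⟩ => ⟨x, hx, e⟩, fun ⟨x, hx, e⟩ => ⟨⟨x, hU hx⟩, hx, e⟩⟩)] at this

theorem card_p' {U : Subgroup G} (hU : U ≤ Q) (hz : z ∈ U) : Nat.card U = 2 * (p '' U).ncard := by
  rw [← m.card_p hU, inf_eq_right.mpr (zpowers_le.mpr hz), Nat.card_zpowers, m.lx.ord, mul_comm]

theorem card_p_le [Finite G] {U : Subgroup G} (hU : U ≤ Q) : Nat.card U ≤ 2 * (p '' U).ncard := by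
  rw [← m.card_p hU, mul_comm]
  exact Nat.mul_le_mul_right _ ((card_le_of_le inf_le_right).trans (by rw [Nat.card_zpowers, m.lx.ord]))

theorem lift_cent [Finite G] {U : Subgroup G} (hU : U ≤ Q) (hz : z ∈ U) {e : Γ} (he : e ∈ ρ.range)
    (h : ∀ u ∈ U, e (p u) = p u) : ∃ c, ρ c = e ∧ (c : G) ∈ centralizer (U : Set G) := by
  obtain ⟨c, rfl⟩ := he
  have k : ∀ u ∈ U, c * u * (c : G)⁻¹ = u ∨ c * u * (c : G)⁻¹ = z * u := fun u hu =>
    m.uniq (hU hu) (m.conj_mem c (hU hu)) (by rw [m.act c (hU hu), h u hu])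
  by_cases h0 : U ≤ centralizer {(c : G)}
  · exact ⟨c, rfl, fun u hu => mem_centralizer_singleton_iff.mp (h0 hu)⟩
  obtain ⟨x, hx, hn⟩ := SetLike.not_le_iff_exists.mp h0
  obtain ⟨q, hq, e1, e2⟩ := xs_tv (K := U ⊓ centralizer {(c : G)}) m.lx.toXS (inf_le_left.trans hU)
    ⟨hz, mem_centralizer_singleton_iff.mpr (mem_centralizer_singleton_iff.mp c.2).symm⟩ (hU hx) fun h => hn h.2
  have l : ∀ u ∈ U, u ∉ centralizer {(c : G)} → c * u * (c : G)⁻¹ = z * u := fun u hu hn => (k u hu).resolve_left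
    fun e => hn (mem_centralizer_singleton_iff.mpr (mul_inv_eq_iff_eq_mul.mp e).symm)
  refine ⟨(⟨q, m.lx.le_centralizer hq⟩ : centralizer ({z} : Set G))⁻¹ * c, by simp [(m.ker ⟨q, _⟩).mpr hq], ?_⟩
  have l2 : x ∈ centralizer {q⁻¹ * c} := mem_centralizer_singleton_iff.mpr (by
    calc x * (q⁻¹ * c) = q⁻¹ * (q * x * q⁻¹) * c := by group
      _ = _ := by rw [e2, ← l x hx hn]; group)
  have l3 : ∀ u ∈ U, u ∈ centralizer {(c : G)} → u ∈ centralizer {q⁻¹ * c} := fun u hu h =>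
    mem_centralizer_singleton_iff.mpr (by
      rw [mul_assoc, ← mem_centralizer_singleton_iff.mp h, ← mul_assoc, ← mul_assoc,
        (show Commute q u from e1 u ⟨hu, h⟩).inv_left.eq])
  intro u hu
  refine mem_centralizer_singleton_iff.mp (?_ : u ∈ centralizer {q⁻¹ * c})
  by_cases h : u ∈ centralizer {(c : G)}
  · exact l3 u hu h
  · refine (mul_mem_cancel_left l2).mp (l3 _ (mul_mem hx hu) (mem_centralizer_singleton_iff.mpr ?_))
    rw [eq_comm, ← mul_inv_eq_iff_eq_mul, ← conj_mul, l x hx hn, l u hu h, mul_assoc, ← mul_assoc x, m.lx.cent x (hU hx),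
      mul_assoc z, ← mul_assoc z, m.lx.zz, one_mul]

/-- the preimage of the fixed space of `F16` -/
def A0 : Subgroup G where
  carrier := {x | x ∈ Q ∧ ∀ e ∈ F16, e (p x) = p x}
  one_mem' := ⟨one_mem _, fun e he => by
    rw [(m.zero (one_mem _)).mpr (one_mem _)]; simpa using GU_add (SUg_le (K0_SU (F16_K0 he))) 0 0⟩
  mul_mem' := fun ha hb => ⟨mul_mem ha.1 hb.1, fun e he => by
    rw [m.mul ha.1 hb.1, GU_add (SUg_le (K0_SU (F16_K0 he))), ha.2 e he, hb.2 e he]⟩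
  inv_mem' := fun ha => ⟨inv_mem ha.1, m.p_inv ha.1 ▸ ha.2⟩

theorem A0_le : m.A0 ≤ Q := fun _ h => h.1
theorem z_A0 : z ∈ m.A0 := ⟨m.lx.mem, by rw [m.p_z, ← (m.zero (one_mem _)).mpr (one_mem _)]; exact m.A0.one_mem.2⟩

theorem card_A0 : Nat.card m.A0 = 2 ^ 7 := by
  rw [m.card_p' m.A0_le m.z_A0, ncard_eq_cnt (X := p '' m.A0) (f := fun x => allL fg fun a => Nat.beq (mul12Ap a x) x)
    fun x hx => Iff.trans ⟨fun ⟨y, hy, e⟩ => e ▸ hy.2, fun h =>
    let ⟨y, hy, e⟩ := m.surj (vc x); ⟨y, ⟨hy, e ▸ h⟩, e⟩⟩ (F16_fix hx)]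
  decide +kernel

theorem A0_sq {x : G} (h : x ∈ m.A0) : x * x = 1 := by
  obtain ⟨y, hy, e⟩ := en_all (fun x => impB (allL fg fun a => Nat.beq (mul12Ap a x) x) (Nat.beq (herm4 6 x x) 0))
    (by decide +kernel) (p x)
  obtain ⟨h1, h2⟩ := P_iff.mp hy
  exact (m.sq h.1).mpr (h2 ▸ hf_of (Nat.eq_of_beq_eq_true (impB_iff.mp e ((F16_fix h1).mp (h2 ▸ h.2)))))

theorem A0_cent : m.A0 ≤ centralizer (m.A0 : Set G) := fun _ hx _ hy => H11.comm_of_sq_eq_one (fun _ => m.A0_sq) hy hx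

theorem A0_conj {h : centralizer ({z} : Set G)} (hn : ρ h ∈ normalizer (F16 : Set Γ)) {x : G} (hx : x ∈ m.A0) :
    h * x * (h : G)⁻¹ ∈ m.A0 := ⟨m.conj_mem h hx.1, fun e he => by
  have := hx.2 _ ((mem_normalizer_iff.mp (inv_mem hn) e).mp he)
  rw [m.act h hx.1]
  simp only [inv_inv, Equiv.Perm.mul_apply] at this
  exact (Equiv.Perm.inv_eq_iff_eq.mp this)⟩

/-- the Thompson subgroup -/
noncomputable def AA : Subgroup (centralizer ({z} : Set G)) := F16.comap ρ ⊓ (centralizer (m.A0 : Set G)).subgroupOf _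

theorem AA_conj {h a : centralizer ({z} : Set G)} (hn : ρ h ∈ normalizer (F16 : Set Γ)) (ha : a ∈ m.AA) :
    h * a * h⁻¹ ∈ m.AA := ⟨by simpa using (mem_normalizer_iff.mp hn _).mp ha.1, fun x hx => by
  have := ha.2 _ (m.A0_conj (h := h⁻¹) (by simpa using hn) hx)
  simp only [coe_inv, inv_inv, coe_subtype, coe_mul] at this ⊢
  calc x * (h * a * (h : G)⁻¹) = h * ((h : G)⁻¹ * x * h * a) * (h : G)⁻¹ := by group
    _ = _ := by rw [this]; group⟩

variable [Finite G]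

theorem AA_ker {a : centralizer ({z} : Set G)} : a ∈ m.AA ⊓ ρ.ker ↔ (a : G) ∈ m.A0 :=
  ⟨fun h => self_cent m.lx.isExtraspecial (n := 6) m.card m.A0_le m.card_A0 m.A0_cent ((m.ker a).mp h.2) h.1.2,
    fun h => ⟨⟨by simp [(m.ker a).mpr h.1], m.A0_cent h⟩, (m.ker a).mpr h.1⟩⟩

theorem sq_eq {a b : centralizer ({z} : Set G)} (ha : a ∈ m.AA) (hb : b ∈ m.AA) (e : ρ a = ρ b) : b * b = a * a := by
  have h := (m.AA_ker (a := a⁻¹ * b)).mp ⟨m.AA.mul_mem (m.AA.inv_mem ha) hb, by simp [e]⟩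
  have h1 : a⁻¹ * b * a = a * (a⁻¹ * b) := Subtype.ext (ha.2 _ h)
  have h2 : a⁻¹ * b * (a⁻¹ * b) = 1 := Subtype.ext (m.A0_sq h)
  calc b * b = a * (a⁻¹ * b * a) * (a⁻¹ * b) := by group
    _ = a * a * (a⁻¹ * b * (a⁻¹ * b)) := by rw [h1]; simp only [mul_assoc]
    _ = _ := by rw [h2, mul_one]

theorem AA_map (hr : ρ.range = H1) : m.AA.map ρ = F16 := le_antisymm (map_le_iff_le_comap.mpr inf_le_left) fun e he =>
  let ⟨c, h1, h2⟩ := m.lift_cent m.A0_le m.z_A0 (hr.ge (K0_H1 (F16_K0 he))) fun _ hu => hu.2 e he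
  ⟨c, ⟨mem_comap.mpr (h1 ▸ he), h2⟩, h1⟩

theorem card_inf {B : Subgroup (centralizer ({z} : Set G))} :
    Nat.card (B.map ρ) * Nat.card ((B ⊓ ρ.ker).map (centralizer ({z} : Set G)).subtype) = Nat.card B := by
  rw [card_map_of_injective (subtype_injective _), card_map_mul_card_inf_ker]

theorem AA_ker' : (m.AA ⊓ ρ.ker).map (centralizer ({z} : Set G)).subtype = m.A0 :=
  le_antisymm (map_le_iff_le_comap.mpr fun _ => m.AA_ker.mp) fun x hx =>
    ⟨⟨x, m.lx.le_centralizer hx.1⟩, m.AA_ker.mpr hx, rfl⟩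

theorem card_AA (hr : ρ.range = H1) : Nat.card m.AA = 2 ^ 11 := by
  rw [← m.card_inf, m.AA_map hr, m.AA_ker', F16_card, m.card_A0]; norm_num

theorem AA_sq (hr : ρ.range = H1) {a : centralizer ({z} : Set G)} (ha : a ∈ m.AA) : a * a = 1 := by
  obtain ⟨f0, h0, r0⟩ := F16_in.nth 0
  obtain ⟨f1, h1, r1⟩ := F16_in.nth 1
  obtain ⟨f2, h2, r2⟩ := F16_in.nth 2
  obtain ⟨x, hx, rfl⟩ := (m.AA_map hr).ge h0
  obtain ⟨y, hy, rfl⟩ := (m.AA_map hr).ge h1
  obtain ⟨w, hw, rfl⟩ := (m.AA_map hr).ge h2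
  have c1 : ((x * x : centralizer ({z} : Set G)) : G) ∈ zpowers z := m.lx.cQ _ fun q hq => by
    have e := (m.ker ⟨q, m.lx.le_centralizer hq⟩).mpr hq
    have := congrArg Subtype.val (m.sq_eq hx (m.AA_conj (by rw [e]; exact one_mem _) hx) (by simp [e]))
    rwa [coe_mul, coe_mul, coe_mul, coe_inv, conj_mul, mul_inv_eq_iff_eq_mul] at this
  have c2 : ∀ g, g * (x * x) = x * x * g := fun g =>
    Subtype.ext (m.lx.comm_of_mem_z c1 (mem_centralizer_singleton_iff.mp g.2))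
  have c3 : ∀ a ∈ m.AA, ρ a ≠ 1 → a * a = x * x := fun a ha h => by
    obtain ⟨u, hu, e⟩ := F16_trans ha.1 h r0
    obtain ⟨k, rfl⟩ := hr.ge (K0_H1 hu.1)
    rw [m.sq_eq (m.AA_conj hu.2 hx) ha (by simp [e]), conj_mul, c2, mul_inv_cancel_right]
  have c4 : ∀ {c} {b}, b ∈ m.AA → M.R c (ρ b) → andB (neB o pts c o.one) (force (o.mul (nth o.one fg 0) c) fun d =>
      neB o pts d o.one) = true → x * b = b * x⁻¹ := fun {c b} hb r h => by
    rw [andB_iff, force_eq] at h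
    have a1 := c3 b hb (ne_of_neB hv hpt r M.R_one h.1)
    have a2 := c3 _ (mul_mem hx hb) (map_mul ρ x b ▸ ne_of_neB hv hpt (M.R_mul r0 r) M.R_one h.2)
    rw [mul_assoc, mul_right_inj] at a2
    calc x * b = b⁻¹ * (b * (x * b) * x) * x⁻¹ := by group
      _ = _ := by rw [a2, ← a1]; group
  have d1 := c4 hy r1 (by decide +kernel)
  have d2 := c4 hw r2 (by decide +kernel)
  have d3 := c4 (mul_mem hy hw) (map_mul ρ y w ▸ M.R_mul r1 r2) (by decide +kernel)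
  have d4 : x * x = 1 := by
    rw [← mul_assoc, d1, mul_assoc, mul_assoc, mul_right_inj, ← d2, mul_left_inj] at d3
    exact inv_eq_iff_mul_eq_one.mp d3
  by_cases h : ρ a = 1
  · exact Subtype.ext (m.A0_sq (m.AA_ker.mp ⟨ha, h⟩))
  · rw [c3 a ha h, d4]

theorem le_AA {B : Subgroup (centralizer ({z} : Set G))} (hB : B.map ρ ≤ Tb) (h2 : ∀ b ∈ B, b * b = 1)
    (hc : 2 ^ 11 ≤ Nat.card B) : B ≤ m.AA := by
  have h6 := m.card_inf (B := B)
  set U := (B ⊓ ρ.ker).map (centralizer ({z} : Set G)).subtype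
  have h1 : U ≤ Q := map_le_iff_le_comap.mpr fun x hx => (m.ker x).mp hx.2
  have h3 : ∀ u ∈ U, u * u = 1 := by rintro _ ⟨x, hx, rfl⟩; exact congrArg Subtype.val (h2 x hx.1)
  have h4 := m.card_le h1 h3
  have h5 := m.card_p_le h1
  have h7 : ∀ b ∈ B, ∀ u ∈ U, u * b = b * u := by
    rintro b hb _ ⟨x, hx, rfl⟩; exact congrArg Subtype.val (H11.comm_of_sq_eq_one h2 hx.1 hb)
  have h8 : ∀ g ∈ B.map ρ, ∀ u ∈ U, g (p u) = p u := by
    rintro _ ⟨b, hb, rfl⟩ u hu; rw [← m.act b (h1 hu), ← h7 b hb u hu, mul_inv_cancel_right]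
  have h9 := le_F16 hB (by rintro _ ⟨b, hb, rfl⟩; rw [← map_mul, h2 b hb, map_one]) (F := p '' U)
    (by rintro _ ⟨u, hu, rfl⟩; exact (m.sq (h1 hu)).mp (h3 u hu)) (by rintro g hg _ ⟨u, hu, rfl⟩; exact h8 g hg u hu)
    (by nlinarith) (by nlinarith)
  have h10 := eq_of_le_of_card_ge h9 (by rw [F16_card]; nlinarith)
  have h11 : U = m.A0 := eq_of_le_of_card_ge (fun u hu => ⟨h1 hu, fun e he => h8 e (h10.ge he) u hu⟩) (by
    rw [h10, F16_card] at h6; rw [m.card_A0]; omega)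
  exact fun b hb => ⟨h9 ⟨b, hb, rfl⟩, fun u hu => h7 b hb u (h11.ge hu)⟩

end FT

end Cfsg.Agent.LL.U6
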