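import Cfsg.Agent.H21.Fi6

/-! The singular subgroup of order `8` in groups of large Fischer type. -/

set_option autoImplicit false
set_option maxRecDepth 100000
set_option linter.style.haveILetI false

namespace Cfsg.Agent.LL

open Cfsg Cfsg.Agent.H16 Cfsg.Agent.H3 Cfsg.Agent.H10 MulAction Mdl Subgroup
open scoped commutatorElement Pointwise

variable {G : Type*} [Group G] {z : G} {Q : Subgroup G}

/-- the conjugate of `Q` belonging to a conjugate of `z` -/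
def Qf (z : G) (Q : Subgroup G) (u : G) : Subgroup G :=
  ⨅ g ∈ {g | g * u * g⁻¹ = z}, Q.comap (MulAut.conj g).toMonoidHom

theorem mem_Qf {u y : G} : y ∈ Qf z Q u ↔ ∀ g, g * u * g⁻¹ = z → g * y * g⁻¹ ∈ Q := by simp [Qf, mem_iInf]

theorem Qf_cj (g : G) {x y : G} (h : y ∈ Qf z Q x) : g * y * g⁻¹ ∈ Qf z Q (g * x * g⁻¹) := mem_Qf.mpr fun k e => by
  have := mem_Qf.mp h (k * g) (by rw [← e]; group)
  convert this using 1; group

theorem Qf_eq (h : LX Q z) (g : G) : Qf z Q (g * z * g⁻¹) = Q.map (MulAut.conj g).toMonoidHom :=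
  le_antisymm (fun y hy => ⟨g⁻¹ * y * g⁻¹⁻¹, mem_Qf.mp hy _ (by group), by simp [mul_assoc]⟩) (by
    rintro _ ⟨q, hq, rfl⟩
    refine mem_Qf.mpr fun k e => ?_
    have := h.conj_mem (c := k * g) (mul_inv_eq_iff_eq_mul.mp (by simpa [mul_assoc] using e)) hq
    convert this using 1; simp [mul_assoc])

theorem Qf_z (h : LX Q z) : Qf z Q z = Q :=
  le_antisymm (fun y hy => by simpa using mem_Qf.mp hy 1 (by simp)) fun _ hy => mem_Qf.mpr fun _ e =>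
    h.conj_mem (mul_inv_eq_iff_eq_mul.mp e) hy

theorem exists_beta {A : Type*} [Group A] {C N : Subgroup G} (θ : C →* A) (hs : Function.Surjective θ) (hA : center A = ⊥)
    (hn : ∀ n ∈ N, ∀ c ∈ C, n * c * n⁻¹ ∈ C) (h : ∀ n ∈ N, ∃ a, ∀ c d : C, (d : G) = n * c * n⁻¹ → θ d = a * θ c * a⁻¹) :
    ∃ β : N →* A, ∀ (n : N) (c : C), (n : G) = c → β n = θ c := by
  choose f hf using h
  have u : ∀ a b : A, (∀ c, a * θ c * a⁻¹ = b * θ c * b⁻¹) → a = b := fun a b e => by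
    have : b⁻¹ * a ∈ center A := Subgroup.mem_center_iff.mpr fun g => by
      obtain ⟨c, rfl⟩ := hs g
      calc θ c * (b⁻¹ * a) = b⁻¹ * (b * θ c * b⁻¹) * a := by group
        _ = _ := by rw [← e]; group
    rw [hA, mem_bot, inv_mul_eq_one] at this; exact this.symm
  refine ⟨MonoidHom.mk' (fun n => f n n.2) fun a b => u _ _ fun c => ?_, fun n c e => u _ _ fun d => ?_⟩
  · rw [← hf _ (a * b).2 c ⟨_, hn _ (a * b).2 c c.2⟩ rfl, hf a a.2 ⟨_, hn b b.2 c c.2⟩ _ (by simp [mul_assoc]),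
      hf b b.2 c _ rfl]; group
  · exact (hf n n.2 d (c * d * c⁻¹) (by simp [e])).symm.trans (by simp)

namespace U6

abbrev v2 : V6 := vc 960
theorem om_v1 : ω • v1 = v2 := (vc_om (by norm_num)).symm.trans (congrArg vc (by decide +kernel))
theorem v12 : v1 + v2 = vc 975 := (vc_xor _ _).symm
theorem vc_ne {x y : ℕ} (hx : x < 4096 := by norm_num) (hy : y < 4096 := by norm_num) (h : x ≠ y := by norm_num) :
    vc x ≠ vc y := fun e => h (vc_inj hx hy e)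

theorem mem_L {v : V6} : (∃ c : F4, v = c • v1) ↔ v = 0 ∨ v = v1 ∨ v = v2 ∨ v = v1 + v2 := by
  refine ⟨fun ⟨c, e⟩ => ?_, ?_⟩
  · rcases (by decide : ∀ c : F4, c = 0 ∨ c = 1 ∨ c = ω ∨ c = 1 + ω) c with h | h | h | h <;>
      simp [e, h, add_smul, om_v1]
  · rintro (h | h | h | h)
    exacts [⟨0, by simp [h]⟩, ⟨1, by simp [h]⟩, ⟨ω, by rw [h, om_v1]⟩, ⟨1 + ω, by rw [h, add_smul, om_v1, one_smul]⟩]

noncomputable def lin (x : ℕ) : Bool := orB (Nat.beq x 0) (orB (Nat.beq x 15) (orB (Nat.beq x 960) (Nat.beq x 975)))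

theorem lin_iff {x : ℕ} (hx : x < 4096) : (∃ c : F4, vc x = c • v1) ↔ lin x = true := by
  have k : ∀ y < 4096, vc x = vc y ↔ x = y := fun y hy => ⟨vc_inj hx hy, congrArg vc⟩
  rw [mem_L, v12, ← vc_zero, k, k, k, k] <;> simp [lin, orB_iff]

noncomputable def ort (x y : ℕ) : Bool :=
  Nat.beq (force (Nat.xor x y) fun w => herm4 6 w w) (Nat.xor (herm4 6 x x) (herm4 6 y y))

theorem ort_iff (x y : ℕ) :
    hf (vc x + vc y) (vc x + vc y) = hf (vc x) (vc x) + hf (vc y) (vc y) ↔ ort x y = true := by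
  rw [← vc_xor, hf_vc, hf_vc, hf_vc, ort, force_eq, Nat.beq_eq]
  exact (by decide : ∀ a < 4, ∀ b < 4, ∀ c < 4, e4 ω a = e4 ω b + e4 ω c ↔ a = Nat.xor b c) _ (herm4_lt _ _) _
    (herm4_lt _ _) _ (herm4_lt _ _)

theorem S1_of {g : Γ} (hg : g ∈ H1) (h1 : g v1 = v1) (h2 : g v2 = v2) : g ∈ S1 := ⟨hg.resolve_right fun h => by
  have := GU_smul (SUg_le (K0_SU h)) ω v1
  simp only [Equiv.Perm.mul_apply, om_v1, h1, h2, show ψ v1 = v1 from TT_fix mP] at this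
  exact vc_ne (R_ap R_ψ (by norm_num)).1 (by norm_num) (by decide +kernel) ((R_ap R_ψ (by norm_num)).2.symm.trans this), h1⟩

theorem S1_fix {g : Γ} (hg : g ∈ S1) (c : F4) : g (c • v1) = c • v1 := by
  rw [GU_smul (SUg_le (K0_SU hg.1))]; exact congrArg _ hg.2

theorem E16_lin {e : Γ} (he : e ∈ E16) {x : ℕ} (hx : x < 4096) (h1 : ort x 15 = true) (h2 : ort x 960 = true) :
    ∃ c : F4, vc x + e (vc x) = c • v1 := by
  obtain ⟨a, r, h⟩ := E16_ch.forall (Lf := fun a => force a fun a => allQ 4096 fun x => impB (ort x 15) (impB (ort x 960)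
    (force (Nat.xor x (mul12Ap a x)) lin))) (by decide +kernel) he
  simp only [force_eq, allQ_iff, impB_iff] at h
  rw [(R_ap r hx).2, ← vc_xor]
  exact (lin_iff (Nat.xor_lt_two_pow (n := 12) hx (R_ap r hx).1)).mpr (h x hx h1 h2)

theorem E16_one {e : Γ} (he : e ∈ E16) (h : ∀ x < 4096, ort x 15 = true → ort x 960 = true → e (vc x) = vc x) : e = 1 := by
  obtain ⟨a, r, k⟩ := E16_ch.forall (Lf := fun a => force a fun a => orB (isOne o a) (notB (allL hB fun x =>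
    impB (andB (Nat.blt x 4096) (andB (ort x 15) (ort x 960))) (Nat.beq (mul12Ap a x) x)))) (by decide +kernel) he
  rw [force_eq, orB_iff, notB_iff] at k
  refine isOne_spec r (k.resolve_right fun k => k (allL_iff.mpr fun x _ => impB_iff.mpr fun l => ?_))
  simp only [andB_iff, Nat.blt_eq] at l
  exact Nat.beq_eq ▸ vc_inj (R_ap r l.1).1 l.1 ((R_ap r l.1).2.symm.trans (h x l.1 l.2.1 l.2.2))

theorem R_E1 : ∃ e ∈ E16, M.R cE1 e := E16_in _ (by decide +kernel)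

theorem sg_in : M.PrL S1 (sg.map fun a => (a, powM o a 119)) := S1_ch.prL (prL_top (by decide +kernel)) (by decide +kernel)

variable {ρ : centralizer ({z} : Set G) →* Γ} {p : G → V6}

namespace FT
variable (m : FT z Q ρ p)
include m

theorem sq' {x : G} (hx : x ∈ Q) : x * x = 1 ∧ hf (p x) (p x) = 0 ∨ x * x = z ∧ hf (p x) (p x) = 1 :=
  (hf01 (p x)).imp (fun h => ⟨(m.sq hx).mpr h, h⟩) fun h => ⟨(m.lx.mem_z.mp (m.lx.sq x hx)).resolve_left fun e =>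
    absurd (h.symm.trans ((m.sq hx).mp e)) (by decide), h⟩

theorem comm_iff {x y : G} (hx : x ∈ Q) (hy : y ∈ Q) :
    x * y = y * x ↔ hf (p x + p y) (p x + p y) = hf (p x) (p x) + hf (p y) (p y) := by
  have h0 := m.lx.ne_one
  have h1 := m.lx.zz
  have h2 := m.sq' (mul_mem hx hy)
  have h3 : (1 : F4) + 1 = 0 := by decide
  rw [m.mul hx hy, show x * y * (x * y) = x * (y * x) * y by group] at h2
  refine ⟨fun e => ?_, fun e => by_contra fun n => ?_⟩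
  · rw [← e, show x * (x * y) * y = x * x * (y * y) by group] at h2
    rcases m.sq' hx with a | a <;> rcases m.sq' hy with b | b <;> rw [a.1, b.1] at h2 <;> rw [a.2, b.2] <;>
      rcases h2 with c | c <;> simp_all
  · rw [m.lx.mul_eq_of_ne hy hx (Ne.symm n), ← mul_assoc x, m.lx.cent x hx,
      show z * x * (x * y) * y = z * (x * x * (y * y)) by group, e] at h2
    rcases m.sq' hx with a | a <;> rcases m.sq' hy with b | b <;> rw [a.1, b.1, a.2, b.2] at h2 <;>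
      rcases h2 with c | c <;> simp_all

theorem comm_ort {x y : G} (hx : x ∈ Q) (hy : y ∈ Q) {a b : ℕ} (ha : p x = vc a) (hb : p y = vc b) :
    x * y = y * x ↔ ort a b = true := by rw [m.comm_iff hx hy, ha, hb, ort_iff]

/-- the preimage of the singular line -/
def V : Subgroup G where
  carrier := {x | x ∈ Q ∧ ∃ c : F4, p x = c • v1}
  one_mem' := ⟨one_mem _, 0, by rw [(m.zero (one_mem _)).mpr (one_mem _), zero_smul]⟩
  mul_mem' := fun ⟨ha, c, e⟩ ⟨hb, d, f⟩ => ⟨mul_mem ha hb, c + d, by rw [m.mul ha hb, e, f, add_smul]⟩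
  inv_mem' := fun ha => ⟨inv_mem ha.1, m.p_inv ha.1 ▸ ha.2⟩

theorem V_Q : m.V ≤ Q := fun _ h => h.1
theorem z_V : z ∈ m.V := ⟨m.lx.mem, 0, by rw [m.p_z, zero_smul]⟩
theorem CV_le : centralizer (m.V : Set G) ≤ centralizer {z} := centralizer_le (by simpa using m.z_V)

theorem card_V : Nat.card m.V = 2 ^ 3 := by
  rw [m.card_p' m.V_Q m.z_V, ncard_eq_cnt (X := p '' m.V) (f := lin) fun x hx => Iff.trans
    ⟨fun ⟨y, hy, e⟩ => e ▸ hy.2, fun h => let ⟨y, hy, e⟩ := m.surj (vc x); ⟨y, ⟨hy, e ▸ h⟩, e⟩⟩ (lin_iff hx)]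
  decide +kernel

theorem V_sq {x : G} (h : x ∈ m.V) : x * x = 1 := by
  refine (m.sq h.1).mpr ?_
  rcases mem_L.mp h.2 with e | e | e | e <;> rw [e]
  exacts [vc_zero ▸ hf_of (by decide +kernel), hf_of (by decide +kernel), hf_of (by decide +kernel),
    v12 ▸ hf_of (by decide +kernel)]

theorem V_comm {x y : G} (hx : x ∈ m.V) (hy : y ∈ m.V) : x * y = y * x := H11.comm_of_sq_eq_one (fun _ => m.V_sq) hx hy
theorem V_CV : m.V ≤ centralizer (m.V : Set G) := fun _ hx _ hy => m.V_comm hy hx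

theorem mem_of {K : Subgroup G} (hz : z ∈ K) {x y : G} (hx : x ∈ Q) (hy : y ∈ Q) (h : x ∈ K) (e : p x = p y) : y ∈ K := by
  rcases m.uniq hx hy e with e | e <;> rw [e]
  exacts [h, mul_mem hz h]

theorem V_le {s t : G} (hs : s ∈ Q) (ht : t ∈ Q) (ps : p s = v1) (pt : p t = v2) {K : Subgroup G} (h1 : z ∈ K) (h2 : s ∈ K)
    (h3 : t ∈ K) : m.V ≤ K := fun x hx => by
  rcases mem_L.mp hx.2 with e | e | e | e
  exacts [m.mem_of h1 m.lx.mem hx.1 h1 (m.p_z.trans e.symm), m.mem_of h1 hs hx.1 h2 (ps.trans e.symm),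
    m.mem_of h1 ht hx.1 h3 (pt.trans e.symm), m.mem_of h1 (mul_mem hs ht) hx.1 (mul_mem h2 h3) (by rw [m.mul hs ht, ps, pt, e])]

theorem mem_CV {s t : G} (hs : s ∈ Q) (ht : t ∈ Q) (ps : p s = v1) (pt : p t = v2) {c : G} (h1 : z * c = c * z)
    (h2 : s * c = c * s) (h3 : t * c = c * t) : c ∈ centralizer (m.V : Set G) := fun _ hx =>
  mem_centralizer_singleton_iff.mp (m.V_le hs ht ps pt (K := centralizer {c}) (mem_centralizer_singleton_iff.mpr h1)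
    (mem_centralizer_singleton_iff.mpr h2) (mem_centralizer_singleton_iff.mpr h3) hx)

theorem s_V {s : G} (hs : s ∈ Q) (ps : p s = v1) : s ∈ m.V := ⟨hs, 1, by rw [ps, one_smul]⟩
theorem t_V {t : G} (ht : t ∈ Q) (pt : p t = v2) : t ∈ m.V := ⟨ht, ω, pt.trans om_v1.symm⟩

theorem fix_of {c : centralizer ({z} : Set G)} {x : G} (hx : x ∈ Q) (h : x * c = c * x) : ρ c (p x) = p x := by
  rw [← m.act c hx, ← h, mul_inv_cancel_right]

theorem mem_QC {q : G} (hq : q ∈ Q) {x : ℕ} (e : p q = vc x) :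
    q ∈ centralizer (m.V : Set G) ↔ ort x 15 = true ∧ ort x 960 = true := by
  obtain ⟨s, hs, ps⟩ := m.surj v1
  obtain ⟨t, ht, pt⟩ := m.surj v2
  rw [← m.comm_ort hq hs e ps, ← m.comm_ort hq ht e pt]
  exact ⟨fun h => ⟨(h s (m.s_V hs ps)).symm, (h t (m.t_V ht pt)).symm⟩,
    fun h => m.mem_CV hs ht ps pt (m.lx.cent q hq).symm h.1.symm h.2.symm⟩

theorem card_QC : Nat.card ↥(Q ⊓ centralizer (m.V : Set G)) = 2 ^ 11 := by
  rw [m.card_p' inf_le_left ⟨m.lx.mem, m.V_CV m.z_V⟩, ncard_eq_cnt (X := p '' ↑(Q ⊓ centralizer (m.V : Set G)))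
    (f := fun x => andB (ort x 15) (ort x 960)) fun x hx => ⟨fun ⟨y, hy, e⟩ => andB_iff.mpr ((m.mem_QC hy.1 e).mp hy.2),
      fun h => let ⟨y, hy, e⟩ := m.surj (vc x); ⟨y, ⟨hy, (m.mem_QC hy e).mpr (andB_iff.mp h)⟩, e⟩⟩]
  decide +kernel

theorem z_comm : ∃ a ∈ Q ⊓ centralizer (m.V : Set G), ∃ b ∈ Q ⊓ centralizer (m.V : Set G), ⁅a, b⁆ = z := by
  obtain ⟨a, ha, e⟩ := m.surj (vc 16)
  obtain ⟨b, hb, f⟩ := m.surj (vc 1024)
  refine ⟨a, ⟨ha, (m.mem_QC ha e).mpr (by decide +kernel)⟩, b, ⟨hb, (m.mem_QC hb f).mpr (by decide +kernel)⟩, ?_⟩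
  rw [commutatorElement_def, m.lx.conj_eq_of_ne ha hb (mt (m.comm_ort ha hb e f).mp (by decide +kernel)),
    mul_inv_cancel_right]

/-- the largest normal `2`-subgroup of the normalizer of `V` -/
noncomputable def R : Subgroup G := (E16.comap ρ).map (centralizer ({z} : Set G)).subtype ⊓ centralizer (m.V : Set G)

theorem mem_R {c : centralizer ({z} : Set G)} : (c : G) ∈ m.R ↔ ρ c ∈ E16 ∧ (c : G) ∈ centralizer (m.V : Set G) :=
  and_congr_left' (mem_map_iff_mem (subtype_injective _))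

theorem QC_R : Q ⊓ centralizer (m.V : Set G) ≤ m.R := fun q hq =>
  (m.mem_R (c := ⟨q, m.CV_le hq.2⟩)).mpr ⟨by rw [(m.ker _).mpr hq.1]; exact one_mem _, hq.2⟩

variable (hr : ρ.range = H1)
include hr

theorem ρ_S1 {c : centralizer ({z} : Set G)} (hc : (c : G) ∈ centralizer (m.V : Set G)) : ρ c ∈ S1 := by
  obtain ⟨s, hs, ps⟩ := m.surj v1
  obtain ⟨t, ht, pt⟩ := m.surj v2
  exact S1_of (hr.le ⟨c, rfl⟩) (ps ▸ m.fix_of hs (hc s (m.s_V hs ps))) (pt ▸ m.fix_of ht (hc t (m.t_V ht pt)))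

variable [Finite G]

theorem lift {e : Γ} (he : e ∈ S1) : ∃ c, ρ c = e ∧ (c : G) ∈ centralizer (m.V : Set G) :=
  m.lift_cent m.V_Q m.z_V (hr.ge (K0_H1 he.1)) fun _ ⟨_, c, h⟩ => h ▸ S1_fix he c

theorem card_R : Nat.card m.R = 2 ^ 15 := by
  have h := m.card_inf (B := m.R.subgroupOf _)
  rw [Nat.card_congr (subgroupOfEquivOfLe (H := m.R) (inf_le_right.trans m.CV_le)).toEquiv,
    show (m.R.subgroupOf _).map ρ = E16 from le_antisymm (map_le_iff_le_comap.mpr fun _ h => (m.mem_R.mp h).1) fun e he =>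
      let ⟨c, h1, h2⟩ := m.lift hr (E16_S1 he); ⟨c, m.mem_R.mpr ⟨h1 ▸ he, h2⟩, h1⟩,
    show (m.R.subgroupOf _ ⊓ ρ.ker).map (centralizer ({z} : Set G)).subtype = Q ⊓ centralizer (m.V : Set G) from
      le_antisymm (map_le_iff_le_comap.mpr fun c h => ⟨(m.ker c).mp h.2, h.1.2⟩) fun q hq =>
        ⟨⟨q, m.CV_le hq.2⟩, ⟨m.QC_R hq, (m.ker _).mpr hq.1⟩, rfl⟩, E16_card, m.card_QC] at h
  omega

omit hr in
theorem cent_R {c : G} (hc : c ∈ m.R) (h : ∀ r ∈ m.R, r * c = c * r) : c ∈ m.V := by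
  have h1 := (m.mem_R (c := ⟨c, m.CV_le hc.2⟩)).mp hc
  have h2 := (m.ker _).mp (E16_one h1.1 fun x _ a b => by
    obtain ⟨q, hq, e⟩ := m.surj (vc x)
    exact e ▸ m.fix_of hq (h q (m.QC_R ⟨hq, (m.mem_QC hq e).mpr ⟨a, b⟩⟩)))
  exact sup_eq_left.mpr (zpowers_le.mpr m.z_V) ▸ m.lx.dc' m.V_Q ⟨h2, fun q hq => h q (m.QC_R hq)⟩

theorem exists_θ' : ∃ θ : centralizer (m.V : Set G) →* A6, Function.Surjective θ ∧ ∀ c, θ c = 1 ↔ (c : G) ∈ m.R := by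
  obtain ⟨θ, hs, hk⟩ := exists_θ
  refine ⟨θ.comp ((ρ.comp (inclusion m.CV_le)).codRestrict X1 fun c => S1_X1 (m.ρ_S1 hr c.2)), fun a => ?_, fun c =>
    (hk _).trans ⟨fun h => (m.mem_R (c := inclusion m.CV_le c)).mpr ⟨E32_K0 h (m.ρ_S1 hr c.2).1, c.2⟩,
      fun h => E16_E32 ((m.mem_R (c := inclusion m.CV_le c)).mp h).1⟩⟩
  obtain ⟨g, rfl⟩ := hs a
  obtain ⟨y, hy, h⟩ := X1_cases g.2
  obtain ⟨c, h1, h2⟩ := m.lift hr h
  exact ⟨⟨c, h2⟩, (congrArg θ (Subtype.ext h1 : _ = ⟨y, E32_X1 hy⟩ * g)).trans (by rw [map_mul, (hk _).mpr hy, one_mul])⟩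

variable (hw : ∃ g : G, g * z * g⁻¹ ∈ Q ∧ g * z * g⁻¹ ≠ z)
include hw

theorem lpr {s : G} (hs : s ∈ Q) (ps : p s = v1) : LPr Q (Qf z Q s) z s ∧ ((Qf z Q s ⊓ centralizer ({z} : Set G)).subgroupOf
    (centralizer ({z} : Set G))).map ρ = E32 := by
  obtain ⟨g, rfl⟩ := isConj_iff.mp (m.isConj_of hr hw hs ⟨1, one_mem _, ps⟩)
  have h := m.lx.lpr hs fun e => v1_ne (by rw [← ps, e, m.p_z])
  rw [Qf_eq m.lx]
  exact ⟨h, m.E_eq h (m.card_conj g) rfl hr ps⟩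

theorem exists_w {s : G} (hs : s ∈ Q) (ps : p s = v1) {x : ℕ} (hx : x < 4096) (h : ort x 15 = true) :
    ∃ a ∈ Q ⊓ Qf z Q s, p a = vc (Nat.xor (mul12Ap cE1 x) x) := by
  obtain ⟨hp, hE⟩ := m.lpr hr hw hs ps
  obtain ⟨e, he, r⟩ := R_E1
  obtain ⟨y, hy, rfl⟩ := hE.ge (E16_E32 he)
  obtain ⟨q, hq, e⟩ := m.surj (vc x)
  have h1 := m.conj_mem y hq
  refine ⟨y * q * (y : G)⁻¹ * q⁻¹, ⟨Q.mul_mem h1 (inv_mem hq), ?_⟩, ?_⟩
  · rw [mul_assoc, mul_assoc, ← mul_assoc q]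
    exact (Qf z Q s).mul_mem hy.1 (hp.hP.conj_mem ((m.comm_ort hq hs e ps).mpr h) ((Qf z Q s).inv_mem hy.1))
  · rw [m.mul h1 (inv_mem hq), m.act y hq, m.p_inv hq, e, (R_ap r hx).2]; exact (vc_xor _ _).symm

theorem V_P {s : G} (hs : s ∈ Q) (ps : p s = v1) : m.V ≤ Qf z Q s :=
  let ⟨_, ha, e⟩ := m.exists_w hr hw hs ps (x := u1) (by decide) (by decide +kernel)
  m.V_le hs ha.1 ps (e.trans (congrArg vc (by decide +kernel))) (m.lpr hr hw hs ps).1.zP (m.lpr hr hw hs ps).1.hP.mem ha.2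

theorem ss : SS (Qf z Q) m.V := by
  have k : ∀ u ∈ m.V, u ≠ 1 → LX (Qf z Q u) u ∧ m.V ≤ Qf z Q u := fun u hu h1 => by
    by_cases h : u = z
    · rw [h, Qf_z m.lx]; exact ⟨m.lx, m.V_Q⟩
    obtain ⟨c, e⟩ := hu.2
    obtain ⟨g, hg, f⟩ : ∃ g ∈ Z, ∀ v, g (c • v) = v := by
      rcases (by decide : ∀ c : F4, c = 0 ∨ c = 1 ∨ ω * c = 1 ∨ ω * (ω * c) = 1) c with a | a | a | a
      · exact ((m.lx.mem_z.mp ((m.zero hu.1).mp (by rw [e, a, zero_smul]))).elim h1 h).elim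
      · exact ⟨1, one_mem _, by simp [a]⟩
      · exact ⟨Wm, mem_zpowers _, fun v => (smul_smul ω c v).trans (by rw [a, one_smul])⟩
      · exact ⟨Wm * Wm, mem_Z.mpr (by simp), fun v => (congrArg (ω • ·) (smul_smul ω c v)).trans
          ((smul_smul ω _ v).trans (by rw [a, one_smul]))⟩
    obtain ⟨n, rfl⟩ := hr.ge (K0_H1 (Z_K0 hg))
    have h2 := m.conj_mem n hu.1
    have h3 : p (n * u * (n : G)⁻¹) = v1 := by rw [m.act n hu.1, e, f]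
    obtain ⟨a, rfl⟩ := isConj_iff.mp (m.isConj_of hr hw hu.1 ⟨_, Z_K0 hg, by rw [e, f]⟩)
    refine ⟨Qf_eq m.lx a ▸ m.lx.conj a, fun v hv => ?_⟩
    obtain ⟨d, hd⟩ := hv.2
    have := Qf_cj (n : G)⁻¹ (m.V_P hr hw h2 h3 (x := n * v * (n : G)⁻¹) ⟨m.conj_mem n hv.1, d * c⁻¹, ?_⟩)
    · simpa [mul_assoc] using this
    · have h0 : c ≠ 0 := fun h => v1_ne (by simpa [h, (m.og n).1 0 0] using (f v1).symm.trans (by
        have := (m.og n).1 0 0; simpa [h] using this))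
      rw [m.act n hv.1, hd, ← f ((d * c⁻¹) • v1), smul_smul, mul_comm d, mul_inv_cancel_left₀ h0]
  exact ⟨fun g _ _ => Qf_cj g, fun _ => m.V_sq, fun u hu h => (k u hu h).1, fun u hu h => (k u hu h).2⟩

theorem Qf_R {u : G} (hu : u ∈ m.V) (h1 : u ≠ 1) : Qf z Q u ⊓ centralizer (m.V : Set G) ≤ m.R := fun c hc => by
  have hl := (m.ss hr hw).lx u hu h1
  have h2 : ((Qf z Q u ⊓ centralizer (m.V : Set G)).subgroupOf _).map ρ ≤ S1 :=
    map_le_iff_le_comap.mpr fun _ h => m.ρ_S1 hr h.2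
  have h3 := O2_X1 (h2.trans S1_X1) (by
    rintro k hk _ ⟨x, hx, rfl⟩
    obtain ⟨k, rfl, h⟩ := m.lift hr hk
    exact ⟨k * x * k⁻¹, ⟨hl.conj_mem (h u hu).symm hx.1, normBy_self _ _ h _ hx.2⟩, by simp⟩)
    (hl.isPGroup.to_inf_left.comap_subtype.map ρ)
  exact (m.mem_R (c := ⟨c, m.CV_le hc.2⟩)).mpr ⟨E32_K0 (h3 ⟨_, hc, rfl⟩) (h2 ⟨_, hc, rfl⟩).1, hc.2⟩

theorem R_dec {s : G} (hs : s ∈ Q) (ps : p s = v1) {r : G} (h : r ∈ m.R) : ∃ q ∈ Q ⊓ centralizer (m.V : Set G),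
    ∃ y ∈ Qf z Q s ⊓ centralizer (m.V : Set G), r = q * y := by
  obtain ⟨hp, hE⟩ := m.lpr hr hw hs ps
  have h1 := (m.mem_R (c := ⟨r, m.CV_le h.2⟩)).mp h
  obtain ⟨y, hy, e⟩ := hE.ge (E16_E32 h1.1)
  obtain ⟨t, ht, pt⟩ := m.surj v2
  have h2 : (y : G) ∈ centralizer (m.V : Set G) := m.mem_CV hs ht ps pt (mem_centralizer_singleton_iff.mp y.2).symm
    (hp.hP.cent y hy.1).symm (by
      by_contra n
      have a : y * t * (y : G)⁻¹ = s * t := hp.hP.conj_eq_of_ne hy.1 (m.V_P hr hw hs ps (m.t_V ht pt)) (Ne.symm n)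
      have b := m.act y ht
      rw [a, m.mul hs ht, ps, pt, e, ← om_v1, S1_fix (E16_S1 h1.1), add_eq_right] at b
      exact v1_ne b)
  exact ⟨r * (y : G)⁻¹, ⟨(m.ker (⟨r, m.CV_le h.2⟩ * y⁻¹)).mp (by rw [map_mul, map_inv, e, mul_inv_cancel]),
    Subgroup.mul_mem _ h.2 (inv_mem h2)⟩, y, ⟨hy.1, h2⟩, by simp⟩

theorem R_sq {r : G} (h : r ∈ m.R) : r * r ∈ m.V := by
  obtain ⟨s, hs, ps⟩ := m.surj v1
  obtain ⟨q, hq, y, hy, rfl⟩ := m.R_dec hr hw hs ps h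
  have h1 := (m.mem_R (c := ⟨y, m.CV_le hy.2⟩)).mp (m.Qf_R hr hw (m.s_V hs ps) (m.lpr hr hw hs ps).1.hP.ne_one hy)
  have h2 := m.conj_mem ⟨y, m.CV_le hy.2⟩ hq.1
  obtain ⟨x, hx, e⟩ := vc_surj (p q)
  have h3 := (m.mem_QC hq.1 e.symm).mp hq.2
  rw [show q * y * (q * y) = q * (y * q * y⁻¹) * (y * y) by group]
  refine mul_mem ⟨mul_mem hq.1 h2, ?_⟩ (zpowers_le.mpr (m.s_V hs ps) ((m.lpr hr hw hs ps).1.hP.sq y hy.1))
  rw [m.mul hq.1 h2, m.act ⟨y, m.CV_le hy.2⟩ hq.1, ← e]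
  exact E16_lin h1.1 hx h3.1 h3.2

theorem cert {s : G} (hs : s ∈ Q) (ps : p s = v1) {K : Subgroup G} (h1 : z ∈ K) (h2 : s ∈ K)
    (h : ∀ c ∈ centralizer (m.V : Set G), ∃ r ∈ m.R, ∀ a ∈ Q ⊓ Qf z Q s, ⁅r * c, a⁆ ∈ K) : m.V ≤ K := by
  obtain ⟨hp, -⟩ := m.lpr hr hw hs ps
  have k0 : ∀ c ∈ centralizer (m.V : Set G), ∀ a ∈ Q ⊓ Qf z Q s, c * a * c⁻¹ ∈ Q ⊓ Qf z Q s := fun c hc a ha =>
    ⟨m.lx.conj_mem (hc z m.z_V).symm ha.1, hp.hP.conj_mem (hc s (m.s_V hs ps)).symm ha.2⟩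
  have k1 : ∀ r ∈ m.R, ∀ a ∈ Q ⊓ Qf z Q s, ⁅r, a⁆ ∈ K := fun r hr' a ha => by
    obtain ⟨q, hq, y, hy, rfl⟩ := m.R_dec hr hw hs ps hr'
    rw [show ⁅q * y, a⁆ = ⁅q, y * a * y⁻¹⁆ * ⁅y, a⁆ by simp only [commutatorElement_def]; group]
    exact mul_mem (zpowers_le.mpr h1 (m.lx.comm_mem hq.1 (k0 y hy.2 a ha).1)) (zpowers_le.mpr h2 (hp.hP.comm_mem hy.1 ha.2))
  obtain ⟨a, ha, e⟩ := m.exists_w hr hw hs ps (x := u2) (by decide) (by decide +kernel)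
  replace e : p a = vc 3 := e.trans (congrArg vc (by decide +kernel))
  have k2 : ∀ i, ∃ b ∈ Q ⊓ K, p b = vc (Nat.xor (mul12Ap (nthP o.one (sg.map fun a => (a, powM o a 119)) i).1 3) 3) := fun i => by
    obtain ⟨g, hg, r, -⟩ := sg_in.nth i
    obtain ⟨c, rfl, hc⟩ := m.lift hr hg
    obtain ⟨r', h3, h4⟩ := h c hc
    have h5 := m.conj_mem c ha.1
    refine ⟨⁅(c : G), a⁆, ⟨Q.mul_mem h5 (Q.inv_mem ha.1), ?_⟩, ?_⟩
    · rw [show ⁅(c : G), a⁆ = ⁅r'⁻¹, r' * c * a * (r' * c)⁻¹⁆ * ⁅r' * c, a⁆ by simp only [commutatorElement_def]; group]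
      exact mul_mem (k1 _ (inv_mem h3) _ (k0 _ (mul_mem h3.2 hc) a ha)) (h4 a ha)
    · rw [commutatorElement_def, m.mul h5 (inv_mem ha.1), m.act c ha.1, m.p_inv ha.1, e, (R_ap r (by norm_num)).2]
      exact (vc_xor _ _).symm
  obtain ⟨b0, a0, e0⟩ := k2 0
  obtain ⟨b1, a1, e1⟩ := k2 1
  obtain ⟨b2, a2, e2⟩ := k2 2
  refine m.V_le hs (mul_mem (mul_mem a0.1 a1.1) a2.1) ps ?_ h1 h2 (mul_mem (mul_mem a0.2 a1.2) a2.2)
  rw [m.mul (mul_mem a0.1 a1.1) a2.1, m.mul a0.1 a1.1, e0, e1, e2, ← vc_xor, ← vc_xor]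
  exact congrArg vc (by decide +kernel)

end FT

end U6

end Cfsg.Agent.LL
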