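import Cfsg.Agent.H21.Fi7

/-! The centralizer of `O₃` in groups of large Fischer type. -/

set_option autoImplicit false
set_option maxRecDepth 100000
set_option linter.style.haveILetI false

namespace Cfsg.Agent.LL

open Cfsg Cfsg.Agent.H16 Cfsg.Agent.H3 Cfsg.Agent.H10 MulAction Mdl Subgroup
open scoped commutatorElement Pointwise

variable {G : Type*} [Group G] {z : G} {Q : Subgroup G}

/-- the trace for an element of order `3` -/
def tr3 (x a : G) : G := a * (x * a * x⁻¹) * (x * (x * a * x⁻¹) * x⁻¹)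

theorem tr3_conj {x y : G} (h : x * y = y * x) (a : G) : tr3 x (y * a * y⁻¹) = y * tr3 x a * y⁻¹ := by
  have k : ∀ a, x * (y * a * y⁻¹) * x⁻¹ = y * (x * a * x⁻¹) * y⁻¹ := fun a => by
    calc _ = x * y * a * (x * y)⁻¹ := by group
      _ = _ := by rw [h]; group
  simp only [tr3, k]; group

theorem cube_conj {x : G} (h : x ^ 3 = 1) (a : G) : x * (x * (x * a * x⁻¹) * x⁻¹) * x⁻¹ = a := by
  calc _ = x ^ 3 * a * (x ^ 3)⁻¹ := by simp [pow_succ, mul_assoc]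
    _ = _ := by simp [h]

section
variable {B : Subgroup G} {x : G} (hB : ∀ a ∈ B, a * a = 1) (hx : ∀ a ∈ B, x * a * x⁻¹ ∈ B)
include hx

theorem tr3_mem {a : G} (ha : a ∈ B) : tr3 x a ∈ B := mul_mem (mul_mem ha (hx a ha)) (hx _ (hx a ha))

include hB

theorem tr3_mul {a b : G} (ha : a ∈ B) (hb : b ∈ B) : tr3 x (a * b) = tr3 x a * tr3 x b := by
  have k : ∀ {a b}, a ∈ B → b ∈ B → Commute a b := H11.comm_of_sq_eq_one hB
  rw [tr3, ← conj_mul, ← conj_mul, (k hb (hx a ha)).mul_mul_mul_comm,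
    (k (mul_mem hb (hx b hb)) (hx _ (hx a ha))).mul_mul_mul_comm, tr3, tr3]

theorem tr3_cent (h : x ^ 3 = 1) {a : G} (ha : a ∈ B) : tr3 x a * x = x * tr3 x a := by
  rw [eq_comm, ← mul_inv_eq_iff_eq_mul, tr3, ← conj_mul, ← conj_mul, cube_conj h, mul_assoc a]
  exact H11.comm_of_sq_eq_one hB (mul_mem (hx a ha) (hx _ (hx a ha))) ha

end

namespace U6

theorem K0_perf : K0 ≤ ⁅K0, K0⁆ := fun k hk => by
  obtain ⟨π, hs, h⟩ := exists_U
  have h1 : commutator U43 = ⊤ := (Normal.eq_bot_or_eq_top inferInstance).resolve_left fun e => by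
    rw [commutator_def, commutator_eq_bot_iff_le_centralizer, coe_top, centralizer_univ, center_U] at e
    exact top_ne_bot (le_bot_iff.mp e)
  have h2 := map_commutator ⊤ ⊤ π
  rw [map_top_of_surjective π hs, ← commutator_def, ← commutator_def, h1] at h2
  obtain ⟨d, hd, e⟩ := h2.ge (mem_top (π ⟨k, hk⟩))
  have hW := K0_ch.prL (prL_top (S := WU) (by decide +kernel)) (by decide +kernel)
  obtain ⟨a, ha, r1, r2⟩ := hW.nth 0
  obtain ⟨b, hb, s1, s2⟩ := hW.nth 1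
  have r := R_cm r1 r2 s1 s2
  rw [show cm (nthP o.one WU 0).1 (nthP o.one WU 0).2 (nthP o.one WU 1).1 (nthP o.one WU 1).2 = cW by decide +kernel] at r
  have h3 : Z ≤ ⁅K0, K0⁆ := zpowers_le.mpr (R_fun r R_W ▸ commutator_mem_commutator ha hb)
  simpa using mul_mem (h3 ((h (⟨k, hk⟩ * d⁻¹)).mp (by simp [e])))
    (show (d : Γ) ∈ ⁅K0, K0⁆ from map_subtype_commutator K0 ▸ mem_map_of_mem _ hd)

variable {ρ : centralizer ({z} : Set G) →* Γ} {p : G → V6}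

namespace FT
variable (m : FT z Q ρ p) (hr : ρ.range = H1) {x : centralizer ({z} : Set G)} (hx : ρ x = Wm)
include m hx

theorem Y_ker {y : centralizer ({z} : Set G)} (h : y * x = x * y) (e : ρ y = 1) : (y : G) ∈ zpowers z := by
  have h1 := (m.ker y).mp e
  have h2 := m.fix_of h1 (congrArg Subtype.val h)
  exact (m.zero h1).mp (funext fun i => (by decide : ∀ a : F4, ω * a = a → a = 0) _ (congrFun (hx ▸ h2) i))

include hr

omit m in
theorem Y_K0 {y : centralizer ({z} : Set G)} (h : y * x = x * y) : ρ y ∈ K0 := (hr.le ⟨y, rfl⟩).resolve_right fun e => by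
  have h1 := W_comm (SUg_le (K0_SU e))
  rw [mul_assoc, ← hx, ← map_mul, h, map_mul, ← mul_assoc, ← mul_assoc, mul_left_inj, hx] at h1
  exact ne_of_neB hv hpt (M.R_mul R_ψ R_W) (M.R_mul R_W R_ψ) (by decide +kernel) h1

variable [Finite G] (h3 : x ^ 3 = 1)
include h3

theorem Y_surj {k : Γ} (hk : k ∈ K0) : ∃ y, y * x = x * y ∧ ρ y = k := by
  obtain ⟨c, rfl⟩ := hr.ge (K0_H1 hk)
  obtain ⟨q, h1, h2⟩ := conj_of_ker ρ ((Subgroup.ext m.ker : ρ.ker = Q.subgroupOf _) ▸ m.lx.isPGroup.comap_subtype)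
    Nat.prime_three (by norm_num) (x := c * x * c⁻¹) (by rw [conj_pow, h3, mul_one, mul_inv_cancel]) h3
    (by rw [map_mul, map_mul, hx, W_comm (SUg_le (K0_SU hk)), map_inv, mul_inv_cancel_right])
  exact ⟨q * c, mul_inv_eq_iff_eq_mul.mp (by simpa [mul_assoc] using h2), by simp [h1]⟩

theorem z_mem (hw : ∃ g : G, g * z * g⁻¹ ∈ Q ∧ g * z * g⁻¹ ≠ z) :
    z ∈ ⁅centralizer {x}, centralizer {x}⁆.map (centralizer ({z} : Set G)).subtype := by
  have ss := m.ss hr hw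
  have x3 : (x : G) ^ 3 = 1 := congrArg Subtype.val h3
  have xz : x * z * (x : G)⁻¹ = z := mul_inv_eq_iff_eq_mul.mpr (mem_centralizer_singleton_iff.mp x.2)
  have xp : ∀ a ∈ Q, p (x * a * (x : G)⁻¹) = ω • p a := fun a h => by rw [m.act x h, hx]; rfl
  have xV : ∀ a ∈ m.V, x * a * (x : G)⁻¹ ∈ m.V := fun a ⟨h, c, e⟩ => ⟨m.conj_mem x h, ω * c, by rw [xp a h, e, smul_smul]⟩
  obtain ⟨s, hs, ps, ts⟩ : ∃ s ∈ Q, p s = v1 ∧ tr3 (x : G) s = 1 := by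
    obtain ⟨a, ha, e⟩ := m.surj v1
    have h1 := xV a (m.s_V ha e)
    have h2 := xV _ h1
    refine ⟨_, mul_mem h1.1 h2.1, ?_, ?_⟩
    · rw [m.mul h1.1 h2.1, xp _ h1.1, xp a ha, e, smul_smul, ← add_smul, show ω + ω * ω = 1 by decide, one_smul]
    · have h4 := cube_conj x3 a
      generalize hb : x * a * (x : G)⁻¹ = b at *
      generalize hc : x * b * (x : G)⁻¹ = c at *
      rw [tr3, ← conj_mul (a := b), hc, h4, ← conj_mul (a := c), h4, hb, mul_assoc b, ← mul_assoc c, m.V_sq h2, one_mul,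
        mul_assoc b, ← mul_assoc a, m.V_sq (m.s_V ha e), one_mul, m.V_sq h1]
  obtain ⟨t, et⟩ : ∃ t, t = x * s * (x : G)⁻¹ := ⟨_, rfl⟩
  have sV := m.s_V hs ps
  have tV : t ∈ m.V := et ▸ xV s sV
  have pt : p t = v2 := by rw [et, xp s hs, ps, om_v1]
  have ne : ∀ {a b : G} {i j : ℕ}, p a = vc i → p b = vc j → vc i ≠ vc j → a ≠ b := fun h1 h2 h e =>
    h (h1.symm.trans (e ▸ h2))
  have p1 : p 1 = vc 0 := ((m.zero (one_mem _)).mpr (one_mem _)).trans vc_zero.symm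
  have pz : p z = vc 0 := m.p_z.trans vc_zero.symm
  have pst := (m.mul hs tV.1).trans (by rw [ps, pt, v12])
  have pzt := (m.p_zmul tV.1).trans pt
  have s1 := ne ps p1 vc_ne
  have t1 := ne pt p1 vc_ne
  have ztV := mul_mem m.z_V tV
  have zt1 := ne pzt p1 vc_ne
  have pr : ∀ {a b}, a ∈ m.V → b ∈ m.V → a ≠ 1 → b ≠ 1 → b ≠ a → Pr (Qf z Q a) (Qf z Q b) a b := fun ha hb a1 b1 h =>
    ⟨(ss.lx _ ha a1).toSymT, (ss.lx _ hb b1).toSymT, ss.le _ ha a1 hb, ss.le _ hb b1 ha, h⟩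
  have hp := pr sV tV s1 t1 (ne pt ps vc_ne)
  have hB : ∀ a ∈ Qf z Q s ⊓ Qf z Q t, a * a = 1 := fun a h => hp.eq_one (hp.hQ.sq a h.1) (hp.hP.sq a h.2)
  have xB : ∀ a ∈ Qf z Q s ⊓ Qf z Q t, x * a * (x : G)⁻¹ ∈ Qf z Q s ⊓ Qf z Q t := fun a h => ⟨by
    have := Qf_cj (x : G) (ss.mem_mul sV tV s1 t1 (ne pst p1 vc_ne) h.1 h.2)
    rw [tr3, ← et] at ts
    rwa [← ss.inv (mul_mem sV tV), ← eq_inv_of_mul_eq_one_right ts, et, cube_conj x3] at this, et ▸ Qf_cj _ h.1⟩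
  have VB : m.V ≤ Qf z Q s ⊓ Qf z Q t := le_inf (ss.le s sV s1) (ss.le t tV t1)
  have BC : Qf z Q s ⊓ Qf z Q t ≤ centralizer (m.V : Set G) := fun a h v hv => H11.comm_of_sq_eq_one hB (VB hv) h
  have tz : tr3 (x : G) z = z := by rw [tr3, xz, xz, m.lx.zz, one_mul]
  let K : Subgroup G :=
    { carrier := {a | a ∈ Qf z Q s ⊓ Qf z Q t ∧
        tr3 (x : G) a ∈ ⁅centralizer {x}, centralizer {x}⁆.map (centralizer ({z} : Set G)).subtype}
      one_mem' := ⟨one_mem _, by simp [tr3]⟩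
      mul_mem' := fun ha hb => ⟨mul_mem ha.1 hb.1, tr3_mul hB xB ha.1 hb.1 ▸ mul_mem ha.2 hb.2⟩
      inv_mem' := fun {a} ha => by rwa [inv_eq_of_mul_eq_one_left (hB a ha.1)] }
  have hq := pr ztV sV zt1 s1 (ne ps pzt vc_ne)
  obtain ⟨n, hn, n1, n2⟩ := xs_tv (ss.lx _ ztV zt1).toXS hq.V_le Pr.z_mem (ss.le _ ztV zt1 m.z_V) fun h => by
    rcases hq.mem_V.mp h with h | h | h | h
    exacts [m.lx.ne_one h, ne pz pzt vc_ne h, ne pz ps vc_ne h, ne pz ((m.mul ztV.1 hs).trans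
      (by rw [pzt, ps, add_comm, v12])) vc_ne h]
  rw [mul_assoc z, m.V_comm tV m.z_V, ← mul_assoc z, m.lx.zz, one_mul] at n2
  have n3 : n * s * n⁻¹ = s := mul_inv_eq_iff_eq_mul.mpr (n1 s Pr.t_mem)
  have n4 : n * t * n⁻¹ = z := by
    have := mul_inv_eq_iff_eq_mul.mpr (n1 _ Pr.z_mem)
    rwa [← conj_mul, n2, ← m.V_comm tV m.z_V, mul_right_inj] at this
  have nN := ss.le_norm ztV zt1 hn
  have cn : ∀ n ∈ normalizer (m.V : Set G), ∀ c ∈ centralizer (m.V : Set G), n * c * n⁻¹ ∈ centralizer (m.V : Set G) :=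
    fun n hn c hc v hv => by
      have := hc _ ((mem_normalizer_iff.mp (inv_mem hn) v).mp hv)
      calc v * (n * c * n⁻¹) = n * (n⁻¹ * v * n⁻¹⁻¹ * c) * n⁻¹ := by group
        _ = _ := by rw [this]; group
  have := m.cert hr hw hs ps (K := K.comap (MulAut.conj n).toMonoidHom)
    (show n * z * n⁻¹ ∈ K from n2 ▸ ⟨VB tV, by rw [et, tr3_conj rfl, ts]; simp⟩)
    (show n * s * n⁻¹ ∈ K from n3.symm ▸ ⟨VB sV, ts ▸ one_mem _⟩) (fun c hc => ?_) tV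
  · have h := (show n * t * n⁻¹ ∈ K from this).2
    rwa [n4, tz] at h
  have h1 := cn n nN c hc
  have h2 := m.ρ_S1 hr (c := ⟨_, m.CV_le h1⟩) h1
  obtain ⟨y, hy, e⟩ := m.Y_surj hr hx h3 h2.1
  have yx : (x : G) * y = y * x := congrArg Subtype.val hy.symm
  have h4 : y * s * (y : G)⁻¹ = s := (m.uniq hs (m.conj_mem y hs) (by rw [m.act y hs, e, ps]; exact h2.2.symm)).resolve_right
    fun h => m.lx.ne_one (by simpa [h, tr3_mul hB xB (VB m.z_V) (VB sV), tz, ts] using tr3_conj yx s)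
  have h5 : (y : G) ∈ centralizer (m.V : Set G) := m.mem_CV hs tV.1 ps pt (mem_centralizer_singleton_iff.mp y.2).symm
    (mul_inv_eq_iff_eq_mul.mp h4).symm (et ▸ (((Commute.mul_left yx (mul_inv_eq_iff_eq_mul.mp h4).symm).mul_left
      (Commute.inv_left yx)).eq))
  refine ⟨n⁻¹ * (y * (n * c * n⁻¹)⁻¹) * n⁻¹⁻¹, m.Qf_R hr hw tV t1 ⟨?_, cn _ (inv_mem nN) _ (mul_mem h5 (inv_mem h1))⟩,
    fun a ha => ?_⟩
  · have := Qf_cj n⁻¹ ((Qf_z m.lx).ge ((m.ker (y * ⟨_, m.CV_le h1⟩⁻¹)).mp (by rw [map_mul, map_inv, e, mul_inv_cancel])))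
    rwa [show n⁻¹ * z * n⁻¹⁻¹ = t by rw [← n4]; group] at this
  have h6 : n * a * n⁻¹ ∈ Qf z Q s ⊓ Qf z Q t := ⟨n3 ▸ Qf_cj n ha.2, n2 ▸ Qf_cj n ((Qf_z m.lx).ge ha.1)⟩
  have h7 : y * (n * a * n⁻¹) * (y : G)⁻¹ ∈ Qf z Q s ⊓ Qf z Q t :=
    ⟨(ss.lx s sV s1).conj_mem (h5 s sV).symm h6.1, (ss.lx t tV t1).conj_mem (h5 t tV).symm h6.2⟩
  have h8 := tr3_mem xB h6
  change n * _ * n⁻¹ ∈ K
  rw [show n * ⁅n⁻¹ * (y * (n * c * n⁻¹)⁻¹) * n⁻¹⁻¹ * c, a⁆ * n⁻¹ = y * (n * a * n⁻¹) * (y : G)⁻¹ * (n * a * n⁻¹)⁻¹ by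
    simp only [commutatorElement_def]; group, inv_eq_of_mul_eq_one_left (hB _ h6)]
  refine ⟨mul_mem h7 h6, ⁅y, ⟨_, m.CV_le (BC h8)⟩⁆, commutator_mem_commutator (mem_centralizer_singleton_iff.mpr hy)
    (mem_centralizer_singleton_iff.mpr (Subtype.ext (tr3_cent hB xB x3 h6))), ?_⟩
  rw [tr3_mul hB xB h7 h6, tr3_conj yx]
  simp [commutatorElement_def, inv_eq_of_mul_eq_one_left (hB _ h8)]

end FT

end U6

end Cfsg.Agent.LL
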