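import Cfsg.Agent.H21.Ja1
import Cfsg.Agent.H21.Fi10
import Cfsg.Agent.S5599

/-! Identification of `3.M22:2` in the semilinear unitary group. -/

set_option autoImplicit false
set_option maxRecDepth 100000
set_option linter.style.haveILetI false

namespace Cfsg.Agent.LL.U6

open Cfsg Cfsg.Agent.H16 Cfsg.Agent.H3 Cfsg.Agent.H10 MulAction Mdl Subgroup Module
open scoped commutatorElement Pointwise

theorem autEquiv {G : Type*} [Group G] {K L : Subgroup G} (hn : NormBy L K) (h : AutBy L K)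
    (hc : ∀ g ∈ L, (∀ x ∈ K, g * x = x * g) → g = 1) [Finite G] : Nonempty (L ≃* MulAut K) := by
  classical
  refine ⟨MulEquiv.ofBijective (K.normalizerMonoidHom.comp (inclusion fun g hg => mem_normalizer_of_conj_mem (hn g hg)))
    ⟨(injective_iff_map_eq_one _).mpr fun g e => Subtype.ext (hc g g.2 fun x hx => mul_inv_eq_iff_eq_mul.mp
      (congrArg (fun α : MulAut K => ((α ⟨x, hx⟩ : K) : G)) e)), fun α => ?_⟩⟩
  obtain ⟨g, hg, e⟩ := h (fun x => if hx : x ∈ K then (α ⟨x, hx⟩ : G) else 1) ⟨fun x hx => by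
    rw [dif_pos hx]; exact Subtype.property _, fun x hx y hy => by
    rw [dif_pos hx, dif_pos hy, dif_pos (K.mul_mem hx hy), ← Subgroup.coe_mul, ← map_mul]; rfl, fun x hx e => by
    rw [dif_pos hx] at e
    exact congrArg Subtype.val (α.map_eq_one_iff.mp (Subtype.ext e : α ⟨x, hx⟩ = 1))⟩
  exact ⟨⟨g, hg⟩, MulEquiv.ext fun x => Subtype.ext ((e x x.2).symm.trans (dif_pos x.2))⟩

theorem autM22 : Nonempty (MulAut Spor.M22 ≃* L22) :=
  let ⟨e⟩ := autEquiv normBy_L22 autBy22 S5599.cent; ⟨(e.trans (MulAut.congr sporM22)).symm⟩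

noncomputable def hmK (a k x y : ℕ) : ℕ := Nat.rec (motive := fun _ => ℕ → ℕ) (fun _ => 0)
  (fun _ ih x => Nat.add (herm4 6 x y) (Nat.mul 4 (force (mul12Ap a x) ih))) k x

theorem hmK_eq {g a a' : Γ} (hg : g ∈ GUg) (e : g * a = a' * g) {pa pa' : ℕ} (r : M.R pa a) (r' : M.R pa' a') (k : ℕ)
    {x y x' y' : ℕ} {u v : V6} (h1 : M.P x u) (h2 : M.P y v) (h3 : M.P x' (g • u)) (h4 : M.P y' (g • v)) :
    hmK pa' k x' y' = hmK pa k x y := by
  induction k generalizing x x' u with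
  | zero => rfl
  | succ k ih =>
    change herm4 6 x' y' + 4 * force _ (hmK pa' k · y') = herm4 6 x y + 4 * force _ (hmK pa k · y)
    rw [force_eq, force_eq, GU_herm4 hg _ _ _ _ _ _ h1 h2 h3 h4]
    exact congrArg (_ + 4 * ·) (ih (M.P_ap r h1) (by rw [← mul_smul, e, mul_smul]; exact M.P_ap r' h3))

theorem cent_GU {S : List (ℕ × ℕ)} {L : N.Lv} {lv : List N.Lv} (hc : N.Chain M (L :: lv) (M.clo (S.map Prod.fst))) {pa : ℕ}
    {a : Γ} (r : M.R pa a) (ms : List ℕ) (h : andB (andB (allP S guB) (commB o pa (S.map Prod.fst)))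
      (andB (refB o (hmK pa 4) (allQ 4096) (L :: lv) []) (andB (allL ((L :: lv).map N.Lv.b) val) (allB 6 fun i => Nat.beq
        (xc (fun j => itF (om 6) (j % 2) (itF (o.ap pa) (j / 2 % 6) (nth L.b ((L :: lv).map N.Lv.b) (j / 12)))) 24 (nth 0 ms i))
          (2 ^ i)))) = true) : M.clo (S.map Prod.fst) = GUg ⊓ centralizer {a} := by
  simp only [andB_iff] at h
  have hC := clo_le_cent (K0 := GUg) (S := S.map Prod.fst) (fun c hc => by
    obtain ⟨s, hs, rfl⟩ := List.mem_map.mp hc; exact in_GU (allP_iff.mp h.1.1 s hs)) r h.1.2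
  refine le_antisymm hC fun g hg => ?_
  obtain ⟨u, hu, f⟩ := refine hc hC (X := Set.univ) (fun _ _ _ _ => trivial) (fun f hf v _ => en_all f hf v)
    (fun _ _ _ _ => trivial) (fun g hg _ _ _ _ _ _ => hmK_eq hg.1 (mem_centralizer_singleton_iff.mp hg.2) r r 4)
    (by simp) h.2.1 g hg
  have h1 := mul_mem (inv_mem (hC hu)) hg
  rwa [← inv_mul_eq_one.mp (GU_ext h1.1 fun i hi => ?_)]
  generalize u⁻¹ * g = w at f h1
  have k : ∀ {c : ℕ → ℕ} {b : Γ}, (∀ y v, M.P y v → M.P (c y) (b • v)) → w * b = b * w → ∀ n x, x < 4096 ∧ w (vc x) = vc x →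
      itF c n x < 4096 ∧ w (vc (itF c n x)) = vc (itF c n x) := fun h1 h2 n x hx => by
    have := P_iff.mp (P_itF h1 n (P_vc hx.1))
    exact ⟨this.1, by rw [this.2, Equiv.Perm.smul_def, ← Equiv.Perm.mul_apply, (Commute.pow_right h2 n).eq,
      Equiv.Perm.mul_apply, hx.2]⟩
  rw [← Nat.eq_of_beq_eq_true (allB_iff.mp h.2.2.2 i hi)]
  refine (xc_ind (P := fun x => x < 4096 ∧ w (vc x) = vc x) ⟨by norm_num, by simpa [vc_zero] using GU_smul h1.1 0 0⟩
    (fun a b ha hb => ⟨Nat.xor_lt_two_pow (n := 12) ha.1 hb.1, by rw [vc_xor, GU_add h1.1, ha.2, hb.2]⟩) (fun j _ =>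
      k (b := Wm) (fun y v e => P_iff.mpr ⟨om_lt (d := 6) (P_iff.mp e).1, (P_iff.mp e).2 ▸ vc_om (P_iff.mp e).1⟩) (W_comm h1.1) _ _
        (k (fun _ _ => M.P_ap r) (mem_centralizer_singleton_iff.mp h1.2) _ _ ?_)) _).2
  obtain ⟨L', hL, e⟩ := List.mem_map.mp ((nth_mem L.b ((L :: lv).map N.Lv.b) (j / 12)).elim (fun e => by rw [e]; exact List.mem_cons_self) id)
  have l := Nat.blt_eq.mp (allL_iff.mp h.2.2.1 _ (List.mem_map_of_mem hL))
  exact e ▸ ⟨l, f L' hL _ (P_vc l)⟩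

theorem R_in {K : Subgroup Γ} {a : ℕ} (h : M.In K a) : M.R a (el a) ∧ el a ∈ K :=
  let ⟨_, h, r⟩ := h; ⟨R_el r, R_fun (R_el r) r ▸ h⟩
theorem R_ja : M.R ja (el ja) := (R_in J0_in.head).1
theorem R_jb : M.R jb (el jb) := (R_in J0_in.tail.head).1
theorem R_ju : M.R ju (el ju) := (R_in J0_in.tail.tail.head).1
theorem ja_J : el ja ∈ J0 := (R_in J0_in.head).2
theorem jb_J : el jb ∈ J0 := (R_in J0_in.tail.head).2
theorem ju_J : el ju ∈ J0 := (R_in J0_in.tail.tail.head).2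
theorem C99_eq : C99 = GUg ⊓ centralizer {el ja} := cent_GU C99_ch R_ja [1, 911, 220, 2544, 2911, 3908] (by decide +kernel)
theorem C270_eq : C270 = GUg ⊓ centralizer {el jb} := cent_GU C270_ch R_jb [4763, 5071, 4405, 12765, 4615, 935] (by decide +kernel)
theorem J0_GU : J0 ≤ GUg := clo_le fun c hc => by
  obtain ⟨s, hs, rfl⟩ := List.mem_map.mp hc; exact in_GU (allP_iff.mp (by decide +kernel : allP J0S guB = true) s hs)
theorem ord_ja : orderOf (el ja) = 11 := Mdl.orderOf_prime hv hpt R_ja (by norm_num) (by decide +kernel)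
theorem W_J0 : Wm ∈ J0 := J0_ch.sift R_W (by decide +kernel)
theorem js_W : el js * Wm = Wm * Wm * el js := M.eq_of (M.R_mul R_js R_W) (M.R_mul R_W2 R_js) (by decide +kernel)
theorem js_XJ : el js ∈ XJ := mem_ext2
theorem XJ_J0 : NormBy XJ J0 := normBy_ext2
theorem W3 : Wm ^ 3 = 1 := orderOf_W ▸ pow_orderOf_eq_one _

theorem Z_cube {w : Γ} (h : w ∈ Z) : w ^ 3 = 1 := by
  obtain ⟨k, rfl⟩ := h; simp only; rw [← zpow_natCast, ← zpow_mul, mul_comm, zpow_mul, zpow_natCast, W3, one_zpow]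

theorem js_OG : el js ∈ OG := ⟨R_add R_js, fun v => by
  obtain ⟨x, hx, e⟩ := en_all (fun x => Nat.beq (force (mul12Ap js x) fun y => herm4 6 y y) (herm4 6 x x))
    (by decide +kernel) v
  obtain ⟨h, rfl⟩ := P_iff.mp hx
  rw [(R_ap R_js h).2, hf_vc, hf_vc, ← Nat.eq_of_beq_eq_true e, force_eq]⟩

theorem og_GU {g : Γ} (h : g ∈ OG) (e : g * Wm = Wm * g) : g ∈ GUg := mem_GUg h.1 (fun v => DFunLike.congr_fun e v) h.2

theorem eq_of_Z {x y : Γ} (hy : y ∈ GUg) (h : x * y⁻¹ ∈ Z) {n : ℕ} (hn : n % 3 = 2) (h1 : x ^ n = 1) (h2 : y ^ n = 1) :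
    x = y := by
  have h3 := Z_cube h
  have h4 := (Commute.mul_pow (Z_comm hy h).symm n)
  rw [inv_mul_cancel_right, h1, h2, mul_one, ← Nat.div_add_mod n 3, pow_add, pow_mul, h3, hn, one_pow, one_mul] at h4
  rwa [pow_succ, ← h4, one_mul, mul_inv_eq_one] at h3

/-- generators of a subgroup `3.M22:2` -/
structure Dat (X : Subgroup Γ) (a b u s : Γ) : Prop where
  og : X ≤ OG
  card : Nat.card X = 2661120
  w : s * Wm = Wm * s ∨ s * Wm = Wm * Wm * s
  ha : a ∈ X ⊓ GUg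
  hb : b ∈ X ⊓ GUg
  hu : u ∈ X ⊓ GUg
  hs : s ∈ X
  oa : orderOf a = 11
  b5 : b ^ 5 = 1
  u4 : u ^ 4 = 1
  ba : b * a * b⁻¹ = a ^ 3
  ub : u * b * u⁻¹ = b ^ 2
  ua : (u * a ^ 5) ^ 33 = 1
  sa : s * a * s⁻¹ = a⁻¹

namespace Dat
variable {X : Subgroup Γ} {a b u s : Γ} (h : Dat X a b u s)
include h

theorem conj {g : Γ} (hg : g ∈ GUg) :
    Dat (MulAut.conj g • X) (MulAut.conj g a) (MulAut.conj g b) (MulAut.conj g u) (MulAut.conj g s) := by
  have k : ∀ {c}, c ∈ X ⊓ GUg → MulAut.conj g c ∈ MulAut.conj g • X ⊓ GUg := fun hc =>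
    ⟨conj_mem_conj_smul.mpr hc.1, GUg.mul_mem (GUg.mul_mem hg hc.2) (inv_mem hg)⟩
  have e : MulAut.conj g Wm = Wm := mul_inv_eq_iff_eq_mul.mpr (W_comm hg)
  refine ⟨conj_smul_le_iff.mpr fun x hx => mul_mem (mul_mem (GU_OG hg) (h.og hx)) (inv_mem (GU_OG hg)),
    (card_conj_smul _ _).trans h.card, ?_, k h.ha, k h.hb, k h.hu, conj_mem_conj_smul.mpr h.hs,
    (MulEquiv.orderOf_eq _ _).trans h.oa, ?_, ?_, ?_, ?_, ?_, ?_⟩
  · rw [← e]; simpa only [← map_mul, EmbeddingLike.apply_eq_iff_eq] using h.w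
  all_goals simp only [← map_pow, ← map_inv, ← map_mul, h.b5, h.u4, h.ba, h.ub, h.ua, h.sa, map_one]

theorem step1 : ∃ g ∈ GUg, MulAut.conj g a ∈ zpowers (el ja) := by
  haveI : Fact (Nat.Prime 11) := ⟨by norm_num⟩
  have k : ∀ {c}, c ∈ GUg → orderOf c = 11 → zpowers c ≤ SUg := fun {c} hc e => by
    obtain ⟨dt, hd⟩ := exists_det
    have h1 := pow_card_eq_one' (x := dt ⟨c, hc⟩)
    rw [Nat.card_units, Nat.card_eq_fintype_card, card_F4] at h1
    have h2 : (⟨c, hc⟩ : GUg) ^ 11 = 1 := Subtype.ext (e ▸ pow_orderOf_eq_one c)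
    exact zpowers_le.mpr ((hd ⟨c, hc⟩).mp (by simpa using (pow_gcd_eq_one (n := 11)).mpr ⟨h1, by rw [← map_pow, h2, map_one]⟩))
  haveI : Finite SUg := Nat.finite_of_card_ne_zero (by rw [card_SUg]; norm_num)
  obtain ⟨g, hg, e⟩ := (sylowIn_of_card (p := 11) (k := 1) (m := 2508226560) (k (J0_GU ja_J) ord_ja)
    (by rw [Nat.card_zpowers]; exact ord_ja) card_SUg (by norm_num)).exists_conj_le
    (IsPGroup.of_card (n := 1) (by rw [Nat.card_zpowers, h.oa]; norm_num)) (k h.ha.2 h.oa)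
  exact ⟨g, SUg_le hg, e (conj_mem_conj_smul.mpr (mem_zpowers a))⟩

variable (ha : a ∈ zpowers (el ja))
include ha

theorem pw : ∃ m : ℕ, el ja = a ^ m :=
  let ⟨m, _, e⟩ := exists_pow_of_mem (by norm_num) h.oa ((eq_of_le_of_card_ge (zpowers_le.mpr ha)
    (by rw [Nat.card_zpowers, Nat.card_zpowers, ord_ja, h.oa])).ge (mem_zpowers _)); ⟨m, e⟩

theorem step2 : ∃ g ∈ GUg, MulAut.conj g a ∈ zpowers (el ja) ∧ MulAut.conj g b = el jb := by
  obtain ⟨m, e⟩ := h.pw ha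
  have h1 : b * el ja * b⁻¹ = el ja ^ 3 := by rw [e, ← conj_pow, h.ba, pow_right_comm]
  have h2 : el jb * el ja * (el jb)⁻¹ = el ja ^ 3 := cjM_spec R_jb R_ja (R_pow R_ja 3) (by decide +kernel)
  obtain ⟨c, r, f⟩ := N.enumM_sound C99_ch (Lf := fun c => orB (force (powM o c 5) fun y => neB o pts y o.one)
    (anyB 11 fun i => force (powM o ja i) fun y => cjM o y c jb)) R_jb (by decide +kernel) (k := (el jb)⁻¹ * b)
    (C99_eq.ge ⟨GUg.mul_mem (inv_mem (J0_GU jb_J)) h.hb.2, mem_centralizer_singleton_iff.mpr (by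
      rw [mul_assoc, mul_inv_eq_iff_eq_mul.mp h1, ← h2]; group)⟩)
  rw [mul_inv_cancel_left] at r
  simp only [orB_iff, force_eq, anyB_iff] at f
  obtain ⟨i, -, f⟩ := f.resolve_left fun f => ne_of_neB hv hpt (R_pow r 5) M.R_one f h.b5
  exact ⟨_, pow_mem (J0_GU ja_J) i, mul_mem (mul_mem (npow_mem_zpowers _ _) ha) (inv_mem (npow_mem_zpowers _ _)),
    cjM_spec (R_pow R_ja i) r R_jb f⟩

theorem step3 (hb : b = el jb) : ∃ g ∈ GUg, MulAut.conj g a ∈ zpowers (el ja) ∧ J0 ≤ MulAut.conj g • X := by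
  subst hb
  obtain ⟨m, e⟩ := h.pw ha
  have h2 : el ju * el jb * (el ju)⁻¹ = el jb ^ 2 := cjM_spec R_ju R_jb (R_pow R_jb 2) (by decide +kernel)
  obtain ⟨c, r, f⟩ := N.enumM_sound C270_ch (Lf := fun c => orB (force (powM o c 4) fun y => neB o pts y o.one)
    (orB (anyP DJ3 fun d d' => force (cj3 o d c d') fun w => anyB 5 fun j => o.eqb (o.mul w (powM o jb j)) ju)
      (allB 11 fun i => orB (Nat.beq i 0) (force (o.mul c (powM o ja i)) fun y => force (powM o y 33) fun y =>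
        neB o pts y o.one)))) R_ju (by decide +kernel) (k := (el ju)⁻¹ * u)
    (C270_eq.ge ⟨GUg.mul_mem (inv_mem (J0_GU ju_J)) h.hu.2, mem_centralizer_singleton_iff.mpr (by
      rw [mul_assoc, mul_inv_eq_iff_eq_mul.mp h.ub, ← h2]; group)⟩)
  rw [mul_inv_cancel_left] at r
  simp only [orB_iff, force_eq, anyB_iff, anyP_iff, allB_iff, Nat.beq_eq] at f
  rcases f with f | ⟨d, hd, j, -, f⟩ | f
  · exact absurd h.u4 (ne_of_neB hv hpt (R_pow r 4) M.R_one f)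
  · obtain ⟨g, -, r1, r2⟩ := prL_top (S := DJ3) (by decide +kernel) d hd
    have k := allP_iff.mp (by decide +kernel : allP DJ3 (fun d d' => andB (guB d d')
      (andB (cjM o d ja ja) (cjM o d jb jb))) = true) d hd
    simp only [andB_iff] at k
    have k1 := cjM_spec r1 R_ja R_ja k.2.1
    have k2 : el jb ∈ MulAut.conj g • X := cjM_spec r1 R_jb R_jb k.2.2 ▸ conj_mem_conj_smul.mpr h.hb.1
    obtain ⟨i, rfl⟩ := ha
    refine ⟨g, (in_GU k.1).mem r1, ⟨i, by simp only [map_zpow, MulAut.conj_apply, k1]⟩, J0_le (.cons ⟨_, ?_, R_ja⟩ (.cons ⟨_, k2, R_jb⟩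
      (.cons ⟨_, M.eq_of (M.R_mul (R_cj3 r1 r2 r) (R_pow R_jb j)) R_ju f ▸
        mul_mem (conj_mem_conj_smul.mpr h.hu.1) (pow_mem k2 j), R_ju⟩ .nil)))⟩
    exact k1 ▸ conj_mem_conj_smul.mpr (e ▸ pow_mem h.ha.1 m)
  · obtain ⟨i, hi, l⟩ := exists_pow_of_mem (by norm_num) ord_ja (pow_mem ha 5)
    refine absurd (l ▸ h.ua) (ne_of_neB hv hpt (R_pow (M.R_mul r (R_pow R_ja i)) 33) M.R_one ((f i hi).resolve_left ?_))
    rintro rfl
    exact absurd (h.oa ▸ orderOf_dvd_of_pow_eq_one l) (by norm_num)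

theorem step4 (hJ : J0 ≤ X) : X = XJ := by
  obtain ⟨m, e⟩ := h.pw ha
  have h1 : s * el ja = el ja ^ 10 * s := by
    rw [← mul_inv_eq_iff_eq_mul, eq_comm, eq_comm (a := el ja ^ 10), eq_inv_of_mul_eq_one_left (show el ja ^ 10 * el ja = 1 from
      isOne_spec (M.R_mul (R_pow R_ja 10) R_ja) (by decide +kernel)), e, ← conj_pow, h.sa, inv_pow]
  have h2 : s ∉ GUg := fun hs => by
    have f : force (powM o ja 10) (fun a => force (hmK ja 4 2 2) fun t => allQ 4096 fun x =>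
      notB (Nat.beq (hmK a 4 x x) t)) = true := by decide +kernel
    rw [force_eq, force_eq] at f
    obtain ⟨x, hx, f⟩ := en_all _ f (s • vc 2)
    exact notB_iff.mp f (Nat.beq_eq.mpr (hmK_eq hs h1 R_ja (R_pow R_ja 10) 4 (P_vc (by norm_num)) (P_vc (by norm_num)) hx hx))
  have h3 : s * Wm = Wm * Wm * s := h.w.resolve_left fun f => h2 (og_GU (h.og h.hs) f)
  have h4 : el js * el ja = el ja ^ 10 * el js :=
    M.eq_of (M.R_mul R_js R_ja) (M.R_mul (R_pow R_ja 10) R_js) (by decide +kernel)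
  haveI : Finite X := Nat.finite_of_card_ne_zero (by rw [h.card]; norm_num)
  have h5 : (J0.subgroupOf X).Normal := normal_of_index_eq_two (by
    have := card_eq_card_mul_relIndex hJ
    rw [h.card, J0_card] at this
    change J0.relIndex X = 2
    omega)
  obtain ⟨c, r, f⟩ := C99_ch.forall (Lf := fun c => andB (isOne o (powM o c 33)) (orB (N.sift o J0L c)
    (force (cj3 o c ju (powM o c 32)) fun w => notB (N.siftC o J0L w)))) (by decide +kernel) (k := (el js)⁻¹ * s)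
    (C99_eq.ge ⟨og_GU (mul_mem (inv_mem js_OG) (h.og h.hs)) (by
      rw [mul_assoc, h3, inv_mul_eq_iff_eq_mul, ← mul_assoc, ← mul_assoc, js_W, mul_inv_cancel_right]),
      mem_centralizer_singleton_iff.mpr (by
      rw [mul_assoc, h1, inv_mul_eq_iff_eq_mul, ← mul_assoc, ← mul_assoc, h4, mul_inv_cancel_right])⟩)
  simp only [andB_iff, orB_iff, force_eq, notB_iff] at f
  have h6 := J0_ch.sift r (f.2.resolve_right fun l => l (J0_ch.siftC (R_cj3 r (eq_inv_of_mul_eq_one_left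
    ((pow_succ _ _).symm.trans (isOne_spec (R_pow r 33) f.1)) ▸ R_pow r 32) R_ju) (by
      simpa [mul_assoc] using XJ_J0 _ (inv_mem js_XJ) _ (h5.conj_mem ⟨_, hJ ju_J⟩ ju_J ⟨s, h.hs⟩))))
  have h7 : el js ∈ X := by simpa using mul_mem h.hs (inv_mem (hJ h6))
  exact (eq_of_le_of_card_ge (fun g hg => (mem_XJ.mp hg).elim (fun e => hJ e) fun e => (mul_mem_cancel_left h7).mp (hJ e))
    (by rw [h.card, XJ_card])).symm

omit ha in
theorem cls : ∃ g ∈ GUg, MulAut.conj g • X = XJ := by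
  obtain ⟨g1, a1, b1⟩ := h.step1
  obtain ⟨g2, a2, b2, c2⟩ := (h.conj a1).step2 b1
  obtain ⟨g3, a3, b3, c3⟩ := ((h.conj a1).conj a2).step3 b2 c2
  exact ⟨g3 * (g2 * g1), mul_mem a3 (mul_mem a2 a1), by
    rw [map_mul, map_mul, mul_smul, mul_smul]; exact (((h.conj a1).conj a2).conj a3).step4 b3 c3⟩

end Dat

theorem exists_rel : ∃ A B Y Y' S : L22, A ≠ 1 ∧ A ^ 11 = 1 ∧ B ^ 5 = 1 ∧ B * A * B⁻¹ = A ^ 3 ∧ S * A * S⁻¹ = A ^ 10 ∧
    (Y * Y * (Y' * Y')) ^ 4 = 1 ∧ Y * Y * (Y' * Y') * B * (Y * Y * (Y' * Y'))⁻¹ = B ^ 2 ∧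
    (Y * Y * (Y' * Y') * A ^ 5) ^ 11 = 1 := by
  have k := inK_L22 (S := [977514622246637394999692110520273152, 967559171852789492460041355926084864,
    976461795046595490598733674524786112, 962631220705123293248603100803307776, 7263209780598338986498556729504407])
    (by decide +kernel)
  simp only [List.forall_mem_cons] at k
  obtain ⟨⟨A, hA, a⟩, ⟨B, hB, b⟩, ⟨Y, hY, y⟩, ⟨Y', hY', y'⟩, ⟨S, hS, s⟩, -⟩ := k
  let m := permMdl five_le gpt_inj (faith_M24 ⊤)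
  replace a : m.R _ A := ⟨trivial, a⟩
  replace b : m.R _ B := ⟨trivial, b⟩
  replace s : m.R _ S := ⟨trivial, s⟩
  have u := m.R_mul (m.R_mul ⟨trivial, y⟩ ⟨trivial, y⟩) (m.R_mul ⟨trivial, y'⟩ ⟨trivial, y'⟩)
  exact ⟨⟨A, hA⟩, ⟨B, hB⟩, ⟨Y, hY⟩, ⟨Y', hY'⟩, ⟨S, hS⟩, fun e => ne_of_neB (val_perm _ _ _) (pts := [1]) (by decide +kernel) a m.R_one
    (by decide +kernel) (congrArg Subtype.val e), Subtype.ext (isOne_spec (R_pow a 11) (by decide +kernel)),
    Subtype.ext (isOne_spec (R_pow b 5) (by decide +kernel)), Subtype.ext (cjM_spec b a (R_pow a 3) (by decide +kernel)),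
    Subtype.ext (cjM_spec s a (R_pow a 10) (by decide +kernel)), Subtype.ext (isOne_spec (R_pow u 4) (by decide +kernel)),
    Subtype.ext (cjM_spec u b (R_pow b 2) (by decide +kernel)),
    Subtype.ext (isOne_spec (R_pow (m.R_mul u (R_pow a 5)) 11) (by decide +kernel))⟩

theorem cls22 {X : Subgroup Γ} (hX : X ≤ OG) (hW : Wm ∈ X) (π : X →* L22) (hs : Function.Surjective π)
    (hk : ∀ g, π g = 1 ↔ (g : Γ) ∈ Z) : ∃ g ∈ GUg, MulAut.conj g • X = XJ := by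
  have w : ∀ g : X, g * Wm = Wm * g ∨ g * Wm = Wm * Wm * g := fun g => by
    have := (hk (g * ⟨_, hW⟩ * g⁻¹)).mp (by simp [(hk ⟨_, hW⟩).mpr (mem_zpowers _)])
    refine (mem_Z.mp this).resolve_left (fun e => ?_) |>.imp mul_inv_eq_iff_eq_mul.mp mul_inv_eq_iff_eq_mul.mp
    exact absurd ((show Wm = 1 from conj_eq_one_iff.mp e) ▸ orderOf_W) (by simp)
  have sq : ∀ g : X, ((g * g : X) : Γ) ∈ GUg := fun g => og_GU (hX (g * g).2) (by
    rcases w g with e | e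
    · rw [coe_mul, mul_assoc, e, ← mul_assoc, e, mul_assoc]
    · rw [coe_mul, mul_assoc, e, ← mul_assoc, ← mul_assoc, e, mul_assoc _ _ Wm, e, ← mul_assoc, mul_assoc Wm,
        show Wm * (Wm * Wm) = 1 by simpa [pow_succ, mul_assoc] using W3, mul_one, mul_assoc])
  have p3 : ∀ {c : X} {n : ℕ}, π c ^ n = 1 → (c ^ n) ^ 3 = 1 := fun {c n} e =>
    Subtype.ext (Z_cube ((hk (c ^ n)).mp (by rw [map_pow, e])))
  have eq : ∀ {x y : X} {n : ℕ}, (y : Γ) ∈ GUg → π x = π y → n % 3 = 2 → x ^ n = 1 → y ^ n = 1 → (x : Γ) = y :=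
    fun {x y n} h1 h2 h3 h4 h5 => eq_of_Z h1 ((hk (x * y⁻¹)).mp (by simp [h2])) h3 (congrArg Subtype.val h4)
      (congrArg Subtype.val h5)
  obtain ⟨A, B, Y, Y', S, r0, r1, r2, r3, r4, r5, r6, r7⟩ := exists_rel
  obtain ⟨a, rfl⟩ := hs A
  obtain ⟨b, rfl⟩ := hs B
  obtain ⟨y, rfl⟩ := hs Y
  obtain ⟨y', rfl⟩ := hs Y'
  obtain ⟨s, rfl⟩ := hs S
  rw [← map_mul, ← map_mul, ← map_mul] at r5 r6 r7
  have gu := mul_mem (sq y) (sq y')
  rw [← coe_mul] at gu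
  generalize y * y * (y' * y') = u at *
  have a1 : π (a ^ 12) = π a := by rw [map_pow, pow_succ, r1, one_mul]
  have b1 : π (b ^ 6) = π b := by rw [map_pow, pow_succ, r2, one_mul]
  have u1 : π (u ^ 9) = π u := by rw [map_pow, pow_succ, show 8 = 4 * 2 from rfl, pow_mul, r5, one_pow, one_mul]
  have a2 : (a ^ 12) ^ 11 = 1 := by rw [pow_right_comm, show 12 = 3 * 4 from rfl, pow_mul, p3 r1, one_pow]
  have b2 : (b ^ 6) ^ 5 = 1 := by rw [pow_right_comm, show 6 = 3 * 2 from rfl, pow_mul, p3 r2, one_pow]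
  have u2 : (u ^ 9) ^ 4 = 1 := by rw [pow_right_comm, show 9 = 3 * 3 from rfl, pow_mul, p3 r5, one_pow]
  have a3 : ((a ^ 12 : X) : Γ) ∈ GUg := by rw [show 12 = 6 + 6 from rfl, pow_add]; exact sq _
  have b3 : ((b ^ 6 : X) : Γ) ∈ GUg := by rw [show 6 = 3 + 3 from rfl, pow_add]; exact sq _
  have u3 : ((u ^ 9 : X) : Γ) ∈ GUg := pow_mem gu 9
  rw [← a1] at r0 r3 r4 r7
  rw [← b1] at r3 r6
  rw [← u1] at r6 r7
  generalize a ^ 12 = a at *
  generalize b ^ 6 = b at *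
  generalize u ^ 9 = u at *
  haveI : Fact (Nat.Prime 11) := ⟨by norm_num⟩
  refine Dat.cls (a := a) (b := b) (u := u) (s := s) ⟨hX, ?_, w s, ⟨a.2, a3⟩, ⟨b.2, b3⟩, ⟨u.2, u3⟩, s.2,
    orderOf_eq_prime (congrArg Subtype.val a2) fun e => r0 (by rw [show a = 1 from Subtype.ext e, map_one]),
    congrArg Subtype.val b2, congrArg Subtype.val u2,
    eq (x := b * a * b⁻¹) (y := a ^ 3) (n := 11) (pow_mem a3 3) (by simp [r3]) rfl (by rw [conj_pow, a2]; simp)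
      (by rw [pow_right_comm, a2, one_pow]),
    eq (x := u * b * u⁻¹) (y := b ^ 2) (n := 5) (pow_mem b3 2) (by simpa using r6) rfl (by rw [conj_pow, b2]; simp)
      (by rw [pow_right_comm, b2, one_pow]), ?_,
    eq (x := s * a * s⁻¹) (y := a⁻¹) (n := 11) (inv_mem a3) ?_ rfl (by rw [conj_pow, a2]; simp) (by rw [inv_pow, a2, inv_one])⟩
  · rw [← π.ker.card_mul_index, index_ker, MonoidHom.range_eq_top.mpr hs, card_top, card_L22,
      show π.ker = Z.subgroupOf X from Subgroup.ext hk, Nat.card_congr (subgroupOfEquivOfLe (zpowers_le.mpr hW)).toEquiv, card_Z]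
  · exact congrArg Subtype.val ((pow_mul _ 11 3).trans (p3 (c := u * a ^ 5) (by simpa using r7)))
  · rw [map_mul, map_mul, map_inv, r4, map_inv, eq_inv_iff_mul_eq_one, ← pow_succ, ← map_pow, a2, map_one]

end Cfsg.Agent.LL.U6
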