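import Cfsg.Agent.H21.Ja2
import Cfsg.Agent.H21.Fi12
import Cfsg.Prelude.Def_JankoFourType

/-! Coordinates for groups of Janko-four type; the elementary abelian subgroup of order `2 ^ 11`. -/

set_option autoImplicit false
set_option maxRecDepth 100000
set_option linter.style.haveILetI false

namespace Cfsg.Agent.LL.U6

open Cfsg Cfsg.Agent.H16 Cfsg.Agent.H3 Cfsg.Agent.H10 MulAction Mdl Subgroup Module
open scoped commutatorElement Pointwise

variable {G : Type*} [Group G] {z : G} {Q : Subgroup G} {ρ : centralizer ({z} : Set G) →* Γ} {p : G → V6}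

theorem exists_F3 [Finite G] (hl : LX Q z) (hc : Nat.card Q = 2 ^ 13) {x : centralizer ({z} : Set G)} (x3 : x ^ 3 = 1)
    (hx : ∀ q ∈ Q, x * q = q * x → q ∈ zpowers z) : ∃ ρ p, FT z Q ρ p ∧ ρ x = Wm := by
  classical
  obtain ⟨n, c, hz⟩ := hl.toSymT.exists_ES
  have nd := c.nd_of_isExtraspecial hl.isExtraspecial
  have hn := c.card_eq_pow
  rw [hc] at hn
  replace hn := Nat.pow_right_injective (le_refl 2) hn
  let σ := nd.autHom.comp (Q.normalizerMonoidHom.comp (inclusion hl.nQ))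
  have cm : ∀ (h : centralizer ({z} : Set G)) {x}, x ∈ Q → h * x * (h : G)⁻¹ ∈ Q := fun h x =>
    hl.conj_mem (mem_centralizer_singleton_iff.mp h.2)
  have act : ∀ h x hx, σ h (c.π ⟨x, hx⟩) = c.π ⟨_, cm h hx⟩ := fun h x hx => nd.autHom_π _ _
  have zq : ∀ h q hq, σ h (c.π ⟨q, hq⟩) = c.π ⟨q, hq⟩ → h * q * (h : G)⁻¹ * q⁻¹ ∈ zpowers z := fun h q hq e =>
    (hz (⟨_, cm h hq⟩ * ⟨q, hq⟩⁻¹)).mp (by rw [c.mem_Z, c.π_mul, ← act h q hq, e, c.π_inv]; simp)
  have ker : ∀ h, σ h = 1 ↔ (h : G) ∈ Q := fun h => ⟨fun e => hl.hF h (mem_centralizer_singleton_iff.mp h.2) fun q hq =>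
    zq h q hq (by rw [e]; rfl), fun e => LinearEquiv.ext fun v => by
      obtain ⟨x, rfl⟩ := c.surj v
      rw [act h x x.2]
      exact (congrArg c.π (c.conj_eq ⟨h, e⟩ x)).trans (by simp [c.π_mul])⟩
  have h12 : finrank (ZMod 2) (Fin n → ZMod 2) = 12 := by omega
  have fp : ∀ v, σ x v = v → v = 0 := fun v e => by
    obtain ⟨q, rfl⟩ := c.surj v
    refine c.mem_Z.mp ((hz q).mpr (hx q q.2 ?_))
    rcases hl.mem_z.mp (zq x q q.2 e) with f | f
    · exact mul_inv_eq_iff_eq_mul.mp (mul_inv_eq_one.mp f)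
    · have xz : x * z * (x : G)⁻¹ = z := mul_inv_eq_iff_eq_mul.mpr (mem_centralizer_singleton_iff.mp x.2)
      have := cube_conj (x := (x : G)) (congrArg Subtype.val x3) q
      rw [mul_inv_eq_iff_eq_mul] at f
      have k1 : x * (z * q) * (x : G)⁻¹ = q := by rw [← conj_mul, xz, f, ← mul_assoc z, hl.zz, one_mul]
      rw [f, k1] at this
      exact mul_inv_eq_iff_eq_mul.mp this
  obtain ⟨e, e1, e2⟩ := exists_herm h12 c.Q (fun v hv => nd v fun w => c.polar_Q v w ▸ hv w) (σ x).toLinearMap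
    (fun v => by
      have := fp (v + σ x v + σ x (σ x v)) (by
        rw [map_add, map_add, show σ x (σ x (σ x v)) = σ (x ^ 3) v by simp [pow_succ], x3, map_one]
        exact (add_comm _ _).trans (add_assoc _ _ _).symm)
      exact (eq_neg_of_add_eq_zero_right this).trans (ZModModule.neg_eq_self _))
    fun v => nd.Q_autHom _ v
  let ρ := e.toEquiv.permCongrHom.toMonoidHom.comp ((toPermHom _ _).comp σ)
  have ρa : ∀ h v, ρ h (e v) = e (σ h v) := fun h v => by simp [ρ]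
  let p : G → V6 := fun x => if h : x ∈ Q then e (c.π ⟨x, h⟩) else 0
  have pa : ∀ {x} (h : x ∈ Q), p x = e (c.π ⟨x, h⟩) := fun h => dif_pos h
  refine ⟨ρ, p, ⟨hl, hc, fun h => ?_, fun hx hy => ?_, fun v => ?_, fun hx => ?_, fun h x hx => ?_, fun hx => ?_⟩, ?_⟩
  · rw [← ker]
    exact ⟨fun h => LinearEquiv.ext fun v => e.injective (by rw [← ρa, h]; rfl), fun h => Equiv.ext fun v => by
      obtain ⟨v, rfl⟩ := e.surjective v
      rw [ρa, h]; rfl⟩
  · rw [pa hx, pa hy, pa (mul_mem hx hy), ← map_add, ← c.π_mul]; rfl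
  · obtain ⟨x, h⟩ := c.surj (e.symm v)
    exact ⟨x, x.2, by rw [pa x.2, h, e.apply_symm_apply]⟩
  · rw [pa hx, map_eq_zero_iff _ e.injective, ← c.mem_Z, hz]
  · rw [pa hx, pa (cm h hx), ρa, act]
  · rw [pa hx, ← e2, ← c.sq_eq_one_iff, pow_two, Subtype.ext_iff]; rfl
  · refine Equiv.ext fun v => ?_
    obtain ⟨v, rfl⟩ := e.surjective v
    rw [ρa, Wm_apply, ← e1]; rfl

/-- coordinates for a group of Janko-four type -/
structure JF (m : FT z Q ρ p) (x : centralizer ({z} : Set G)) : Prop where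
  hr : ρ.range = XJ
  hx : ρ x = Wm
  x3 : x ^ 3 = 1
  pi : ∃ π : centralizer ({z} : Set G) →* L22, Function.Surjective π ∧ ∀ h, π h = 1 ↔ ρ h ∈ Z

theorem exists_JF [Finite G] {P : Subgroup G} (h : IsOfJankoFourTypeWith z P) :
    ∃ ρ p, ∃ m : FT z (twoCoreOfCentralizer z) ρ p, ∃ x, JF m x ∧ P = zpowers (x : G) := by
  obtain ⟨hz, hQ, hc, hC, ⟨N, n1, n2, -, n4, ⟨_, ⟨u⟩⟩, n5⟩, hP, hf, -, -⟩ := h
  have q1 : twoCoreOfCentralizer z ≤ centralizer {z} := map_subtype_le _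
  have q2 : ∀ q ∈ twoCoreOfCentralizer z, q * z = z * q := fun q hq => mem_centralizer_singleton_iff.mp (q1 hq)
  have zQ := hC ⟨mem_centralizer_singleton_iff.mpr rfl, q2⟩
  have xs := xs_of_isExtraspecial hQ (fun e => by simp [e] at hz) zQ q2
  have hl : LX (twoCoreOfCentralizer z) z := ⟨xs, fun c hc => xs.zc c
    (hC ⟨mem_centralizer_singleton_iff.mpr (hc z zQ).symm, hc⟩) hc, fun c hc => mem_normalizer_of_conj_mem (by
      rintro _ ⟨q, hq, rfl⟩; exact ⟨_, Normal.conj_mem inferInstance q hq ⟨c, hc⟩, rfl⟩)⟩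
  generalize twoCoreOfCentralizer z = Q at *
  obtain ⟨⟨x, hx⟩, x1⟩ := exists_prime_orderOf_dvd_card' (G := P) 3 (by rw [hP])
  replace x1 : orderOf x = 3 := (orderOf_coe _).trans x1
  obtain rfl : zpowers x = P := eq_of_le_of_card_ge (zpowers_le.mpr hx) (by rw [Nat.card_zpowers, hP, x1])
  have x3 : (⟨x, n2 (n5 hx)⟩ : centralizer ({z} : Set G)) ^ 3 = 1 := Subtype.ext (x1 ▸ pow_orderOf_eq_one x)
  obtain ⟨ρ, p, m, e⟩ := exists_F3 hl hc x3 fun q hq e => hf.le ⟨hq, H10.centralizer_zpowers x ▸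
    mem_centralizer_singleton_iff.mpr e.symm⟩
  obtain ⟨v⟩ := autM22
  let π := (u.trans v).toMonoidHom.comp (QuotientGroup.mk' _)
  have k1 : ρ.ker ≤ N.subgroupOf _ := fun y hy => n1 ((m.ker y).mp hy)
  have k2 : (N.subgroupOf _).map ρ = Z := by
    have := card_map_mul_card_inf_ker ρ (N.subgroupOf _)
    rw [inf_eq_right.mpr k1, (Subgroup.ext m.ker : ρ.ker = Q.subgroupOf _), Nat.card_congr (subgroupOfEquivOfLe n2).toEquiv,
      Nat.card_congr (subgroupOfEquivOfLe q1).toEquiv, n4, Nat.mul_left_inj Nat.card_pos.ne'] at this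
    exact (eq_of_le_of_card_ge (zpowers_le.mpr (mem_map.mpr ⟨_, mem_subgroupOf.mpr (n5 hx), e⟩)) (by rw [this, card_Z])).symm
  have k3 : ∀ h, π h = 1 ↔ ρ h ∈ Z := fun h => by
    rw [← k2, ← mem_comap, comap_map_eq, sup_eq_left.mpr k1]
    exact (map_eq_one_iff _ (u.trans v).injective).trans (QuotientGroup.eq_one_iff _)
  have k4 : Function.Surjective π := (u.trans v).surjective.comp (QuotientGroup.mk'_surjective _)
  obtain ⟨θ, f⟩ := exists_lift ρ.rangeRestrict ρ.rangeRestrict_surjective π fun y hy =>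
    (k3 y).mpr (by rw [show ρ y = 1 from congrArg Subtype.val hy]; exact one_mem _)
  obtain ⟨g, hg, l⟩ := cls22 (by rintro _ ⟨y, rfl⟩; exact m.og y) (MonoidHom.mem_range.mpr ⟨_, e⟩) θ (fun y => let ⟨c, r⟩ := k4 y; ⟨_, (f c).trans r⟩)
    fun y => by obtain ⟨c, rfl⟩ := ρ.rangeRestrict_surjective y; rw [f]; exact k3 c
  exact ⟨_, _, m.shift (GU_OG hg), _, ⟨by rw [← l, MonoidHom.range_comp, map_conj_eq_smul],
    by simp [e, W_comm hg], x3, π, k4, fun h => (k3 h).trans (Z_conj hg)⟩, rfl⟩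

theorem ILJ_all {g : Γ} (hg : g ∈ PJ) (h : g * g = 1) : ∃ a ∈ ILJ, M.R a.1 g := by
  obtain ⟨p, r, e⟩ := PJ_ch.forall (Lf := fun p => orB (force (o.mul p p) fun q => neB o pts q o.one)
    (anyP ILJ fun a _ => Nat.beq a p)) (by decide +kernel) hg
  rcases orB_iff.mp e with e | e
  · exact absurd h (ne_of_neB hv hpt (M.R_mul r r) M.R_one (by rwa [force_eq] at e))
  · obtain ⟨a, ha, e⟩ := anyP_iff.mp e
    exact ⟨a, ha, Nat.eq_of_beq_eq_true e ▸ r⟩

theorem ILJ_fix {a : ℕ × ℕ} (ha : a ∈ ILJ) {g : Γ} (r : M.R a.1 g) {x : ℕ} (hx : x < 4096) (h1 : g (vc x) = vc x)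
    (h2 : hf (vc x) (vc x) = 0) : a.2.testBit x = true := by
  have : (allP ILJ fun a T => force a fun a => force T fun T => allQ 4096 fun x =>
    impB (Nat.beq (mul12Ap a x) x) (impB (Nat.beq (herm4 6 x x) 0) (tb T x))) = true := by decide +kernel
  have := allP_iff.mp this a ha
  simp only [force_eq, allQ_iff, impB_iff, Nat.beq_eq, tb_eq] at this
  exact this x hx (vc_inj (R_ap r hx).1 hx ((R_ap r hx).2.symm.trans h1)) (hf_eq h2)

noncomputable def cntJ (m a T : ℕ) : ℕ := cntP ILJ fun b U => andB (notB (N.ncB o pts a b))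
  (orB (Nat.beq m 0) (force (Nat.land T U) fun x => Nat.ble m (pcB 512 x)))

theorem le_F16J {E : Subgroup Γ} (hE : E ≤ PJ) (h2 : ∀ g ∈ E, g * g = 1) {F : Set V6} (h3 : ∀ v ∈ F, hf v v = 0)
    (h4 : ∀ g ∈ E, ∀ v ∈ F, g v = v) (h5 : 16 ≤ Nat.card E) (h6 : 64 ≤ Nat.card E ∨ 1024 ≤ Nat.card E * F.ncard) :
    E ≤ F16 := fun e he => by
  obtain ⟨a, ha, r⟩ := ILJ_all (hE he) (h2 e he)
  refine F16_ch.sift r ((orB_iff.mp (allP_iff.mp (by decide +kernel : (allP ILJ fun a T => orB (N.sift o F16L a) (andB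
    (Nat.blt (cntJ 0 a T) 64) (andB (Nat.blt (cntJ 32 a T) 32) (Nat.blt (cntJ 64 a T) 16)))) = true) a ha)).resolve_right fun h => ?_)
  have k : ∀ m ≤ F.ncard, Nat.card E ≤ cntJ m a.1 a.2 := fun m hm => card_le_cnt fun g hg => by
    obtain ⟨b, hb, s⟩ := ILJ_all (hE hg) (h2 g hg)
    refine ⟨b, hb, s, andB_iff.mpr ⟨notB_iff.mpr fun e => N.ncB_spec hv hpt r s e (H11.comm_of_sq_eq_one h2 he hg),
      orB_iff.mpr (Or.inr ?_)⟩⟩
    rw [force_eq, Nat.ble_eq]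
    refine hm.trans (ncard_le_pc fun x hx hv => ?_)
    change (a.2 &&& b.2).testBit x = true
    rw [Nat.testBit_and, ILJ_fix ha r hx (h4 e he _ hv) (h3 _ hv), ILJ_fix hb s hx (h4 g hg _ hv) (h3 _ hv)]; rfl
  simp only [andB_iff, Nat.blt_eq] at h
  have a1 := (by decide : ∀ k < 64, k ∣ 256 → k ≤ 32 ∧ (k < 32 → k ≤ 16)) _ ((k 0 (by omega)).trans_lt h.1)
    (PJ_card ▸ card_dvd_of_le hE)
  replace h6 := h6.resolve_left (by omega)
  have a2 := a1.2 ((k 32 (by nlinarith)).trans_lt h.2.1)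
  have := (k 64 (by nlinarith)).trans_lt h.2.2
  omega

theorem F16_PJ : F16 ≤ PJ := F16_le (PJ_in.sub (by decide +kernel))
theorem NJ_XJ : NJ ≤ XJ := NJ_le (XA_ch.inL NJ_in (by decide +kernel))
theorem PJ_NJ : PJ ≤ NJ := PJ_le (NJ_ch.inL PJ_in (by decide +kernel))
theorem F16_J0 : F16 ≤ J0 := F16_le (J0_ch.inL F16_in (by decide +kernel))
theorem syl_PJ : SylowIn 2 PJ XJ :=
  haveI : Fact (Nat.Prime 2) := ⟨Nat.prime_two⟩
  sylowIn_of_card (p := 2) (k := 8) (m := 10395) (PJ_NJ.trans NJ_XJ) PJ_card XJ_card (by decide)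

theorem NJ_norm : NJ ≤ normalizer (F16 : Set Γ) := clo_le fun a ha =>
  let ⟨u, hu, e⟩ := List.mem_map.mp ha
  let ⟨g, _, r1, r2⟩ := NJ_top u hu
  ⟨g, mem_normalizer_of_conj_mem (F16_ch.conj_mem F16_clo (U := NJS) (by decide +kernel) hu r1 r2), e ▸ r1⟩

theorem YJ_ok {j : ℕ} (hj : j < 50) : ∃ g ∈ NJ, g * Wm = Wm * g ∧
    g (vc (fx i0)) = vc (fx (nthP 0 YT j).2) ∧ ∀ f < 16, g * el (fe f) * g⁻¹ = el (fe (tab j f)) := by
  obtain ⟨g, hg, r, -⟩ := (NJ_ch.prL (prL_top (S := YJ) (by decide +kernel)) (by decide +kernel)).nth j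
  have := allB_iff.mp (by decide +kernel : allB 50 (fun j => force (nthP o.one YJ j).1 fun y => andB (cjM o y cW cW)
    (andB (Nat.beq (mul12Ap y (fx i0)) (fx (nthP 0 YT j).2)) (allB 16 fun f => cjM o y (fe f) (fe (tab j f))))) = true) j hj
  simp only [force_eq, andB_iff, allB_iff, Nat.beq_eq] at this
  exact ⟨g, hg, mul_inv_eq_iff_eq_mul.mp (cjM_spec r R_W R_W this.1), (R_ap r (fx_lt _)).2.trans (congrArg vc this.2.1),
    fun f hf => cjM_spec r (R_fe f).1 (R_fe _).1 (this.2.2 f hf)⟩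

theorem F16_transJ {e : Γ} (he : e ∈ F16) (h1 : e ≠ 1) : ∃ u ∈ NJ, u * Wm = Wm * u ∧ u * el (fe 1) * u⁻¹ = e := by
  obtain ⟨i, hi, rfl⟩ := fe_surj he
  obtain ⟨j, hj, f⟩ := anyB_iff.mp ((orB_iff.mp (allB_iff.mp (by decide +kernel : allB 16 (fun e => orB (Nat.beq e 0)
    (anyB 50 fun j => Nat.beq (tab j 1) e)) = true) i hi)).resolve_left fun f => h1 (Nat.eq_of_beq_eq_true f ▸ fe_zero))
  obtain ⟨g, hg, k, -, l⟩ := YJ_ok hj
  exact ⟨g, hg, k, Nat.eq_of_beq_eq_true f ▸ l 1 (by norm_num)⟩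

namespace JF
variable [Finite G] {m : FT z Q ρ p} {x : centralizer ({z} : Set G)} (j : JF m x)
include j

theorem AA_map : m.AA.map ρ = F16 := le_antisymm (map_le_iff_le_comap.mpr inf_le_left) fun e he =>
  let ⟨c, h1, h2⟩ := m.lift_cent m.A0_le m.z_A0 (j.hr.ge (J0_XJ (F16_J0 he))) fun _ hu => hu.2 e he
  ⟨c, ⟨mem_comap.mpr (h1 ▸ he), h2⟩, h1⟩

theorem AA_sq {a : centralizer ({z} : Set G)} (ha : a ∈ m.AA) : a * a = 1 := by
  obtain ⟨x, hx, r0⟩ := j.AA_map.ge (R_fe 1).2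
  obtain ⟨y, hy, r1⟩ := j.AA_map.ge (R_fe 2).2
  obtain ⟨w, hw, r2⟩ := j.AA_map.ge (R_fe 4).2
  have c1 : ((x * x : centralizer ({z} : Set G)) : G) ∈ zpowers z := m.lx.cQ _ fun q hq => by
    have e := (m.ker ⟨q, m.lx.le_centralizer hq⟩).mpr hq
    have := congrArg Subtype.val (m.sq_eq hx (m.AA_conj (by rw [e]; exact one_mem _) hx) (by simp [e]))
    rwa [coe_mul, coe_mul, coe_mul, coe_inv, conj_mul, mul_inv_eq_iff_eq_mul] at this
  have c2 : ∀ g, g * (x * x) = x * x * g := fun g =>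
    Subtype.ext (m.lx.comm_of_mem_z c1 (mem_centralizer_singleton_iff.mp g.2))
  have c3 : ∀ a ∈ m.AA, ρ a ≠ 1 → a * a = x * x := fun a ha h => by
    obtain ⟨u, hu, -, e⟩ := F16_transJ ha.1 h
    obtain ⟨k, rfl⟩ := j.hr.ge (NJ_XJ hu)
    rw [m.sq_eq (m.AA_conj (NJ_norm hu) hx) ha (by simp [r0, e]), conj_mul, c2, mul_inv_cancel_right]
  have c4 : ∀ {c} {b}, b ∈ m.AA → M.R c (ρ b) → andB (neB o pts c o.one) (force (o.mul (fe 1) c) fun d =>
      neB o pts d o.one) = true → x * b = b * x⁻¹ := fun {c b} hb r h => by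
    rw [andB_iff, force_eq] at h
    have a1 := c3 b hb (ne_of_neB hv hpt r M.R_one h.1)
    have a2 := c3 _ (mul_mem hx hb) (map_mul ρ x b ▸ ne_of_neB hv hpt (M.R_mul (r0 ▸ (R_fe 1).1) r) M.R_one h.2)
    rw [mul_assoc, mul_right_inj] at a2
    calc x * b = b⁻¹ * (b * (x * b) * x) * x⁻¹ := by group
      _ = _ := by rw [a2, ← a1]; group
  have d1 := c4 hy (r1 ▸ (R_fe 2).1) (by decide +kernel)
  have d2 := c4 hw (r2 ▸ (R_fe 4).1) (by decide +kernel)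
  have d3 := c4 (mul_mem hy hw) (map_mul ρ y w ▸ M.R_mul (r1 ▸ (R_fe 2).1) (r2 ▸ (R_fe 4).1)) (by decide +kernel)
  have d4 : x * x = 1 := by
    rw [← mul_assoc, d1, mul_assoc, mul_assoc, mul_right_inj, ← d2, mul_left_inj] at d3
    exact inv_eq_iff_mul_eq_one.mp d3
  by_cases h : ρ a = 1
  · exact Subtype.ext (m.A0_sq (m.AA_ker.mp ⟨ha, h⟩))
  · rw [c3 a ha h, d4]

omit j in
theorem le_AA {B : Subgroup (centralizer ({z} : Set G))} (hB : B.map ρ ≤ PJ) (h2 : ∀ b ∈ B, b * b = 1)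
    (hc : 2 ^ 11 ≤ Nat.card B) : B ≤ m.AA := by
  have h6 := m.card_inf (B := B)
  set U := (B ⊓ ρ.ker).map (centralizer ({z} : Set G)).subtype
  have h1 : U ≤ Q := map_le_iff_le_comap.mpr fun x hx => (m.ker x).mp hx.2
  have h3 : ∀ u ∈ U, u * u = 1 := by rintro _ ⟨x, hx, rfl⟩; exact congrArg Subtype.val (h2 x hx.1)
  have h4 := m.card_le h1 h3
  have h5 := m.card_p_le h1
  have h7 : ∀ b ∈ B, ∀ u ∈ U, u * b = b * u := by
    rintro b hb _ ⟨x, hx, rfl⟩; exact congrArg Subtype.val (H11.comm_of_sq_eq_one h2 hx.1 hb)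
  have h8 : ∀ g ∈ B.map ρ, ∀ u ∈ U, g (p u) = p u := by
    rintro _ ⟨b, hb, rfl⟩ u hu; rw [← m.act b (h1 hu), ← h7 b hb u hu, mul_inv_cancel_right]
  have h9 := le_F16J hB (by rintro _ ⟨b, hb, rfl⟩; rw [← map_mul, h2 b hb, map_one]) (F := p '' U)
    (by rintro _ ⟨u, hu, rfl⟩; exact (m.sq (h1 hu)).mp (h3 u hu)) (by rintro g hg _ ⟨u, hu, rfl⟩; exact h8 g hg u hu)
    (by nlinarith) (Or.inr (by nlinarith))
  have h10 := eq_of_le_of_card_ge h9 (by rw [F16_card]; nlinarith)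
  have h11 : U = m.A0 := eq_of_le_of_card_ge (fun u hu => ⟨h1 hu, fun e he => h8 e (h10.ge he) u hu⟩) (by
    rw [h10, F16_card] at h6; rw [m.card_A0]; omega)
  exact fun b hb => ⟨h9 ⟨b, hb, rfl⟩, fun u hu => h7 b hb u (h11.ge hu)⟩

theorem u11 : U11 m.AG := m.u11 (j.hr ▸ syl_PJ) F16_PJ (fun _ => j.AA_sq)
  (by rw [← m.card_inf, j.AA_map, m.AA_ker', F16_card, m.card_A0]; norm_num) fun _ => le_AA

end JF

end Cfsg.Agent.LL.U6
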