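import Cfsg.Agent.H21.Ja3

/-! Orbits, stabilisers and classes of involutions in `3.M22:2`. -/

set_option autoImplicit false
set_option maxRecDepth 100000
set_option linter.style.haveILetI false

namespace Cfsg.Agent.LL.U6

open Cfsg Cfsg.Agent.H16 Cfsg.Agent.H3 Cfsg.Agent.H10 MulAction Mdl Subgroup
open scoped commutatorElement Pointwise

/-- the vectors fixed by `F16` -/
def W0 (v : V6) : Prop := ∀ e ∈ F16, e v = v
noncomputable abbrev f0 : Γ := el (fe 1)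

theorem W0_iff {v : V6} : W0 v ↔ ∃ i < 64, vc (fx i) = v := ⟨fun h => by
  obtain ⟨x, hx, rfl⟩ := vc_surj v
  exact ⟨ix x, get_lt _ _ _, congrArg vc ((fx_iff hx).mp h)⟩, by
  rintro ⟨i, hi, rfl⟩; exact (fx_iff (fx_lt i)).mpr (by rw [ix_fx hi])⟩

theorem W0_of {x : ℕ} (h : andB (Nat.blt x 4096) (Nat.beq (fx (ix x)) x) = true) : W0 (vc x) :=
  (fx_iff (Nat.blt_eq.mp (andB_iff.mp h).1)).mpr (Nat.eq_of_beq_eq_true (andB_iff.mp h).2)

theorem PB : M.P vB (vc vB) := P_vc (by decide)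

theorem XJ_OG : XJ ≤ OG := fun _ h => h.elim (fun e => GU_OG (J0_GU e)) fun e =>
  (mul_mem_cancel_left js_OG).mp (GU_OG (J0_GU e))

theorem sing_J {v : V6} (h0 : v ≠ 0) (h : hf v v = 0) : ∃ g ∈ XJ, g v1 = v ∨ g (vc vB) = v := by
  obtain ⟨x, hx, e⟩ := en_all (fun x => impB (Nat.beq (herm4 6 x x) 0) (orB (Nat.beq x 0)
    (orB (inOrb o J00 x) (inOrb o XB0 x)))) (by decide +kernel) v
  obtain ⟨-, rfl⟩ := P_iff.mp hx
  simp only [impB_iff, orB_iff, Nat.beq_eq] at e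
  rcases e (hf_eq h) with rfl | e | e
  · exact absurd vc_zero h0
  · exact (inOrb_spec (XA_ch.tabIn _ List.mem_cons_self) P1' hx e).imp fun g h => ⟨h.1, Or.inl h.2⟩
  · exact (inOrb_spec (XB_ch.tabIn _ List.mem_cons_self) PB hx e).imp fun g h => ⟨h.1, Or.inr h.2⟩

theorem SB_ch : N.Chain M XBL.tail (XJ ⊓ stabilizer Γ (vc vB)) := stab_ch XB_ch PB

theorem orbB {g : Γ} (hg : g ∈ XJ) (h : W0 (g (vc vB))) : ∃ n ∈ NJ, n (vc vB) = g (vc vB) := by
  obtain ⟨i, hi, e⟩ := W0_iff.mp h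
  have hx : M.P (fx i) (g • vc vB) := P_iff.mpr ⟨fx_lt _, e⟩
  exact inOrb_spec (NJ_ch.tabIn _ List.mem_cons_self) PB hx (impB_iff.mp ((force_eq _ _).symm.trans (allB_iff.mp
    (by decide +kernel : allB 64 (fun i => force (fx i) fun x => impB (inOrb o XB0 x) (inOrb o NJ0 x)) = true) i hi))
    (inOrb_of XB_ch PB hg hx))

theorem stabB {g : Γ} (hg : g ∈ XJ) (h : W0 (g (vc vB))) : g ∈ NJ := by
  obtain ⟨n, hn, e⟩ := orbB hg h
  have h1 := eq_of_le_of_card_ge (inf_le_inf_right (stabilizer Γ (vc vB)) NJ_XJ)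
    (by haveI := SB_ch.finite; rw [SB_ch.card, (stab_ch NJ_ch PB).card]; decide +kernel)
  have h2 : n⁻¹ * g ∈ NJ := (h1.ge ⟨XJ.mul_mem (XJ.inv_mem (NJ_XJ hn)) hg, show n⁻¹ (g (vc vB)) = _ by rw [← e]; simp⟩).1
  simpa using mul_mem hn h2

theorem add_map {g : Γ} (hg : g ∈ OG) (a b : V6) : g (a + b) = g a + g b := hg.1 a b

theorem W0_br (v : V6) : W0 (v + f0 v) := by
  obtain ⟨x, hx, e⟩ := en_all (fun x => force (Nat.xor x (mul12Ap (fe 1) x)) fun x =>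
    andB (Nat.blt x 4096) (Nat.beq (fx (ix x)) x)) (by decide +kernel) v
  obtain ⟨hx', rfl⟩ := P_iff.mp hx
  replace hx := hx'
  rw [(R_ap (R_fe 1).1 hx).2, ← vc_xor]
  exact W0_of ((force_eq _ _).symm.trans e)

theorem vB_eq : vc vB = vc kB + f0 (vc kB) := by
  rw [(R_ap (R_fe 1).1 (by decide)).2, ← vc_xor]; exact congrArg vc (by decide +kernel)

theorem cent_NJ {g e : Γ} (hg : g ∈ XJ) (he : e ∈ F16) (h1 : e ≠ 1) (h : g * e = e * g) : g ∈ NJ := by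
  obtain ⟨u, hu, -, rfl⟩ := F16_transJ he h1
  have h2 := mul_mem (mul_mem (inv_mem (NJ_XJ hu)) hg) (NJ_XJ hu)
  have h3 : u⁻¹ * g * u * f0 = f0 * (u⁻¹ * g * u) := by
    calc _ = u⁻¹ * (g * (u * f0 * u⁻¹)) * u := by group
      _ = _ := by rw [h]; group
  have h4 := stabB h2 (by
    rw [vB_eq, add_map (XJ_OG h2), ← Equiv.Perm.mul_apply _ f0, h3]; exact W0_br _)
  simpa [mul_assoc] using mul_mem (mul_mem hu h4) (inv_mem hu)

theorem coreB {E : Subgroup Γ} (h1 : E ≤ XJ ⊓ stabilizer Γ (vc vB)) (h2 : NormBy (XJ ⊓ stabilizer Γ (vc vB)) E)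
    (h3 : ∀ y ∈ E, y * y = 1) : E ≤ F16 := fun e he => by
  obtain ⟨a, r, k⟩ := SB_ch.forall (Lf := fun a => force a fun a => orB (force (o.mul a a) fun q => neB o pts q o.one)
    (orB (N.sift o F16L a) (anyP gB fun u u' => force (o.mul a (cj3 o u a u')) fun y => force (o.mul y y) fun q =>
      neB o pts q o.one))) (by decide +kernel) (h1 he)
  simp only [force_eq, orB_iff, anyP_iff] at k
  rcases k with k | k | ⟨u, hu, k⟩
  · exact absurd (h3 e he) (ne_of_neB hv hpt (M.R_mul r r) M.R_one k)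
  · exact F16_ch.sift r k
  · obtain ⟨g, hg, s, s'⟩ := SB_ch.prL (prL_top (S := gB) (by decide +kernel)) (by decide +kernel) u hu
    have := M.R_mul r (R_cj3 s s' r)
    exact absurd (h3 _ (mul_mem he (h2 g hg e he))) (ne_of_neB hv hpt (M.R_mul this this) M.R_one k)

theorem centJ {g : Γ} (hg : g ∈ XJ) (h : ∀ i < 64, g (vc (fx i)) = vc (fx i)) : g ∈ F16 := by
  obtain ⟨a, r, e⟩ := SB_ch.forall (Lf := fun a => force a fun a => impB (allB 6 fun i => force (fx (bit i)) fun v =>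
    Nat.beq (mul12Ap a v) v) (N.sift o F16L a)) (by decide +kernel) (k := g)
    ⟨hg, show g (vc vB) = vc vB from (show fx iB = vB by decide +kernel) ▸ h iB (by decide)⟩
  refine F16_ch.sift r (impB_iff.mp (force_eq _ _ ▸ e) (allB_iff.mpr fun i hi => ?_))
  rw [force_eq, Nat.beq_eq]
  exact vc_inj (R_ap r (fx_lt _)).1 (fx_lt _) ((R_ap r (fx_lt _)).2.symm.trans (h _ (by
    rw [bit_eq]; exact Nat.pow_lt_pow_right (by norm_num) hi |>.trans_eq (by norm_num))))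

/-- witnesses for the outer involutions -/
def Out (s : Γ) : Prop := ∃ a b : V6, a + s a ≠ 0 ∧ b + s b ≠ 0 ∧ a + s a ≠ b + s b ∧ hf (a + s a) (a + s a) = 0 ∧
  hf (b + s b) (b + s b) = 0 ∧ hf (a + (b + s b)) (a + (b + s b)) = hf a a + hf (b + s b) (b + s b)

theorem clsJ {g : Γ} (hg : g ∈ XJ) (h : g * g = 1) (h1 : g ≠ 1) :
    ∃ u ∈ XJ, u * g * u⁻¹ = f0 ∨ u * g * u⁻¹ ∉ J0 ∧ Out (u * g * u⁻¹) := by
  haveI := XA_ch.finite
  obtain ⟨t, ht, u, hu, r⟩ := N.Chain.classes hv hpt (PJ_NJ.trans NJ_XJ) PJ_ch (p := 2) (k := 8) (m := 10395) Nat.prime_two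
    (by decide +kernel) XJ_card (by decide) (reps := r2) (prL_XJ (S := u2J) (by decide +kernel)).inL
    ((prL_top (S := r2.map fun a => (a, a)) (by decide +kernel)).inL.sub (by decide +kernel)) (j := 1) (by decide +kernel) hg
    (by rwa [pow_one, pow_two])
  have := allL_iff.mp (by decide +kernel : (allL r2 fun t => orB (isOne o t) (orB (Nat.beq t (fe 1)) (andB (N.ncB o pts t cW)
    (anyP w2 fun a b => force (Nat.xor a (mul12Ap t a)) fun c => force (Nat.xor b (mul12Ap t b)) fun d =>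
      andB (andB (Nat.blt a 4096) (Nat.blt b 4096)) (andB (andB (notB (Nat.beq c 0)) (notB (Nat.beq d 0))) (andB (notB (Nat.beq c d))
        (andB (andB (Nat.beq (herm4 6 c c) 0) (Nat.beq (herm4 6 d d) 0)) (ort a d)))))))) = true) t ht
  simp only [orB_iff, andB_iff, notB_iff, anyP_iff, force_eq, Nat.beq_eq, Nat.blt_eq] at this
  rcases this with e | rfl | ⟨e, w, -, ⟨ha, hb⟩, ⟨c, d⟩, k, ⟨l, m⟩, n⟩
  · exact absurd (conj_eq_one_iff.mp (isOne_spec r e)) h1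
  · exact ⟨u, hu, Or.inl (R_fun r (R_fe 1).1)⟩
  · have x : ∀ {a}, a < 4096 → a ^^^ mul12Ap t a < 4096 := fun h => Nat.xor_lt_two_pow (n := 12) h (R_ap r h).1
    refine ⟨u, hu, Or.inr ⟨fun f => N.ncB_spec hv hpt r R_W e (W_comm (J0_GU f)), vc w.1, vc w.2, ?_⟩⟩
    rw [(R_ap r ha).2, (R_ap r hb).2, ← vc_xor, ← vc_xor, ← vc_zero]
    exact ⟨fun f => c (vc_inj (x ha) (by norm_num) f), fun f => d (vc_inj (x hb) (by norm_num) f),
      fun f => k (vc_inj (x ha) (x hb) f), hf_of l, hf_of m, (ort_iff _ _).mpr n⟩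

theorem CF_le' : CF ≤ J0 ⊓ centralizer {f0} := CF_clo.trans (clo_le fun a ha =>
  let ⟨g, hg, r⟩ := J0_ch.inL CF_in (by decide +kernel) a ha
  ⟨g, ⟨hg, mem_centralizer_singleton_iff.mpr (mul_inv_eq_iff_eq_mul.mp (cjM_spec r (R_fe 1).1 (R_fe 1).1
    (allL_iff.mp (by decide +kernel : commB o (fe 1) cfg = true) a ha)))⟩, r⟩)

theorem clsQ {v : V6} (h1 : f0 v = v) (h2 : hf v v = 0) (h3 : ¬ W0 v) :
    ∃ k : V6, ∃ g ∈ J0, g * f0 = f0 * g ∧ g (vc vq) = v + (k + f0 k) := by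
  obtain ⟨x, hx, e⟩ := en_all (fun x => impB (Nat.beq (mul12Ap (fe 1) x) x) (impB (Nat.beq (herm4 6 x x) 0)
    (orB (Nat.beq (fx (ix x)) x) (anyL KR fun k => andB (Nat.blt k 4096)
      (force (Nat.xor x (Nat.xor k (mul12Ap (fe 1) k))) (inOrb o CF0)))))) (by decide +kernel) v
  obtain ⟨hx', rfl⟩ := P_iff.mp hx
  replace hx := hx'
  simp only [impB_iff, orB_iff, Nat.beq_eq, anyL_iff, andB_iff, Nat.blt_eq, force_eq] at e
  obtain ⟨k, -, hk, e⟩ := (e (vc_inj (R_ap (R_fe 1).1 hx).1 hx ((R_ap (R_fe 1).1 hx).2.symm.trans h1))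
    (hf_eq h2)).resolve_left fun e => h3 ((fx_iff hx).mpr e)
  obtain ⟨g, hg, f⟩ := inOrb_spec (CF_ch.tabIn CF0 List.mem_cons_self) (P_vc (x := vq) (by decide))
    (P_vc (Nat.xor_lt_two_pow (n := 12) hx (Nat.xor_lt_two_pow (n := 12) hk (R_ap (R_fe 1).1 hk).1))) e
  exact ⟨vc k, g, (CF_le' hg).1, mem_centralizer_singleton_iff.mp (CF_le' hg).2, by
    rw [(R_ap (R_fe 1).1 hk).2, ← vc_xor, ← vc_xor]; exact f⟩

end Cfsg.Agent.LL.U6
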