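import Cfsg.Agent.H21.Fi12
import Cfsg.Agent.H16.M24g

/-! Centralizers of the duads in the even half of the Golay cocode. -/

set_option autoImplicit false
set_option maxRecDepth 100000
set_option linter.style.haveILetI false

namespace Cfsg.Agent.LL

open Cfsg Cfsg.Agent.H16 Cfsg.Agent.H3 Subgroup
open scoped Pointwise symmDiff

theorem cjcj {A : Type*} [Group A] (a b c : A) : a * b * c * (a * b)⁻¹ = a * (b * c * b⁻¹) * a⁻¹ := by group

theorem ord2 {A : Type*} [Group A] {e : A} (h : e * e = 1) (n : e ≠ 1) : orderOf e = 2 :=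
  haveI : Fact (Nat.Prime 2) := ⟨Nat.prime_two⟩
  orderOf_eq_prime (by rwa [pow_two]) n

theorem fix2 {e : M24} (h : e * e = 1) (n : e ≠ 1) :
    (IsConj t2A e ∧ (fixSet e).card = 8) ∨ (IsConj t2B e ∧ (fixSet e).card = 0) := by
  obtain ⟨c, rfl | rfl⟩ := class2 (ord2 h n)
  · exact Or.inl ⟨isConj_iff.mpr ⟨c, rfl⟩, by rw [fixSet_conj, Finset.card_smul_finset, card_fix2A]⟩
  · exact Or.inr ⟨isConj_iff.mpr ⟨c, rfl⟩, by rw [fixSet_conj, Finset.card_smul_finset, card_fix2B]⟩

theorem conj2A {e : M24} (h : e * e = 1) (n : e ≠ 1) {i : GolayPt} (f : e • i = i) : IsConj t2A e :=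
  ((fix2 h n).resolve_right fun k => by simpa [Finset.card_eq_zero.mp k.2] using mem_fixSet.mpr f).1

theorem conj3A {e : M24} (h : orderOf e = 3) {S : Finset GolayPt} (s : S.card = 2) (f : e • S = S) : IsConj t3A e := by
  obtain ⟨c, rfl | e1⟩ := class3 h
  · exact isConj_iff.mpr ⟨c, rfl⟩
  obtain ⟨i, j, n, rfl⟩ := Finset.card_eq_two.mp s
  have k : ∀ i, e • i ≠ i := fun i h => by
    simpa [e1, fixSet_conj, Finset.card_eq_zero.mp card_fix3B] using mem_fixSet.mpr h
  have h1 : e • i = j := by simpa [k] using f.le (Finset.smul_mem_smul_finset (a := e) (Finset.mem_insert_self i {j}))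
  have h2 : e • j = i := by
    simpa [k] using f.le (Finset.smul_mem_smul_finset (a := e) (show j ∈ ({i, j} : Finset GolayPt) by simp))
  have h3 : e ^ 3 • i = j := by simp [pow_succ, mul_smul, h1, h2]
  rw [← h, pow_orderOf_eq_one, one_smul] at h3
  exact (n h3).elim

theorem two_of_duads {u e : M24} (hu : u * u = 1) (he : e * e = 1) (hc : e * u = u * e)
    (h : ∀ D : Finset GolayPt, D.card = 2 → u • D = D → ∃ i ∈ D, i ∈ e • D) : e = 1 ∨ e = u := by
  by_contra! n
  have h1 : (fixSet e).card ≤ 8 := by have := fix2 he n.1; omega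
  have h2 : (fixSet (e * u)).card ≤ 8 := by
    have := fix2 (e := e * u) (by rw [mul_assoc, ← mul_assoc u, ← hc, mul_assoc, hu, mul_one, he]) fun f =>
      n.2 (mul_right_cancel (f.trans hu.symm))
    omega
  have ee : ∀ i : GolayPt, e • e • i = i := fun i => by rw [smul_smul, he, one_smul]
  have uu : ∀ i : GolayPt, u • u • i = i := fun i => by rw [smul_smul, hu, one_smul]
  have eu : ∀ i : GolayPt, e • u • i = u • e • i := fun i => by rw [smul_smul, hc, mul_smul]
  have k1 : ∀ i : GolayPt, e • i ≠ i → e • u • i ≠ i → u • i = i := fun i a b => by_contra fun c => by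
    obtain ⟨k, k1, k2⟩ := h {i, u • i} (Finset.card_pair (Ne.symm c)) (by simp [Finset.smul_finset_insert, uu, Finset.pair_comm])
    simp only [Finset.smul_finset_insert, Finset.smul_finset_singleton, Finset.mem_insert, Finset.mem_singleton] at k1 k2
    have := ee i
    have := eu i
    have := uu (e • i)
    have := uu i
    grind
  have h3 : (fixSet e ∪ fixSet (e * u))ᶜ.card ≤ 2 := by
    rcases (fixSet e ∪ fixSet (e * u))ᶜ.eq_empty_or_nonempty with f | ⟨i, hi⟩
    · simp [f]
    refine (Finset.card_le_card (t := {i, e • i}) fun j hj => by_contra fun c => ?_).trans Finset.card_le_two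
    simp only [Finset.mem_compl, Finset.mem_union, mem_fixSet, mul_smul, not_or, Finset.mem_insert, Finset.mem_singleton] at hi hj c
    obtain ⟨k, k1, k2⟩ := h {i, j} (Finset.card_pair (Ne.symm c.1)) (by
      simp [Finset.smul_finset_insert, k1 i hi.1 hi.2, k1 j hj.1 hj.2])
    simp only [Finset.smul_finset_insert, Finset.smul_finset_singleton, Finset.mem_insert, Finset.mem_singleton] at k1 k2
    have := ee j
    grind
  have := Finset.card_union_le (fixSet e) (fixSet (e * u))
  rw [Finset.card_compl, card_golayPt] at h3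
  omega

def tr2A : List ℕ := [984818244535754528103549039458486304, 298735888124606358108276987580698005, 544267714310591129910344067645512288, 627064537724545793274348629918332960, 306611229357122037469730687014144032, 419865668829830361526362862034552864, 734314006698834082329304983377741856, 832168489261015735177626205276455273, 314313253673595027680750780024936962, 982817196168432788999204513062637254, 554448902310601630004160201702297102, 846525741498236588657585660874509526, 333830168701656798521608544495608917, 730111131858777408540953859265857024, 436547309659444109540009827310851680, 319708299608619978950991663667424864, 641639560480281502888014190536634976, 357559993225494672633357462397473824, 353174288845831606933448287979154464, 859435542551441603999802842239587360, 845100216405177449087638413915593312, 312294216807656254733685959556380704, 561225190495839078725639875070396448, 839072651686253487359542422669723680, 957348827683802502221882034163502485, 731678671283552909904215889538037792,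 350618987211391328315417166424475680, 836224812725417190512978235808566677, 833495099521843252993205625384777760, 417275796707089712187897224092132556, 624465404344110551804735574296342729, 292177460063262127174232277269458441, 859428642277516296494150893440699526, 978923329891956009583695758466527330, 625856136175519780244237053674444914, 433748282488369718696568058926910571, 361333173984732237691632241192864336, 721835984007606951288985877204287637, 431107698167755662039778465547982436, 624602613685278391973880498800829510, 416914531543310478368127991742997590, 854600774876007463446513585902453856, 978878702139108256549468692644791648, 718341606264588216875485314335214272, 835251636082128627745733427017232896, 360066252845645811597519448512512704, 418654338893898202241498503846236565, 977017061999387345505562988841641568, 569073160942896560180358640018236501, 307135423948455484828953784006804992, 638016928478118129647317100714461216, 292198613699764899860192812782505670,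 421332120171491228960228132037908994, 722509449557991317850584470361561669, 855691211853802601572410597406421134, 852117982721747246721772476629197954]

theorem trans2 {u : M24} (h : IsConj t2A u) {i j k l : GolayPt} (hi : u • i = i) (hj : u • j = j) (hk : u • k = k)
    (hl : u • l = l) (n : i ≠ j) (n' : k ≠ l) : ∃ c : M24, c * u = u * c ∧ c • i = k ∧ c • j = l := by
  have a : ∀ {i j : GolayPt}, t2A • i = i → t2A • j = j → i ≠ j → ∃ c : M24, c * t2A = t2A * c ∧ c • gpt 7 = i ∧ c • gpt 8 = j :=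
    fun {i j} hi hj n => by
    obtain ⟨i, h1, rfl⟩ := exists_gpt i
    obtain ⟨j, h2, rfl⟩ := exists_gpt j
    have := allB_iff.mp (allB_iff.mp (by decide +kernel : allB 24 (fun i => allB 24 fun j => impB (Nat.beq (get 5 z2A i) i)
      (impB (Nat.beq (get 5 z2A j) j) (orB (Nat.beq i j) (anyL tr2A fun c => andB (andB (Nat.beq (get 5 c 7) i)
        (Nat.beq (get 5 c 8) j)) (andB (isM24 c) (allB 24 fun x =>
          Nat.beq (get 5 c (get 5 z2A x)) (get 5 z2A (get 5 c x)))))))) = true) i h1) j h2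
    simp only [impB_iff, orB_iff, anyL_iff, andB_iff, allB_iff, Nat.beq_eq] at this
    obtain ⟨c, -, ⟨c1, c2⟩, c3, c4⟩ := (this (gpt_inj _ (rep2A i h1).1 _ h1 ((rep2A i h1).2.symm.trans hi))
      (gpt_inj _ (rep2A j h2).1 _ h2 ((rep2A j h2).2.symm.trans hj))).resolve_left fun e => n (e ▸ rfl)
    obtain ⟨g, r⟩ := exists_of_isM24 c3
    refine ⟨g, Subtype.ext (Equiv.ext fun x => ?_), c1 ▸ (r 7 (by norm_num)).2, c2 ▸ (r 8 (by norm_num)).2⟩
    obtain ⟨x, hx, rfl⟩ := exists_gpt x
    change g • t2A • gpt x = t2A • g • gpt x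
    rw [(rep2A x hx).2, (r x hx).2, (r _ (rep2A x hx).1).2, (rep2A _ (r x hx).1).2, c4 x hx]
  obtain ⟨g, rfl⟩ := isConj_iff.mp h
  have b : ∀ {i : GolayPt}, (g * t2A * g⁻¹) • i = i → t2A • g⁻¹ • i = g⁻¹ • i := fun h => by
    rw [eq_inv_smul_iff, ← mul_smul, ← mul_smul, h]
  obtain ⟨c, c1, c2, c3⟩ := a (b hi) (b hj) (by simpa using n)
  obtain ⟨d, d1, d2, d3⟩ := a (b hk) (b hl) (by simpa using n')
  refine ⟨g * (d * c⁻¹) * g⁻¹, by rw [conj_mul, conj_mul, (Commute.mul_left d1 (Commute.inv_left c1)).eq], ?_, ?_⟩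
  · simp [mul_smul, ← c2, d2]
  · simp [mul_smul, ← c3, d3]

variable {G : Type*} [Group G] [Finite G]

theorem fix_half {A : Subgroup G} (h : ∀ a ∈ A, a * a = 1) {e : G} (hn : e ∈ normalizer (A : Set G)) (he : e * e = 1) :
    Nat.card A ≤ Nat.card ↥(A ⊓ centralizer {e}) ^ 2 := by
  have k : ∀ a : A, e * a * e⁻¹ ∈ A := fun a => (mem_normalizer_iff.mp hn a).mp a.2
  have cm : ∀ {a b}, a ∈ A → b ∈ A → Commute a b := H11.comm_of_sq_eq_one h
  let φ : A →* G := MonoidHom.mk' (fun a => a * (e * a * e⁻¹)) fun a b => by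
    rw [coe_mul, ← conj_mul, (cm b.2 (k a)).mul_mul_mul_comm]
  have h1 : φ.range ≤ A ⊓ centralizer {e} := by
    rintro _ ⟨a, rfl⟩
    refine ⟨mul_mem a.2 (k a), mem_centralizer_singleton_iff.mpr (mul_inv_eq_iff_eq_mul.mp ?_).symm⟩
    change e * (a * (e * a * e⁻¹)) * e⁻¹ = a * (e * a * e⁻¹)
    rw [(cm a.2 (k a)).eq, ← conj_mul, ← (cm a.2 (k a)).eq, inv_eq_of_mul_eq_one_left he]
    simp [mul_assoc, ← mul_assoc e e, he]
  have h2 : φ.ker.map A.subtype ≤ A ⊓ centralizer {e} := by
    rintro _ ⟨a, ha, rfl⟩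
    exact ⟨a.2, mem_centralizer_singleton_iff.mpr (mul_inv_eq_iff_eq_mul.mp (mul_left_cancel (ha.trans (h a a.2).symm))).symm⟩
  have := card_le_of_le h2
  rw [card_map_of_injective (subtype_injective _)] at this
  rw [← φ.ker.card_mul_index, index_ker, pow_two]
  exact Nat.mul_le_mul this (card_le_of_le h1)

theorem dih {M : Subgroup G} {a s : G} (ha : a ∈ M) (hs : s ∈ M) (a2 : a * a = 1) (s2 : s * s = 1) :
    (∃ k ∈ M, k * s * k⁻¹ = a) ∨ ∃ w ∈ M, w ≠ 1 ∧ w * a = a * w ∧ w * s = s * w ∧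
      (∃ k ∈ M, k * a * k⁻¹ = w * a ∨ k * s * k⁻¹ = w * a) ∧ ∃ k ∈ M, k * a * k⁻¹ = w * s ∨ k * s * k⁻¹ = w * s := by
  have h1 : ∀ n : ℕ, s * ((a * s) ^ n)⁻¹ = (a * s) ^ n * s := fun n => by
    have : s * (a * s)⁻¹ * s⁻¹ = a * s := by
      rw [mul_inv_rev, inv_eq_of_mul_eq_one_right s2, inv_eq_of_mul_eq_one_right a2, ← mul_assoc, s2, one_mul]
    rw [← inv_pow]
    conv_rhs => rw [← this, conj_pow]
    group
  have h0 : a = a * s * s := by rw [mul_assoc, s2, mul_one]
  have h4 : ∀ n, ∃ k ∈ M, k * a * k⁻¹ = (a * s) ^ n * s ∨ k * s * k⁻¹ = (a * s) ^ n * s := fun n => by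
    obtain ⟨m, rfl | rfl⟩ := n.even_or_odd'
    · exact ⟨_, pow_mem (mul_mem ha hs) m, Or.inr (by rw [mul_assoc, h1, ← mul_assoc, ← pow_add, two_mul])⟩
    · refine ⟨_, pow_mem (mul_mem ha hs) m, Or.inl ?_⟩
      nth_rw 2 [h0]
      rw [mul_assoc, mul_assoc (a * s), h1, ← mul_assoc, ← mul_assoc, ← pow_succ, ← pow_add]; congr 2; omega
  have h2 := pow_orderOf_eq_one (a * s)
  have h3 := orderOf_pos (a * s)
  rcases (orderOf (a * s)).even_or_odd' with ⟨m, hm | hm⟩
  · have h4' : (a * s) ^ m * (a * s) ^ m = 1 := by rw [← pow_add, ← two_mul, ← hm, h2]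
    have h5 : Commute ((a * s) ^ m) s := by rw [Commute, SemiconjBy, ← h1, inv_eq_of_mul_eq_one_right h4']
    refine Or.inr ⟨_, pow_mem (mul_mem ha hs) m, pow_ne_one_of_lt_orderOf (by omega) (by omega), ?_, h5, ?_, h4 m⟩
    · simpa [mul_assoc, s2] using (((Commute.refl (a * s)).pow_left m).mul_right h5).eq
    · simpa [pow_succ, mul_assoc, s2] using h4 (m + 1)
  · refine Or.inl ⟨_, pow_mem (mul_mem ha hs) (m + 1), ?_⟩
    rw [mul_assoc, h1, ← mul_assoc, ← pow_add, show m + 1 + (m + 1) = 2 * m + 1 + 1 by ring, ← hm,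
      pow_succ, h2, one_mul, mul_assoc, s2, mul_one]

variable {z : G} {A B : Subgroup G} {t t' : Finset GolayPt → G}

theorem U11.eq_of_norm {U : Subgroup G} (u : U11 U) (h : MS z A t) (h' : MS z B t') (hn : B ≤ normalizer (A : Set G)) : A = B :=
  u.uniq ((two_of_sq fun _ => h.A_sq).to_sup_of_normal_left' (two_of_sq fun _ => h'.A_sq) hn) le_sup_left (fun _ => h.A_sq)
    h.cardA.ge le_sup_right (fun _ => h'.A_sq) h'.cardA.ge

omit [Finite G] in
theorem MS.tetrad (h : MS z A t) {S : Finset GolayPt} (s : S.card = 4) : IsConj z (t S) := by_contra fun n => by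
  obtain ⟨T, a, b⟩ := (h.duad _ (h.mem S) fun f => by
    have := card_of_mem_gSets ((h.ker S (by rw [s]; decide)).mp f); omega).mp n
  have := h.inj (by simp [a]) (by rw [s]; decide) (by omega) b
  rw [this] at a; omega

omit [Finite G] in
theorem MS.not_conj (h : MS z A t) {S : Finset GolayPt} (s : S.card = 2) : ¬ IsConj z (t S) :=
  (h.duad _ (h.mem S) (h.ne_one s)).mpr ⟨S, s, rfl⟩

omit [Finite G] in
theorem MS.meet (h : MS z A t) {S T : Finset GolayPt} (s : S.card = 2) (s' : T.card = 2) (n : ¬ IsConj z (t S * t T)) :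
    ∃ i ∈ S, i ∈ T := by_contra fun k => n (h.mul S T ▸ h.tetrad (by
  have := card_symmDiff_add S T
  rw [Finset.card_eq_zero.mpr (Finset.eq_empty_of_forall_notMem fun i hi => k ⟨i, Finset.mem_inter.mp hi⟩)] at this; omega))

omit [Finite G] in
theorem MS.small (h : MS z A t) {D : Subgroup G} (hD : D ≤ A) (n : ∀ a ∈ D, ¬ IsConj z a) :
    (∃ X : Finset GolayPt, X.card = 4 ∧ ∀ S, S.card = 2 → t S ∈ D → S ⊆ X) ∧ Nat.card D ≤ 4 := by
  obtain ⟨X, h1, h2⟩ : ∃ X : Finset GolayPt, X.card ≤ 3 ∧ ∀ S, S.card = 2 → t S ∈ D → S ⊆ X := by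
    by_cases e : ∃ S T : Finset GolayPt, S.card = 2 ∧ T.card = 2 ∧ t S ∈ D ∧ t T ∈ D ∧ S ≠ T
    · obtain ⟨S, T, s, s', a, b, c⟩ := e
      have k := fun S T s s' a b => h.meet (S := S) (T := T) s s' (n _ (mul_mem a b))
      obtain ⟨i, hi⟩ := k S T s s' a b
      have k1 := Finset.card_pos.mpr ⟨i, Finset.mem_inter.mpr hi⟩
      have k2 := Finset.card_union_add_card_inter S T
      have k3 := card_symmDiff_add S T
      have k4 : (S ∆ T).card ≠ 0 := by simpa using c
      refine ⟨S ∪ T, by omega, fun U u d => ?_⟩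
      obtain ⟨x, hx⟩ := k U S u s d a
      obtain ⟨y, hy⟩ := k U T u s' d b
      obtain ⟨w, hw⟩ := k U (S ∆ T) u (by omega) d (h.mul S T ▸ mul_mem a b)
      obtain ⟨a, b, -, rfl⟩ := Finset.card_eq_two.mp u
      simp only [Finset.mem_symmDiff, Finset.insert_subset_iff, Finset.singleton_subset_iff, Finset.mem_union] at *
      grind
    · by_cases f : ∃ S : Finset GolayPt, S.card = 2 ∧ t S ∈ D
      · obtain ⟨S, s, a⟩ := f
        exact ⟨S, by omega, fun T s' b => by_contra fun c => e ⟨T, S, s', s, b, a, fun f => c f.le⟩⟩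
      · exact ⟨∅, by simp, fun S s a => (f ⟨S, s, a⟩).elim⟩
  obtain ⟨Y, y1, -, y2⟩ := Finset.exists_subsuperset_card_eq (Finset.subset_univ X) (n := 4) (by omega)
    (by simp [card_golayPt])
  refine ⟨⟨Y, y2, fun S s a => (h2 S s a).trans y1⟩, ?_⟩
  classical
  have : (D : Set G) ⊆ (insert 1 ((X.powersetCard 2).image t) : Finset G) := fun a ha => by
    by_cases e : a = 1
    · simp [e]
    · obtain ⟨S, s, rfl⟩ := (h.duad a (hD ha) e).mp (n a ha)
      exact Finset.mem_insert_of_mem (Finset.mem_image_of_mem _ (Finset.mem_powersetCard.mpr ⟨h2 S s ha, s⟩))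
  have := (Set.ncard_le_ncard this).trans_eq (Set.ncard_coe_finset _)
  have := Finset.card_insert_le 1 ((X.powersetCard 2).image t)
  have := Finset.card_image_le (s := X.powersetCard 2) (f := t)
  have := Nat.choose_le_choose 2 h1
  rw [Finset.card_powersetCard] at *
  change (D : Set G).ncard ≤ 4
  simp only [Nat.choose_succ_self_right] at this
  omega

/-- an element commuting with a sextet and a duad normalizes `A` -/
structure JS (z : G) (A : Subgroup G) (t : Finset GolayPt → G) : Prop extends MS z A t where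
  f1 : ∀ s ∈ A, ∀ τ ∈ A, IsConj z s → ¬ IsConj z τ → τ ≠ 1 → ∀ g, g * s = s * g → g * τ = τ * g → g ∈ normalizer (A : Set G)

omit [Finite G] in
theorem JS.conj (h : JS z A t) (g : G) : JS z (MulAut.conj g • A) fun S => g * t S * g⁻¹ := ⟨h.toMS.conj g, by
  rintro _ ⟨s, hs, rfl⟩ _ ⟨τ, hτ, rfl⟩ a b c k d e
  have l : ∀ {x}, IsConj x (g * x * g⁻¹) := isConj_iff.mpr ⟨g, rfl⟩
  have l' : ∀ {x}, k * (g * x * g⁻¹) = g * x * g⁻¹ * k → g⁻¹ * k * g * x = x * (g⁻¹ * k * g) := fun {x} e => by
    calc _ = g⁻¹ * (k * (g * x * g⁻¹)) * g := by group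
      _ = _ := by rw [e]; group
  have := h.f1 s hs τ hτ (a.trans l.symm) (fun f => b (f.trans l)) (fun f => c (by simp [f])) _ (l' d) (l' e)
  rw [mem_normalizer_iff] at this ⊢
  intro x
  rw [mem_conj_smul, mem_conj_smul, this]
  congr! 1; group⟩

namespace JS
variable {U : Subgroup G} (u : U11 U) (h : JS z A t) (h' : JS z B t') {τ : G} (hA : τ ∈ A) (hB : τ ∈ B) (h1 : ¬ IsConj z τ)
  (h2 : τ ≠ 1)
include u h h' hA hB h1 h2

theorem eq_of_mem {s : G} (a : s ∈ A) (b : s ∈ B) (c : IsConj z s) : A = B :=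
  u.eq_of_norm h.toMS h'.toMS fun g hg => h.f1 s a τ hA c h1 h2 g (h'.comm hg b) (h'.comm hg hB)

theorem closed {a : G} (ha : a ∈ B) (c : IsConj z a) (hn : a ∈ normalizer (A : Set G)) : a ∈ A := by_contra fun n => by
  have k0 : ∀ s ∈ A ⊓ B, ¬ IsConj z s := fun s hs f => n (eq_of_mem u h h' hA hB h1 h2 hs.1 hs.2 f ▸ ha)
  have k1 := fix_half (fun _ => h.A_sq) hn (h'.A_sq ha)
  have k2 : A ⊓ centralizer {a} ≤ normalizer (B : Set G) := fun g hg =>
    h'.f1 a ha τ hB c h1 h2 g (mem_centralizer_singleton_iff.mp hg.2) (h.comm hg.1 hA)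
  obtain ⟨e, he, c'⟩ : ∃ e ∈ A ⊓ centralizer {a}, IsConj z e := by_contra fun f => by
    have := Nat.pow_le_pow_left (h.small inf_le_left fun e he l => f ⟨e, he, l⟩).2 2
    rw [h.cardA] at k1; omega
  have k3 := fix_half (fun _ => h'.A_sq) (k2 he) (h.A_sq he.1)
  have k4 : B ⊓ centralizer {e} ≤ normalizer (A : Set G) := fun g hg =>
    h.f1 e he.1 τ hA c' h1 h2 g (mem_centralizer_singleton_iff.mp hg.2) (h'.comm hg.1 hB)
  obtain ⟨Φ, -, p2, p3⟩ := h.exists_hom
  have p4 : ∀ n : normalizer (A : Set G), (n : G) ∈ B → Φ n * Φ n = 1 := fun n hn => by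
    rw [← map_mul, show n * n = 1 from Subtype.ext (h'.A_sq hn), map_one]
  have k5 := U6.card_le_two_mul (E := B ⊓ centralizer {e}) (K := A) (t := a) fun b hb => by
    have := two_of_duads (u := Φ ⟨a, hn⟩) (e := Φ ⟨b, k4 hb⟩) (p4 _ ha) (p4 _ hb.1)
      (by rw [← map_mul, ← map_mul]; exact congrArg Φ (Subtype.ext (h'.comm hb.1 ha))) fun D d f => by
        have e1 := p3 ⟨b, k4 hb⟩ D (by simp [d])
        have e2 := p3 ⟨a, hn⟩ D (by simp [d])
        rw [f, mul_inv_eq_iff_eq_mul] at e2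
        refine h.meet d (by simp [d]) (k0 _ ⟨mul_mem (h.mem _) (h.mem _), ?_⟩)
        rw [← e1, ← mul_assoc, ← mul_assoc, mul_assoc _ (t D), ← mul_assoc]
        refine B.mul_mem ?_ (B.inv_mem hb.1)
        nth_rw 2 [← inv_eq_of_mul_eq_one_left (h.sq D)]
        exact (mem_normalizer_iff.mp (k2 ⟨h.mem D, mem_centralizer_singleton_iff.mpr e2.symm⟩) b).mp hb.1
    refine this.imp (fun f => p2.le f) fun f => p2.le (show Φ (⟨a, hn⟩ * ⟨b, k4 hb⟩) = 1 from ?_)
    rw [map_mul, f, p4 _ ha]
  have := (card_le_of_le (show B ⊓ centralizer {e} ⊓ A ≤ A ⊓ B from fun x hx => ⟨hx.2, hx.1.1⟩)).trans (h.small inf_le_left k0).2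
  have := Nat.pow_le_pow_left (show Nat.card ↥(B ⊓ centralizer {e}) ≤ 8 by omega) 2
  rw [h'.cardA] at k3; omega

omit h' hB in
theorem cent_duad : centralizer {τ} ≤ normalizer (A : Set G) := fun g hg => by_contra fun n => by
  have kk : ∀ {k} {C : Subgroup G}, k ∈ centralizer {τ} → τ ∈ C → τ ∈ MulAut.conj k • C := fun {k} _ hk h => by
    simpa [mem_centralizer_singleton_iff.mp hk] using (conj_mem_conj_smul (g := k)).mpr h
  have h' := h.conj g
  have hB := kk hg hA
  have k0 : ∀ s ∈ A ⊓ MulAut.conj g • A, ¬ IsConj z s := fun s hs f =>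
    n (mem_normalizer_of_conj_mem (conj_smul_le_iff.mp (eq_of_mem u h h' hA hB h1 h2 hs.1 hs.2 f).ge))
  obtain ⟨⟨X, x1, x2⟩, -⟩ := h.small inf_le_left k0
  have k1 : ∀ w ∈ A ⊓ MulAut.conj g • A, w ≠ 1 → ¬ IsConj z (w * t X) := fun w hw e => by
    obtain ⟨W, w1, rfl⟩ := (h.duad w hw.1 e).mp (k0 w hw)
    have := card_symmDiff_add W X
    rw [Finset.inter_eq_left.mpr (x2 W w1 hw)] at this
    exact h.mul W X ▸ h.not_conj (by omega)
  obtain ⟨T, t1, rfl⟩ := (h.duad τ hA h2).mp h1
  obtain ⟨i, j, ij, rfl⟩ := Finset.card_eq_two.mp t1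
  obtain ⟨Y, y1, y2, y3⟩ := Finset.exists_subsuperset_card_eq (s := {i}) (t := Finset.univ.erase j) (n := 4) (by simpa using ij)
    (by simp) (by simp [card_golayPt])
  have k2 : IsConj z (t {i, j} * t Y) := h.mul _ Y ▸ h.tetrad (by
    have := card_symmDiff_add {i, j} Y
    rw [Finset.insert_inter_of_mem (by simpa using y1), Finset.singleton_inter_of_notMem (fun f => by simpa using y2 f)] at this
    simp at this; omega)
  have cj : ∀ {a : G} (k), IsConj z a → IsConj z (k * a * k⁻¹) := fun k h => h.trans (isConj_iff.mpr ⟨k, rfl⟩)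
  have cm : ∀ {a b}, a ∈ A → b ∈ A → a ∈ centralizer {b} := fun a b => mem_centralizer_singleton_iff.mpr (h.comm a b)
  have a1 := h.tetrad x1
  have a2 := cj g (h.tetrad y3)
  rcases dih (M := centralizer {t {i, j}}) (cm (h.mem X) hA) (mul_mem (mul_mem hg (cm (h.mem Y) hA)) (inv_mem hg)) (h.sq X)
    (h'.sq Y) with ⟨k, hk, e⟩ | ⟨w, hw, w1, w2, w3, w4, w5⟩
  · refine k1 _ ⟨hA, hB⟩ h2 ?_
    have := cj (k * g) k2
    rwa [← conj_mul, mem_centralizer_singleton_iff.mp (mul_mem hk hg), mul_inv_cancel_right, cjcj, e] at this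
  have k3 : ∀ {C : Subgroup G} {t'}, JS z C t' → t {i, j} ∈ C → ∀ {s}, s ∈ C → IsConj z s → w * s = s * w →
      (∃ k ∈ centralizer {t {i, j}}, k * t X * k⁻¹ = w * s ∨ k * (g * t Y * g⁻¹) * k⁻¹ = w * s) → w ∈ C ∧ IsConj z (w * s) := by
    rintro C t' hC c1 s c2 c3 c4 ⟨k, hk, e⟩
    have c5 := mul_mem (hC.f1 s c2 _ c1 c3 h1 h2 w c4 (mem_centralizer_singleton_iff.mp hw)) (le_normalizer c2)
    have c6 : IsConj z (w * s) := e.elim (fun e => e ▸ cj k a1) fun e => e ▸ cj k a2
    refine ⟨(mul_mem_cancel_right c2).mp (e.elim (fun e => ?_) fun e => ?_), c6⟩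
    · exact closed u hC (h.conj k) c1 (kk hk hA) h1 h2 (e ▸ conj_mem_conj_smul.mpr (h.mem X)) c6 c5
    · exact closed u hC (h'.conj k) c1 (kk hk hB) h1 h2 (e ▸ conj_mem_conj_smul.mpr (h'.mem Y)) c6 c5
  obtain ⟨b1, b2⟩ := k3 h hA (h.mem X) a1 w2 w4
  exact k1 w ⟨b1, (k3 h' hB (h'.mem Y) a2 w3 w5).1⟩ w1 b2

end JS

end Cfsg.Agent.LL
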