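import Cfsg.Agent.H21.Ja4
import Cfsg.Agent.H21.Todd2
import Cfsg.Agent.H6.ZStar
import Cfsg.Agent.H26.AutP

/-! The involution of a simple group of Janko-four type is fused into the extraspecial subgroup. -/

set_option autoImplicit false
set_option maxRecDepth 100000
set_option linter.style.haveILetI false

namespace Cfsg.Agent.LL.U6

open Cfsg Cfsg.Agent.H16 Cfsg.Agent.H3 Cfsg.Agent.H10 MulAction Mdl Subgroup
open scoped commutatorElement Pointwise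

theorem out_mul {a b : Γ} (ha : a ∈ XJ) (hb : b ∈ XJ) (h : a ∉ J0) (h' : b ∉ J0) : a * b ∈ J0 := by
  have := mul_mem (XJ_J0 _ js_XJ _ (ha.resolve_left h)) (hb.resolve_left h')
  rwa [← mul_assoc (el js), mul_eq_one_iff_inv_eq.mpr js_inv, one_mul, mul_assoc, inv_mul_cancel_left] at this

theorem rankJ {E : Subgroup Γ} (hE : E ≤ XJ) (h : ∀ g ∈ E, g * g = 1) : Nat.card E < 64 := by
  haveI : Fact (Nat.Prime 2) := ⟨Nat.prime_two⟩
  haveI := XA_ch.finite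
  by_contra! k
  obtain ⟨g, -, e⟩ := syl_PJ.exists_conj_le (two_of_sq h) hE
  have := card_le_of_le (le_F16J e (sq_conj h g) (F := ∅) (by simp) (by simp) (by rw [card_conj_smul]; omega)
    (Or.inl (by rwa [card_conj_smul])))
  rw [card_conj_smul, F16_card] at this; omega

theorem W0.add {a b : V6} (h : W0 a) (h' : W0 b) : W0 (a + b) := fun e he => by
  rw [add_map (XJ_OG (J0_XJ (F16_J0 he))), h e he, h' e he]

theorem f0_ne : f0 ≠ 1 := ne_of_neB hv hpt (R_fe 1).1 M.R_one (by decide +kernel)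
theorem f0_fix {x : ℕ} (h : andB (Nat.blt x 4096) (Nat.beq (mul12Ap (fe 1) x) x) = true) : f0 (vc x) = vc x := by
  rw [(R_ap (R_fe 1).1 (Nat.blt_eq.mp (andB_iff.mp h).1)).2, Nat.eq_of_beq_eq_true (andB_iff.mp h).2]

theorem two_mul_le {A : Type*} [Group A] {H K : Subgroup A} [Finite K] (h : H ≤ K) {a : A} (ha : a ∈ K) (hn : a ∉ H) :
    2 * Nat.card H ≤ Nat.card K := by
  obtain ⟨k, e⟩ := card_dvd_of_le h
  have := Nat.card_pos (α := K)
  rcases k with _ | _ | k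
  · omega
  · exact (hn ((eq_of_le_of_card_ge h (by omega)).ge ha)).elim
  · nlinarith

variable {G : Type*} [Group G] {z : G} {Q : Subgroup G} {ρ : centralizer ({z} : Set G) →* Γ} {p : G → V6} [Finite G]

theorem FT.toJ (m : FT z Q ρ p) (hr : ρ.range = XJ) {s : G} (hQ : s ∈ Q) (hs : IsConj z s) (h1 : s ≠ z) :
    ∃ g ∈ XJ, g v1 = p s := by
  obtain ⟨c, rfl⟩ := isConj_iff.mp hs
  have hp := m.lx.lpr hQ h1
  obtain ⟨g, hg, e | e⟩ := sing_J (mt (m.zero hQ).mp hp.pr.t_not) ((m.sq hQ).mp hp.hP.zz)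
  · exact ⟨g, hg, e⟩
  have hk : g⁻¹ ∈ ρ.range := hr.ge (inv_mem hg)
  have m' := m.shift' hk
  have h1 := m'.E_le hp rfl
  have h2 := m'.E_norm hp rfl
  rw [(range_shift hk).trans hr, show g⁻¹ (p (c * z * c⁻¹)) = vc vB by simp [← e]] at h1 h2
  haveI := F16_ch.finite
  have h3 := card_le_of_le (coreB h1 h2 (m'.E_sq hp rfl))
  have := m'.le_card_E hp (m.card_conj c) rfl
  rw [F16_card] at h3; omega

variable {m : FT z Q ρ p} {x : centralizer ({z} : Set G)} {b : ℕ → G} {d : ℕ → centralizer ({z} : Set G)}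

namespace Co
variable (c : Co m x b d)
include c

omit [Finite G] in
theorem d_comm {e : ℕ} {q : G} (hq : q ∈ Q) (h : el (fe e) (p q) = p q) : (d e : G) * q = q * d e := by
  rcases m.uniq hq (m.conj_mem (d e) hq) (by rw [m.act _ hq, c.pd, h]) with f | f
  · exact mul_inv_eq_iff_eq_mul.mp f
  have xz : x * z * (x : G)⁻¹ = z := mul_inv_eq_iff_eq_mul.mpr (mem_centralizer_singleton_iff.mp x.2)
  have h1 := tr3_conj (x := (x : G)) (congrArg Subtype.val (c.dx e).symm) q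
  have h2 : ∀ a ∈ Q, a * z = z * a := m.lx.cent
  have h3 := m.conj_mem x hq
  have k : ∀ a : G, x * (z * a) * (x : G)⁻¹ = z * (x * a * (x : G)⁻¹) := fun a => by rw [← conj_mul, xz]
  rw [f, m.lx.comm_of_mem_z (m.tr_mem c.hx hq) (mem_centralizer_singleton_iff.mp (d e).2), mul_inv_cancel_right, tr3, tr3,
    k, k, ← mul_assoc _ z, ← mul_assoc _ z, mul_left_inj, mul_assoc z q, h2 q hq, ← mul_assoc z z, m.lx.zz, one_mul,
    mul_eq_left] at h1
  exact (m.lx.ne_one h1).elim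

omit [Finite G] in
theorem dd (e : ℕ) : (d e : G) * d e = 1 := congrArg Subtype.val (c.sq _ (c.dA e))

omit [Finite G] in
theorem inv_fix {q : G} (hq : q ∈ Q) (h : q * d 1 * (q * d 1) = 1) : f0 (p q) = p q ∧ q * q = 1 := by
  have h1 : d 1 * q * (d 1 : G)⁻¹ = q⁻¹ := by
    rw [inv_eq_of_mul_eq_one_left (c.dd 1), eq_comm, inv_eq_iff_mul_eq_one, ← h]
    simp only [mul_assoc]
  have h2 : f0 (p q) = p q := by rw [f0, ← c.pd, ← m.act _ hq, h1, m.p_inv hq]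
  rw [c.d_comm hq h2, mul_inv_cancel_right] at h1
  exact ⟨h2, eq_inv_iff_mul_eq_one.mp h1⟩

variable {q0 : G} (h0 : q0 ∈ Q) (e0 : p q0 = vc vq)
include h0 e0

omit [Finite G] in
theorem d_q0 : (d 1 : G) * q0 = q0 * d 1 := c.d_comm h0 (e0 ▸ f0_fix (by decide +kernel))

theorem cardY : 128 ≤ Nat.card ↥(m.AG ⊓ centralizer {q0}) := by
  have n : ¬ b 16 * q0 = q0 * b 16 := by rw [m.comm_ort (c.bA 16).1 h0 (c.pb 16 (by norm_num)) e0]; decide +kernel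
  have h1 := card_le_two_mul (E := m.A0) (K := centralizer {q0}) (t := b 16) fun g hg => or_iff_not_imp_left.mpr fun h => by
    rw [mem_centralizer_singleton_iff] at h ⊢
    exact ((m.lx.comm_mul_iff h0 (c.bA 16).1 hg.1).mpr (iff_of_false (mt Eq.symm n) (mt Eq.symm h))).symm
  have h2 := two_mul_le (inf_le_inf_right (centralizer {q0}) (A0_AG (m := m))) (a := d 1)
    ⟨c.d_mem 1, mem_centralizer_singleton_iff.mpr (c.d_q0 h0 e0)⟩ fun h => f0_ne ((c.pd 1).symm.trans ((m.ker _).mpr h.1.1))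
  rw [m.card_A0] at h1; omega

theorem cls2 (hr : ρ.range = XJ) {q : G} (hq : q ∈ Q) (h : q * d 1 * (q * d 1) = 1) (hn : ¬ W0 (p q)) :
    ∃ h : centralizer ({z} : Set G), h * (q0 * d 1) * (h : G)⁻¹ = q * d 1 := by
  obtain ⟨h1, h2⟩ := c.inv_fix hq h
  obtain ⟨k, g, hg, h3, h4⟩ := clsQ h1 ((m.sq hq).mp h2) hn
  obtain ⟨w, hw, rfl⟩ := m.surj k
  obtain ⟨y, y1, rfl⟩ := m.Y_lift c.hx c.x3 (hr.ge (J0_XJ hg)) (W_comm (J0_GU hg))
  obtain ⟨n, -, y2⟩ := c.d_eq (y := y * d 1 * y⁻¹) ((Commute.mul_left y1 (c.dx 1)).mul_left (Commute.inv_left y1)) (e := 1)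
    (by simp [c.pd, h3])
  have zn := pow_mem m.lx.mem n
  have a1 := m.conj_mem (d 1) hw
  have a2 := mul_mem (mul_mem (inv_mem hw) (mul_mem (m.conj_mem y h0) zn)) a1
  let w' : centralizer ({z} : Set G) := ⟨w, m.lx.le_centralizer hw⟩
  have a3 : ((w'⁻¹ * y : centralizer ({z} : Set G)) : G) * (q0 * d 1) * ((w'⁻¹ * y : centralizer ({z} : Set G)) : G)⁻¹ =
      w⁻¹ * (y * q0 * (y : G)⁻¹ * z ^ n) * (d 1 * w * (d 1 : G)⁻¹) * d 1 := by
    calc _ = w⁻¹ * (y * q0 * (y : G)⁻¹) * (y * d 1 * (y : G)⁻¹) * w := by simp [w', mul_assoc]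
      _ = _ := by rw [show y * d 1 * (y : G)⁻¹ = _ from y2, ← mul_left_inj (d 1 : G)⁻¹]; simp [mul_assoc, c.dd]
  rcases m.uniq hq a2 (by
    rw [m.mul (mul_mem (inv_mem hw) (mul_mem (m.conj_mem y h0) zn)) a1, m.mul (inv_mem hw) (mul_mem (m.conj_mem y h0) zn),
      m.mul (m.conj_mem y h0) zn, (m.zero zn).mpr (npow_mem_zpowers z n), m.act y h0, m.act _ hw, m.p_inv hw, e0, h4, c.pd,
      add_zero, add_right_comm, add_comm (p q), ← add_assoc, add_self, zero_add]) with f | f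
  · exact ⟨_, f ▸ a3⟩
  · obtain ⟨i, hi, e⟩ : ∃ i < 64, b i * q ≠ q * b i := by
      by_contra! k
      obtain ⟨v, hv, e⟩ := vc_surj (p q)
      refine hn (e ▸ (fx_iff hv).mpr ?_)
      have := allQ_iff.mp (by decide +kernel : allQ 4096 (fun v => impB (allB 6 fun i => ort (fx (bit i)) v)
        (Nat.beq (fx (ix v)) v)) = true) v hv
      refine Nat.eq_of_beq_eq_true (impB_iff.mp this (allB_iff.mpr fun i hi => ?_))
      have l : bit i < 64 := by rw [bit_eq]; exact (Nat.pow_lt_pow_right (by norm_num) hi).trans_eq (by norm_num)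
      exact (m.comm_ort (c.bA _).1 hq (c.pb _ l) e.symm).mp (k _ l)
    refine ⟨(⟨b i, m.lx.le_centralizer (c.bA i).1⟩ : centralizer ({z} : Set G)) * (w'⁻¹ * y), ?_⟩
    rw [coe_mul, cjcj, a3, f, ← conj_mul, ← conj_mul, m.lx.conj_eq_of_ne (c.bA i).1 hq e, m.lx.cent _ (c.bA i).1,
      (c.comm (A0_AG (c.bA i)) (c.d_mem 1)).eq]
    simp [← mul_assoc, m.lx.zz]

omit h0 e0 in
theorem cls1 (hr : ρ.range = XJ) {t : centralizer ({z} : Set G)} (h : t * t = 1) (h1 : ρ t ≠ 1) (h2 : ρ t ∈ J0) :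
    ∃ h : centralizer ({z} : Set G), ∃ q ∈ Q, h * t * (h : G)⁻¹ = q * d 1 := by
  obtain ⟨u, hu, e⟩ := clsJ (hr.le ⟨t, rfl⟩) (by rw [← map_mul, h, map_one]) h1
  replace e := e.resolve_right fun e => e.1 (XJ_J0 u hu _ h2)
  obtain ⟨k, rfl⟩ := hr.ge hu
  exact ⟨k, _, (m.ker (k * t * k⁻¹ * (d 1)⁻¹)).mp (by simp [c.pd, e]), by simp⟩

end Co

namespace JF
variable (j : JF m x)
include j

theorem ah0 : AH0 m := ⟨j.AA_map, fun _ => j.AA_sq, fun _ hi => let ⟨g, hg, e⟩ := YJ_ok hi; ⟨g, j.hr.ge (NJ_XJ hg), e⟩,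
  ⟨NJ, j.hr ▸ NJ_XJ, fun _ hk x => (mem_normalizer_iff.mp (NJ_norm hk) x).mp, NJ_card.ge⟩,
  fun a ha h => by obtain ⟨g, rfl⟩ := isConj_iff.mp h; exact j.u11.fusion j.u11.sq j.u11.card.ge (Co.A0_AG m.z_A0) ha,
  fun _ hg => centJ (j.hr.le hg)⟩

section
variable (c : Co m x b d) (wc : ∀ a ∈ Q, IsConj z a → a = z)
include c wc

theorem wcA {a : G} (ha : a ∈ m.AG) (h : IsConj z a) : a = z := by
  haveI : Fact (Nat.Prime 2) := ⟨Nat.prime_two⟩
  obtain ⟨d0, d1, β, k1, k2⟩ := c.unif0 j.ah0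
  have a1 : av z b d 1 = z := by simp [av, c.b_zero, c.d0]
  have k3 : ∀ u < 2048, IsConj z (av z b d u) ↔ ifB (Nat.blt u 128) (Nat.beq u 1) (chi d0 d1 β u) = true := fun u hu => by
    rw [ifB_eq]
    split_ifs with l <;> rw [Nat.blt_eq] at l
    · rw [Nat.beq_eq]
      refine ⟨fun e => c.av_inj j.ah0 (by simpa using hu) (by simp) ((wc _ ?_ e).trans a1.symm), fun e => by rw [e, a1]⟩
      rw [av, Nat.div_eq_of_lt l, c.d0]
      exact mul_mem (mul_mem (pow_mem m.lx.mem _) (c.bA _).1) (one_mem _)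
    · exact k2 u hu l
  obtain ⟨k, -, k4⟩ := c.orb j.ah0 k3
  haveI : IsMulCommutative m.AG := ⟨⟨fun a b => Subtype.ext (c.comm a.2 b.2)⟩⟩
  have k5 := m.AG.normalizerMonoidHom.ker.card_mul_index
  have k6 := card_subgroup_dvd_card m.AG.normalizerMonoidHom.range
  have k7 : m.AG.normalizerMonoidHom.ker ≤ m.AG.subgroupOf _ := m.AG.normalizerMonoidHom_ker ▸ comap_mono (c.cent_le j.ah0)
  replace k7 := card_dvd_of_le k7
  rw [H26.card_mulAut_of_elementary (fun a => Subtype.ext ((pow_two _).trans (j.u11.sq _ a.2))) j.u11.card] at k6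
  rw [Nat.card_congr (subgroupOfEquivOfLe le_normalizer).toEquiv, j.u11.card] at k7
  rw [index_ker, ← k4] at k5
  have k8 := (by decide +kernel : ∀ d0 d1 β : Bool, cntB2 32 64 (fun u => ifB (Nat.blt u 128) (Nat.beq u 1) (chi d0 d1 β u)) ∣
    2 ^ 11 * ∏ i ∈ Finset.range 11, (2 ^ 11 - 2 ^ i) → allQ 2048 (fun u => impB (ifB (Nat.blt u 128) (Nat.beq u 1)
      (chi d0 d1 β u)) (Nat.beq u 1)) = true) d0 d1 β ((Dvd.intro_left k k5.symm).trans (mul_dvd_mul k7 k6))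
  obtain ⟨u, hu, rfl⟩ := c.av_surj ha
  rw [Nat.eq_of_beq_eq_true (impB_iff.mp (allQ_iff.mp k8 u hu) ((k3 u hu).mp h)), a1]

theorem wcB {t : centralizer ({z} : Set G)} (h : IsConj z t) (h1 : (t : G) ≠ z) : ρ t ∉ J0 := fun h2 => by
  obtain ⟨q0, h0, e0⟩ := m.surj (vc vq)
  have nq : ∀ {q}, q ∈ Q → q * d 1 ≠ z := fun hq e => f0_ne ((c.pd 1).symm.trans ((m.ker _).mpr
    ((mul_mem_cancel_left hq).mp (by rw [e]; exact m.lx.mem))))
  have sq : ∀ {t : G}, IsConj z t → t * t = 1 := fun h => by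
    obtain ⟨g, rfl⟩ := isConj_iff.mp h; rw [conj_mul, m.lx.zz]; simp
  have k1 : ∀ t : centralizer ({z} : Set G), IsConj z t → (t : G) ≠ z → ρ t ∈ J0 →
      ∃ h : centralizer ({z} : Set G), h * (t : G) * (h : G)⁻¹ = q0 * d 1 := fun t h h1 h2 => by
    obtain ⟨k, q, hq, e⟩ := c.cls1 j.hr (Subtype.ext (sq h)) (fun e => h1 (wc _ ((m.ker t).mp e) h)) h2
    have h3 := h.trans (isConj_iff.mpr ⟨_, e⟩)
    obtain ⟨l, f⟩ := c.cls2 h0 e0 j.hr hq (sq h3) fun n => nq hq (j.wcA c wc (mul_mem (Co.A0_AG ⟨hq, n⟩) (c.d_mem 1)) h3)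
    exact ⟨l⁻¹ * k, by rw [coe_mul, cjcj, e, ← f]; simp [mul_assoc]⟩
  obtain ⟨k, e⟩ := k1 t h h1 h2
  have h3 := h.trans (isConj_iff.mpr ⟨_, e⟩)
  obtain ⟨g, hg⟩ := isConj_iff.mp h3.symm
  have k2 : ∀ {g y : G}, g * (q0 * d 1) * g⁻¹ = z → y * (q0 * d 1) = q0 * d 1 * y → g * y * g⁻¹ ∈ centralizer {z} :=
    fun hg e => mem_centralizer_singleton_iff.mpr (by rw [← hg, conj_mul, conj_mul, e])
  obtain ⟨w, hw, ew⟩ := m.surj (vc we)
  have w1 := k2 hg (y := w) (by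
    rw [← mul_assoc, (m.comm_ort hw h0 ew e0).mpr (by decide +kernel), mul_assoc, mul_assoc,
      c.d_comm hw (ew ▸ f0_fix (by decide +kernel))])
  have w2 : w * w = z := (m.lx.mem_z.mp (m.lx.sq w hw)).resolve_left fun e =>
    absurd (hf_eq (ew ▸ (m.sq hw).mp e)) (by decide +kernel)
  obtain ⟨l, f⟩ := k1 (⟨_, w1⟩ * ⟨_, w1⟩) (isConj_iff.mpr ⟨g, by rw [coe_mul, conj_mul, w2]⟩)
    (fun e => nq h0 (by rw [coe_mul, conj_mul, w2] at e; exact conj_injective (hg.trans e.symm))) (by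
      rw [map_mul]
      by_cases n : ρ ⟨_, w1⟩ ∈ J0
      exacts [mul_mem n n, out_mul (j.hr.le ⟨_, rfl⟩) (j.hr.le ⟨_, rfl⟩) n n])
  rw [coe_mul, conj_mul, w2, ← cjcj] at f
  replace hg : l * g * (q0 * d 1) * (l * g)⁻¹ = z := by
    rw [cjcj, hg, mul_inv_eq_iff_eq_mul]; exact mem_centralizer_singleton_iff.mp l.2
  generalize l * g = g at f hg
  have s1 := sq_conj (B := m.AG ⊓ centralizer {q0}) (fun a ha => j.u11.sq a ha.1) g
  have k3 : MulAut.conj g • (m.AG ⊓ centralizer {q0}) ≤ centralizer {z} := by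
    rintro _ ⟨y, hy, rfl⟩
    exact k2 hg (by rw [← mul_assoc, mem_centralizer_singleton_iff.mp hy.2, mul_assoc, mul_assoc, (c.comm hy.1 (c.d_mem 1)).eq])
  have k4 := m.card_inf (B := (MulAut.conj g • (m.AG ⊓ centralizer {q0})).subgroupOf (centralizer {z}))
  have k5 := rankJ ((map_le_range ρ ((MulAut.conj g • (m.AG ⊓ centralizer {q0})).subgroupOf (centralizer {z}))).trans j.hr.le)
    (by rintro _ ⟨y, hy, rfl⟩; rw [← map_mul, show y * y = 1 from Subtype.ext (s1 _ hy), map_one])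
  rw [Nat.card_congr (subgroupOfEquivOfLe k3).toEquiv, card_conj_smul] at k4
  have k6 := c.cardY h0 e0
  set U := ((MulAut.conj g • (m.AG ⊓ centralizer {q0})).subgroupOf (centralizer {z}) ⊓ ρ.ker).map (centralizer {z}).subtype
  have k7 : ∀ y ∈ U, y ∈ Q ∧ y * y = 1 ∧ (y ≠ 1 → W0 (p y + vc vq)) := by
    rintro _ ⟨y, ⟨⟨y0, hy, e⟩, hq⟩, rfl⟩
    replace hq := (m.ker y).mp hq
    refine ⟨hq, s1 _ ⟨y0, hy, e⟩, fun n => by_contra fun n' => n ?_⟩
    have a1 : y * q0 * d 1 = g * (y0 * z) * g⁻¹ := by rw [mul_assoc, ← f, ← conj_mul]; exact congrArg (· * _) e.symm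
    have a2 := mul_mem hy.1 (Co.A0_AG m.z_A0)
    obtain ⟨v, a3⟩ := c.cls2 h0 e0 j.hr (mul_mem hq h0) (by rw [a1, conj_mul, j.u11.sq _ a2]; simp)
      (by rwa [m.mul hq h0, e0])
    have := j.wcA c wc a2 ((h3.trans (isConj_iff.mpr ⟨_, a3.trans a1⟩)).trans (isConj_iff.mpr ⟨g, rfl⟩).symm)
    rw [mul_eq_right] at this
    exact e.symm.trans (by simp [this])
  have k8 := ENat.exists_ne_ne_of_three_le (α := U) (by rw [ENat.card_eq_coe_natCard]; norm_cast; nlinarith)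
  obtain ⟨y1, n1, -⟩ := k8 1 1
  obtain ⟨y2, n2, n3⟩ := k8 1 y1
  obtain ⟨a1, a2, a3⟩ := k7 _ y1.2
  obtain ⟨b1, -, b3⟩ := k7 _ y2.2
  have := ((a3 (by simpa using n1)).add (b3 (by simpa using n2))).add ((k7 _ (mul_mem y1.2 y2.2)).2.2 fun e =>
    n3 (Subtype.ext (mul_left_cancel (e.trans a2.symm))))
  rw [m.mul a1 b1, add_add_add_comm (p y1), add_self, add_zero, ← add_assoc, add_self, zero_add] at this
  exact absurd ((fx_iff (by decide)).mp this) (by decide +kernel)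

end

theorem nwc [IsSimpleGroup G] (hG : ¬ IsMulCommutative G) : ∃ s ∈ Q, IsConj z s ∧ s ≠ z := by
  by_contra! wc
  obtain ⟨b, d, c⟩ := m.exists_co' j.hx j.x3 j.AA_map fun _ => j.AA_sq
  have hO : pPrimeCore 2 G = ⊥ := (Normal.eq_bot_or_eq_top inferInstance).resolve_right fun e => by
    haveI : Fact (Nat.Prime 2) := ⟨Nat.prime_two⟩
    have := H1.not_dvd_card_pPrimeCore 2 G
    rw [e, card_top] at this
    exact this (m.lx.ord ▸ orderOf_dvd_natCard z)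
  obtain ⟨g, h1, h2⟩ : ∃ g, Commute z (g * z * g⁻¹) ∧ g * z * g⁻¹ ≠ z := by
    by_contra! h
    exact hG (center_eq_top_iff.mp ((Normal.eq_bot_or_eq_top inferInstance).resolve_left fun e =>
      m.lx.ne_one (e.le (H6.mem_center_of_isolated hO m.lx.ord h))))
  have h3 : IsConj z (g * z * g⁻¹) := isConj_iff.mpr ⟨g, rfl⟩
  let t0 : centralizer ({z} : Set G) := ⟨_, mem_centralizer_singleton_iff.mpr h1.symm⟩
  have h4 := j.wcB c wc (t := t0) h3 h2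
  have h5 : t0 * t0 = 1 := Subtype.ext (by simp [t0, m.lx.zz])
  obtain ⟨u, hu, e⟩ := clsJ (j.hr.le ⟨t0, rfl⟩) (by rw [← map_mul, h5, map_one]) fun e => h4 (e ▸ one_mem _)
  obtain ⟨-, a, a', e1, e2, e3, e4, e5, e6⟩ := e.resolve_left fun e => h4 (by
    have := XJ_J0 _ (inv_mem hu) _ (show u * ρ t0 * u⁻¹ ∈ J0 by rw [e]; exact F16_J0 (R_fe 1).2)
    simpa [mul_assoc] using this)
  obtain ⟨k, rfl⟩ := j.hr.ge hu
  rw [← map_inv, ← map_mul, ← map_mul] at e1 e2 e3 e4 e5 e6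
  replace h3 : IsConj z (k * t0 * k⁻¹ : centralizer ({z} : Set G)) := h3.trans (isConj_iff.mpr ⟨k, rfl⟩)
  replace h5 : ((k * t0 * k⁻¹ : centralizer ({z} : Set G)) : G) * (k * t0 * k⁻¹ : centralizer ({z} : Set G)) = 1 := by
    rw [← coe_mul, conj_mul, h5]; simp
  generalize k * t0 * k⁻¹ = t at *
  obtain ⟨g, hg⟩ := isConj_iff.mp h3.symm
  have k0 : ∀ w q : G, w * t = q * t * q⁻¹ → w * w = 1 → Commute w t := fun w q e s => by
    have : w * t * (w * t) = 1 := by rw [e, conj_mul, h5]; simp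
    rw [Commute, SemiconjBy, ← inv_eq_of_mul_eq_one_right this, mul_inv_rev, inv_eq_of_mul_eq_one_right h5,
      inv_eq_of_mul_eq_one_right s]
  have k1 : ∀ w : G, w ≠ 1 → ∀ q, w * t = q * t * q⁻¹ → w * t = t * w → ∃ h : g * w * g⁻¹ ∈ centralizer {z}, ρ ⟨_, h⟩ ∉ J0 :=
    fun w n q e a1 => by
    have a2 : g * w * g⁻¹ ∈ centralizer {z} := mem_centralizer_singleton_iff.mpr (by rw [← hg, conj_mul, conj_mul, a1])
    have a3 := j.wcB c wc (t := ⟨_, a2⟩ * ⟨z, mem_centralizer_singleton_iff.mpr rfl⟩)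
      ((h3.trans (isConj_iff.mpr ⟨q, e.symm⟩)).trans (isConj_iff.mpr ⟨g, by rw [← conj_mul, hg]; rfl⟩)) (by simpa using n)
    exact ⟨a2, by rwa [map_mul, (m.ker ⟨z, _⟩).mpr m.lx.mem, mul_one] at a3⟩
  obtain ⟨q, hq, rfl⟩ := m.surj a
  obtain ⟨r, hr, rfl⟩ := m.surj a'
  have k2 : ∀ {q}, q ∈ Q → q * (t * q⁻¹ * (t : G)⁻¹) ∈ Q ∧ p (q * (t * q⁻¹ * (t : G)⁻¹)) = p q + ρ t (p q) := fun hq =>
    ⟨mul_mem hq (m.conj_mem t (inv_mem hq)), by rw [m.mul hq (m.conj_mem t (inv_mem hq)), m.act t (inv_mem hq), m.p_inv hq]⟩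
  obtain ⟨a1, a2⟩ := k2 hq
  obtain ⟨b1, b2⟩ := k2 hr
  have n1 : ∀ {w}, w ∈ Q → p w ≠ 0 → w ≠ 1 := fun h n e => n ((m.zero h).mpr (e ▸ one_mem _))
  have s1 := k0 _ q (by group) ((m.sq a1).mpr (a2 ▸ e4))
  have s2 := k0 _ r (by group) ((m.sq b1).mpr (b2 ▸ e5))
  obtain ⟨m1, o1⟩ := k1 _ (n1 a1 (a2 ▸ e1)) q (by group) s1
  obtain ⟨m2, o2⟩ := k1 _ (n1 b1 (b2 ▸ e2)) r (by group) s2
  have cm := (m.comm_iff hq b1).mpr (b2 ▸ e6)
  have e7 : r * (t * r⁻¹ * (t : G)⁻¹) * (q * (t * q⁻¹ * (t : G)⁻¹)) * t = q * r * t * (q * r)⁻¹ := by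
    rw [← mul_assoc _ q, ← cm]
    calc _ = q * (r * (t * r⁻¹ * (t : G)⁻¹) * t) * q⁻¹ := by group
      _ = _ := by group
  obtain ⟨m3, o3⟩ := k1 _ (n1 (mul_mem b1 a1) (by
    rw [m.mul b1 a1, a2, b2]; exact fun e => e3 (by rw [← add_zero (_ + _), ← e, add_comm (_ + _) (p q + _), ← add_assoc, add_self, zero_add])))
    _ e7 (s2.mul_left s1)
  exact o3 (by convert out_mul (j.hr.le ⟨_, rfl⟩) (j.hr.le ⟨_, rfl⟩) o2 o1 using 1; rw [← map_mul]; congr 1; exact Subtype.ext conj_mul.symm)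

variable [IsSimpleGroup G] (hG : ¬ IsMulCommutative G)
include hG

theorem ofJ {a : G} (ha : a ∈ Q) {g : Γ} (hg : g ∈ XJ) (f : g v1 = p a) : IsConj z a := by
  obtain ⟨s, hs, s1, s2⟩ := j.nwc hG
  obtain ⟨k, hk, l⟩ := m.toJ j.hr hs s1 s2
  obtain ⟨y, -, r⟩ := m.conj_of hs ha (fun h => v1_ne (g.injective (f.trans (h.trans
    (by simpa using add_map (XJ_OG hg) 0 0 : g 0 = 0).symm)))) (j.hr.ge (mul_mem hg (inv_mem hk))) (by simp [← l, ← f])
  exact s1.trans (isConj_iff.mpr ⟨y, r⟩)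

theorem ah : AH m := ⟨j.ah0, fun a ha i hi e n => by
  rw [(by decide +kernel : ∀ i < 64, tb SG i = true ↔ fx i = 0 ∨ inOrb o J00 (fx i) = true) i hi]
  refine ⟨fun h => ?_, fun h => h.elim (fun h => ?_) fun h => ?_⟩
  · by_cases f : a = z
    · exact Or.inl (vc_inj (fx_lt _) (by norm_num) (by rw [← e, f, m.p_z, vc_zero]))
    · obtain ⟨g, hg, f⟩ := m.toJ j.hr ha.1 h f
      exact Or.inr (inOrb_of XA_ch P1' hg (P_iff.mpr ⟨fx_lt _, e.symm.trans f.symm⟩))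
  · rw [(m.lx.mem_z.mp ((m.zero ha.1).mp (by rw [e, h, vc_zero]))).resolve_left n]
  · obtain ⟨g, hg, f⟩ := inOrb_spec (XA_ch.tabIn J00 List.mem_cons_self) P1' (P_vc (fx_lt i)) h
    exact j.ofJ hG ha.1 hg (f.trans e.symm)⟩

theorem exists_js : ∃ b d t, Co m x b d ∧ JS z m.AG t := by
  obtain ⟨b, d, c⟩ := m.exists_co' j.hx j.x3 j.AA_map fun _ => j.AA_sq
  obtain ⟨t, h⟩ := c.ms (j.ah hG)
  refine ⟨b, d, t, c, h, fun s hs τ hτ h1 h2 h3 g h4 h5 => ?_⟩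
  obtain ⟨n, hn, rfl⟩ := j.ah0.fus s hs h1
  obtain ⟨a, ha, e⟩ := (mem_normalizer_iff.mp (inv_mem hn) τ).mp hτ
  obtain rfl : τ = n * a * n⁻¹ := by simp [show (a : G) = _ from e, mul_assoc]
  have k : ∀ {y}, g * (n * y * n⁻¹) = n * y * n⁻¹ * g → n⁻¹ * g * n * y = y * (n⁻¹ * g * n) := fun {y} e => by
    calc _ = n⁻¹ * (g * (n * y * n⁻¹)) * n := by group
      _ = _ := by rw [e]; group
  let g' : centralizer ({z} : Set G) := ⟨_, mem_centralizer_singleton_iff.mpr (k h4)⟩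
  suffices ρ g' ∈ NJ by simpa [g', mul_assoc] using mul_mem (mul_mem hn (m.AG_norm (NJ_norm this))) (inv_mem hn)
  have h6 := j.hr.le ⟨g', rfl⟩
  by_cases f : ρ a = 1
  · have a0 := m.AA_ker.mp ⟨ha, f⟩
    have h7 : ¬ IsConj z a := fun f => h2 (f.trans (isConj_iff.mpr ⟨n, rfl⟩))
    obtain ⟨u, hu, l | l⟩ := sing_J (v := p a) (fun l => (m.lx.mem_z.mp ((m.zero a0.1).mp l)).elim (fun l => h3 (by simp [l]))
      fun l => h7 (by rw [l])) ((m.sq a0.1).mp (m.A0_sq a0))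
    · exact (h7 (j.ofJ hG a0.1 hu l)).elim
    obtain ⟨v, hv, l'⟩ := orbB hu (l ▸ a0.2)
    exact (mul_mem_cancel_right hv).mp (stabB (mul_mem h6 (NJ_XJ hv)) (by
      rw [Equiv.Perm.mul_apply, l', l, m.fix_of a0.1 (k h5).symm]; exact a0.2))
  · exact cent_NJ h6 ha.1 f (by rw [← map_mul, ← map_mul]; exact congrArg ρ (Subtype.ext (k h5)))

end JF

end Cfsg.Agent.LL.U6
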