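import Cfsg.Agent.H21.Ja5
import Cfsg.Agent.H1.Gaschutz

/-! The involutions of a simple group of Janko-four type; the normalizer of the subgroup of order `2 ^ 11` splits. -/

set_option autoImplicit false
set_option maxRecDepth 100000
set_option linter.style.haveILetI false

namespace Cfsg.Agent.LL

open Cfsg Cfsg.Agent.H16 Cfsg.Agent.H3 Cfsg.Agent.H10 MulAction Mdl Subgroup
open scoped commutatorElement Pointwise symmDiff

variable {G : Type*} [Group G] {z : G}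

theorem tr3_norm {B : Subgroup G} {x y a : G} (hB : ∀ a ∈ B, a * a = 1) (hx : ∀ a ∈ B, x * a * x⁻¹ ∈ B) (x3 : x ^ 3 = 1)
    (h : y * x * y⁻¹ = x ∨ y * x * y⁻¹ = x * x) (ha : y * a * y⁻¹ ∈ B) : tr3 x (y * a * y⁻¹) = y * tr3 x a * y⁻¹ := by
  have k : tr3 (y * x * y⁻¹) (y * a * y⁻¹) = y * tr3 x a * y⁻¹ := by simp only [tr3]; group
  rcases h with h | h <;> rw [← k, h]
  generalize y * a * y⁻¹ = c at ha
  rw [tr3, tr3, cjcj x x c, cjcj, cube_conj x3, mul_assoc c, mul_assoc c,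
    H11.comm_of_sq_eq_one hB (hx c ha) (hx _ (hx c ha))]

theorem U11.conj_norm [Finite G] {A : Subgroup G} (u : U11 A) {S : Subgroup G} (hS : IsPGroup 2 S) :
    ∃ g : G, MulAut.conj g • S ≤ normalizer (A : Set G) := by
  obtain ⟨T, hT⟩ := hS.exists_le_sylow
  obtain ⟨g, h1, h2⟩ := u.syl T
  refine ⟨g, (conj_smul_mono g hT).trans fun y hy => mem_normalizer_of_conj_mem (conj_smul_le_iff.mp (h2 _ ?_ (sq_conj u.sq y)
    (by rw [card_conj_smul, u.card])).le)⟩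
  exact conj_smul_le_iff.mpr fun a ha => mul_mem (mul_mem hy (h1 ha)) (inv_mem hy)

/-- `K` is a complement of `A` in its normalizer -/
structure Spl (A K : Subgroup G) : Prop where
  le : K ≤ normalizer (A : Set G)
  inf : K ⊓ A = ⊥
  sup : K ⊔ A = normalizer (A : Set G)

theorem Spl.conj {A K : Subgroup G} (h : Spl A K) (g : G) : Spl (MulAut.conj g • A) (MulAut.conj g • K) := by
  have e : normalizer ((MulAut.conj g • A : Subgroup G) : Set G) = MulAut.conj g • normalizer (A : Set G) :=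
    (map_equiv_normalizer_eq A (MulAut.conj g)).symm
  exact ⟨e ▸ conj_smul_mono g h.le, by rw [← smul_inf, h.inf, smul_bot], by rw [← smul_sup, h.sup, e]⟩

theorem Spl.iso [Finite G] {A K : Subgroup G} (h : Spl A K) {t : Finset GolayPt → G} (h' : MS z A t) :
    (∀ n ∈ normalizer (A : Set G), ∃ a ∈ A, ∃ k ∈ K, a * k = n) ∧
      ∃ ψ : K ≃* M24, ∀ (k : K) S, Even S.card → k * t S * (k : G)⁻¹ = t (ψ k • S) := by
  have h1 : ∀ n ∈ normalizer (A : Set G), ∃ a ∈ A, ∃ k ∈ K, a * k = n := fun n hn =>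
    (coe_mul_of_right_le_normalizer_left A K h.le).le (by rw [sup_comm, h.sup]; exact hn)
  obtain ⟨Φ, p1, p2, p3⟩ := h'.exists_hom
  refine ⟨h1, MulEquiv.ofBijective (Φ.comp (inclusion h.le)) ⟨(injective_iff_map_eq_one _).mpr fun g e =>
    Subtype.ext (h.inf.le ⟨g.2, p2.le e⟩), fun g => ?_⟩, fun k => p3 (inclusion h.le k)⟩
  obtain ⟨n, rfl⟩ := p1 g
  obtain ⟨a, ha, k, hk, e⟩ := h1 n n.2
  refine ⟨⟨k, hk⟩, ?_⟩
  rw [show n = ⟨a, le_normalizer ha⟩ * ⟨k, h.le hk⟩ from Subtype.ext e.symm, map_mul, show Φ ⟨a, _⟩ = 1 from p2.ge ha, one_mul]; rfl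

namespace U6

theorem XJ_W {k : Γ} (hk : k ∈ XJ) : k * Wm * k⁻¹ = Wm ∨ k * Wm * k⁻¹ = Wm * Wm := hk.imp
  (fun h => mul_inv_eq_iff_eq_mul.mpr (W_comm (J0_GU h))) fun h => by
    have : k = el js * (el js * k) := by rw [← mul_assoc, mul_eq_one_iff_inv_eq.mpr js_inv, one_mul]
    rw [this, cjcj, W_comm (J0_GU h), mul_inv_cancel_right, js_W, mul_inv_cancel_right]

theorem fix_F16 {e : Γ} (he : e ∈ F16) : (e (vc vn) = vc vn → e = 1) ∧ (e (vc vq) = vc vq → e = 1 ∨ e = f0) := by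
  obtain ⟨i, hi, rfl⟩ := fe_surj he
  have := (by decide +kernel : ∀ i < 16, (mul12Ap (fe i) vn = vn → i = 0) ∧ (mul12Ap (fe i) vq = vq → i = 0 ∨ i = 1)) i hi
  have k : ∀ {v}, v < 4096 → el (fe i) (vc v) = vc v → mul12Ap (fe i) v = v := fun h e =>
    vc_inj (R_ap (R_fe i).1 h).1 h ((R_ap (R_fe i).1 h).2.symm.trans e)
  exact ⟨fun e => this.1 (k (by decide) e) ▸ fe_zero, fun e => (this.2 (k (by decide) e)).imp (fun h => by rw [h, fe_zero]) fun h => by rw [h]⟩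

noncomputable def fy (i : ℕ) : ℕ := xc (get 12 W1R) 6 i
theorem fy_lt (i : ℕ) : fy i < 4096 := xc_lt (w := 12) (fun _ _ => get_lt _ _ _) i
/-- a complement of the vectors fixed by `F16` -/
def W1 : Set V6 := {v | ∃ i < 64, vc (fy i) = v}

theorem W1_iff {x : ℕ} (hx : x < 4096) : vc x ∈ W1 ↔ tb W1T x = true := ⟨fun ⟨i, hi, e⟩ => vc_inj (fy_lt i) hx e ▸
  allB_iff.mp (by decide +kernel : allB 64 (fun i => tb W1T (fy i)) = true) i hi, fun e =>
  let ⟨i, hi, f⟩ := anyB_iff.mp (impB_iff.mp (allQ_iff.mp (by decide +kernel : allQ 4096 (fun x => impB (tb W1T x)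
    (anyB 64 fun i => Nat.beq (fy i) x)) = true) x hx) e); ⟨i, hi, congrArg vc (Nat.eq_of_beq_eq_true f)⟩⟩
theorem W1_card : W1.ncard = 64 := (ncard_eq_cnt fun _ => W1_iff).trans (by decide +kernel)
theorem W1_add {a b : V6} (h : a ∈ W1) (h' : b ∈ W1) : a + b ∈ W1 := by
  obtain ⟨i, hi, rfl⟩ := h
  obtain ⟨j, hj, rfl⟩ := h'
  exact ⟨_, Nat.xor_lt_two_pow (n := 6) hi hj, by rw [fy, xc_xor, vc_xor]; rfl⟩
theorem W1_inv {a : ℕ} (ha : a ∈ cW :: dJ) {g : Γ} (r : M.R a g) {v : V6} (h : v ∈ W1) : g v ∈ W1 := by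
  obtain ⟨i, hi, rfl⟩ := h
  rw [(R_ap r (fy_lt i)).2, W1_iff (R_ap r (fy_lt i)).1]
  exact (force_eq _ _).symm.trans (allB_iff.mp (allL_iff.mp (by decide +kernel : (allL (cW :: dJ) fun a => allB 64 fun i =>
    force (mul12Ap a (fy i)) (tb W1T)) = true) a ha) i hi)
theorem W1_sing {v : V6} (h : v ∈ W1) : hf v v = 0 ∧ (W0 v → v = 0) := by
  obtain ⟨i, hi, rfl⟩ := h
  have := (by decide +kernel : ∀ i < 64, herm4 6 (fy i) (fy i) = 0 ∧ (fx (ix (fy i)) = fy i → fy i = 0)) i hi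
  exact ⟨hf_of this.1, fun e => by rw [this.2 ((fx_iff (fy_lt i)).mp e), vc_zero]⟩

theorem D16_F16 {g : Γ} (h : g ∈ D16) (h' : g ∈ F16) : g = 1 := by
  obtain ⟨a, r, e⟩ := D16_ch.forall (Lf := fun a => impB (allB 64 fun i => Nat.beq (mul12Ap a (fx i)) (fx i)) (isOne o a))
    (by decide +kernel) h
  exact isOne_spec r (impB_iff.mp e (allB_iff.mpr fun i hi => Nat.beq_eq.mpr (vc_inj (R_ap r (fx_lt i)).1 (fx_lt i)
    ((R_ap r (fx_lt i)).2.symm.trans (W0_iff.mpr ⟨i, hi, rfl⟩ g h')))))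

theorem ext2_le {A : Type*} [Group A] {K L : Subgroup A} {σ : A} {hn h2} (h : K ≤ L) (hs : σ ∈ L) : ext2 K σ hn h2 ≤ L :=
  fun _ hg => hg.elim (fun e => h e) fun e => (mul_mem_cancel_left hs).mp (h e)

theorem nW0 {x : ℕ} (h : andB (Nat.blt x 4096) (notB (Nat.beq (fx (ix x)) x)) = true) : ¬ W0 (vc x) := fun e => by
  simp only [andB_iff, notB_iff, Nat.blt_eq, Nat.beq_eq] at h
  exact h.2 ((fx_iff h.1).mp e)

variable {Q : Subgroup G} {ρ : centralizer ({z} : Set G) →* Γ} {p : G → V6} [Finite G]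

/-- all coordinates -/
structure JC (m : FT z Q ρ p) (x : centralizer ({z} : Set G)) (b : ℕ → G) (d : ℕ → centralizer ({z} : Set G))
    (t : Finset GolayPt → G) (Φ : normalizer (m.AG : Set G) →* M24) : Prop where
  j : JF m x
  c : Co m x b d
  h : JS z m.AG t
  a0 : ∀ e < 16, ¬ IsConj z (d e) ∧ IsConj z (z * d e)
  tab : ∀ e < 16, ∀ f < 16, (d e : G) * d f = z ^ (gm e ^^^ gm f ^^^ gm (e ^^^ f)) * d (e ^^^ f)
  surj : Function.Surjective Φ
  ker : ∀ n, Φ n = 1 ↔ (n : G) ∈ m.AG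
  act : ∀ (n : normalizer (m.AG : Set G)) S, Even S.card → n * t S * (n : G)⁻¹ = t (Φ n • S)

variable {m : FT z Q ρ p} {x : centralizer ({z} : Set G)} {b : ℕ → G} {d : ℕ → centralizer ({z} : Set G)}
  {t : Finset GolayPt → G} {Φ : normalizer (m.AG : Set G) →* M24}

theorem JF.exists_jc (j : JF m x) [IsSimpleGroup G] (hG : ¬ IsMulCommutative G) : ∃ b d t Φ, JC m x b d t Φ := by
  obtain ⟨b, d, t, c, h⟩ := j.exists_js hG
  obtain ⟨Φ, h1, h2, h3⟩ := h.exists_hom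
  exact ⟨b, d, t, Φ, j, c, h, (c.final (j.ah hG)).2.1, (c.final (j.ah hG)).2.2, h1, SetLike.ext_iff.mp h2, h3⟩

theorem JF.lift (j : JF m x) {k : Γ} (hk : k ∈ XJ) : ∃ y, ρ y = k ∧ (y * x * y⁻¹ = x ∨ y * x * y⁻¹ = x * x) := by
  obtain ⟨c, rfl⟩ := j.hr.ge hk
  have l : ∀ x', x' ^ 3 = 1 → ρ c * Wm * (ρ c)⁻¹ = ρ x' → ∃ y, ρ y = ρ c ∧ y * x * y⁻¹ = x' := fun x' h3 e => by
    obtain ⟨q, h1, h2⟩ := conj_of_ker ρ ((Subgroup.ext m.ker : ρ.ker = Q.subgroupOf _) ▸ m.lx.isPGroup.comap_subtype)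
      Nat.prime_three (by norm_num) (x := c * x * c⁻¹) (by rw [conj_pow, j.x3, mul_one, mul_inv_cancel]) h3 (by simp [j.hx, e])
    exact ⟨q * c, by simp [h1], by rw [cjcj, h2]⟩
  rcases XJ_W hk with e | e
  · exact (l x j.x3 (j.hx ▸ e)).imp fun y h => ⟨h.1, Or.inl h.2⟩
  · exact (l (x * x) (by rw [(Commute.refl x).mul_pow, j.x3, one_mul]) (by rw [e, map_mul, j.hx])).imp fun y h => ⟨h.1, Or.inr h.2⟩

omit [Finite G] in
theorem JF.ord (j : JF m x) : orderOf x = 3 :=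
  haveI : Fact (Nat.Prime 3) := ⟨Nat.prime_three⟩
  orderOf_eq_prime j.x3 fun e => by simpa [← j.hx, e] using orderOf_W

theorem JF.nx (j : JF m x) {y : centralizer ({z} : Set G)} :
    y ∈ normalizer (zpowers x : Set (centralizer ({z} : Set G))) ↔ y * x * y⁻¹ = x ∨ y * x * y⁻¹ = x * x := by
  refine ⟨fun h => ?_, fun h => mem_normalizer_of_conj_mem ?_⟩
  · obtain ⟨i, hi, e⟩ := exists_pow_of_mem (by norm_num) j.ord ((mem_normalizer_iff.mp h x).mp (mem_zpowers x))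
    interval_cases i
    · exact absurd j.ord (by simp [conj_eq_one_iff.mp (e.trans (pow_zero x))])
    · exact Or.inl (e.trans (pow_one x))
    · exact Or.inr (e.trans (pow_two x))
  · rintro _ ⟨n, rfl⟩
    rw [← conj_zpow]
    exact zpow_mem (h.elim (fun e => e.symm ▸ mem_zpowers x) fun e => e.symm ▸ mul_mem (mem_zpowers x) (mem_zpowers x)) n

theorem FT.Q_norm (m : FT z Q ρ p) : Q ≤ normalizer (m.AG : Set G) := fun q hq =>
  m.AG_norm (y := ⟨q, m.lx.le_centralizer hq⟩) (by rw [(m.ker _).mpr hq]; exact one_mem _)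

theorem FT.mem_A0 (m : FT z Q ρ p) {a : G} (h : a ∈ m.AG) (hq : a ∈ Q) : a ∈ m.A0 := by
  obtain ⟨a, ha, rfl⟩ := h
  exact m.AA_ker.mp ⟨ha, (m.ker a).mpr hq⟩

theorem JF.Q_conj (j : JF m x) {y : G} (hy : y ∈ Q) (h : y * y = 1) : ∃ a ∈ m.AG, IsConj y a := by
  by_cases e : p y = 0
  · exact ⟨y, Co.A0_AG (zpowers_le.mpr m.z_A0 ((m.zero hy).mp e)), IsConj.refl y⟩
  obtain ⟨g, hg, f⟩ := sing_J e ((m.sq hy).mp h)
  have k : ∀ v, W0 v → g v = p y → ∃ a ∈ m.AG, IsConj y a := fun v hv f => by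
    obtain ⟨a, ha, rfl⟩ := m.surj v
    obtain ⟨k, -, l⟩ := m.conj_of ha hy e (j.hr.ge hg) f
    exact ⟨a, Co.A0_AG ⟨ha, hv⟩, (isConj_iff.mpr ⟨(k : G), l⟩).symm⟩
  exact f.elim (k _ (W0_of (by decide +kernel))) (k _ (W0_of (by decide +kernel)))

namespace JC
variable (k : JC m x b d t Φ)
include k

theorem duad {e : ℕ} (he : e < 16) (n : e ≠ 0) : ∃ S, S.card = 2 ∧ t S = d e :=
  (k.h.duad _ (k.c.d_mem e) fun f => n (by
    have := k.c.pd e
    rw [show d e = 1 from Subtype.ext f, map_one] at this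
    exact by_contra fun l => ne_of_neB hv hpt M.R_one (R_fe e).1
      ((by decide +kernel : ∀ e < 16, e ≠ 0 → neB o pts o.one (fe e) = true) e he l) this)).mp (k.a0 e he).1

theorem fix {n : normalizer (m.AG : Set G)} {S : Finset GolayPt} (s : S.card = 2) (h : n * t S = t S * n) : Φ n • S = S :=
  k.h.inj (by simp [s]) (by simp [s]) (by simp [s]) ((k.act n S (by simp [s])).symm.trans (mul_inv_eq_iff_eq_mul.mpr h))

theorem same {y q : normalizer (m.AG : Set G)} (hy : y * y = 1) (hq : q * q = 1) (e : Φ y = Φ q) :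
    ∃ a ∈ m.AA, (y : G) = q * a ∧ (q : G) * a = a * q := by
  obtain ⟨a, ha, f⟩ := (k.ker (q⁻¹ * y)).mp (by simp [e])
  have h1 : (y : G) = q * a := by simp [show (a : G) = _ from f]
  refine ⟨a, ha, h1, ?_⟩
  have h2 : (y : G) * y = 1 := congrArg Subtype.val hy
  rw [h1] at h2
  rw [← inv_eq_of_mul_eq_one_right h2, mul_inv_rev, inv_eq_of_mul_eq_one_right (congrArg Subtype.val hq : (q : G) * q = 1),
    inv_eq_of_mul_eq_one_right (k.j.u11.sq (a : G) ⟨a, ha, rfl⟩)]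

variable {q0 q1 : G} (h0 : q0 ∈ Q) (e0 : p q0 = vc vq) (h1 : q1 ∈ Q) (e1 : p q1 = vc vn)

include h0 e0 in
theorem tri : ∃ i j l, ∃ r ∈ Q, p r = vc vB ∧ i ≠ j ∧ j ≠ l ∧ t {i, j} = d 1 ∧ t {j, l} = r ∧
    Φ ⟨q0, m.Q_norm h0⟩ • i = i ∧ Φ ⟨q0, m.Q_norm h0⟩ • j = j ∧ Φ ⟨q0, m.Q_norm h0⟩ • l = l := by
  obtain ⟨S, s, e⟩ := k.duad (e := 1) (by norm_num) one_ne_zero
  obtain ⟨w, hw, ew⟩ := m.surj (vc kB)
  have a1 := m.conj_mem (d 1) (inv_mem hw)
  have a2 : p (w * (d 1 * w⁻¹ * (d 1 : G)⁻¹)) = vc vB := by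
    rw [m.mul hw a1, m.act _ (inv_mem hw), m.p_inv hw, k.c.pd, ew, vB_eq]
  have a3 : t (Φ ⟨w, m.Q_norm hw⟩ • S) * t S = w * (d 1 * w⁻¹ * (d 1 : G)⁻¹) := by
    rw [← k.act _ S (by simp [s]), e, inv_eq_of_mul_eq_one_left (k.c.dd 1)]; simp only [mul_assoc]
  have a4 := mul_mem hw a1
  generalize w * (d 1 * w⁻¹ * (d 1 : G)⁻¹) = r at *
  have s' : (Φ ⟨w, m.Q_norm hw⟩ • S).card = 2 := by simp [s]
  generalize Φ ⟨w, m.Q_norm hw⟩ • S = T at *
  have a5 : p r ≠ 0 := by rw [a2, ← vc_zero]; exact fun f => absurd (vc_inj (by decide) (by decide) f) (by decide)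
  obtain ⟨i, i1, i2⟩ := k.h.meet s' s (a3 ▸ fun f => by
    obtain ⟨g, hg, l⟩ := m.toJ k.j.hr a4 f fun l => a5 (l ▸ m.p_z)
    exact absurd (inOrb_of XA_ch P1' hg (x := vB) (P_iff.mpr ⟨by decide, (l.trans a2).symm⟩)) (by decide +kernel))
  have b1 : q0 * t S = t S * q0 := e ▸ (k.c.d_q0 h0 e0).symm
  have b2 := k.fix (n := ⟨q0, m.Q_norm h0⟩) s b1
  have b3 := k.fix (n := ⟨q0, m.Q_norm h0⟩) s' (by
    rw [eq_mul_inv_of_mul_eq a3]
    exact (Commute.mul_right ((m.comm_ort h0 a4 e0 a2).mpr (by decide +kernel)) (Commute.inv_right b1)).eq)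
  have b4 : T ≠ S := fun f => a5 (by rw [← a3, f, k.h.sq]; exact (m.zero (one_mem _)).mpr (one_mem _))
  have pr : ∀ {S : Finset GolayPt}, S.card = 2 → i ∈ S → ∃ j, i ≠ j ∧ S = {i, j} := fun s h =>
    let ⟨j, a, b⟩ := Finset.exists_mem_ne (s ▸ one_lt_two) i; ⟨j, b.symm, eq_pair s h a b.symm⟩
  obtain ⟨j, ij, rfl⟩ := pr s i2
  obtain ⟨l, il, rfl⟩ := pr s' i1
  have jl : j ≠ l := fun f => b4 (f ▸ rfl)
  generalize Φ ⟨q0, m.Q_norm h0⟩ = u at *
  have c : ∀ {j}, u • ({i, j} : Finset GolayPt) = {i, j} → (u • i = i ∨ u • i = j) ∧ (u • j = i ∨ u • j = j) := fun {j} h =>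
    ⟨by simpa using h.le (Finset.smul_mem_smul_finset (Finset.mem_insert_self i {j})),
      by simpa using h.le (Finset.smul_mem_smul_finset (a := u) (show j ∈ ({i, j} : Finset GolayPt) by simp))⟩
  have c1 := c b2
  have c2 := c b3
  have c3 : u • i = i := c1.1.resolve_right fun f => c2.1.elim (fun g => ij (g.symm.trans f)) fun g => jl (f.symm.trans g)
  have c4 : ∀ {j}, i ≠ j → u • j ≠ i := fun n f => n (smul_left_cancel u (c3.trans f.symm))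
  refine ⟨i, j, l, r, a4, a2, ij, jl, e, ?_, c3, c1.2.resolve_left (c4 ij), c2.2.resolve_left (c4 il)⟩
  rw [← a3, ← k.h.mul]
  congr 1; ext y; simp only [Finset.mem_symmDiff, Finset.mem_insert, Finset.mem_singleton]; grind

omit k in
theorem qq {q : G} (h : q ∈ Q) {v : ℕ} (e : p q = vc v) (s : herm4 6 v v = 0) :
    (⟨q, m.Q_norm h⟩ : normalizer (m.AG : Set G)) * ⟨q, m.Q_norm h⟩ = 1 := Subtype.ext ((m.sq h).mpr (e ▸ hf_of s))

theorem ne1 {q : G} (h : q ∈ Q) (e : ¬ W0 (p q)) : Φ ⟨q, m.Q_norm h⟩ ≠ 1 := fun f => e (m.mem_A0 ((k.ker _).mp f) h).2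

include h0 e0 in
theorem is2A : IsConj t2A (Φ ⟨q0, m.Q_norm h0⟩) :=
  let ⟨_, _, _, _, _, _, _, _, _, _, h, _⟩ := k.tri h0 e0
  conj2A (by rw [← map_mul, qq h0 e0 (by decide +kernel), map_one]) (k.ne1 h0 (e0 ▸ nW0 (by decide +kernel))) h

include h1 e1 in
theorem in1 {a : centralizer ({z} : Set G)} (ha : a ∈ m.AA) (h : q1 * a = a * q1) : (a : G) ∈ Q :=
  (m.ker a).mp ((fix_F16 ha.1).1 (e1 ▸ m.fix_of h1 h))

include h0 e0 h1 e1 in
theorem two {u : M24} (hu : u * u = 1) (n : u ≠ 1) : ∃ g, g * u * g⁻¹ = Φ ⟨q0, m.Q_norm h0⟩ ∨ g * u * g⁻¹ = Φ ⟨q1, m.Q_norm h1⟩ := by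
  have s1 := qq (m := m) h1 e1 (by decide +kernel)
  rcases fix2 hu n with f | f
  · exact (isConj_iff.mp (f.1.symm.trans (k.is2A h0 e0))).imp fun _ => Or.inl
  rcases fix2 (by rw [← map_mul, s1, map_one]) (k.ne1 h1 (e1 ▸ nW0 (by decide +kernel))) with l | l
  · obtain ⟨g, e⟩ := isConj_iff.mp ((k.is2A h0 e0).symm.trans l.1)
    obtain ⟨g, rfl⟩ := k.surj g
    obtain ⟨a, ha, a1, -⟩ := k.same (y := g * ⟨q0, m.Q_norm h0⟩ * g⁻¹) (by rw [conj_mul, qq h0 e0 (by decide +kernel)]; simp) s1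
      (by simpa using e)
    have a2 : MulAut.conj (g : G) • (m.AG ⊓ centralizer {q0}) ≤ m.A0 ⊓ centralizer {q1} := by
      rintro _ ⟨v, hv, rfl⟩
      have b1 := (mem_normalizer_iff.mp g.2 v).mp hv.1
      have b2 : Commute (g * v * (g : G)⁻¹) (q1 * a) := by
        rw [← show g * q0 * (g : G)⁻¹ = q1 * a from a1]; exact Commute.conj (mem_centralizer_singleton_iff.mp hv.2) _
      have b3 : g * v * (g : G)⁻¹ * q1 = q1 * (g * v * (g : G)⁻¹) := by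
        simpa using (b2.mul_right (k.c.comm b1 ⟨a, ha, rfl⟩).inv_right).eq
      obtain ⟨c, hc, e⟩ := id b1
      replace e : (c : G) = _ := e
      exact ⟨m.mem_A0 b1 (e ▸ k.in1 h1 e1 hc (by rw [e, b3]) :), mem_centralizer_singleton_iff.mpr b3⟩
    have a3 := card_le_of_le a2
    have := k.c.cardY h0 e0
    rw [card_conj_smul] at a3
    have := two_mul_le (inf_le_left : m.A0 ⊓ centralizer {q1} ≤ m.A0) (k.c.bA 1) fun h => absurd ((m.comm_ort (k.c.bA 1).1 h1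
      (k.c.pb 1 (by norm_num)) e1).mp (mem_centralizer_singleton_iff.mp h.2)) (by decide +kernel)
    rw [m.card_A0] at this; omega
  · exact (isConj_iff.mp (f.1.symm.trans l.1)).imp fun _ => Or.inr

include h0 e0 in
theorem in0 {y : normalizer (m.AG : Set G)} (hy : y * y = 1) (e : Φ y = Φ ⟨q0, m.Q_norm h0⟩) : (y : G) ∈ Q ∨ (y : G) * d 1 ∈ Q := by
  obtain ⟨a, ha, a1, a2⟩ := k.same hy (qq h0 e0 (by decide +kernel)) e
  rw [a1, mul_assoc]
  exact ((fix_F16 ha.1).2 (e0 ▸ m.fix_of h0 a2)).imp (fun f => mul_mem h0 ((m.ker a).mp f)) fun f =>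
    mul_mem h0 ((m.ker (a * d 1)).mp (by rw [map_mul, f, k.c.pd, F16_sq (R_fe 1).2]))

include h0 e0 in
theorem t0_conj : ∃ q ∈ Q, IsConj (q0 * d 1) q := by
  obtain ⟨i, j, l, r, hr, er, ij, jl, a1, a2, b1, b2, b3⟩ := k.tri h0 e0
  obtain ⟨c, c1, c2, c3⟩ := trans2 (k.is2A h0 e0) b2 b3 b1 b2 jl ij
  obtain ⟨n, rfl⟩ := k.surj c
  have d1 := le_normalizer (k.c.d_mem 1)
  have s0 : q0 * q0 = 1 := congrArg Subtype.val (qq (m := m) h0 e0 (by decide +kernel))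
  have s1 : q0 * d 1 * (q0 * d 1) = 1 := by rw [mul_assoc, ← mul_assoc (d 1 : G), k.c.d_q0 h0 e0, mul_assoc, k.c.dd, mul_one, s0]
  rcases k.in0 h0 e0 (y := n * (⟨q0, m.Q_norm h0⟩ * ⟨d 1, d1⟩) * n⁻¹) (Subtype.ext (conj_mul.trans (by simp [s1])))
    (by rw [map_mul, map_mul, map_mul, (k.ker ⟨_, d1⟩).mpr (k.c.d_mem 1), mul_one, c1, map_inv, mul_inv_cancel_right]) with f | f
  · exact ⟨_, f, isConj_iff.mpr ⟨n, rfl⟩⟩
  have r1 : r ∈ m.AG := a2 ▸ k.h.mem _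
  have r2 : q0 * r * d 1 = q0 * d 1 * r := by rw [mul_assoc, mul_assoc, (k.c.comm r1 (k.c.d_mem 1)).eq]
  obtain ⟨w, hw⟩ := k.c.cls2 h0 e0 k.j.hr (mul_mem h0 hr) (by
    rw [r2, (Commute.mul_right ((m.comm_ort hr h0 er e0).mpr (by decide +kernel)) (k.c.comm r1 (k.c.d_mem 1))).mul_mul_mul_comm,
      s1, one_mul, k.h.A_sq r1]) (by rw [m.mul h0 hr, e0, er, ← vc_xor]; exact nW0 (by decide +kernel))
  refine ⟨_, f, (isConj_iff.mpr ⟨(w : G), hw⟩).trans (isConj_iff.mpr ⟨(n : G), ?_⟩)⟩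
  rw [r2, ← conj_mul, ← a2, k.act n _ (by simp [jl]), Finset.smul_finset_insert, Finset.smul_finset_singleton, c2, c3, a1]; rfl

theorem invol {y : G} (hy : y * y = 1) : ∃ a ∈ m.AG, IsConj y a := by
  obtain ⟨q0, h0, e0⟩ := m.surj (vc vq)
  obtain ⟨q1, h1, e1⟩ := m.surj (vc vn)
  have sq : ∀ {a c : G}, IsConj a c → a * a = 1 → c * c = 1 := fun h e => by
    obtain ⟨g, rfl⟩ := isConj_iff.mp h; rw [conj_mul, e]; simp
  have l : ∀ {c}, IsConj y c → c ∈ Q → ∃ a ∈ m.AG, IsConj y a := fun h hc =>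
    let ⟨a, ha, e⟩ := k.j.Q_conj hc (sq h hy); ⟨a, ha, h.trans e⟩
  obtain ⟨g, hg⟩ := k.j.u11.conj_norm (S := zpowers y) (two_of_sq (by
    rintro _ ⟨n, rfl⟩; exact ((Commute.refl y).mul_zpow n).symm.trans (by rw [hy, one_zpow])))
  let y' : normalizer (m.AG : Set G) := ⟨_, hg (conj_mem_conj_smul.mpr (mem_zpowers y))⟩
  have c1 : IsConj y y' := isConj_iff.mpr ⟨g, rfl⟩
  have s1 : y' * y' = 1 := Subtype.ext (sq c1 hy)
  by_cases f : Φ y' = 1
  · exact ⟨_, (k.ker _).mp f, c1⟩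
  obtain ⟨u, e⟩ := k.two h0 e0 h1 e1 (by rw [← map_mul, s1, map_one]) f
  obtain ⟨n, rfl⟩ := k.surj u
  have c2 : IsConj y (n * y' * n⁻¹ : normalizer (m.AG : Set G)) := c1.trans (isConj_iff.mpr ⟨n, rfl⟩)
  rw [← map_inv, ← map_mul, ← map_mul] at e
  generalize n * y' * n⁻¹ = w at e c2
  have s2 : w * w = 1 := Subtype.ext (sq c2 hy)
  rcases e with e | e
  · refine (k.in0 h0 e0 s2 e).elim (l c2) fun f => ?_
    have a1 : (w : G) = w * d 1 * d 1 := by rw [mul_assoc, k.c.dd, mul_one]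
    by_cases n : W0 (p (w * d 1))
    · exact ⟨w, a1 ▸ mul_mem (Co.A0_AG ⟨f, n⟩) (k.c.d_mem 1), c2⟩
    obtain ⟨v, hv⟩ := k.c.cls2 h0 e0 k.j.hr f (a1 ▸ sq c2 hy) n
    obtain ⟨q, hq, a2⟩ := k.t0_conj h0 e0
    exact l ((c2.trans (isConj_iff.mpr ⟨(v : G), hv.trans a1.symm⟩).symm).trans a2) hq
  · obtain ⟨a, ha, a1, a2⟩ := k.same s2 (qq h1 e1 (by decide +kernel)) e
    exact l c2 (a1 ▸ mul_mem h1 (k.in1 h1 e1 ha a2))

theorem lifts {u : M24} (hu : u * u = 1) : ∃ i, i * i = 1 ∧ Φ i = u := by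
  by_cases n : u = 1
  · exact ⟨1, mul_one 1, n ▸ map_one Φ⟩
  obtain ⟨q0, h0, e0⟩ := m.surj (vc vq)
  obtain ⟨q1, h1, e1⟩ := m.surj (vc vn)
  obtain ⟨g, e⟩ := k.two h0 e0 h1 e1 hu n
  obtain ⟨g, rfl⟩ := k.surj g
  have l : ∀ q, q * q = 1 → Φ g * u * (Φ g)⁻¹ = Φ q → ∃ i, i * i = 1 ∧ Φ i = u := fun q s e =>
    ⟨g⁻¹ * q * g⁻¹⁻¹, by rw [conj_mul, s]; simp, by simp [← e, mul_assoc]⟩
  exact e.elim (l _ (qq h0 e0 (by decide +kernel))) (l _ (qq h1 e1 (by decide +kernel)))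

theorem sq_one {y : centralizer ({z} : Set G)} (h1 : ρ y ∈ NJ) (h2 : y * x * y⁻¹ = x ∨ y * x * y⁻¹ = x * x)
    (h3 : ρ y * ρ y = 1) : y * y = 1 := by
  have a1 : y * y * x = x * (y * y) := by
    rw [← mul_inv_eq_iff_eq_mul, cjcj]
    rcases h2 with e | e
    · rw [e, e]
    · rw [e, ← conj_mul, e, ← mul_assoc, mul_assoc _ x x, ← mul_assoc, ← pow_two, ← pow_succ, k.c.x3, one_mul]
  refine Subtype.ext ((m.lx.mem_z.mp (m.Y_ker k.c.hx a1 (by rw [map_mul, h3]))).resolve_right fun e => ?_)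
  let y' : normalizer (m.AG : Set G) := ⟨y, m.AG_norm (NJ_norm h1)⟩
  obtain ⟨i, i1, i2⟩ := k.lifts (u := Φ y') (by rw [← map_mul, k.ker]; exact e.symm ▸ Co.A0_AG m.z_A0)
  obtain ⟨a, ha, f⟩ := (k.ker (y' * i⁻¹)).mp (by simp [i2])
  have ha' := m.AA_conj (NJ_norm h1) ha
  have hn : ρ x ∈ normalizer (F16 : Set Γ) := k.c.hx ▸ W_norm
  have a2 : a * (y * a * y⁻¹) = y * y := by
    rw [H11.comm_of_sq_eq_one k.c.sq ha ha']
    have : (i : G) * i = 1 := congrArg Subtype.val i1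
    exact Subtype.ext (by
      simp [show (a : G) = y * (i : G)⁻¹ from f, inv_eq_of_mul_eq_one_right this, mul_assoc, ← mul_assoc (i : G) i, this])
  have a3 := congrArg (tr3 x) a2
  rw [tr3_mul k.c.sq (fun _ => m.AA_conj hn) ha ha', tr3_norm k.c.sq (fun _ => m.AA_conj hn) k.c.x3 h2 ha'] at a3
  have a4 := tr3_mem (fun _ => m.AA_conj hn) ha
  obtain ⟨e', he, l⟩ := fe_surj a4.1
  obtain ⟨n, -, l'⟩ := k.c.d_eq (tr3_cent k.c.sq (fun _ => m.AA_conj hn) k.c.x3 ha) l.symm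
  have a5 : ((tr3 x (y * y) : centralizer ({z} : Set G)) : G) = z := (congrArg (tr3 (x : G)) e).trans (m.tr_z1 x)
  replace a3 := (congrArg Subtype.val a3).trans a5
  rw [coe_mul, coe_mul, coe_mul, coe_inv, l', ← conj_mul, ← conj_pow, mul_inv_eq_iff_eq_mul.mpr (mem_centralizer_singleton_iff.mp y.2),
    (k.c.comm (k.c.d_mem _) (pow_mem (Co.A0_AG m.z_A0) n)).mul_mul_mul_comm, ← (Commute.refl z).mul_pow, m.lx.zz, one_pow, one_mul,
    ← eq_inv_mul_iff_mul_eq, inv_eq_of_mul_eq_one_left (k.c.dd _), mem_centralizer_singleton_iff.mp (d e').2] at a3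
  exact (k.a0 e' he).1 ((k.a0 e' he).2.trans (isConj_iff.mpr ⟨(y : G), a3⟩).symm)

theorem compl : ∃ S : Subgroup (centralizer ({z} : Set G)), S ≤ NJ.comap ρ ∧ S ⊓ m.AA = ⊥ ∧ 1024 ∣ Nat.card S := by
  let B : Subgroup (centralizer ({z} : Set G)) :=
    { carrier := {q | (q : G) ∈ Q ∧ p q ∈ W1}
      one_mem' := ⟨one_mem _, 0, by norm_num, by
        rw [show fy 0 = 0 by decide +kernel, vc_zero]; exact ((m.zero (one_mem _)).mpr (one_mem _)).symm⟩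
      mul_mem' := fun a b => ⟨mul_mem a.1 b.1, by rw [coe_mul, m.mul a.1 b.1]; exact W1_add a.2 b.2⟩
      inv_mem' := fun a => ⟨inv_mem a.1, by rw [coe_inv, m.p_inv a.1]; exact a.2⟩ }
  have b1 : ∀ q ∈ B, q * q = 1 := fun q h => Subtype.ext ((m.sq h.1).mpr (W1_sing h.2).1)
  have b2 : ∀ {a}, a ∈ cW :: dJ → ∀ {y}, M.R a (ρ y) → ∀ q ∈ B, y * q * y⁻¹ ∈ B := fun ha y r q h =>
    ⟨m.conj_mem y h.1, (m.act y h.1).symm ▸ W1_inv ha r h.2⟩
  have b3 := b2 List.mem_cons_self (k.c.hx ▸ R_W)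
  let E : Subgroup (centralizer ({z} : Set G)) :=
    { carrier := {q | q ∈ B ∧ tr3 x q = 1}
      one_mem' := ⟨one_mem _, by simp [tr3]⟩
      mul_mem' := fun a b => ⟨mul_mem a.1 b.1, by rw [tr3_mul b1 b3 a.1 b.1, a.2, b.2, one_mul]⟩
      inv_mem' := fun {a} h => by rwa [inv_eq_of_mul_eq_one_left (b1 a h.1)] }
  let z' : centralizer ({z} : Set G) := ⟨z, mem_centralizer_singleton_iff.mpr rfl⟩
  have tz : tr3 x z' = z' := Subtype.ext (m.tr_z1 x)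
  have e1 : p '' E.map (centralizer ({z} : Set G)).subtype = W1 := Set.ext fun v => ⟨by rintro ⟨_, ⟨q, h, rfl⟩, rfl⟩; exact h.1.2,
    fun h => by
      obtain ⟨q, hq, rfl⟩ := m.surj v
      let q' : centralizer ({z} : Set G) := ⟨q, m.lx.le_centralizer hq⟩
      rcases m.lx.mem_z.mp (m.tr_mem k.c.hx hq) with f | f
      · exact ⟨q, ⟨q', ⟨⟨hq, h⟩, Subtype.ext f⟩, rfl⟩, rfl⟩
      · have zB : z' ∈ B := ⟨m.lx.mem, m.p_z.symm ▸ add_self (p q) ▸ W1_add h h⟩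
        exact ⟨_, ⟨z' * q', ⟨mul_mem zB ⟨hq, h⟩, by
          rw [tr3_mul b1 b3 zB ⟨hq, h⟩, tz]; exact Subtype.ext ((congrArg (z * ·) f).trans m.lx.zz)⟩, rfl⟩, m.p_zmul hq⟩⟩
  let L := D16.comap ρ ⊓ normalizer (zpowers x : Set (centralizer ({z} : Set G)))
  have DP : D16 ≤ NJ := D16_le (NJ_ch.inL D16_in (by decide +kernel))
  have l1 : ∀ i < 3, ∃ y ∈ L ⊓ normalizer (E : Set (centralizer ({z} : Set G))), M.R (nth o.one dJ i) (ρ y) := fun i hi => by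
    obtain ⟨g, hg, r⟩ := D16_in.nth i
    obtain ⟨y, rfl, h⟩ := k.j.lift (NJ_XJ (DP hg))
    have := b2 (List.mem_cons_of_mem _ ((by decide +kernel : ∀ i < 3, nth o.one dJ i ∈ dJ) i hi)) r
    exact ⟨y, ⟨⟨hg, k.j.nx.mpr h⟩, mem_normalizer_of_conj_mem fun q hq =>
      ⟨this q hq.1, by rw [tr3_norm b1 b3 k.c.x3 h (this q hq.1), hq.2]; simp⟩⟩, r⟩
  have l2 : ∀ {y a}, y ∈ L ⊓ normalizer (E : Set (centralizer ({z} : Set G))) → M.R a (ρ y) → isOne o (o.mul a a) = true →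
      y * y = 1 := fun h r e => k.sq_one (DP h.1.1) (k.j.nx.mp h.1.2) (isOne_spec (M.R_mul r r) e)
  have l3 : ∀ {y w a c}, M.R a (ρ y) → M.R c (ρ w) → M.R (o.mul a c) (ρ (y * w)) := fun r s => map_mul ρ _ _ ▸ M.R_mul r s
  obtain ⟨y1, m1, r1⟩ := l1 0 (by norm_num)
  obtain ⟨y2, m2, r2⟩ := l1 1 (by norm_num)
  obtain ⟨y3, m3, r3⟩ := l1 2 (by norm_num)
  have s1 := l2 m1 r1 (by decide +kernel)
  have s2 := l2 m2 r2 (by decide +kernel)
  have s3 := l2 m3 r3 (by decide +kernel)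
  have cm : ∀ {y}, y * y = 1 → y3 * y * (y3 * y) = 1 → Commute y3 y := fun a b => by
    rw [Commute, SemiconjBy, ← inv_eq_of_mul_eq_one_right b, mul_inv_rev, inv_eq_of_mul_eq_one_right a,
      inv_eq_of_mul_eq_one_right s3]
  have c1 := cm s1 (l2 (mul_mem m3 m1) (l3 r3 r1) (by decide +kernel))
  have c2 := cm s2 (l2 (mul_mem m3 m2) (l3 r3 r2) (by decide +kernel))
  have s4 := l2 (mul_mem (mul_mem m1 m2) (mul_mem m1 m2)) (l3 (l3 r1 r2) (l3 r1 r2)) (by decide +kernel)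
  let D1 := ext2 (zpowers (y1 * y2)) y1 (by
    rintro _ ⟨n, rfl⟩
    rw [← conj_zpow, ← mul_assoc, s1, one_mul, show y2 * y1⁻¹ = (y1 * y2)⁻¹ by rw [mul_inv_rev, inv_eq_of_mul_eq_one_left s2]]
    exact zpow_mem (inv_mem (mem_zpowers _)) n) (s1 ▸ one_mem _)
  have d1 : D1 ≤ centralizer {y3} := ext2_le (zpowers_le.mpr (mem_centralizer_singleton_iff.mpr (c1.mul_right c2).symm))
    (mem_centralizer_singleton_iff.mpr c1.symm)
  let D := ext2 D1 y3 (fun w hw => by rwa [← mem_centralizer_singleton_iff.mp (d1 hw), mul_inv_cancel_right]) (s3 ▸ one_mem _)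
  have d2 : D ≤ L ⊓ normalizer (E : Set (centralizer ({z} : Set G))) :=
    ext2_le (ext2_le (zpowers_le.mpr (mul_mem m1 m2)) m1) m3
  have d3 : Nat.card D ≤ 16 := by
    have a1 : Nat.card D ≤ _ := card_ext2_le.2
    have a2 : Nat.card D1 ≤ _ := card_ext2_le.2
    have := Nat.le_of_dvd (by norm_num) (orderOf_dvd_of_pow_eq_one (show (y1 * y2) ^ 4 = 1 by simpa [pow_succ, mul_assoc] using s4))
    rw [Nat.card_zpowers] at a2; omega
  have d4 : D16 ≤ D.map ρ := D16_clo.trans (clo_le fun a ha => by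
    rcases (by decide +kernel : ∀ a ∈ dJ, a = nth o.one dJ 0 ∨ a = nth o.one dJ 1 ∨ a = nth o.one dJ 2) a ha with rfl | rfl | rfl
    exacts [⟨_, ⟨y1, le_ext2 mem_ext2, rfl⟩, r1⟩, ⟨_, ⟨y2, le_ext2 (Or.inr (mem_zpowers _)), rfl⟩, r2⟩, ⟨_, ⟨y3, mem_ext2, rfl⟩, r3⟩])
  haveI := XA_ch.finite
  haveI : ∀ S : Subgroup (centralizer ({z} : Set G)), Finite (S.map ρ) := fun S => Finite.of_surjective _ (ρ.subgroupMap_surjective S)
  have d5 : D ⊓ ρ.ker = ⊥ := by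
    have a1 := card_map_mul_card_inf_ker ρ D
    have a2 := card_le_of_le d4
    have := Nat.card_pos (α := ↥(D ⊓ ρ.ker))
    rw [D16_card] at a2
    exact eq_bot_of_card_le _ (by nlinarith)
  have e2 : E ≤ ρ.ker := fun q h => (m.ker q).mpr h.1.1
  refine ⟨E ⊔ D, sup_le (e2.trans (ker_le_comap _ _)) fun y h => DP (d2 h).1.1, eq_bot_iff.mpr fun s hs => ?_, ?_⟩
  · obtain ⟨e, he, w, hw, rfl⟩ := (coe_mul_of_right_le_normalizer_left E D (d2.trans inf_le_right)).le hs.1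
    obtain rfl : w = 1 := d5.le ⟨hw, D16_F16 (d2 hw).1.1 (by simpa [show ρ e = 1 from e2 he] using hs.2.1)⟩
    rw [mem_bot]
    simp only [mul_one] at hs ⊢
    refine Subtype.ext ((m.lx.mem_z.mp ((m.zero he.1.1).mp ((W1_sing he.1.2).2 (m.AA_ker.mp ⟨hs.2, e2 he⟩).2))).resolve_right
      fun f => m.lx.ne_one ?_)
    exact congrArg Subtype.val (tz.symm.trans ((show z' = e from Subtype.ext f.symm) ▸ he.2))
  · have a1 := m.card_p (U := E.map (centralizer ({z} : Set G)).subtype) (map_le_iff_le_comap.mpr fun q h => h.1.1)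
    rw [e1, W1_card] at a1
    rw [← m.card_inf]
    exact mul_dvd_mul (a := 16) (c := 64) (D16_card ▸ card_dvd_of_le (d4.trans (map_mono le_sup_right)))
      ((Dvd.intro _ a1).trans (card_dvd_of_le (map_mono (le_inf le_sup_left e2))))

theorem split : ∃ K, Spl m.AG K := by
  obtain ⟨S, h1, h2, h3⟩ := k.compl
  have hk : Φ.ker = m.AG.subgroupOf _ := Subgroup.ext k.ker
  have h4 : S.map (centralizer ({z} : Set G)).subtype ≤ normalizer (m.AG : Set G) :=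
    map_le_iff_le_comap.mpr fun y h => m.AG_norm (NJ_norm (h1 h))
  set A := (S.map (centralizer ({z} : Set G)).subtype).subgroupOf (normalizer (m.AG : Set G))
  have h5 : A ⊓ Φ.ker = ⊥ := by
    rw [hk]
    refine (comap_inf _ _ _).symm.trans ?_
    rw [FT.AG, ← map_inf_eq _ _ _ (subtype_injective _), h2, Subgroup.map_bot]; exact bot_subgroupOf _
  have h6 : Nat.card Φ.ker = 2 ^ 11 := by rw [hk, Nat.card_congr (subgroupOfEquivOfLe le_normalizer).toEquiv, k.h.cardA]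
  haveI : IsMulCommutative Φ.ker := ⟨⟨fun a b => Subtype.ext (Subtype.ext (k.h.comm ((k.ker _).mp a.2) ((k.ker _).mp b.2)))⟩⟩
  obtain ⟨K, hK⟩ := H1.gaschutz_exists (K := Φ.ker) (A := A) (by
    have a1 := card_map_mul_card_inf_ker Φ A
    have a2 := index_map_eq (Φ.ker ⊔ A) k.surj le_sup_left
    have a3 := ((Φ.ker ⊔ A).map Φ).card_mul_index
    rw [h5, card_bot, mul_one, Nat.card_congr (subgroupOfEquivOfLe h4).toEquiv, card_map_of_injective (subtype_injective _)] at a1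
    obtain ⟨c, a4⟩ := (a1 ▸ h3).trans (card_dvd_of_le (map_mono (f := Φ) (le_sup_right (a := Φ.ker))))
    rw [h6, ← a2]
    refine ((Nat.Prime.coprime_iff_not_dvd Nat.prime_two).mpr fun ⟨e, f⟩ => ?_).pow_left 11
    rw [a4, f, card_M24, mul_mul_mul_comm] at a3
    omega) h5 rfl
  have h7 := (map_subgroupOf_eq_of_le (le_normalizer (H := m.AG))).symm
  refine ⟨K.map (Subgroup.subtype _), map_subtype_le _, (congrArg (_ ⊓ ·) h7).trans ?_, (congrArg (_ ⊔ ·) h7).trans ?_⟩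
  · rw [← map_inf_eq _ _ _ (subtype_injective _), ← hk, hK.disjoint.symm.eq_bot, Subgroup.map_bot]
  · rw [← Subgroup.map_sup, ← hk, hK.symm.sup_eq_top, ← MonoidHom.range_eq_map, range_subtype]

end JC

end U6

end Cfsg.Agent.LL
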