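import Cfsg.Agent.H21.Ja6
import Cfsg.Agent.H1.Generation
import Cfsg.Agent.H26.ES4

/-! The `3`-local structure of a simple group of Janko-four type. -/

set_option autoImplicit false
set_option maxRecDepth 100000
set_option linter.style.haveILetI false

namespace Cfsg.Agent.LL.U6

open Cfsg Cfsg.Agent.H16 Cfsg.Agent.H3 Cfsg.Agent.H10 MulAction Mdl Subgroup
open scoped commutatorElement Pointwise symmDiff

theorem J0_of {k : Γ} (hk : k ∈ XJ) (h : k * Wm = Wm * k) : k ∈ J0 := hk.resolve_right fun e => by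
  have := W_comm (J0_GU e)
  rw [mul_assoc, h, ← mul_assoc, js_W, ← mul_assoc, mul_left_inj, mul_left_inj, mul_eq_left] at this
  simpa [this] using orderOf_W

theorem XJ_Z {k w : Γ} (hk : k ∈ XJ) (h : w ∈ Z) : k * w * k⁻¹ ∈ Z := by
  obtain ⟨n, rfl⟩ := h
  rw [← conj_zpow]
  exact zpow_mem ((XJ_W hk).elim (fun e => e.symm ▸ mem_zpowers _) fun e => e.symm ▸ mul_mem (mem_zpowers _) (mem_zpowers _)) n

theorem NR_XJ : NR ≤ XJ := NR_le (XA_ch.inL NR_in (by decide +kernel))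
theorem R3_J0 : R3 ≤ J0 := R3_le (J0_ch.inL R3_in (by decide +kernel))
theorem R_y0 : M.R y0 (el y0) ∧ el y0 ∈ R3 := R_in (R3_in y0 (by decide +kernel))
theorem W_R3 : Wm ∈ R3 := R3_ch.sift R_W (by decide +kernel)
theorem syl_R3 : SylowIn 3 R3 XJ :=
  haveI : Fact (Nat.Prime 3) := ⟨Nat.prime_three⟩
  sylowIn_of_card (p := 3) (k := 3) (m := 98560) (R3_J0.trans J0_XJ) R3_card XJ_card (by decide)

theorem R3_cls {g : Γ} (hg : g ∈ R3) : g ^ 3 = 1 ∧ (g ∈ Z ∨ ∃ u ∈ NR, u * g * u⁻¹ = el y0) := by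
  obtain ⟨a, r, e⟩ := R3_ch.forall (Lf := fun a => force a fun a => andB (isOne o (powM o a 3)) (orB (anyL [o.one, cW, cW2] (Nat.beq a))
    (anyP u3J fun u _ => cjM o u a y0))) (by decide +kernel) hg
  simp only [force_eq, andB_iff, orB_iff, anyL_iff, anyP_iff, Nat.beq_eq] at e
  refine ⟨isOne_spec (R_pow r 3) e.1, e.2.imp (fun ⟨c, hc, f⟩ => mem_Z.mpr ?_) fun ⟨u, hu, f⟩ => ?_⟩
  · subst f
    simp only [List.mem_cons, List.not_mem_nil, or_false] at hc
    rcases hc with rfl | rfl | rfl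
    exacts [Or.inl (R_fun r M.R_one), Or.inr (Or.inl (R_fun r R_W)), Or.inr (Or.inr (R_fun r R_W2))]
  · obtain ⟨v, hv, s, -⟩ := NR_ch.prL (prL_top (S := u3J) (by decide +kernel)) (by decide +kernel) u hu
    exact ⟨v, hv, cjM_spec s r R_y0.1 f⟩

theorem R_y2 : M.R y2 (el y2) ∧ el y2 ∈ R3 := R_in (R3_in y2 (by decide +kernel))
theorem y_nc : el y2 * el y0 ≠ el y0 * el y2 := N.ncB_spec hv hpt R_y2.1 R_y0.1 (by decide +kernel)

theorem NR_eq : XJ ⊓ normalizer (R3 : Set Γ) = NR := by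
  have h : NR ≤ normalizer (R3 : Set Γ) := clo_le fun a ha =>
    let ⟨u, hu, e⟩ := List.mem_map.mp ha
    let ⟨g, _, r1, r2⟩ := NR_top u hu
    ⟨g, mem_normalizer_of_conj_mem (R3_ch.conj_mem R3_clo (U := NRS) (by decide +kernel) hu r1 r2), e ▸ r1⟩
  refine le_antisymm (fun g hg => ?_) (le_inf NR_XJ h)
  obtain ⟨u, hu, e⟩ := (R3_cls ((mem_normalizer_iff.mp hg.2 _).mp R_y0.2)).2.resolve_left fun e => by
    have h := XJ_Z (inv_mem hg.1) e
    rw [show g⁻¹ * (g * el y0 * g⁻¹) * g⁻¹⁻¹ = el y0 by group] at h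
    exact y_nc (Z_comm (J0_GU (R3_J0 R_y2.2)) h)
  have c := mul_inv_eq_iff_eq_mul.mp ((cjcj _ _ _).trans e)
  obtain ⟨a, r, l⟩ := XB_ch.cent R_y0.1 (ds := [(0, 1), (0, 3), (61, 1), (0, 3), (0, 3), (0, 3)]) (Lf := fun a =>
    orB (N.ncB o pts a y0) (orB (N.sift o NRL a) (force (o.mul a y2) fun c => allL R3E fun w => force (o.mul w a) (neB o pts c))))
    M.R_one (by decide +kernel) (mul_mem (NR_XJ hu) hg.1) c
  rw [one_mul] at r
  refine (mul_mem_cancel_left hu).mp (NR_ch.sift r ((orB_iff.mp ((orB_iff.mp l).resolve_left fun l =>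
    N.ncB_spec hv hpt r R_y0.1 l c)).resolve_right fun l => ?_))
  obtain ⟨w, s, f⟩ := R3_ch.forall (Lf := fun a => force a fun a => anyL R3E (Nat.beq a)) (by decide +kernel)
    ((mem_normalizer_iff.mp (mul_mem (h hu) hg.2) _).mp R_y2.2)
  simp only [force_eq, anyL_iff, allL_iff, Nat.beq_eq] at f l
  obtain ⟨_, f, rfl⟩ := f
  exact ne_of_neB hv hpt (M.R_mul r R_y2.1) (M.R_mul s r) (l _ f) (by group)

theorem y0_NJ : el y0 ∈ NJ ∧ el y0 (vc vB) = vc vB :=
  ⟨NJ_ch.sift R_y0.1 (by decide +kernel), (R_ap R_y0.1 (by decide)).2.trans (congrArg vc (by decide +kernel))⟩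

variable {G : Type*} [Group G] {z : G} {Q : Subgroup G} {ρ : centralizer ({z} : Set G) →* Γ} {p : G → V6} [Finite G]
  {m : FT z Q ρ p} {x : centralizer ({z} : Set G)} {b : ℕ → G} {d : ℕ → centralizer ({z} : Set G)}
  {t : Finset GolayPt → G} {Φ : normalizer (m.AG : Set G) →* M24}

omit [Finite G] in
theorem cx {x g a : G} (hg : g ∈ normalizer (zpowers x : Set G)) (h : a * x = x * a) : g * a * g⁻¹ * x = x * (g * a * g⁻¹) := by
  obtain ⟨n, e⟩ := (mem_normalizer_iff.mp (inv_mem hg) x).mp (mem_zpowers x)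
  have : a * (g⁻¹ * x * g⁻¹⁻¹) = g⁻¹ * x * g⁻¹⁻¹ * a := e ▸ (Commute.zpow_right h n).eq
  calc _ = g * (a * (g⁻¹ * x * g⁻¹⁻¹)) * g⁻¹ := by group
    _ = _ := by rw [this]; group

theorem JF.lift' (j : JF m x) {k : Γ} (hk : k ∈ XJ) : ∃ y, ρ y = k ∧ (y : G) ∈ normalizer (zpowers (x : G) : Set G) := by
  obtain ⟨y, e, h⟩ := j.lift hk
  refine ⟨y, e, mem_normalizer_of_conj_mem ?_⟩
  rintro _ ⟨n, rfl⟩
  obtain ⟨i, f⟩ := (mem_normalizer_iff.mp (j.nx.mpr h) _).mp (zpow_mem_zpowers x n)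
  exact ⟨i, congrArg Subtype.val f⟩

omit [Finite G] in
theorem JF.ord6 (j : JF m x) : orderOf (z * x) = 6 := by
  rw [Commute.orderOf_mul_eq_mul_orderOf_of_coprime (mem_centralizer_singleton_iff.mp x.2).symm
    (by rw [m.lx.ord, orderOf_coe, j.ord]; norm_num), m.lx.ord, orderOf_coe, j.ord]

theorem JF.theta (j : JF m x) : ∃ θ : ↥(centralizer {z} ⊓ centralizer {(x : G)}) →* K22, Function.Surjective θ ∧
    ∀ c, θ c = 1 ↔ (c : G) ∈ zpowers (z * x) := by
  obtain ⟨π, p1, p2⟩ := j.pi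
  set C := centralizer {z} ⊓ centralizer {(x : G)}
  let ι : C →* centralizer ({z} : Set G) := inclusion inf_le_left
  let ψ := L22.subtype.comp (π.comp ι)
  have cm : Commute z (x : G) := (mem_centralizer_singleton_iff.mp x.2).symm
  have x3 : (x : G) ^ 3 = 1 := congrArg Subtype.val j.x3
  have c1 : ∀ c : C, ι c * x = x * ι c := fun c => Subtype.ext (mem_centralizer_singleton_iff.mp c.2.2)
  have k1 : ∀ c, ψ c = 1 ↔ (c : G) ∈ zpowers (z * x) := fun c => by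
    refine (OneMemClass.coe_eq_one.trans (p2 _)).trans ⟨fun ⟨n, e⟩ => ?_, fun ⟨n, e⟩ => ⟨n, ?_⟩⟩
    · have := m.Y_ker j.hx (y := ι c * (x ^ n)⁻¹) (Commute.mul_left (c1 c) ((Commute.refl x).zpow_left n).inv_left)
        (by simp [j.hx, ← e])
      refine (mul_mem_cancel_right (inv_mem (zpow_mem ?_ n))).mp (zpowers_le.mpr ?_ this)
      · exact ⟨(4 : ℕ), by simp only [zpow_natCast]; rw [cm.mul_pow, pow_succ (x : G), x3]; simp [pow_succ, m.lx.zz]⟩
      · exact ⟨(3 : ℕ), by simp only [zpow_natCast]; rw [cm.mul_pow, x3]; simp [pow_succ, m.lx.zz]⟩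
    · rw [show ι c = ((⟨z, mem_centralizer_singleton_iff.mpr rfl⟩ : centralizer ({z} : Set G)) * x) ^ n from Subtype.ext e.symm,
        map_zpow, map_mul, (m.ker _).mpr m.lx.mem, one_mul, j.hx]
  have k2 : ∀ h, ρ h ∈ J0 → (π h : M24) ∈ ψ.range := fun h e => by
    obtain ⟨y, y1, y2⟩ := m.Y_lift j.hx j.x3 ⟨h, rfl⟩ (W_comm (J0_GU e))
    refine ⟨⟨y, y.2, mem_centralizer_singleton_iff.mpr (congrArg Subtype.val y1)⟩, congrArg Subtype.val (show π y = π h from ?_)⟩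
    rw [← mul_inv_eq_one, ← map_inv, ← map_mul, p2, map_mul, map_inv, y2, mul_inv_cancel]; exact one_mem _
  obtain ⟨s, hs⟩ := j.hr.ge js_XJ
  have k3 := card_le_two_mul (E := K22) (K := ψ.range) (t := π s) fun g hg => by
    obtain ⟨h, e⟩ := p1 ⟨g, K22_le_L22 hg⟩
    rw [show g = π h from congrArg Subtype.val e.symm, ← coe_mul, ← map_mul]
    exact (j.hr.le ⟨h, rfl⟩).imp (k2 h) fun f => k2 _ (by rwa [map_mul, hs])
  haveI := simple_K22
  have k4 := (eq_of_index_lt (inf_le_left : K22 ⊓ ψ.range ≤ K22) (n := 3) (by rw [card_K22] at *; omega)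
    (by rw [card_K22]; decide)).trans inf_le_right
  have k5 : K22 = ψ.range := eq_of_le_of_card_ge k4 (by
    have a1 := ψ.ker.card_mul_index
    have a2 := (ρ.comp ι).ker.card_mul_index
    haveI := J0_ch.finite
    have a3 := card_le_of_le (show (ρ.comp ι).range ≤ J0 by
      rintro _ ⟨c, rfl⟩; exact J0_of (j.hr.le ⟨_, rfl⟩) (by rw [← j.hx, MonoidHom.comp_apply, ← map_mul, c1, map_mul]))
    have a4 := card_le_of_le (show (ρ.comp ι).ker.map C.subtype ≤ zpowers z by rintro _ ⟨c, h, rfl⟩; exact m.Y_ker j.hx (c1 c) h)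
    have zC : zpowers (z * x) ≤ C := zpowers_le.mpr ⟨mul_mem (mem_centralizer_singleton_iff.mpr rfl) x.2,
      mul_mem (mem_centralizer_singleton_iff.mpr cm) (mem_centralizer_singleton_iff.mpr rfl)⟩
    rw [index_ker, (Subgroup.ext k1 : ψ.ker = (zpowers (z * x)).subgroupOf C), Nat.card_congr (subgroupOfEquivOfLe zC).toEquiv,
      Nat.card_zpowers, j.ord6] at a1
    rw [card_map_of_injective (subtype_injective _), Nat.card_zpowers, m.lx.ord] at a4
    rw [index_ker] at a2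
    rw [J0_card] at a3
    rw [card_K22]; nlinarith)
  exact ⟨ψ.codRestrict K22 fun c => k5.ge ⟨c, rfl⟩, fun g => (k4 g.2).imp fun c e => Subtype.ext e,
    fun c => Subtype.ext_iff.trans (k1 c)⟩

theorem JF.syl (j : JF m x) {R : Subgroup G} (hR : SylowIn 3 R (centralizer {z})) :
    ∃ ρ p, ∃ m : FT z Q ρ p, ∃ x, JF m x ∧ (x : G) ∈ R ∧ (R.subgroupOf (centralizer {z})).map ρ = R3 ∧
      ∀ y : centralizer ({z} : Set G), (y : G) ∈ R → ρ y = 1 → y = 1 := by
  haveI : Fact (Nat.Prime 3) := ⟨Nat.prime_three⟩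
  haveI := XA_ch.finite
  have h1 := (sylowIn_top hR.toSylow).map ρ
  rw [← MonoidHom.range_eq_map, j.hr] at h1
  obtain ⟨g, hg, e⟩ := h1.exists_conj syl_R3
  have m' := m.shift' (j.hr.ge hg)
  have h2 : (R.subgroupOf (centralizer {z})).map ((MulAut.conj g).toMonoidHom.comp ρ) = R3 := by rw [← map_map]; exact e
  have h3 : ∀ y : centralizer ({z} : Set G), (y : G) ∈ R → ((MulAut.conj g).toMonoidHom.comp ρ) y = 1 → y = 1 := fun y h e =>
    haveI : Fact (Nat.Prime 2) := ⟨Nat.prime_two⟩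
    Subtype.ext ((IsPGroup.disjoint_of_ne 3 2 (by norm_num) R Q hR.isPGroup m.lx.isPGroup).le_bot ⟨h, (m'.ker y).mp e⟩)
  obtain ⟨y, hy, f⟩ := h2.ge W_R3
  obtain ⟨π, p1, p2⟩ := j.pi
  exact ⟨_, _, m', y, ⟨(range_shift (j.hr.ge hg)).trans j.hr, f, h3 _ (pow_mem hy 3) (by rw [map_pow, f, W3]), π, p1, fun h =>
    (p2 h).trans ⟨XJ_Z hg, fun e => by simpa [mul_assoc] using XJ_Z (inv_mem hg) e⟩⟩, hy, h2, h3⟩

namespace JC
variable (k : JC m x b d t Φ)
include k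

omit [Finite G] in
theorem d_of {y : centralizer ({z} : Set G)} (h : y * x = x * y) {e : ℕ} (he : e < 16) (f : ρ y = el (fe e)) :
    (¬ IsConj z y → (y : G) = d e) ∧ (IsConj z y → (y : G) = z * d e) := by
  obtain ⟨n, hn, l⟩ := k.c.d_eq h f
  have := k.a0 e he
  interval_cases n <;> simp only [pow_zero, pow_one, one_mul] at l <;> rw [l] <;> tauto

theorem isol {g : G} (hg : g ∈ normalizer (zpowers (x : G) : Set G)) (h : Commute z (g * z * g⁻¹)) : g * z * g⁻¹ = z := by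
  haveI : Fact (Nat.Prime 2) := ⟨Nat.prime_two⟩
  by_contra n
  have zx : z * x = x * z := (mem_centralizer_singleton_iff.mp x.2).symm
  let u : centralizer ({z} : Set G) := ⟨_, mem_centralizer_singleton_iff.mpr h.symm⟩
  have u1 : u * x = x * u := Subtype.ext (cx hg zx)
  obtain ⟨v, hv, e⟩ := clsJ (k.j.hr.le ⟨u, rfl⟩) (by rw [← map_mul, show u * u = 1 from Subtype.ext (by simp [u, m.lx.zz]), map_one])
    fun e => (m.lx.mem_z.mp (m.Y_ker k.c.hx u1 e)).elim (by simpa [u] using m.lx.ne_one) n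
  replace e := e.resolve_right fun e => e.1 (XJ_J0 v hv _ (J0_of (k.j.hr.le ⟨u, rfl⟩) (by rw [← k.c.hx, ← map_mul, u1, map_mul])))
  obtain ⟨y, rfl, hy⟩ := k.j.lift' hv
  have a1 : y * g * z * (y * g)⁻¹ = z * d 1 := (cjcj _ _ _).trans ((k.d_of (y := y * u * y⁻¹) (Subtype.ext (cx hy (cx hg zx)))
    (by norm_num) (by simpa using e)).2 (isConj_iff.mpr ⟨y * g, cjcj _ _ _⟩))
  replace hg := mul_mem hy hg
  generalize y * g = g at hg a1
  have a2 : MulAut.conj g⁻¹ • m.AG ≤ centralizer {z} := conj_smul_le_iff.mpr fun a ha => mem_centralizer_singleton_iff.mpr (by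
    have := (k.c.comm ha (mul_mem (Co.A0_AG m.z_A0) (k.c.d_mem 1))).eq
    rw [← a1] at this
    calc _ = g⁻¹ * (a * (g * z * g⁻¹)) * g := by group
      _ = _ := by rw [this]; group)
  have a3 : ∀ a ∈ (MulAut.conj g⁻¹ • m.AG).subgroupOf (centralizer {z}), a * a = 1 := fun a ha =>
    Subtype.ext (sq_conj k.j.u11.sq _ _ ha)
  obtain ⟨w, hw, f⟩ := syl_PJ.exists_conj_le ((two_of_sq a3).map ρ) ((map_le_range _ _).trans k.j.hr.le)
  obtain ⟨c, rfl, hc⟩ := k.j.lift' hw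
  have a4 := JF.le_AA (m := m) (B := MulAut.conj c • (MulAut.conj g⁻¹ • m.AG).subgroupOf (centralizer {z}))
    (by rintro _ ⟨_, ⟨a, ha, rfl⟩, rfl⟩; exact f ⟨_, ⟨a, ha, rfl⟩, by simp⟩) (sq_conj a3 c)
    (by rw [card_conj_smul, Nat.card_congr (subgroupOfEquivOfLe a2).toEquiv, card_conj_smul, k.h.cardA])
  have a5 : c * g⁻¹ ∈ normalizer (m.AG : Set G) := mem_normalizer_of_conj_mem fun a ha =>
    have := (conj_mem_conj_smul (g := g⁻¹)).mpr ha
    ⟨_, a4 (conj_mem_conj_smul.mpr (show (⟨_, a2 this⟩ : centralizer ({z} : Set G)) ∈ _ from this)), (cjcj _ _ _).symm⟩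
  have a6 : c * g⁻¹ * (z * d 1) * (c * g⁻¹)⁻¹ = z := by
    rw [cjcj, ← a1, show g⁻¹ * (g * z * g⁻¹) * g⁻¹⁻¹ = z by group, mul_inv_eq_iff_eq_mul]
    exact mem_centralizer_singleton_iff.mp c.2
  replace hc := mul_mem hc (inv_mem hg)
  generalize c * g⁻¹ = n at a5 a6 hc
  obtain ⟨a, ha, a7⟩ := (mem_normalizer_iff.mp a5 _).mp (k.c.d_mem f2)
  replace a7 : (a : G) = _ := a7
  obtain ⟨i, hi, a8⟩ := fe_surj ha.1
  have a9 := (k.d_of (y := a) (Subtype.ext (by rw [coe_mul, coe_mul, a7]; exact cx hc (congrArg Subtype.val (k.c.dx _)))) hi a8.symm).1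
    fun l => (k.a0 f2 (by decide)).1 (l.trans (isConj_iff.mpr ⟨n, a7.symm⟩).symm)
  refine (k.a0 (1 ^^^ f2) (by decide)).1 ((k.a0 i hi).2.trans (isConj_iff.mpr ⟨n, ?_⟩).symm)
  rw [← a9, a7]
  refine Eq.trans ?_ (congrArg (· * _) a6)
  rw [conj_mul, mul_assoc z, k.tab 1 (by norm_num) f2 (by decide), show gm 1 ^^^ gm f2 ^^^ gm (1 ^^^ f2) = 1 by decide +kernel,
    ← mul_assoc z, pow_one, m.lx.zz, one_mul]

theorem t1 : (d 1 : G) * d f1 = d (1 ^^^ f1) := by
  simpa [show gm 1 ^^^ gm f1 ^^^ gm (1 ^^^ f1) = 0 by decide +kernel] using k.tab 1 (by norm_num) f1 (by decide)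

theorem norm_P : normalizer (zpowers (x : G) : Set G) ≤ centralizer {z} := fun g hg => by
  haveI : Fact (Nat.Prime 2) := ⟨Nat.prime_two⟩
  have cn : ∀ {a : G}, a * x = x * a → a ∈ normalizer (zpowers (x : G) : Set G) := fun h =>
    centralizer_le_normalizer _ (by rw [H10.centralizer_zpowers]; exact mem_centralizer_singleton_iff.mpr h)
  have zX := cn (mem_centralizer_singleton_iff.mp x.2).symm
  set X := normalizer (zpowers (x : G) : Set G)
  set O := (pPrimeCore 2 X).map X.subtype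
  have o1 : X ≤ normalizer (O : Set G) := fun a ha => mem_normalizer_of_conj_mem (by
    rintro _ ⟨q, hq, rfl⟩; exact ⟨_, Normal.conj_mem inferInstance q hq ⟨a, ha⟩, rfl⟩)
  have o2 : ¬ 2 ∣ Nat.card O := by rw [card_map_of_injective (subtype_injective _)]; exact H1.not_dvd_card_pPrimeCore 2 X
  let F := ext2 (zpowers (d 1 : G)) (d f1) (fun a ha => by
    rwa [(k.c.comm (k.c.d_mem _) (zpowers_le.mpr (k.c.d_mem 1) ha)).eq, mul_inv_cancel_right]) (k.c.dd _ ▸ one_mem _)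
  have b1 : F ≤ m.AG := ext2_le (zpowers_le.mpr (k.c.d_mem 1)) (k.c.d_mem _)
  have b2 : F ≤ X := ext2_le (zpowers_le.mpr (cn (congrArg Subtype.val (k.c.dx _)))) (cn (congrArg Subtype.val (k.c.dx _)))
  have d1 : ∀ {e}, e < 16 → e ≠ 0 → (d e : G) ≠ 1 := fun he n => let ⟨_, a, b⟩ := k.duad he n; b ▸ k.h.ne_one a
  have b3 : ∀ a ∈ zpowers (d 1 : G), a = 1 ∨ a = d 1 := fun a ha => by
    obtain ⟨i, hi, rfl⟩ := exists_pow_of_mem two_pos (ord2 (k.c.dd 1) (d1 (by norm_num) one_ne_zero)) ha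
    interval_cases i <;> simp
  haveI : IsMulCommutative F := ⟨⟨fun a b => Subtype.ext (k.c.comm (b1 a.2) (b1 b.2))⟩⟩
  have o3 : O ≤ normalizer (m.AG : Set G) := H1.le_of_forall_centralizer_singleton_le (A := F) (fun ⟨⟨a, ha⟩⟩ => by
      have l : ∀ c : F, c ≠ 1 → c = a := fun c n => by
        obtain ⟨i, hi, rfl⟩ := exists_pow_of_mem two_pos (ord2 (Subtype.ext (k.h.A_sq (b1 a.2))) (by
          rintro rfl; exact n (by simpa [eq_comm] using ha c))) (ha c)
        interval_cases i <;> simp_all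
      have := (l ⟨_, le_ext2 (mem_zpowers _)⟩ (mt Subtype.ext_iff.mp (d1 (by norm_num) one_ne_zero))).trans
        (l ⟨_, mem_ext2⟩ (mt Subtype.ext_iff.mp (d1 (by decide) (by decide)))).symm
      exact d1 (e := 1 ^^^ f1) (by decide) (by decide) (by rw [← k.t1, show (d 1 : G) = d f1 from congrArg (fun a : F => (a : G)) this,
        k.c.dd]))
    (b2.trans o1) (by
      obtain ⟨n, e⟩ := IsPGroup.iff_card.mp (two_of_sq fun a ha => k.h.A_sq (b1 ha))
      rw [e]; exact ((Nat.Prime.coprime_iff_not_dvd Nat.prime_two).mpr o2).pow_left n)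
    fun a ha n => inf_le_right.trans (k.h.cent_duad k.j.u11 (b1 ha) (by
      rcases ha with h | h
      · rw [(b3 a h).resolve_left n]; exact (k.a0 1 (by norm_num)).1
      · rcases b3 _ h with h | h
        · rw [mul_left_cancel (h.trans (k.c.dd f1).symm)]; exact (k.a0 f1 (by decide)).1
        · rw [eq_inv_mul_of_mul_eq h, inv_eq_of_mul_eq_one_left (k.c.dd f1), (k.c.comm (k.c.d_mem _) (k.c.d_mem 1)).eq, k.t1]
          exact (k.a0 _ (by decide)).1) n)
  have o4 : ∀ a ∈ O, z * a = a * z := fun a ha => by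
    have h1 : z * a * z⁻¹ * a⁻¹ ∈ O := mul_mem ((mem_normalizer_iff.mp (o1 zX) a).mp ha) (inv_mem ha)
    have h2 : z * a * z⁻¹ * a⁻¹ ∈ m.AG := by
      rw [mul_assoc, mul_assoc, ← mul_assoc a]
      exact mul_mem (Co.A0_AG m.z_A0) ((mem_normalizer_iff.mp (o3 ha) _).mp (inv_mem (Co.A0_AG m.z_A0)))
    by_contra n
    exact o2 (ord2 (k.h.A_sq h2) (fun e => n (commutatorElement_eq_one_iff_mul_comm.mp e)) ▸ O.orderOf_dvd_natCard h1)
  have o5 := o4 _ ⟨_, H6.zstar (u := (⟨z, zX⟩ : X)) ((orderOf_mk _ _).trans m.lx.ord) (fun a h =>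
    Subtype.ext (k.isol a.2 (congrArg Subtype.val h))) ⟨g, hg⟩, rfl⟩
  refine mem_centralizer_singleton_iff.mpr (mul_inv_eq_iff_eq_mul.mp (k.isol hg ?_))
  change z * (z * g * z⁻¹ * g⁻¹) = z * g * z⁻¹ * g⁻¹ * z at o5
  rw [m.lx.inv_z, mul_assoc z g, mul_assoc z, mul_assoc z, mul_right_inj] at o5
  exact o5

theorem z_comm : z ∈ ⁅centralizer {z} ⊓ centralizer {(x : G)}, centralizer {z} ⊓ centralizer {(x : G)}⁆ := by
  have h1 : ∀ e < 16, e ≠ 0 → (d e : G) * (d 1 : G)⁻¹ ∈ ⁅centralizer {z} ⊓ centralizer {(x : G)},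
      centralizer {z} ⊓ centralizer {(x : G)}⁆ := fun e he n => by
    obtain ⟨u, hu, u1, u2⟩ := F16_transJ (R_fe e).2 (ne_of_neB hv hpt (R_fe e).1 M.R_one
      ((by decide +kernel : ∀ e < 16, e ≠ 0 → neB o pts (fe e) o.one = true) e he n))
    obtain ⟨y, y1, rfl⟩ := m.Y_lift k.c.hx k.c.x3 (k.j.hr.ge (NJ_XJ hu)) u1
    rw [← (k.d_of (y := y * d 1 * y⁻¹) ((Commute.mul_left y1 (k.c.dx 1)).mul_left (Commute.inv_left y1)) he
      (by simp [k.c.pd, u2])).1 fun f => (k.a0 1 (by norm_num)).1 (f.trans (isConj_iff.mpr ⟨(y : G), rfl⟩).symm)]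
    exact commutator_mem_commutator ⟨y.2, mem_centralizer_singleton_iff.mpr (congrArg Subtype.val y1)⟩
      ⟨(d 1).2, mem_centralizer_singleton_iff.mpr (congrArg Subtype.val (k.c.dx 1))⟩
  have h2 := h1 (1 ^^^ f1) (by decide) (by decide)
  rw [← k.t1, (k.c.comm (k.c.d_mem 1) (k.c.d_mem _)).eq, mul_inv_cancel_right] at h2
  have h3 := inv_mem_iff.mp ((mul_mem_cancel_left h2).mp (h1 f1 (by decide) (by decide)))
  have h4 := fun e he n => (mul_mem_cancel_right (inv_mem h3)).mp (h1 e he n)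
  have := mul_mem h3 (h4 f2 (by decide) (by decide))
  rwa [k.tab 1 (by norm_num) f2 (by decide), show gm 1 ^^^ gm f2 ^^^ gm (1 ^^^ f2) = 1 by decide +kernel, pow_one,
    mul_mem_cancel_right (h4 _ (by decide) (by decide))] at this

section
variable {R : Subgroup G} (hR : R ≤ centralizer {z}) (h1 : (x : G) ∈ R) (h2 : (R.subgroupOf (centralizer {z})).map ρ = R3)
  (h3 : ∀ y : centralizer ({z} : Set G), (y : G) ∈ R → ρ y = 1 → y = 1)
include hR h2 h3

omit k [Finite G] in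
theorem R_iso : Nonempty (R ≃* R3) := ⟨(subgroupOfEquivOfLe (H := R) (K := centralizer {z}) hR).symm.trans ((MulEquiv.ofBijective
  (ρ.subgroupMap (R.subgroupOf (centralizer {z})))
  ⟨(injective_iff_map_eq_one _).mpr fun (y : R.subgroupOf (centralizer {z})) e =>
    Subtype.ext (h3 y.1 y.2 (congrArg Subtype.val e)), ρ.subgroupMap_surjective _⟩).trans
    (MulEquiv.subgroupCongr h2))⟩

omit k [Finite G] in
theorem R_es : IsExtraspecial 3 R ∧ Nat.card R = 27 := by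
  haveI : Fact (Nat.Prime 3) := ⟨Nat.prime_three⟩
  obtain ⟨e⟩ := R_iso hR h2 h3
  have := (Nat.card_congr e.toEquiv).trans R3_card
  refine ⟨H26.isExtraspecial_of_card_cube this fun ⟨⟨h⟩⟩ => y_nc ?_, this⟩
  simpa using congrArg (fun a => (e a : Γ)) (h (e.symm ⟨_, R_y2.2⟩) (e.symm ⟨_, R_y0.2⟩))

include h1

theorem norm_R : normalizer (R : Set G) ≤ centralizer {z} := fun g hg => k.norm_P (by
  have a1 : zpowers (x : G) ≤ (center R).map R.subtype := zpowers_le.mpr ⟨⟨x, h1⟩, Subgroup.mem_center_iff.mpr fun y => Subtype.ext (by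
    have := h3 (⟨y, hR y.2⟩ * x * (x * ⟨y, hR y.2⟩)⁻¹) (mul_mem (mul_mem y.2 h1) (inv_mem (mul_mem h1 y.2))) (by
      simp [k.c.hx, W_comm (J0_GU (R3_J0 (h2.le ⟨⟨y, hR y.2⟩, y.2, rfl⟩)))])
    exact (congrArg Subtype.val (mul_inv_eq_one.mp this) :)), rfl⟩
  rw [eq_of_le_of_card_ge a1 (by
    rw [card_map_of_injective (subtype_injective _), (R_es hR h2 h3).1.2, Nat.card_zpowers, orderOf_coe, k.j.ord])]
  refine mem_normalizer_of_conj_mem ?_
  rintro _ ⟨c, hc, rfl⟩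
  refine ⟨⟨_, (mem_normalizer_iff.mp hg _).mp c.2⟩, Subgroup.mem_center_iff.mpr fun y => Subtype.ext ?_, rfl⟩
  have := congrArg Subtype.val (Subgroup.mem_center_iff.mp hc ⟨_, (mem_normalizer_iff.mp (inv_mem hg) _).mp y.2⟩)
  calc (y : G) * (g * c * g⁻¹) = g * (g⁻¹ * y * g⁻¹⁻¹ * c) * g⁻¹ := by group
    _ = _ := by rw [show g⁻¹ * y * g⁻¹⁻¹ * c = _ from this]; simp [mul_assoc])

theorem card_norm_R : Nat.card (normalizer (R : Set G)) = 864 := by
  haveI : Fact (Nat.Prime 3) := ⟨Nat.prime_three⟩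
  have a0 := k.norm_R hR h1 h2 h3
  have a1 := m.card_inf (B := (normalizer (R : Set G)).subgroupOf (centralizer {z}))
  have a2 : ∀ y : centralizer ({z} : Set G), y ∈ normalizer ((R.subgroupOf (centralizer {z}) : Subgroup _) : Set _) ↔
      (y : G) ∈ normalizer (R : Set G) := fun y => ⟨fun h => mem_normalizer_of_conj_mem fun a ha =>
    (mem_normalizer_iff.mp h ⟨a, hR ha⟩).mp ha, fun h => mem_normalizer_of_conj_mem fun a ha => (mem_normalizer_iff.mp h a).mp ha⟩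
  have hk : IsPGroup 2 ρ.ker := (Subgroup.ext m.ker : ρ.ker = Q.subgroupOf _) ▸ m.lx.isPGroup.comap_subtype
  rw [show ((normalizer (R : Set G)).subgroupOf (centralizer {z})).map ρ = NR from NR_eq ▸ le_antisymm (by
      rintro _ ⟨y, hy, rfl⟩
      exact ⟨k.j.hr.le ⟨y, rfl⟩, h2 ▸ le_normalizer_map ρ ⟨y, (a2 y).mpr hy, rfl⟩⟩) fun g hg => by
      obtain ⟨y, rfl⟩ := k.j.hr.ge hg.1
      have b1 : SylowIn 3 (R.subgroupOf (centralizer {z})) (R3.comap ρ) := by
        haveI : Fact (Nat.Prime 2) := ⟨Nat.prime_two⟩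
        obtain ⟨n, e⟩ := IsPGroup.iff_card.mp hk
        have := card_map_mul_card_inf_ker ρ (R3.comap ρ)
        rw [map_comap_eq_self ((R3_J0.trans J0_XJ).trans k.j.hr.ge), inf_eq_right.mpr (ker_le_comap _ _), R3_card, e] at this
        exact sylowIn_of_card (k := 3) (map_le_iff_le_comap.mp h2.le)
          ((Nat.card_congr (subgroupOfEquivOfLe hR).toEquiv).trans (R_es hR h2 h3).2) this.symm
          fun f => absurd (Nat.prime_three.dvd_of_dvd_pow f) (by norm_num)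
      obtain ⟨n, hn, w, hw, rfl⟩ := b1.frattini (le_normalizer_comap ρ hg.2)
      obtain ⟨r, hr, e⟩ := h2.ge hn
      exact ⟨r * w, (a2 _).mp (mul_mem (le_normalizer hr) hw), by rw [map_mul, map_mul, e]⟩,
    show ((normalizer (R : Set G)).subgroupOf (centralizer {z}) ⊓ ρ.ker).map (centralizer {z}).subtype = zpowers z from
      le_antisymm (by
        rintro _ ⟨y, hy, rfl⟩
        refine m.Y_ker k.c.hx (mul_inv_eq_iff_eq_mul.mp (mul_inv_eq_one.mp (h3 _ (mul_mem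
          ((mem_normalizer_iff.mp hy.1 _).mp h1) (inv_mem h1)) ?_))) hy.2
        simp [show ρ y = 1 from hy.2]) (zpowers_le.mpr ⟨⟨z, mem_centralizer_singleton_iff.mpr rfl⟩, ⟨centralizer_le_normalizer _
          fun r hr => mem_centralizer_singleton_iff.mp (hR hr), (m.ker _).mpr m.lx.mem⟩, rfl⟩),
    Nat.card_congr (subgroupOfEquivOfLe a0).toEquiv, NR_card, Nat.card_zpowers, m.lx.ord] at a1
  exact a1.symm

end

theorem conj3 {w : centralizer ({z} : Set G)} (h : w ^ 3 = 1) (n : w ≠ 1) (hw : ρ w ∈ R3) : IsConj (x : G) w := by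
  haveI : Fact (Nat.Prime 3) := ⟨Nat.prime_three⟩
  have hk : IsPGroup 2 ρ.ker := (Subgroup.ext m.ker : ρ.ker = Q.subgroupOf _) ▸ m.lx.isPGroup.comap_subtype
  have l : ∀ {y}, y ^ 3 = 1 → ρ y = ρ w → IsConj (y : G) w := fun h' e =>
    let ⟨q, _, f⟩ := conj_of_ker ρ hk Nat.prime_three (by norm_num) h' h e; isConj_iff.mpr ⟨q, congrArg Subtype.val f⟩
  rcases (R3_cls hw).2 with e | ⟨u, hu, e⟩
  · rcases mem_Z.mp e with e | e | e
    · have := isConj_one_right.mp (l (one_pow 3) (e.symm ▸ map_one ρ))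
      exact (n (Subtype.ext this)).elim
    · exact l k.c.x3 (k.c.hx.trans e.symm)
    · obtain ⟨s, hs⟩ := k.j.hr.ge js_XJ
      exact (isConj_iff.mpr ⟨(s : G), rfl⟩).trans (l (y := s * x * s⁻¹) (by rw [conj_pow, k.c.x3]; simp)
        (by simp [hs, k.c.hx, js_W, e]))
  obtain ⟨y, rfl⟩ := k.j.hr.ge (NR_XJ hu)
  refine IsConj.trans ?_ (isConj_iff.mpr ⟨(y : G), rfl⟩).symm
  rw [← map_inv, ← map_mul, ← map_mul] at e
  replace h : (y * w * y⁻¹) ^ 3 = 1 := by rw [conj_pow, h]; simp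
  replace n : y * w * y⁻¹ ≠ 1 := by simpa using n
  change IsConj _ ((y * w * y⁻¹ : centralizer ({z} : Set G)) : G)
  generalize y * w * y⁻¹ = v at *
  have c : ∀ a : normalizer (m.AG : Set G), a ^ 3 = 1 → a ≠ 1 → ∀ S, S.card = 2 → a * t S = t S * a → IsConj t3A (Φ a) :=
    fun a a3 a1 S s e => conj3A (orderOf_eq_prime (by rw [← map_pow, a3, map_one]) fun f => a1 (by
      rw [← a3, pow_succ, pow_two, show a * a = 1 from Subtype.ext (k.h.A_sq ((k.ker a).mp f)), one_mul])) s (k.fix s e)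
  obtain ⟨q0, h0, e0⟩ := m.surj (vc vq)
  obtain ⟨i, j, l, r, hr, er, ij, jl, a1, a2, -⟩ := k.tri h0 e0
  let x' : normalizer (m.AG : Set G) := ⟨x, m.AG_norm (k.c.hx ▸ W_norm)⟩
  let v' : normalizer (m.AG : Set G) := ⟨v, m.AG_norm (e ▸ NJ_norm y0_NJ.1)⟩
  have x3 : x' ^ 3 = 1 := Subtype.ext (congrArg Subtype.val k.c.x3 :)
  have v3 : v' ^ 3 = 1 := Subtype.ext (congrArg Subtype.val h :)
  have c1 := c x' x3 (fun f => by simpa [show x = 1 from Subtype.ext (congrArg Subtype.val f :)] using k.j.ord) _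
    (Finset.card_pair ij) (a1 ▸ congrArg Subtype.val (k.c.dx 1).symm)
  have c2 := c v' v3 (fun f => n (Subtype.ext (congrArg Subtype.val f :))) _ (Finset.card_pair jl) (by
    rw [a2]
    rcases m.uniq hr (m.conj_mem v hr) (by rw [m.act v hr, e, er, y0_NJ.2]) with f | f
    · exact mul_inv_eq_iff_eq_mul.mp f
    have := cube_conj (x := (v : G)) (congrArg Subtype.val h) r
    have k1 : v * (z * r) * (v : G)⁻¹ = r := by
      rw [← conj_mul, mul_inv_eq_iff_eq_mul.mpr (mem_centralizer_singleton_iff.mp v.2), f, ← mul_assoc z, m.lx.zz, one_mul]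
    rw [f, k1] at this
    exact mul_inv_eq_iff_eq_mul.mp this)
  obtain ⟨g, f⟩ := isConj_iff.mp (c1.symm.trans c2)
  obtain ⟨g, rfl⟩ := k.surj g
  obtain ⟨q, -, f⟩ := conj_of_ker Φ ((Subgroup.ext k.ker : Φ.ker = m.AG.subgroupOf _) ▸ (two_of_sq k.j.u11.sq).comap_subtype)
    Nat.prime_three (by norm_num) (x := g * x' * g⁻¹) (by rw [conj_pow, x3]; simp) v3 (by simpa using f)
  exact isConj_iff.mpr ⟨q * g, (cjcj _ _ _).trans (congrArg Subtype.val f)⟩

end JC

end Cfsg.Agent.LL.U6
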