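import Cfsg.Agent.H21.JoO
import Cfsg.Agent.H2.Prim
import Cfsg.Agent.J4A.Defs
import Cfsg.Agent.J4B.Main
import Cfsg.Agent.J4D.Main
import Cfsg.Agent.S5564

/-! The local data of a simple group of Janko-four type. -/

set_option autoImplicit false
set_option maxRecDepth 100000
set_option linter.style.haveILetI false

namespace Cfsg.Agent.LL.U6

open Cfsg Cfsg.Agent.H16 Cfsg.Agent.H3 Cfsg.Agent.H10 MulAction Mdl Subgroup
open scoped Pointwise

noncomputable def e11 : M24 := elt 977626150660632446484585456855397888 (by decide +kernel)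

theorem cent11 {u : M24} (hu : orderOf u = 11) : centralizer {u} = zpowers u := by
  have r : Rep gpt 24 e11 (get 5 977626150660632446484585456855397888) := rep_elt _ _
  have := (cent_gen1 mulOk24 gpt_inj (faith_M24 ⊤) (B := [1, 16, 7, 22, 17, 12, 3]) (by decide) le_rfl
    (SK := [956302485175575353788796878166559809, 265463202357446280297592754337532963,
      939443396423443465668149659122812960, 819537486484162731308400657664984099,
      569381750438578278525889303718998062, 817884627435902134467872167960870965,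
      237118467371839156807759020658002978, 651812217987038356343953380111342632])
    (inK_top_of_allL (by decide +kernel)) card_top_M24.le trivial r []
    (S := [959368413164694669956740918894208704]) (M := 11) (by decide +kernel)).1
  obtain ⟨c, hc⟩ := exists_conj_zpowers (p := 11) (m := 22256640) (by norm_num) card_M24 (by norm_num)
    (r.orderOf_eq five_le gpt_inj (faith_M24 ⊤) trivial (by norm_num) (by decide +kernel)) (S := zpowers u) (by rw [Nat.card_zpowers, hu])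
  refine (eq_of_le_of_card_ge (zpowers_le.mpr (mem_centralizer_singleton_iff.mpr rfl)) ?_).symm
  rw [Nat.card_zpowers, hu, ← H16.centralizer_zpowers, hc, H16.centralizer_zpowers, H16.card_conj fun y => conj_mem_centralizer c e11 y,
    ← top_inf_eq (centralizer _), this]

variable {G : Type*} [Group G] [Finite G] {z : G} {Q : Subgroup G} {ρ : centralizer ({z} : Set G) →* Γ} {p : G → V6}
  {m : FT z Q ρ p} {x : centralizer ({z} : Set G)} {b : ℕ → G} {d : ℕ → centralizer ({z} : Set G)} {t : Finset GolayPt → G}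
  {Φ : normalizer (m.AG : Set G) →* M24}

theorem JC.ty (k : JC m x b d t Φ) (u : G) (hu : orderOf u = 11) (c : Commute (t Du) u) :
    Nat.card (centralizer ({t Du} : Set G) ⊓ centralizer ({u} : Set G) : Subgroup G) = 22 := by
  haveI : Fact (Nat.Prime 11) := ⟨by norm_num⟩
  have a1 : u ∈ centralizer {t Du} := mem_centralizer_singleton_iff.mpr c.symm
  have a2 : u ∉ m.AG := fun h => by
    have := orderOf_dvd_of_pow_eq_one ((pow_two u).trans (k.h.A_sq h)); rw [hu] at this; omega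
  let f := Φ.comp (inclusion (inf_le_left.trans k.tN : centralizer {t Du} ⊓ centralizer {u} ≤ _))
  have a3 : orderOf (Φ ⟨u, k.tN a1⟩) = 11 := orderOf_eq_prime (by
    rw [← map_pow, show (⟨u, k.tN a1⟩ : normalizer (m.AG : Set G)) ^ 11 = 1 from Subtype.ext (hu ▸ pow_orderOf_eq_one u), map_one])
    (mt (k.ker _).mp a2)
  have a4 : m.AG ≤ centralizer {t Du} := fun a ha => mem_centralizer_singleton_iff.mpr (k.h.comm ha (k.h.mem _))
  have a5 := H2.card_modEq_card_inf_centralizer (q := 11) (IsPGroup.of_card (n := 1) ((Nat.card_zpowers u).trans hu))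
    (zpowers_le.mpr (k.tN a1))
  rw [H16.centralizer_zpowers, k.h.cardA] at a5
  obtain ⟨n, hn, a6⟩ := (Nat.dvd_prime_pow Nat.prime_two).mp (k.h.cardA ▸ card_dvd_of_le (inf_le_left : m.AG ⊓ centralizer {u} ≤ _))
  have a7 : n ≠ 11 := fun e => a2 (k.h.cent fun a ha => mem_centralizer_singleton_iff.mp
    ((eq_of_le_of_card_ge inf_le_left (by rw [a6, e, k.h.cardA])).ge ha).2)
  rw [← card_mul_index f.ker, index_ker, show f.range = zpowers (Φ ⟨u, k.tN a1⟩) from le_antisymm (by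
      rintro _ ⟨a, rfl⟩
      exact (cent11 a3).le (mem_centralizer_singleton_iff.mpr (by
        rw [MonoidHom.comp_apply, ← map_mul, ← map_mul]; exact congrArg Φ (Subtype.ext (mem_centralizer_singleton_iff.mp a.2.2)))))
      (zpowers_le.mpr ⟨⟨u, a1, mem_centralizer_singleton_iff.mpr rfl⟩, rfl⟩), Nat.card_zpowers, a3,
    show f.ker = (m.AG ⊓ centralizer {u}).subgroupOf _ from Subgroup.ext fun a => (k.ker _).trans ⟨fun h => ⟨h, a.2.2⟩, fun h => h.1⟩,
    Nat.card_congr (subgroupOfEquivOfLe (inf_le_inf_right _ a4)).toEquiv, a6]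
  rw [a6] at a5
  interval_cases n <;> simp_all [Nat.ModEq]

namespace JF
variable (j : JF m x)
include j

theorem lift_odd {g : Γ} (hg : g ∈ J0) {n : ℕ} (o : n % 2 = 1) (h : g ^ n = 1) : ∃ y, y * x = x * y ∧ ρ y = g ∧ y ^ n = 1 := by
  obtain ⟨y, y1, rfl⟩ := m.Y_lift j.hx j.x3 (j.hr.ge (J0_XJ hg)) (W_comm (J0_GU hg))
  have a : y ^ n * y ^ n = 1 := Subtype.ext (by
    rcases m.lx.mem_z.mp (m.Y_ker j.hx ((show Commute y x from y1).pow_left n) (by rw [map_pow, h])) with e | e <;>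
      simp [show (y : G) ^ n = _ from e, m.lx.zz])
  exact ⟨y ^ (n + 1), (show Commute y x from y1).pow_left _, by rw [map_pow, pow_succ, h, one_mul], by
    rw [← pow_mul, mul_comm, pow_mul, show n + 1 = 2 * ((n + 1) / 2) by omega, pow_mul, pow_two, a, one_pow]⟩

omit [Finite G] in
theorem eq_odd {y w : centralizer ({z} : Set G)} (h1 : y * x = x * y) (h2 : w * x = x * w) (e : ρ y = ρ w) {n : ℕ} (o : n % 2 = 1)
    (a : y ^ n = 1) (c : w ^ n = 1) : y = w := by
  rcases m.lx.mem_z.mp (m.Y_ker j.hx (y := y * w⁻¹) (Commute.mul_left h1 (Commute.inv_left h2)) (by simp [e])) with f | f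
  · exact mul_inv_eq_one.mp (Subtype.ext f)
  rw [mul_inv_eq_iff_eq_mul.mp (Subtype.ext f : y * w⁻¹ = zc z), (show Commute (zc z) w from Subtype.ext
    (mem_centralizer_singleton_iff.mp w.2).symm).mul_pow, c, mul_one] at a
  have := orderOf_dvd_of_pow_eq_one (congrArg Subtype.val a : z ^ n = 1)
  rw [show orderOf ((zc z : centralizer ({z} : Set G)) : G) = 2 from m.lx.ord] at this; omega

variable {y : centralizer ({z} : Set G)} (y1 : y * x = x * y) (y2 : ρ y = el ja) (y3 : y ^ 11 = 1)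
include y2 y3

omit [Finite G] in
theorem mem_E {q : G} (hq : q ∈ Q) : q ∈ centralizer {(y : G)} ↔ el ja (p q) = p q := by
  refine ⟨fun h => y2 ▸ m.fix_of hq (mem_centralizer_singleton_iff.mp h), fun h => mem_centralizer_singleton_iff.mpr ?_⟩
  have a : Commute ((y : G) ^ 2) q := by
    rcases m.uniq hq (m.conj_mem y hq) (by rw [m.act _ hq, y2, h]) with f | f
    · exact (show Commute (y : G) q from mul_inv_eq_iff_eq_mul.mp f).pow_left 2
    · refine mul_inv_eq_iff_eq_mul.mp ?_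
      rw [pow_two, cjcj, f, ← conj_mul, f, mul_inv_eq_iff_eq_mul.mpr (mem_centralizer_singleton_iff.mp y.2), ← mul_assoc, m.lx.zz, one_mul]
  have := a.pow_left 6
  rw [← pow_mul, pow_succ, show (y : G) ^ 11 = 1 from congrArg Subtype.val y3, one_mul] at this
  exact this.symm

theorem E_q8 : z ∈ Q ⊓ centralizer {(y : G)} ∧ Nat.card ↥(Q ⊓ centralizer {(y : G)}) = 8 ∧
    Nonempty (↥(Q ⊓ centralizer {(y : G)}) ≃* QuaternionGroup 2) := by
  have a0 : z ∈ Q ⊓ centralizer {(y : G)} := ⟨m.lx.mem, mem_centralizer_singleton_iff.mpr (mem_centralizer_singleton_iff.mp y.2).symm⟩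
  have a1 : Nat.card ↥(Q ⊓ centralizer {(y : G)}) = 8 := by
    rw [m.card_p' inf_le_left a0, ncard_eq_cnt (f := fun v => Nat.beq (mul12Ap ja v) v) fun v hv => by
      rw [Nat.beq_eq, ← vc_iff (R_ap R_ja hv).1 hv, ← (R_ap R_ja hv).2]
      exact ⟨fun ⟨q, hq, e⟩ => e ▸ (j.mem_E y2 y3 hq.1).mp hq.2, fun h =>
        let ⟨q, hq, e⟩ := m.surj (vc v); ⟨q, ⟨hq, (j.mem_E y2 y3 hq).mpr (e ▸ h)⟩, e⟩⟩]
    decide +kernel
  have l : ∀ v, andB (andB (Nat.blt v 4096) (Nat.beq (mul12Ap ja v) v)) (tb QT v) = true →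
      ∃ q ∈ Q ⊓ centralizer {(y : G)}, p q = vc v ∧ q * q = z := fun v e => by
    simp only [andB_iff, Nat.blt_eq, Nat.beq_eq] at e
    obtain ⟨q, hq, f⟩ := m.surj (vc v)
    exact ⟨q, ⟨hq, (j.mem_E y2 y3 hq).mpr (by rw [f, (R_ap R_ja e.1.1).2, e.1.2])⟩, f, (m.lx.mem_z.mp ((m.zero (mul_mem hq hq)).mp
      (by rw [m.mul hq hq, add_self]))).resolve_left (mt (m.sq hq).mp (f ▸ (QT_iff e.1.1).mp e.2))⟩
  obtain ⟨q, hq, e, f⟩ := l 535 (by decide +kernel)
  obtain ⟨r, hr, e', f'⟩ := l 1992 (by decide +kernel)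
  have n : ¬ r * q = q * r := by rw [m.comm_ort hr.1 hq.1 e' e]; decide +kernel
  obtain ⟨u⟩ := H11.nonempty_closure_equiv_quaternion (a := q) (s := r) (n := 2) (by norm_num)
    (orderOf_eq_prime_pow (p := 2) (n := 1) (by rw [pow_one, pow_two, f]; exact m.lx.ne_one)
      (by rw [show 2 ^ (1 + 1) = 2 * 2 from rfl, pow_mul, pow_two q, f, pow_two, m.lx.zz]))
    (by rw [m.lx.conj_eq_of_ne hr.1 hq.1 n, eq_inv_iff_mul_eq_one, mul_assoc, f, m.lx.zz]) (by rw [f', pow_two, f])
    fun ⟨i, h⟩ => n (h ▸ ((Commute.refl q).zpow_left i).eq)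
  exact ⟨a0, a1, ⟨(MulEquiv.subgroupCongr (eq_of_le_of_card_ge ((closure_le _).mpr (Set.pair_subset hq hr)) (by
    rw [a1, Nat.card_congr u.toEquiv, Nat.card_eq_fintype_card, QuaternionGroup.card])).symm).trans u⟩⟩

include y1

theorem cy : centralizer {z} ⊓ centralizer {(y : G)} = Q ⊓ centralizer {(y : G)} ⊔ zpowers (x : G) ⊔ zpowers (y : G) ∧
    Nat.card ↥(centralizer {z} ⊓ centralizer {(y : G)}) = 264 := by
  haveI : Fact (Nat.Prime 11) := ⟨by norm_num⟩
  obtain ⟨π, -, p2⟩ := j.pi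
  have a0 : (x : G) ∈ centralizer {(y : G)} := mem_centralizer_singleton_iff.mpr (congrArg Subtype.val y1.symm)
  have a1 : orderOf (π y : M24) = 11 := orderOf_eq_prime (by rw [← coe_pow, ← map_pow, y3, map_one, coe_one]) fun e => by
    have := orderOf_dvd_of_pow_eq_one (Z_cube ((p2 y).mp (Subtype.ext e)))
    rw [y2, ord_ja] at this; omega
  have a2 : ∀ c : centralizer ({z} : Set G), (c : G) ∈ centralizer {(y : G)} → ∃ i l : ℤ, ρ c = Wm ^ i * el ja ^ l := fun c hc => by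
    obtain ⟨l, e⟩ := (cent11 a1).le (x := π c) (mem_centralizer_singleton_iff.mpr (by
      rw [← coe_mul, ← coe_mul, ← map_mul, ← map_mul, show c * y = y * c from Subtype.ext (mem_centralizer_singleton_iff.mp hc)]))
    obtain ⟨i, f⟩ := (p2 (c * (y ^ l)⁻¹)).mp (by rw [map_mul, map_inv, map_zpow, mul_inv_eq_one]; exact Subtype.ext e.symm)
    exact ⟨i, l, by simpa [y2, eq_mul_inv_iff_mul_eq, eq_comm] using f⟩
  have cm : Commute Wm (el ja) := (W_comm (J0_GU ja_J)).symm
  have o : orderOf (Wm * el ja) = 33 := by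
    rw [cm.orderOf_mul_eq_mul_orderOf_of_coprime (by rw [orderOf_W, ord_ja]; norm_num), orderOf_W, ord_ja]
  refine ⟨le_antisymm (fun c hc => ?_) (sup_le (sup_le (inf_le_inf_right _ m.lx.le_centralizer) (zpowers_le.mpr ⟨x.2, a0⟩))
    (zpowers_le.mpr ⟨y.2, mem_centralizer_singleton_iff.mpr rfl⟩)), ?_⟩
  · obtain ⟨i, l, e⟩ := a2 ⟨c, hc.1⟩ hc.2
    have := (m.ker (⟨c, hc.1⟩ * (x ^ i * y ^ l)⁻¹)).mp (by simp [e, j.hx, y2])
    rw [show c = c * ((x : G) ^ i * y ^ l)⁻¹ * x ^ i * y ^ l by group]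
    exact mul_mem (mem_sup_left (mul_mem (mem_sup_left (mem_inf.mpr ⟨this, mul_mem (mem_inf.mp hc).2 (inv_mem (mul_mem (zpow_mem a0 i) (zpow_mem
      (mem_centralizer_singleton_iff.mpr rfl) l)))⟩)) (mem_sup_right (zpow_mem_zpowers _ i)))) (mem_sup_right (zpow_mem_zpowers _ l))
  let f := ρ.comp (inclusion (inf_le_left : centralizer {z} ⊓ centralizer {(y : G)} ≤ _))
  rw [← card_mul_index f.ker, index_ker, show f.range = zpowers (Wm * el ja) from le_antisymm (by
      rintro _ ⟨c, rfl⟩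
      obtain ⟨i, l, e⟩ := a2 ⟨c, c.2.1⟩ c.2.2
      refine Set.mem_of_eq_of_mem e ((zpowers _).mul_mem (zpow_mem (mem_zpowers_iff.mpr ⟨(22 : ℕ), ?_⟩) i)
        (zpow_mem (mem_zpowers_iff.mpr ⟨(12 : ℕ), ?_⟩) l)) <;> simp only [zpow_natCast, cm.mul_pow]
      · rw [← pow_mod_orderOf Wm, ← pow_mod_orderOf (el ja), orderOf_W, ord_ja]; simp
      · rw [← pow_mod_orderOf Wm, ← pow_mod_orderOf (el ja), orderOf_W, ord_ja]; simp)
      (zpowers_le.mpr ⟨⟨x * y, mul_mem x.2 y.2, mul_mem a0 (mem_centralizer_singleton_iff.mpr rfl)⟩,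
        (map_mul ρ x y).trans (by rw [j.hx, y2])⟩), Nat.card_zpowers, o,
    show f.ker = (Q ⊓ centralizer {(y : G)}).subgroupOf _ from Subgroup.ext fun a => (m.ker _).trans ⟨fun h => ⟨h, a.2.2⟩, fun h => h.1⟩,
    Nat.card_congr (subgroupOfEquivOfLe (inf_le_inf_right _ m.lx.le_centralizer)).toEquiv, (j.E_q8 y2 y3).2.1]

end JF

theorem JC.j4i (k : JC m x b d t Φ) [IsSimpleGroup G] (hG : ¬ IsMulCommutative G)
    (c3 : ∀ x y : G, orderOf x = 3 → orderOf y = 3 → IsConj x y)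
    (c7 : ∀ u : G, orderOf u = 7 → Nat.card (centralizer ({u} : Set G)) = 840) : ∃ y s f E, J4A.J4I z (t Du) x y s f E := by
  haveI : Fact (Nat.Prime 11) := ⟨by norm_num⟩
  haveI : Fact (Nat.Prime 5) := ⟨by norm_num⟩
  have j := k.j
  obtain ⟨κ, tk⟩ := k.tk
  obtain ⟨y, y1, y2, y3⟩ := j.lift_odd ja_J (n := 11) rfl (ord_ja ▸ pow_orderOf_eq_one _)
  obtain ⟨f, f1, f2, f3⟩ := j.lift_odd jb_J (n := 5) rfl (isOne_spec (R_pow R_jb 5) (by decide +kernel))
  obtain ⟨s1, s2⟩ := j.nn_spec js_XJ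
  generalize j.nn (el js) = s at s1 s2
  have x3 : orderOf (x : G) = 3 := (orderOf_coe x).trans j.ord
  have cx : centralizer {(x : G)} ≤ centralizer {z} := (H16.centralizer_zpowers (x : G)).ge.trans ((centralizer_le_normalizer _).trans k.norm_P)
  have n1 : ∀ {a c g}, ρ a = g → M.R c g → neB o pts c o.one = true → (a : G) ≠ 1 := fun e r h f =>
    ne_of_neB hv hpt r M.R_one h (by rw [← e, show _ = (1 : centralizer ({z} : Set G)) from Subtype.ext f, map_one])
  have sx : s * x * s⁻¹ = x⁻¹ := ((j.nx.mp s2).resolve_left fun e => by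
    have := congrArg ρ (mul_inv_eq_iff_eq_mul.mp e)
    rw [map_mul, map_mul, s1, j.hx, js_W, mul_left_inj, mul_eq_left] at this
    simpa [this] using orderOf_W).trans (eq_inv_of_mul_eq_one_left (by rw [← j.x3]; simp [pow_succ]))
  have sy : s * y * s⁻¹ = y⁻¹ := j.eq_odd (Commute.inv_right_iff.mp (sx ▸ Commute.conj y1 s)) (Commute.inv_left y1) (by
    rw [map_mul, map_mul, map_inv, map_inv, s1, y2, M.eq_of (M.R_mul R_js R_ja) (M.R_mul (R_pow R_ja 10) R_js) (by decide +kernel),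
      mul_inv_cancel_right, eq_inv_iff_mul_eq_one, ← pow_succ]; exact (ord_ja ▸ pow_orderOf_eq_one _ : el ja ^ 11 = 1)) (n := 11) rfl
    (by rw [conj_pow, y3]; simp) (by rw [inv_pow, y3, inv_one])
  have fy : f * y * f⁻¹ = y ^ 3 := j.eq_odd ((Commute.mul_left f1 y1).mul_left (Commute.inv_left f1))
    ((show Commute y x from y1).pow_left 3) (by
    rw [map_mul, map_mul, map_inv, map_pow, f2, y2]; exact cjM_spec R_jb R_ja (R_pow R_ja 3) (by decide +kernel)) (n := 11) rfl
    (by rw [conj_pow, y3]; simp) (by rw [← pow_mul, mul_comm, pow_mul, y3, one_pow])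
  have nE : ∀ a : centralizer ({z} : Set G), a * y * a⁻¹ = y ∨ a * y * a⁻¹ = y⁻¹ →
      (a : G) ∈ normalizer ((Q ⊓ centralizer {(y : G)} : Subgroup G) : Set G) := fun a h => mem_normalizer_of_conj_mem fun q hq =>
    ⟨m.conj_mem a hq.1, mem_centralizer_singleton_iff.mpr (by
      have := Commute.conj (mem_centralizer_singleton_iff.mp hq.2) (a : G)
      rcases h with e | e <;> rw [show (a : G) * y * (a : G)⁻¹ = _ from congrArg Subtype.val e] at this
      exacts [this, Commute.inv_right_iff.mp this])⟩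
  obtain ⟨θ, h1, h2⟩ := j.theta
  obtain ⟨e1, -, e2⟩ := j.E_q8 y2 y3
  exact ⟨y, s, f, _, k.ord hG, m.lx.ord, ord2 k.t2.1 k.t2.2, fun u h => k.inv2 (H11.mul_self_of_orderOf_two h)
    (H11.ne_one_of_orderOf_two h), j.cardC, tk.cardC k.tN, x3, fun u => c3 _ u x3, cx, by
      rw [← inf_eq_right.mpr cx, ← card_ker_mul θ h1, card_K22, show θ.ker = (zpowers (z * x)).subgroupOf _ from Subgroup.ext h2,
        Nat.card_congr (subgroupOfEquivOfLe (zpowers_le.mpr (mem_inf.mpr ⟨mul_mem (mem_centralizer_singleton_iff.mpr (rfl : z * z = z * z)) x.2, mul_mem (mem_centralizer_singleton_iff.mpr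
          (mem_centralizer_singleton_iff.mp x.2).symm) (mem_centralizer_singleton_iff.mpr rfl)⟩))).toEquiv, Nat.card_zpowers, j.ord6],
    J4D.c5 hG j, c7, orderOf_eq_prime (congrArg Subtype.val y3) (n1 y2 R_ja (by decide +kernel)), e2, e1, (j.cy y1 y2 y3).1, (j.cy y1 y2 y3).2,
    nE x (Or.inl (mul_inv_eq_iff_eq_mul.mpr y1.symm)), le_antisymm (fun q hq => m.Y_ker j.hx (y := ⟨q, m.lx.le_centralizer hq.1.1⟩)
      (Subtype.ext (mem_centralizer_singleton_iff.mp hq.2)) ((m.ker _).mpr hq.1.1)) (zpowers_le.mpr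
      ⟨e1, mem_centralizer_singleton_iff.mpr (mem_centralizer_singleton_iff.mp x.2).symm⟩),
    ord2 (congrArg Subtype.val (k.N_sq s2 (s1 ▸ mul_eq_one_iff_inv_eq.mpr js_inv))) (n1 s1 R_js (by decide +kernel)),
    mem_centralizer_singleton_iff.mp s.2, congrArg Subtype.val sy, congrArg Subtype.val sx, nE s (Or.inr sy),
    orderOf_eq_prime (congrArg Subtype.val f3) (n1 f2 R_jb (by decide +kernel)), mem_centralizer_singleton_iff.mp f.2,
    congrArg Subtype.val fy, k.ty, J4B.f31 k⟩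

omit z Q ρ p m x b d t Φ in
theorem j4_ord [IsSimpleGroup G] (hG : ¬ IsMulCommutative G) (hJ : IsOfJankoFourType G) : Nat.card G = 86775571046077562880 := by
  obtain ⟨z, P, h⟩ := hJ
  obtain ⟨ρ, p, m, x, j, -⟩ := exists_JF h
  obtain ⟨b, d, t, Φ, k⟩ := j.exists_jc hG
  exact k.ord hG

omit z Q ρ p m x b d t Φ in
theorem j4i' [IsSimpleGroup G] (hG : ¬ IsMulCommutative G) (hJ : IsOfJankoFourType G)
    (c7 : ∀ u : G, orderOf u = 7 → Nat.card (centralizer ({u} : Set G)) = 840) : ∃ (z t x y s f : G) (E : Subgroup G), J4A.J4I z t x y s f E := by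
  obtain ⟨z, P, h⟩ := id hJ
  obtain ⟨ρ, p, m, x, j, -⟩ := exists_JF h
  obtain ⟨b, d, t, Φ, k⟩ := j.exists_jc hG
  exact ⟨_, _, _, k.j4i hG (S5564.result hG hJ) c7⟩

end Cfsg.Agent.LL.U6
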