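import Cfsg.Agent.H21.JoO

/-! An element of order three acts without fixed points on the extraspecial group modulo its centre. -/

set_option autoImplicit false
set_option maxRecDepth 100000
set_option linter.style.haveILetI false

namespace Cfsg.Agent.LL.U6

open Cfsg Cfsg.Agent.H16 Cfsg.Agent.H3 Cfsg.Agent.H10 MulAction Mdl Subgroup Module QuadraticMap
open scoped commutatorElement Pointwise

section
variable {V : Type*} [AddCommGroup V] [Module (ZMod 2) V] (q : QuadraticForm (ZMod 2) V)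

theorem gauss [Fintype V] (nd : ∀ w, (∀ v, polar q v w = 0) → w = 0) :
    (2 * (Nat.card {v // q v = 0} : ℤ) - Nat.card V) ^ 2 = Nat.card V := by
  classical
  let χ : ZMod 2 → ℤ := fun a => if a = 0 then 1 else -1
  have c1 : ∀ a b, χ (a + b) = χ a * χ b := by decide
  have c2 : ∀ a b c : ZMod 2, χ a * χ c = χ b * χ (c - a - b) := by decide
  have h1 : ∑ v, χ (q v) = 2 * (Nat.card {v // q v = 0} : ℤ) - Nat.card V := by
    rw [Nat.card_eq_fintype_card, Nat.card_eq_fintype_card, Fintype.card_subtype, Finset.card_filter, ← Finset.card_univ,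
      Finset.card_eq_sum_ones, Nat.cast_sum, Nat.cast_sum, Finset.mul_sum, ← Finset.sum_sub_distrib]
    exact Finset.sum_congr rfl fun v _ => by simp only [χ]; split_ifs <;> simp
  have h2 : ∀ w, w ≠ 0 → ∑ v, χ (polar q v w) = 0 := fun w hw => by
    obtain ⟨u, hu⟩ := not_forall.mp (mt (nd w) hw)
    have := Fintype.sum_equiv (Equiv.addLeft u) (fun v => χ (polar q (u + v) w)) (fun v => χ (polar q v w)) fun _ => rfl
    simp only [polar_add_left, c1, show χ (polar q u w) = -1 from if_neg hu, ← Finset.mul_sum] at this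
    omega
  rw [← h1, pow_two, Finset.sum_mul_sum, Finset.sum_congr rfl fun v _ => (Fintype.sum_equiv (Equiv.addLeft v)
    (fun w => χ (q w) * χ (polar q v w)) _ fun w => (c2 _ _ _).symm).symm, Finset.sum_comm, Finset.sum_eq_single 0
    (fun w _ hw => by rw [← Finset.mul_sum, h2 w hw, mul_zero]) (by simp)]
  simp [χ]

/-- the norm map -/
noncomputable def nm (A : Module.End (ZMod 2) V) (r : ℕ) : Module.End (ZMod 2) V := ∑ i ∈ Finset.range r, A ^ i

variable {A : Module.End (ZMod 2) V} {r : ℕ}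

theorem nm_fix {v : V} (h : A v = v) (o : r % 2 = 1) : nm A r v = v := by
  rw [nm, LinearMap.sum_apply, Finset.sum_congr rfl fun i _ => Module.End.pow_apply A i v ▸ Function.iterate_fixed h i,
    Finset.sum_const, Finset.card_range, ← Nat.cast_smul_eq_nsmul (ZMod 2), ← ZMod.natCast_mod, o, Nat.cast_one, one_smul]

theorem A_nm (h : A ^ r = 1) (v : V) : A (nm A r v) = nm A r v := by
  have := mul_geom_sum A r
  rw [h, sub_self, sub_mul, one_mul, sub_eq_zero] at this
  exact DFunLike.congr_fun this v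

theorem nm_comm {B : Module.End (ZMod 2) V} (r : ℕ) (c : Commute A B) (v : V) : nm A r (B v) = B (nm A r v) :=
  DFunLike.congr_fun (show nm A r * B = B * nm A r from (Commute.sum_left _ _ _ fun i _ => c.pow_left i).eq) v

theorem num12 {n s : ℕ} (hn : n ≤ 12) (a1 : 2 ^ n ≡ 1 [MOD 3]) (a2 : 2 ^ n ≡ 1 [MOD 7]) (a3 : s ≡ 1 [MOD 3]) (a4 : s ≡ 1 [MOD 7])
    (g : (2 * (s : ℤ) - (2 ^ n : ℕ)) ^ 2 = (2 ^ n : ℕ)) : n = 0 ∨ n = 12 := by
  obtain rfl | rfl | rfl : n = 0 ∨ n = 6 ∨ n = 12 := by interval_cases n <;> simp_all [Nat.ModEq]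
  · exact Or.inl rfl
  · have := sq_eq_sq_iff_eq_or_eq_neg.mp (g.trans (by norm_num : _ = (8 : ℤ) ^ 2))
    simp only [Nat.ModEq] at a3 a4; omega
  · exact Or.inr rfl

theorem nm_ort (hq : ∀ v, q (A v) = q v) (o : r % 2 = 1) {u w : V} (hu : A u = u) (hw : nm A r w = 0) : polar q u w = 0 := by
  have k : ∀ i, polar q u ((A ^ i) w) = polar q u w := fun i => by
    induction i with
    | zero => rfl
    | succ i ih => rw [← ih, pow_succ', Module.End.mul_apply, polar, polar, ← hq (u + (A ^ i) w), map_add A, hu, hq]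
  have := congrArg (q.polarBilin u) hw
  simp only [nm, LinearMap.sum_apply, map_sum, polarBilin_apply_apply, k, map_zero, Finset.sum_const, Finset.card_range] at this
  rwa [← Nat.cast_smul_eq_nsmul (ZMod 2), ← ZMod.natCast_mod, o, Nat.cast_one, one_smul] at this

theorem cnt_mod [Finite V] [Fact r.Prime] (h : A ^ r = 1) {P : V → Prop} (hP : ∀ v, P v → P (A v)) (h0 : P 0)
    (h1 : ∀ v, P v → A v = v → v = 0) : Nat.card {v // P v} ≡ 1 [MOD r] := by
  classical
  haveI := Fintype.ofFinite {v // P v}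
  let f : Function.End {v // P v} := fun v => ⟨A v, hP _ v.2⟩
  have k : ∀ n v, ((f ^ n) v).1 = (A ^ n) v := fun n v => by
    induction n with
    | zero => rfl
    | succ n ih => rw [pow_succ', pow_succ', Module.End.mul_apply, ← ih]; rfl
  have := Equiv.Perm.card_fixedPoints_modEq (f := f) (p := r) (n := 1) (funext fun v => Subtype.ext (by rw [k, pow_one, h]; rfl))
  rwa [(Fintype.card_eq_one_iff (α := Function.fixedPoints f)).mpr ⟨⟨⟨0, h0⟩, Subtype.ext (map_zero A)⟩, fun v => Subtype.ext (Subtype.ext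
    (h1 _ v.1.2 (congrArg Subtype.val v.2)))⟩, ← Nat.card_eq_fintype_card] at this

theorem fpf_or [Finite V] (hV : Nat.card V = 2 ^ 12) (nd : ∀ w, (∀ v, polar q v w = 0) → w = 0) {X Y : Module.End (ZMod 2) V}
    (hX : X ^ 3 = 1) (hY : Y ^ 7 = 1) (c : Commute X Y) (qX : ∀ v, q (X v) = q v) (qY : ∀ v, q (Y v) = q v) :
    (∀ v, X v = v → v = 0) ∨ ∀ v, Y (X v - v) = X v - v := by
  haveI : Fact (Nat.Prime 3) := ⟨Nat.prime_three⟩
  haveI : Fact (Nat.Prime 7) := ⟨by norm_num⟩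
  let T := LinearMap.ker (nm X 3) ⊓ LinearMap.ker (nm Y 7)
  haveI := Fintype.ofFinite T
  have c2 : ∀ v, nm X 3 (nm Y 7 v) = nm Y 7 (nm X 3 v) := nm_comm 3 (Commute.sum_right _ _ _ fun i _ => c.pow_right i)
  have g := gauss (q.comp T.subtype) fun w hw => Subtype.ext (nd w fun v => by
    have a1 : nm X 3 (v - nm X 3 v) = 0 := by rw [map_sub, nm_fix (A_nm hX v) rfl, sub_self]
    have a2 := hw ⟨v - nm X 3 v - nm Y 7 (v - nm X 3 v), show nm X 3 _ = 0 by rw [map_sub, c2, a1, map_zero, sub_self],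
      show nm Y 7 _ = 0 by rw [map_sub, nm_fix (A_nm hY _) rfl, sub_self]⟩
    change polar q _ (w : V) = 0 at a2
    rwa [polar_sub_left, polar_sub_left, nm_ort q qX rfl (A_nm hX v) w.2.1, nm_ort q qY rfl (A_nm hY _) w.2.2, sub_zero,
      sub_zero] at a2)
  have tX : ∀ v ∈ T, X v ∈ T := fun v h => ⟨show nm X 3 _ = 0 by rw [nm_comm 3 (Commute.refl X), h.1, map_zero],
    show nm Y 7 _ = 0 by rw [nm_comm 7 c.symm, h.2, map_zero]⟩
  have tY : ∀ v ∈ T, Y v ∈ T := fun v h => ⟨show nm X 3 _ = 0 by rw [nm_comm 3 c, h.1, map_zero],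
    show nm Y 7 _ = 0 by rw [nm_comm 7 (Commute.refl Y), h.2, map_zero]⟩
  have fX : ∀ v ∈ T, X v = v → v = 0 := fun v h e => (nm_fix e rfl).symm.trans h.1
  have fY : ∀ v ∈ T, Y v = v → v = 0 := fun v h e => (nm_fix e rfl).symm.trans h.2
  have a1 := cnt_mod hX tX T.zero_mem fX
  have a2 := cnt_mod hY tY T.zero_mem fY
  have a3 := cnt_mod hX (P := fun v => v ∈ T ∧ q v = 0) (fun v h => ⟨tX v h.1, (qX v).trans h.2⟩) ⟨T.zero_mem, map_zero q⟩
    fun v h => fX v h.1
  have a4 := cnt_mod hY (P := fun v => v ∈ T ∧ q v = 0) (fun v h => ⟨tY v h.1, (qY v).trans h.2⟩) ⟨T.zero_mem, map_zero q⟩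
    fun v h => fY v h.1
  rw [← Nat.card_congr (Equiv.subtypeSubtypeEquivSubtypeInter (· ∈ T) fun v => q v = 0)] at a3 a4
  obtain ⟨n, hn, e⟩ := (Nat.dvd_prime_pow Nat.prime_two).mp (hV ▸ AddSubgroup.card_addSubgroup_dvd_card T.toAddSubgroup)
  replace e : Nat.card T = 2 ^ n := e
  rw [e] at a1 a2 g
  obtain rfl | rfl := num12 hn a1 a2 a3 a4 g
  · refine Or.inr fun v => sub_eq_zero.mp (congrArg Subtype.val ((Nat.card_eq_one_iff_unique.mp e).1.elim
      ⟨Y (X v - v) - (X v - v), ?_, ?_⟩ 0))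
    · have : nm X 3 (X v - v) = 0 := by rw [map_sub, nm_comm 3 (Commute.refl X), A_nm hX, sub_self]
      show nm X 3 _ = 0
      rw [map_sub, nm_comm 3 c, this, map_zero, sub_self]
    · show nm Y 7 _ = 0
      rw [map_sub, nm_comm 7 (Commute.refl Y), A_nm hY, sub_self]
  · exact Or.inl fun v => fX v ((AddSubgroup.eq_top_of_card_eq T.toAddSubgroup (e.trans hV.symm)).ge trivial)

end

variable {G : Type*} [Group G] [Finite G] {z : G} {Q : Subgroup G}

theorem fpf3 (hl : LX Q z) (hc : Nat.card Q = 2 ^ 13) {x y : centralizer ({z} : Set G)} (x3 : x ^ 3 = 1) (y7 : y ^ 7 = 1)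
    (xQ : (x : G) ∉ Q) {M : Subgroup (centralizer ({z} : Set G))} (yM : y ∈ M) (h1 : ∀ a ∈ M, ((⁅a, x⁆ :) : G) ∈ Q)
    (h2 : ∀ K : Subgroup (centralizer ({z} : Set G)), (∀ a ∈ M, ∀ k ∈ K, a * k * a⁻¹ ∈ K) → Q.subgroupOf _ ≤ K → y ∈ K → x ∈ K) :
    ∀ q ∈ Q, x * q = q * x → q ∈ zpowers z := by
  classical
  obtain ⟨n, c, hz⟩ := hl.toSymT.exists_ES
  have nd := c.nd_of_isExtraspecial hl.isExtraspecial
  have hn := c.card_eq_pow
  rw [hc] at hn
  replace hn := Nat.pow_right_injective (le_refl 2) hn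
  let σ := LinearEquiv.automorphismGroup.toLinearMapMonoidHom.comp (nd.autHom.comp (Q.normalizerMonoidHom.comp (inclusion hl.nQ)))
  have cm : ∀ (h : centralizer ({z} : Set G)) {x}, x ∈ Q → h * x * (h : G)⁻¹ ∈ Q := fun h x =>
    hl.conj_mem (mem_centralizer_singleton_iff.mp h.2)
  have act : ∀ h x hx, σ h (c.π ⟨x, hx⟩) = c.π ⟨_, cm h hx⟩ := fun h x hx => nd.autHom_π _ _
  have ker : ∀ h, σ h = 1 ↔ (h : G) ∈ Q := fun h => ⟨fun e => hl.hF h (mem_centralizer_singleton_iff.mp h.2) fun q hq =>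
    (hz (⟨_, cm h hq⟩ * ⟨q, hq⟩⁻¹)).mp (by rw [c.mem_Z, c.π_mul, ← act h q hq, e, c.π_inv]; simp), fun e =>
    LinearMap.ext fun v => by
      obtain ⟨x, rfl⟩ := c.surj v
      rw [act h x x.2]
      exact (congrArg c.π (c.conj_eq ⟨h, e⟩ x)).trans (by simp [c.π_mul])⟩
  have cx : ∀ a ∈ M, Commute (σ x) (σ a) := fun a ha => by
    rw [Commute, SemiconjBy, ← map_mul, ← map_mul, ← one_mul (σ (x * a)), ← (ker _).mpr (h1 a ha), ← map_mul, eq_comm]
    congr 1; group
  have X3 : σ x ^ 3 = 1 := by rw [← map_pow, x3, map_one]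
  rcases fpf_or c.Q (by rw [Nat.card_fun, Nat.card_zmod, Nat.card_fin, show n = 12 by simpa [eq_comm] using hn])
    (fun w hw => nd w fun v => by rw [← c.polar_Q, polar_comm]; exact hw v) X3 (Y := σ y) (by rw [← map_pow, y7, map_one]) (cx y yM)
    (fun v => nd.Q_autHom _ v) fun v => nd.Q_autHom _ v with f | f
  · exact fun q hq e => (hz ⟨q, hq⟩).mp (c.mem_Z.mpr (f _ ((act x q hq).trans (congrArg c.π (Subtype.ext
      (mul_inv_eq_iff_eq_mul.mpr e))))))
  let K : Subgroup (centralizer ({z} : Set G)) :=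
    { carrier := {a | ∀ v, σ a (σ x v - v) = σ x v - v}
      one_mem' := fun v => by rw [map_one]; rfl
      mul_mem' := fun {a b} ha hb v => by rw [map_mul, Module.End.mul_apply, hb v, ha v]
      inv_mem' := fun {a} ha v => by rw [← ha v, ← Module.End.mul_apply, ← map_mul, inv_mul_cancel, map_one, ha v]; rfl }
  have l := h2 K (fun a ha k hk v => by
    have e : ∀ b ∈ M, ∀ v, σ b (σ x v - v) = σ x (σ b v) - σ b v := fun b hb v => by
      rw [map_sub]; exact congrArg (· - _) (DFunLike.congr_fun (cx b hb).eq v).symm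
    rw [map_mul, map_mul, Module.End.mul_apply, Module.End.mul_apply, e _ (inv_mem ha), hk, ← e _ (inv_mem ha),
      ← Module.End.mul_apply, ← map_mul, mul_inv_cancel, map_one]; rfl) (fun a ha v => by rw [(ker a).mpr ha]; rfl) f
  refine (xQ ((ker x).mp (LinearMap.ext fun v => sub_eq_zero.mp ((nm_fix (r := 3) (l v) rfl).symm.trans ?_)))).elim
  rw [map_sub, nm_comm 3 (Commute.refl _), A_nm X3]
  exact sub_self _

theorem exists_JF' (hl : LX Q z) (hc : Nat.card Q = 2 ^ 13) {N : Subgroup (centralizer ({z} : Set G))} [N.Normal]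
    (n1 : Q.subgroupOf _ ≤ N) (n4 : Nat.card N = 3 * Nat.card Q) (u : centralizer ({z} : Set G) ⧸ N ≃* MulAut Spor.M22)
    {x : centralizer ({z} : Set G)} (hx : x ∈ N) (x3 : x ^ 3 = 1) (hf : ∀ q ∈ Q, x * q = q * x → q ∈ zpowers z) :
    ∃ ρ p, ∃ m : FT z Q ρ p, JF m x := by
  obtain ⟨ρ, p, m, e⟩ := exists_F3 hl hc x3 hf
  obtain ⟨v⟩ := autM22
  let π := (u.trans v).toMonoidHom.comp (QuotientGroup.mk' _)
  have k0 : ρ.ker = Q.subgroupOf _ := Subgroup.ext m.ker
  have k2 : N.map ρ = Z := by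
    have := card_map_mul_card_inf_ker ρ N
    rw [k0, inf_eq_right.mpr n1, Nat.card_congr (subgroupOfEquivOfLe hl.le_centralizer).toEquiv, n4,
      Nat.mul_left_inj Nat.card_pos.ne'] at this
    exact (eq_of_le_of_card_ge (zpowers_le.mpr (mem_map.mpr ⟨_, hx, e⟩)) (by rw [this, card_Z])).symm
  have k3 : ∀ h, π h = 1 ↔ ρ h ∈ Z := fun h => by
    rw [← k2, ← mem_comap, comap_map_eq, k0, sup_eq_left.mpr n1]
    exact (map_eq_one_iff _ (u.trans v).injective).trans (QuotientGroup.eq_one_iff _)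
  have k4 : Function.Surjective π := (u.trans v).surjective.comp (QuotientGroup.mk'_surjective _)
  obtain ⟨θ, f⟩ := exists_lift ρ.rangeRestrict ρ.rangeRestrict_surjective π fun y hy =>
    (k3 y).mpr (by rw [show ρ y = 1 from congrArg Subtype.val hy]; exact one_mem _)
  obtain ⟨g, hg, l⟩ := cls22 (by rintro _ ⟨y, rfl⟩; exact m.og y) (MonoidHom.mem_range.mpr ⟨_, e⟩) θ
    (fun y => let ⟨c, r⟩ := k4 y; ⟨_, (f c).trans r⟩) fun y => by
      obtain ⟨c, rfl⟩ := ρ.rangeRestrict_surjective y; rw [f]; exact k3 c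
  exact ⟨_, _, m.shift (GU_OG hg), by rw [← l, MonoidHom.range_comp, map_conj_eq_smul],
    by simp [e, W_comm hg], x3, π, k4, fun h => (k3 h).trans (Z_conj hg)⟩

end Cfsg.Agent.LL.U6
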