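import Cfsg.Agent.H21.JoO
import Cfsg.Agent.J4C.Gen

/-! Counting conjugacy classes. -/

set_option autoImplicit false
set_option maxRecDepth 100000
set_option linter.style.haveILetI false

namespace Cfsg.Agent.LL.U6

open Cfsg Cfsg.Agent.H16 MulAction Mdl Subgroup

section
variable {G : Type*} [Group G] {S T : Set G}

/-- the number of conjugacy classes meeting a set -/
noncomputable def kc (S : Set G) : ℕ := (ConjClasses.mk '' S).ncard

theorem kc_idx {ι : Type*} (r : ι → G) (h1 : ∀ i, r i ∈ S) (h2 : ∀ g ∈ S, ∃ i, IsConj (r i) g)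
    (h3 : ∀ i j, IsConj (r i) (r j) → i = j) : kc S = Nat.card ι := by
  rw [kc, show ConjClasses.mk '' S = Set.range fun i => ConjClasses.mk (r i) from Set.Subset.antisymm (by
    rintro _ ⟨g, hg, rfl⟩; exact (h2 g hg).imp fun i => ConjClasses.mk_eq_mk_iff_isConj.mpr) (by
    rintro _ ⟨i, rfl⟩; exact ⟨_, h1 i, rfl⟩), Set.ncard_range_of_injective fun i j e => h3 i j (ConjClasses.mk_eq_mk_iff_isConj.mp e)]

theorem kc_reps [Finite G] (S : Set G) : ∃ r : Fin (kc S) → G, (∀ i, r i ∈ S) ∧ (∀ g ∈ S, ∃ i, IsConj (r i) g) ∧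
    ∀ i j, IsConj (r i) (r j) → i = j := by
  let e : Fin (kc S) ≃ ConjClasses.mk '' S := (Finite.equivFinOfCardEq rfl).symm
  choose r h1 h2 using fun i => (e i).2
  exact ⟨r, h1, fun g hg => ⟨e.symm ⟨_, g, hg, rfl⟩, ConjClasses.mk_eq_mk_iff_isConj.mp (by rw [h2, e.apply_symm_apply])⟩,
    fun i j h => e.injective (Subtype.ext (by rw [← h2, ← h2]; exact ConjClasses.mk_eq_mk_iff_isConj.mpr h))⟩

theorem kc_union [Finite G] (h : ∀ a ∈ S, ∀ b ∈ T, ¬ IsConj a b) : kc (S ∪ T) = kc S + kc T := by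
  rw [kc, Set.image_union, Set.ncard_union_eq (Set.disjoint_left.mpr (by
    rintro _ ⟨a, ha, rfl⟩ ⟨b, hb, e⟩; exact h a ha b hb (ConjClasses.mk_eq_mk_iff_isConj.mp e.symm)))]; rfl

theorem kc_univ : kc (Set.univ : Set G) = Nat.card (ConjClasses G) := by
  rw [kc, Set.image_univ, ConjClasses.mk_surjective.range_eq, Set.ncard_univ]

theorem kc_ord [Finite G] {P R : ℕ → Prop} (h : ∀ n, P n → ¬ R n) :
    kc {g : G | P (orderOf g) ∨ R (orderOf g)} = kc {g : G | P (orderOf g)} + kc {g : G | R (orderOf g)} :=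
  kc_union fun a ha b hb c => h _ ha (by obtain ⟨u, e⟩ := c; exact e.orderOf_eq ▸ hb)

theorem kc_prime [Finite G] {u : G} {p e : ℕ} (hp : p.Prime) (hu : orderOf u = p) (hn : ¬ p ^ 2 ∣ Nat.card G)
    (he : Nat.card (normalizer (zpowers u : Set G)) = e * Nat.card (centralizer ({u} : Set G))) :
    kc {g : G | orderOf g = p} * e = p - 1 := by
  classical
  haveI := Fintype.ofFinite G
  haveI := Fact.mk hp
  let s := (Finset.univ.filter (· ∈ zpowers u)).erase 1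
  have hs : ∀ v, v ∈ s ↔ v ≠ 1 ∧ v ∈ zpowers u := by simp [s]
  have o : ∀ v ∈ s, orderOf v = p ∧ zpowers v = zpowers u := fun v hv => by
    have a : orderOf v = p := orderOf_eq_prime (by obtain ⟨k, rfl⟩ := ((hs v).mp hv).2; rw [← zpow_natCast, ← zpow_mul, mul_comm, zpow_mul, ← hu]; simp) ((hs v).mp hv).1
    exact ⟨a, eq_of_le_of_card_ge (zpowers_le.mpr ((hs v).mp hv).2) (by rw [Nat.card_zpowers, Nat.card_zpowers, a, hu])⟩
  have h1 : s.card = p - 1 := by
    rw [Finset.card_erase_of_mem (by simp), ← Fintype.card_subtype, Fintype.card_zpowers, hu]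
  have h2 : ConjClasses.mk '' {g : G | orderOf g = p} = (s.image ConjClasses.mk : Finset _) := by
    rw [Finset.coe_image]
    refine Set.Subset.antisymm ?_ (Set.image_mono fun v hv => (o v hv).1)
    rintro _ ⟨v, hv, rfl⟩
    obtain ⟨g, -, f⟩ := J4C.conj_zp hp hv hu (mem_top v) (mem_top u) (by simpa using hn)
    exact ⟨g * v * g⁻¹, (hs _).mpr ⟨fun e => hp.one_lt.ne (by simpa [conj_eq_one_iff.mp e] using hv), f ▸ mem_zpowers _⟩,
      ConjClasses.mk_eq_mk_iff_isConj.mpr (isConj_iff.mpr ⟨g, rfl⟩).symm⟩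
  have h3 : ∀ b ∈ s.image ConjClasses.mk, (s.filter (ConjClasses.mk · = b)).card = e := fun b hb => by
    obtain ⟨w, hw, rfl⟩ := Finset.mem_image.mp hb
    have a := J4C.card_orb (normalizer (zpowers u : Set G)) w
    rw [J4C.cent_eq (o w hw).2, inf_eq_right.mpr ((H16.centralizer_zpowers u).ge.trans (centralizer_le_normalizer _)), he,
      Nat.mul_left_inj Nat.card_pos.ne'] at a
    rw [a, ← Set.ncard_coe_finset]
    refine congrArg _ (Set.ext fun y => ?_)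
    simp only [Finset.coe_filter, Set.mem_ofPred_eq, ConjClasses.mk_eq_mk_iff_isConj]
    refine ⟨fun ⟨a, c⟩ => ?_, ?_⟩
    · obtain ⟨g, rfl⟩ := isConj_iff.mp c.symm
      refine ⟨g, H3.mem_normalizer_of_conj_mem fun v hv => ?_, rfl⟩
      obtain ⟨k, rfl⟩ := (o w hw).2.ge hv
      exact conj_zpow (a := g) ▸ zpow_mem ((hs _).mp a).2 k
    · rintro ⟨g, hg, rfl⟩
      exact ⟨(hs _).mpr ⟨mt conj_eq_one_iff.mp ((hs _).mp hw).1, (mem_normalizer_iff.mp hg w).mp ((hs _).mp hw).2⟩,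
        (isConj_iff.mpr ⟨g, rfl⟩).symm⟩
  rw [kc, h2, Set.ncard_coe_finset, ← h1, Finset.card_eq_sum_card_image ConjClasses.mk s, Finset.sum_congr rfl h3]
  simp

theorem card_S5 : Nat.card (ConjClasses (Equiv.Perm (Fin 5))) = 7 := by
  rw [← kc_univ, kc_idx (ι := Fin 7) ![1, Equiv.swap 0 1, Equiv.swap 0 1 * Equiv.swap 2 3, Equiv.swap 0 1 * Equiv.swap 1 2,
    Equiv.swap 0 1 * Equiv.swap 1 2 * Equiv.swap 2 3, Equiv.swap 0 1 * Equiv.swap 1 2 * Equiv.swap 3 4,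
    Equiv.swap 0 1 * Equiv.swap 1 2 * Equiv.swap 2 3 * Equiv.swap 3 4] (by simp) (by simp only [isConj_iff]; decide +kernel)
    (by simp only [isConj_iff]; decide +kernel), Nat.card_fin]

end

section
variable {K : Subgroup Γ} {L : N.Lv}

noncomputable def wd3 (L : N.Lv) (e : ℕ) : ℕ := force (L.u o (Nat.mod (Nat.land e 2047) L.m)) fun a =>
  force (L.u o (Nat.mod (Nat.land (Nat.shiftRight e 11) 2047) L.m)) fun b =>
    force (L.u o (Nat.mod (Nat.shiftRight e 22) L.m)) fun c => force (mul12 b c) (mul12 a)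

theorem wd3_in (h : N.TabIn M K L) (hm : 0 < L.m) (e : ℕ) : M.In K (wd3 L e) := by
  simp only [wd3, force_eq]
  exact (h _ (Nat.mod_lt _ hm)).in.mul ((h _ (Nat.mod_lt _ hm)).in.mul (h _ (Nat.mod_lt _ hm)).in)

noncomputable def clk (L : N.Lv) (reps : List ℕ) (T i p : ℕ) : Bool := force (get 40 T i) fun e =>
  force (wd3 L (Nat.shiftRight e 5)) fun u => force (nth o.one reps (Nat.land e 31)) (cjM o u p)

/-- conjugate to a listed element, or of order `7` or `14` -/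
noncomputable def clf (L : N.Lv) (reps xs : List ℕ) (T m1 m2 p : ℕ) : Bool := force p fun p => force (keyL p xs) fun k =>
  orB (clk L reps T (Nat.mod k m1) p) (orB (clk L reps T (Nat.add m1 (Nat.mod k m2)) p)
    (andB (isOne o (powM o p 14)) (force (powM o p 2) fun a => neB o pts a o.one)))

theorem clf_spec (h : N.TabIn M K L) (hm : 0 < L.m) {reps xs : List ℕ} (hr : M.InL K reps) (h1 : o.one ∈ reps) {T m1 m2 p : ℕ}
    {g : Γ} (r : M.R p g) (h7 : ¬ 7 ∣ orderOf g) (e : clf L reps xs T m1 m2 p = true) :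
    ∃ t ∈ reps, ∃ u ∈ K, u * g * u⁻¹ = el t := by
  have k : ∀ {i}, clk L reps T i p = true → ∃ t ∈ reps, ∃ u ∈ K, u * g * u⁻¹ = el t := fun {i} e => by
    simp only [clk, force_eq] at e
    obtain ⟨u, hu, s⟩ := wd3_in h hm (Nat.shiftRight (get 40 T i) 5)
    obtain ⟨τ, -, s'⟩ := hr.nth (Nat.land (get 40 T i) 31)
    exact ⟨_, (nth_mem _ _ _).elim (fun f => by rw [f]; exact h1) id, u, hu, cjM_spec s r (R_el s') e⟩
  simp only [clf, force_eq, orB_iff, andB_iff] at e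
  rcases e with e | e | e
  exacts [k e, k e, absurd (orderOf_dvd_of_pow_eq_one (isOne_spec (R_pow r 14) e.1)) fun f => ne_of_neB hv hpt (R_pow r 2) M.R_one e.2
    (orderOf_dvd_iff_pow_eq_one.mp ((Nat.Coprime.symm ((Nat.Prime.coprime_iff_not_dvd (by norm_num)).mpr h7)).dvd_of_dvd_mul_left
      (f : _ ∣ 7 * 2)))]

noncomputable def kk (s x : ℕ) : ℕ := Nat.land (mul12Ap s x) 4095
noncomputable def red (s g x : ℕ) : ℕ := force (kk s x) fun k => Nat.xor (Nat.xor k x) (mul12Ap g k)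

theorem kk_lt (s x : ℕ) : kk s x < 4096 := Nat.lt_succ_of_le Nat.and_le_right

/-- the orbits on the vectors lying over a class representative -/
structure CV where
  g : ℕ
  n : ℕ
  s : ℕ
  ws : List ℕ
  C : ℕ
  nc : ℕ

noncomputable def CV.mask (d : CV) (L : N.Lv) (ok : ℕ → Bool) : ℕ := orQ d.nc fun i => force (get 48 d.C i) fun e =>
  force (Nat.land e 4095) fun w => force (wd3 L (Nat.shiftRight e 12)) fun u => force (mul12Ap u w) fun y =>
    ifB (andB (andB (cjM o u d.g d.g) (ok (kk d.s y))) (anyL d.ws (Nat.beq w))) (bit (red d.s d.g y)) 0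

noncomputable def CV.ok (d : CV) (L : N.Lv) (ok : ℕ → Bool) (lf : ℕ → ℕ → ((ℕ → Bool) → ℕ) → ℕ) : Bool :=
  andB (andB (Nat.beq (ordF d.g 40 1 d.g) d.n) (Nat.blt 0 d.n)) (Nat.beq (lf d.g d.n fun t => force (d.mask L ok) fun R =>
    ifB (allN 4096 fun x => impB (andB (ok x) (t x)) (andB (ok (kk d.s x)) (tb R (red d.s d.g x)))) 1 0) 1)

variable {d : CV} {ok : ℕ → Bool} {lf : ℕ → ℕ → ((ℕ → Bool) → ℕ) → ℕ} {γ : Γ}

theorem CV.ord (r : M.R d.g γ) (e : d.ok L ok lf = true) : orderOf γ = d.n := by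
  simp only [CV.ok, andB_iff, Nat.beq_eq, Nat.blt_eq] at e
  exact (ordF_spec r 40 (by rwa [pow_one]) one_pos (by omega) (by omega)).trans e.1.1

theorem CV.cov {X : Type*} [Group X] {vec : X → V6} {lin : X →* Γ} (h : Aff vec lin) (hL : N.TabIn M K L) (hm : 0 < L.m)
    (hl : ∀ u ∈ K, ∃ a, vec a = 0 ∧ lin a = u) (ht : ∀ k < 4096, ok k = true → ∃ a, vec a = vc k ∧ lin a = 1)
    {cd : V6 → Γ → Prop} (hc : ∀ m μ, M.R m μ → ∃ t : ℕ → Bool, (∀ x < 4096, t x = true ↔ cd (vc x) μ) ∧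
      ∀ f, lf m (orderOf μ) f = f t) (r : M.R d.g γ) (e : d.ok L ok lf = true) {b : X} {x : ℕ} (hx : x < 4096)
    (h1 : vec b = vc x) (h2 : lin b = γ) (h3 : ok x = true) (h4 : cd (vc x) γ) :
    ∃ w ∈ d.ws, ∃ a, lin a ∈ K ∧ vec (a * b * a⁻¹) = vc w ∧ lin (a * b * a⁻¹) = γ := by
  obtain ⟨t, t1, t2⟩ := hc _ _ r
  have o := CV.ord r e
  simp only [CV.ok, andB_iff, Nat.beq_eq, ← o, t2, force_eq, ifB_eq, ite_eq_left_iff, zero_ne_one, imp_false, not_not, allN_iff,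
    impB_iff, tb_eq] at e
  obtain ⟨k1, k2⟩ := e.2 x hx ⟨h3, (t1 x hx).mpr h4⟩
  obtain ⟨i, -, k3⟩ := testBit_orQ k2
  simp only [force_eq, ifB_eq, andB_iff, anyL_iff, Nat.beq_eq] at k3
  split_ifs at k3 with k4
  swap
  · simp at k3
  obtain ⟨⟨k4, k5⟩, w, hw, k6⟩ := k4
  obtain ⟨u, hu, s⟩ := wd3_in hL hm (Nat.shiftRight (get 48 d.C i) 12)
  have w1 : w < 4096 := k6 ▸ Nat.lt_succ_of_le Nat.and_le_right
  rw [k6] at k3 k5
  obtain ⟨a1, a2, a3⟩ := ht _ (kk_lt _ _) k1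
  obtain ⟨b1, b2, b3⟩ := ht _ (kk_lt _ _) k5
  obtain ⟨c1, c2, c3⟩ := hl _ (inv_mem hu)
  have c4 := cjM_spec s r r k4
  have l : ∀ y, vc (red d.s d.g y) = vc (kk d.s y) + vc y + γ (vc (kk d.s y)) := fun y => by
    rw [red, force_eq, (R_ap r (kk_lt _ _)).2, ← vc_xor, ← vc_xor]; rfl
  have m1 := (l x).symm.trans ((congrArg vc ((testBit_bit _ _).mp k3)).trans (l _))
  have m2 : u⁻¹ * γ * u = γ := by rw [← c4]; simp only [← mul_assoc, inv_mul_cancel, one_mul, inv_mul_cancel_right]; exact c4.symm ▸ rfl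
  refine ⟨w, hw, c1 * (b1 * a1), by simpa [a3, b3, c3] using hu, ?_, by simpa [a3, b3, c3, h2] using m2⟩
  rw [cjcj, cjcj, h.conj, h.conj, h.conj]
  simp only [a2, a3, b2, b3, c2, c3, h1, h2, map_mul, map_inv, one_mul, inv_one, mul_one, Equiv.Perm.coe_one, id, m1, zero_add,
    inv_inv, m2, show γ 0 = 0 by simpa using R_add r 0 0, add_zero]
  rw [← add_assoc, ← add_assoc, add_self, zero_add, add_assoc, add_self, add_zero, ← (R_ap s w1).2]
  simp

end

end Cfsg.Agent.LL.U6
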