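import Cfsg.Agent.H21.Jk2

/-! Classes of the centralizer of the central involution: orbits on vectors. -/

set_option autoImplicit false
set_option maxRecDepth 100000
set_option Elab.async false

namespace Cfsg.Agent.LL.U6

open Cfsg Cfsg.Agent.H16 MulAction Mdl

theorem zV0_ok : zV0.ok XB0 (fun _ => true) lfZ = true := by decide +kernel
theorem zV1_ok : zV1.ok XB0 (fun _ => true) lfZ = true := by decide +kernel
theorem zV2_ok : zV2.ok XB0 (fun _ => true) lfZ = true := by decide +kernel
theorem zV3_ok : zV3.ok XB0 (fun _ => true) lfZ = true := by decide +kernel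
theorem zV4_ok : zV4.ok XB0 (fun _ => true) lfZ = true := by decide +kernel
theorem zV5_ok : zV5.ok XB0 (fun _ => true) lfZ = true := by decide +kernel
theorem zV6_ok : zV6.ok XB0 (fun _ => true) lfZ = true := by decide +kernel
theorem zV7_ok : zV7.ok XB0 (fun _ => true) lfZ = true := by decide +kernel
theorem zV8_ok : zV8.ok XB0 (fun _ => true) lfZ = true := by decide +kernel
theorem zV9_ok : zV9.ok XB0 (fun _ => true) lfZ = true := by decide +kernel
theorem zV10_ok : zV10.ok XB0 (fun _ => true) lfZ = true := by decide +kernel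
theorem zV11_ok : zV11.ok XB0 (fun _ => true) lfZ = true := by decide +kernel
theorem zV12_ok : zV12.ok XB0 (fun _ => true) lfZ = true := by decide +kernel
theorem zV13_ok : zV13.ok XB0 (fun _ => true) lfZ = true := by decide +kernel
theorem zV14_ok : zV14.ok XB0 (fun _ => true) lfZ = true := by decide +kernel
theorem zV15_ok : zV15.ok XB0 (fun _ => true) lfZ = true := by decide +kernel
theorem zV16_ok : zV16.ok XB0 (fun _ => true) lfZ = true := by decide +kernel
theorem zV17_ok : zV17.ok XB0 (fun _ => true) lfZ = true := by decide +kernel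
theorem zV18_ok : zV18.ok XB0 (fun _ => true) lfZ = true := by decide +kernel
theorem zV19_ok : zV19.ok XB0 (fun _ => true) lfZ = true := by decide +kernel
theorem zV20_ok : zV20.ok XB0 (fun _ => true) lfZ = true := by decide +kernel
theorem zV21_ok : zV21.ok XB0 (fun _ => true) lfZ = true := by decide +kernel
theorem zV22_ok : zV22.ok XB0 (fun _ => true) lfZ = true := by decide +kernel
theorem zV23_ok : zV23.ok XB0 (fun _ => true) lfZ = true := by decide +kernel
theorem zV24_ok : zV24.ok XB0 (fun _ => true) lfZ = true := by decide +kernel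
theorem zV25_ok : zV25.ok XB0 (fun _ => true) lfZ = true := by decide +kernel
theorem zVL_ok : ∀ d ∈ zVL, d.ok XB0 (fun _ => true) lfZ = true := by
  simp only [zVL, List.forall_mem_cons]
  exact ⟨zV0_ok, zV1_ok, zV2_ok, zV3_ok, zV4_ok, zV5_ok, zV6_ok, zV7_ok, zV8_ok, zV9_ok, zV10_ok, zV11_ok, zV12_ok, zV13_ok, zV14_ok, zV15_ok, zV16_ok, zV17_ok, zV18_ok, zV19_ok, zV20_ok, zV21_ok, zV22_ok, zV23_ok, zV24_ok, zV25_ok, by simp⟩
end Cfsg.Agent.LL.U6
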