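import Cfsg.Agent.H21.Jk3
import Cfsg.Agent.H21.Jk4
import Cfsg.Agent.H21.Jk5
import Cfsg.Agent.H21.JaI
import Cfsg.Agent.J4C.M

/-! The classes of the two involution centralizers. -/

set_option autoImplicit false
set_option maxRecDepth 100000
set_option linter.style.haveILetI false

namespace Cfsg.Agent.LL.U6

open Cfsg Cfsg.Agent.H16 Cfsg.Agent.H3 Cfsg.Agent.H10 MulAction Mdl Subgroup

theorem half {G : Type*} [Group G] [Finite G] {g : G} (h : 2 ∣ orderOf g) : orderOf (g ^ (orderOf g / 2)) = 2 :=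
  orderOf_pow_orderOf_div (orderOf_pos g).ne' h

theorem dvd_of_cop {n a : ℕ} {l : List ℕ} (h : n ∣ a * l.prod) (hl : ∀ p ∈ l, p.Prime ∧ ¬ p ∣ n) : n ∣ a :=
  (Nat.coprime_list_prod_right_iff.mpr fun p hp => ((Nat.Prime.coprime_iff_not_dvd (hl p hp).1).mpr (hl p hp).2).symm).dvd_of_dvd_mul_right h

section
variable {K : Subgroup Γ} {L : N.Lv} {reps : List ℕ} (h : N.TabIn M K L) (hm : 0 < L.m) (hr : M.InL K reps) (h1 : o.one ∈ reps)
  {g : Γ} (h7 : ¬ 7 ∣ orderOf g)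
include h hm hr h1 h7

theorem clf_conj {xs : List ℕ} {T m1 m2 : ℕ} {c : Γ} (hc : c ∈ K) (e : ∃ p, M.R p (c * g * c⁻¹) ∧ clf L reps xs T m1 m2 p = true) :
    ∃ t ∈ reps, ∃ u ∈ K, u * g * u⁻¹ = el t :=
  let ⟨_, r, e⟩ := e; let ⟨t, ht, u, hu, f⟩ := clf_spec h hm hr h1 r (by rwa [orderOf_conj']) e
  ⟨t, ht, u * c, mul_mem hu hc, by rwa [cjcj]⟩
where orderOf_conj' : orderOf (c * g * c⁻¹) = orderOf g := (MulAut.conj c).orderOf_eq g

theorem clf_cent {xs : List ℕ} {T m1 m2 n : ℕ} {C : Subgroup Γ} {lv : List N.Lv} (hc : N.Chain M lv C) {γ : Γ} {u : ℕ → Γ}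
    (c : Cl K γ n u) (hγ : γ ∈ K) (hC : C ≤ K ⊓ centralizer {γ}) (hn : n * Nat.card C = Nat.card K) (n0 : 0 < Nat.card K)
    (e : N.enumM o (clf L reps xs T m1 m2) lv o.one = true) (hg : g ∈ K) {k : Γ} (hk : k ∈ K) {i : ℕ} (f : k * g ^ i * k⁻¹ = γ) :
    ∃ t ∈ reps, ∃ u ∈ K, u * g * u⁻¹ = el t :=
  clf_conj h hm hr h1 h7 hk (hc.forall e ((eq_of_le_of_card_ge hC (Nat.le_of_mul_le_mul_left ((c.card hγ).trans hn.symm).le
    (Nat.pos_of_mul_pos_right (hn ▸ n0)))).ge (mem_inf.mpr ⟨mul_mem (mul_mem hk hg) (inv_mem hk),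
      mem_centralizer_singleton_iff.mpr (by rw [← f, conj_mul, conj_mul, pow_mul_comm'])⟩)))

end

theorem xj_cov (hj : ∀ g ∈ XJ, g * el ja = el ja * g → g ∈ zpowers (Wm * el ja)) {g : Γ} (hg : g ∈ XJ) (h7 : ¬ 7 ∣ orderOf g) :
    ∃ t ∈ zRL, ∃ u ∈ XJ, u * g * u⁻¹ = el t := by
  have a := @clf_cent _ _ _ XB0_tab (by decide) zRL_in (by decide +kernel) _ h7
  have b := @clf_conj _ _ _ XB0_tab (by decide) zRL_in (by decide +kernel) _ h7
  have c := zT0_ok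
  simp only [andB_iff, allB_iff] at c
  have n0 : 0 < Nat.card XJ := by rw [XJ_card]; norm_num
  by_cases h2 : 2 ∣ orderOf g
  · have o := half h2
    obtain ⟨k, hk, e⟩ := cls4 (pow_mem hg (orderOf g / 2)) (H11.mul_self_of_orderOf_two o)
    have l : ∀ {γ}, g ^ (orderOf g / 2) = k * γ * k⁻¹ → k⁻¹ * g ^ (orderOf g / 2) * k⁻¹⁻¹ = γ := fun e => by rw [e]; group
    rcases e with e | e | e | e
    · simp [e, el_one] at o
    · exact a zC1_ch zD1_cl.1 zg1.2 zC1_le' (by rw [zC1_card, XJ_card]) n0 zT1_ok hg (inv_mem hk) (l e)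
    · exact a zC2_ch zD2_cl.1 zg2.2 zC2_le' (by rw [zC2_card, XJ_card]) n0 zT2_ok hg (inv_mem hk) (l e)
    · exact a zC3_ch zD3_cl.1 zg3.2 zC3_le' (by rw [zC3_card, XJ_card]) n0 zT3_ok hg (inv_mem hk) (l e)
  have l : ∀ {p v}, p.Prime → p ∣ orderOf g → orderOf v = p → v ∈ XJ → ¬ p ^ 2 ∣ 2661120 →
      ∃ k ∈ XJ, k * g * k⁻¹ ∈ XJ ∧ k * g * k⁻¹ * v = v * (k * g * k⁻¹) := fun {p v} hp h1 h2 h3 h4 => by
    obtain ⟨k, hk, e⟩ := J4C.conj_zp hp (orderOf_pow_orderOf_div (orderOf_pos g).ne' h1) h2 (pow_mem hg _) h3 (XJ_card ▸ h4)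
    exact ⟨k, hk, mul_mem (mul_mem hk hg) (inv_mem hk), J4C.mc.mp (J4C.cent_eq e ▸ J4C.mc.mpr (by rw [conj_mul, conj_mul, pow_mul_comm']))⟩
  by_cases h11 : 11 ∣ orderOf g
  · obtain ⟨k, hk, e, f⟩ := l (by norm_num) h11 ord_ja (J0_XJ ja_J) (by norm_num)
    obtain ⟨i, hi, e⟩ := exists_pow_of_mem (p := 33) (by norm_num) (by
      rw [(Commute.symm (W_comm (J0_GU ja_J))).orderOf_mul_eq_mul_orderOf_of_coprime (by rw [orderOf_W, ord_ja]; norm_num),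
        orderOf_W, ord_ja]) (hj _ e f)
    exact b hk ⟨_, e ▸ R_pow (M.R_mul R_W R_ja) i, c.2.1 i hi⟩
  by_cases h5 : 5 ∣ orderOf g
  · obtain ⟨k, hk, e, f⟩ := l (by norm_num) h5 J4D.ord_jb (J0_XJ jb_J) (by norm_num)
    obtain ⟨i, hi, j, hj, r⟩ := J4D.cent2 e f
    exact b hk ⟨_, r, c.2.2 i hi j hj⟩
  haveI := XA_ch.finite
  obtain ⟨k, hk, e⟩ := exists_conj_mem_of_pow (R3_J0.trans J0_XJ) (p := 3) (k := 3) (m := 98560) (by norm_num) R3_card XJ_card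
    (by norm_num) hg (j := 3) (orderOf_dvd_iff_pow_eq_one.mp (dvd_of_cop (l := [2, 2, 2, 2, 2, 2, 2, 2, 5, 7, 11])
      ((orderOf_dvd_natCard _ hg).trans XJ_card.dvd) (by simp [*]; norm_num)))
  exact b hk (R3_ch.forall c.1 e)

theorem kl_cov {g : Γ} (hg : g ∈ KL) (h7 : ¬ 7 ∣ orderOf g) : ∃ t ∈ tRL, ∃ u ∈ KL, u * g * u⁻¹ = el t := by
  have a := @clf_cent _ _ _ tL_tab (by decide) tRL_in (by decide +kernel) _ h7
  have b := @clf_conj _ _ _ tL_tab (by decide) tRL_in (by decide +kernel) _ h7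
  have c := tT0_ok
  simp only [andB_iff, allB_iff] at c
  have n0 : 0 < Nat.card KL := by rw [KL_card]; norm_num
  by_cases h2 : 2 ∣ orderOf g
  · have o := half h2
    obtain ⟨t, ht, k, hk, r⟩ := clsL (pow_mem hg (orderOf g / 2)) (H11.mul_self_of_orderOf_two o)
    have e := R_fun r (R_el r)
    simp only [List.mem_cons, List.not_mem_nil, or_false] at ht
    rcases ht with rfl | rfl | rfl | rfl
    · simp [conj_eq_one_iff.mp (e.trans el_one)] at o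
    · exact a tC1_ch tD1_cl.1 tg1.2 tC1_le' (by rw [tC1_card, KL_card]) n0 tT1_ok hg hk e
    · exact a tC2_ch tD2_cl.1 tg2.2 tC2_le' (by rw [tC2_card, KL_card]) n0 tT2_ok hg hk e
    · exact a tC3_ch tD3_cl.1 tg3.2 tC3_le' (by rw [tC3_card, KL_card]) n0 tT3_ok hg hk e
  have l : ∀ {p m v}, p.Prime → g ^ p = 1 → v ∈ tRL → andB (isOne o (powM o v p)) (neB o pts v o.one) = true → 887040 = p * m →
      ¬ p ∣ m → (∀ i < p, tF0 (powM o v i) = true) → ∃ t ∈ tRL, ∃ u ∈ KL, u * g * u⁻¹ = el t := fun {p m v} hp h1 h2 h3 h4 h5 h6 => by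
    obtain ⟨γ, hγ, r⟩ := tRL_in v h2
    have o := Mdl.orderOf_prime hv hpt r hp h3
    obtain ⟨k, hk, e⟩ := exists_conj_mem_of_pow (zpowers_le.mpr hγ) hp (k := 1) (by rw [Nat.card_zpowers, o, pow_one])
      (by rw [KL_card, pow_one, h4]) h5 hg (j := 1) (by rwa [pow_one])
    obtain ⟨i, hi, e⟩ := exists_pow_of_mem hp.pos o e
    exact b hk ⟨_, e ▸ R_pow r i, h6 i hi⟩
  obtain ⟨τ, hτ, rfl⟩ := id hg
  have ot := orderOf_injective th th_inj τ
  have cm : ∀ i, τ ∈ centralizer {τ ^ i} := fun i => J4C.mc.mpr (pow_mul_comm' τ i).symm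
  by_cases h11 : 11 ∣ orderOf τ
  · have o := orderOf_pow_orderOf_div (orderOf_pos τ).ne' h11
    exact l (p := 11) (m := 80640) (by norm_num) (by
      rw [← map_pow, orderOf_dvd_iff_pow_eq_one.mp (o ▸ orderOf_dvd_of_mem_zpowers ((cent11 o).le (cm _))), map_one])
      (by decide +kernel) (by decide +kernel) rfl (by norm_num) c.2.2
  by_cases h5 : 5 ∣ orderOf τ
  · have o := J4C.stab5 (orderOf_pow_orderOf_div (orderOf_pos τ).ne' h5) Du_card (pow_mem hτ _)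
    exact l (p := 5) (m := 177408) (by norm_num) (orderOf_dvd_iff_pow_eq_one.mp (dvd_of_cop (l := [2])
      (ot ▸ (orderOf_dvd_natCard _ (mem_inf.mpr ⟨cm _, hτ⟩)).trans o.dvd) (by simp [h2, Nat.prime_two])))
      (by decide +kernel) (by decide +kernel) rfl (by norm_num) c.2.1
  obtain ⟨k, hk, e⟩ := exists_conj_mem_of_pow tN_le' (p := 3) (k := 2) (m := 98560) (by norm_num) tN_card KL_card
    (by norm_num) hg (j := 2) (orderOf_dvd_iff_pow_eq_one.mp (dvd_of_cop (l := [2, 2, 2, 2, 2, 2, 2, 2, 5, 7, 11])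
      ((orderOf_dvd_natCard _ hg).trans KL_card.dvd) (by rw [ot] at h2 h7 ⊢; simp [h2, h5, h7, h11]; norm_num)))
  exact b hk (tN_ch.forall c.1 e)

end Cfsg.Agent.LL.U6
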