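import Cfsg.Agent.H21.Jk6

/-! The classes of elements of even order prime to seven. -/

set_option autoImplicit false
set_option maxRecDepth 100000
set_option linter.style.haveILetI false

namespace Cfsg.Agent.LL.U6

open Cfsg Cfsg.Agent.H16 Cfsg.Agent.H3 Cfsg.Agent.H10 MulAction Mdl Subgroup

def zd (l : Fin 23) : CV := zVL.getD (zLL.getD l (0, 0, 0)).1 zV0
def zw (l : Fin 23) : ℕ := (zLL.getD l (0, 0, 0)).2.1
def zu (l : Fin 23) : ℕ := (zLL.getD l (0, 0, 0)).2.2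
noncomputable def zb (l : Fin 23) : Bool := Nat.beq (mul12Ap (spN (zd l).g (zd l).n) (zw l)) 0
noncomputable def zi (l : Fin 23) : Bool := Nat.beq (mul12Ap (zd l).g 64) (mul12Ap cW (mul12Ap (zd l).g 1))

theorem zd_mem (l : Fin 23) : zd l ∈ zVL := by
  rw [zd, List.getD_eq_getElem _ _ ((by decide : ∀ l : Fin 23, (zLL.getD l (0, 0, 0)).1 < zVL.length) l)]; exact List.getElem_mem _
theorem zd_R {d : CV} (h : d ∈ zVL) : M.R d.g (el d.g) ∧ el d.g ∈ XJ := R_in (zRL_in _ (List.mem_map_of_mem h))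
theorem z_all : ∀ d ∈ zVL, ∀ w ∈ d.ws, ∃ l, (zd l).g = d.g ∧ zw l = w := by decide +kernel
theorem z_ok : ∀ l, zw l < 4096 ∧ ¬ 7 ∣ 4 * (zd l).n ∧ lfZ (zd l).g (zd l).n (fun t => ifB (t (zw l)) 1 0) = 1 ∧
    ((zd l).n % 2 = 1 ∧ zb l = true ∨ zu l < 4096 ∧ mul12Ap (zd l).g (zu l) = zu l ∧ ort (zu l) (zw l) = false ∧
      (zi l = true ∨ tb QT (zu l) = false)) := by decide +kernel
theorem z_sep : ∀ l l', l < l' → (zd l).n = (zd l').n → zb l = zb l' → zi l = zi l' →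
    (l, l') ∈ [(2, 3), (6, 7), (11, 12), (18, 19), (20, 21)] := by decide +kernel

noncomputable def ncB (g v v' a : ℕ) : Bool := force a fun a => orB (force (o.mul a g) fun b => force (o.mul g a) (neB o pts b))
  (force (mul12Ap a v) fun y => allN 4096 fun w => notB (Nat.beq (Nat.xor (Nat.xor w y) (mul12Ap g w)) v'))

theorem nc5 : (allB 2 fun k => allB 15 fun i => andB (ncB jb 1 5 (J4D.cw5 k i)) (ncB zV24.g 4 12 (J4D.cw5 k i))) = true := by
  decide +kernel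
theorem nc3 : N.enumM o (ncB zV19.g 2 3) zC1L o.one = true := by decide +kernel

theorem ncB_spec {g v v' a : ℕ} {γ c : Γ} (r : M.R g γ) (s : M.R a c) (hv' : v < 4096) (hv'' : v' < 4096) (e : ncB g v v' a = true)
    (h : c * γ * c⁻¹ = γ) (w : V6) : vc v' ≠ w + c (vc v) + γ w := fun f => by
  obtain ⟨w, hw, rfl⟩ := vc_surj w
  simp only [ncB, force_eq, orB_iff, allN_iff, notB_iff, Nat.beq_eq] at e
  rcases e with e | e
  · exact ne_of_neB hv hpt (M.R_mul s r) (M.R_mul r s) e (mul_inv_eq_iff_eq_mul.mp h)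
  · rw [(R_ap s hv').2, (R_ap r hw).2, ← vc_xor, ← vc_xor] at f
    exact e w hw (vc_inj (Nat.xor_lt_two_pow (n := 12) (Nat.xor_lt_two_pow (n := 12) hw (R_ap s hv').1) (R_ap r hw).1) hv'' f.symm)

theorem inn {c γ : Γ} (hc : c ∈ XJ) (h : γ * Wm = Wm * γ) : c * γ * c⁻¹ * Wm = Wm * (c * γ * c⁻¹) := by
  have k := Commute.conj h c
  rcases XJ_W hc with e | e <;> rw [e] at k
  · exact k
  · have := k.mul_right k
    rwa [← mul_assoc, ← pow_three', W3, one_mul] at this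

variable {G : Type*} [Group G]

theorem sgn_aux {z x n q : G} (zz : z * z = 1) (xz : x * z = z * x) (nz : n * z = z * n) (qz : q * z = z * q) (x3 : x ^ 3 = 1)
    (f : n * x * n⁻¹ = x * x) (g : n * q * n⁻¹ = z * q) (q2 : q * q = 1) (T : tr3 x q = 1 ∨ tr3 x q = z) : z = 1 := by
  have c : ∀ y, x * (z * y) * x⁻¹ = z * (x * y * x⁻¹) := fun y => by rw [← mul_assoc, xz]; group
  have k : ∀ y, n * (x * y * x⁻¹) * n⁻¹ = x * (x * (n * y * n⁻¹) * x⁻¹) * x⁻¹ := fun y => by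
    rw [← conj_mul, ← conj_mul, conj_inv (a := x) |>.symm.trans rfl, f]; group
  have x4 : x * (x * (x * (x * q * x⁻¹) * x⁻¹) * x⁻¹) * x⁻¹ = x * q * x⁻¹ := by
    calc _ = x ^ 3 * (x * q * x⁻¹) * (x ^ 3)⁻¹ := by simp only [pow_succ, pow_zero, one_mul, mul_inv_rev, mul_assoc]
      _ = _ := by rw [x3]; group
  have s : ∀ y, y * y = 1 ∧ y * z = z * y → x * y * x⁻¹ * (x * y * x⁻¹) = 1 ∧ x * y * x⁻¹ * z = z * (x * y * x⁻¹) := fun y h =>
    ⟨by rw [conj_mul, h.1, mul_one, mul_inv_cancel], by rw [← c, ← h.2, ← conj_mul, xz, mul_inv_cancel_right]⟩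
  have h1 := k q
  have h2 := k (x * q * x⁻¹)
  have s1 := s q ⟨q2, qz⟩
  have s2 := s _ s1
  rw [g, c, c] at h1
  rw [h1, c, c, x4] at h2
  have h3 : n * tr3 x q * n⁻¹ = tr3 x q := by rcases T with e | e <;> simp [e, nz]
  rw [tr3] at T h3
  generalize x * (x * q * x⁻¹) * x⁻¹ = b at *
  generalize x * q * x⁻¹ = a at *
  have h4 : a * b * (a * b) = 1 := by
    rw [mul_assoc] at T
    rcases T with e | e <;> rw [eq_inv_mul_iff_mul_eq.mpr e, inv_eq_of_mul_eq_one_right q2]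
    · rw [mul_one, q2]
    · rw [(show Commute z q from qz.symm).mul_mul_mul_comm, q2, zz, mul_one]
  have h5 : b * a = a * b := by
    rw [eq_inv_of_mul_eq_one_right h4, mul_inv_rev, inv_eq_of_mul_eq_one_right s1.1, inv_eq_of_mul_eq_one_right s2.1]
  rw [← conj_mul, ← conj_mul, g, h1, h2, (show Commute q z from qz).mul_mul_mul_comm, zz, one_mul, mul_assoc, ← mul_assoc b, s2.2,
    mul_assoc, h5, ← mul_assoc, qz, mul_assoc, ← mul_assoc q, mul_eq_right] at h3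
  exact h3

variable [Finite G] {z : G} {Q : Subgroup G} {ρ : centralizer ({z} : Set G) →* Γ} {p : G → V6}
  {m : FT z Q ρ p} {x : centralizer ({z} : Set G)} {b : ℕ → G} {d : ℕ → centralizer ({z} : Set G)} {t : Finset GolayPt → G}
  {Φ : normalizer (m.AG : Set G) →* M24}

theorem two_dvd {u g : G} (h : orderOf u = 2) (hu : u ∈ zpowers g) : 2 ∣ orderOf g := h ▸ orderOf_dvd_of_mem_zpowers hu

theorem conj_cent {u g g' c : G} (h : orderOf u = 2) (h1 : u ∈ zpowers g) (h2 : u ∈ zpowers g') (e : c * g * c⁻¹ = g') :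
    c ∈ centralizer {u} := mem_centralizer_singleton_iff.mpr (mul_inv_eq_iff_eq_mul.mp (H11.invol_unique_zpowers
  (((MulAut.conj c).orderOf_eq u).trans h) h (by obtain ⟨i, rfl⟩ := h1; exact ⟨i, e ▸ conj_zpow⟩) h2))

omit [Finite G] in
theorem conj_into {u v g : G} (h : IsConj u v) (h1 : v ∈ zpowers g) :
    ∃ g' ∈ centralizer {u}, IsConj g' g ∧ u ∈ zpowers g' ∧ orderOf g' = orderOf g := by
  obtain ⟨c, rfl⟩ := isConj_iff.mp h
  obtain ⟨i, e⟩ := h1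
  have f : (c⁻¹ * g * c⁻¹⁻¹) ^ i = u := by rw [conj_zpow, show g ^ i = _ from e]; group
  exact ⟨_, mem_centralizer_singleton_iff.mpr (f ▸ (Commute.refl _).zpow_right i), isConj_iff.mpr ⟨c, by group⟩, ⟨i, f⟩,
    (MulAut.conj c⁻¹).orderOf_eq g⟩

namespace JF
variable (j : JF m x)
include j

theorem cent_ja {g : Γ} (hg : g ∈ XJ) (h : g * el ja = el ja * g) : g ∈ zpowers (Wm * el ja) := by
  haveI : Fact (Nat.Prime 11) := ⟨by norm_num⟩
  obtain ⟨π, -, p2⟩ := j.pi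
  obtain ⟨y, -, y2, y3⟩ := j.lift_odd ja_J (n := 11) rfl (ord_ja ▸ pow_orderOf_eq_one _)
  obtain ⟨c, rfl⟩ := j.hr.ge hg
  have a1 : orderOf (π y : M24) = 11 := orderOf_eq_prime (by rw [← coe_pow, ← map_pow, y3, map_one, coe_one]) fun e => by
    have := orderOf_dvd_of_pow_eq_one (Z_cube ((p2 y).mp (Subtype.ext e)))
    rw [y2, ord_ja] at this; omega
  obtain ⟨l, e⟩ := (cent11 a1).le (x := π c) (mem_centralizer_singleton_iff.mpr (by
    rw [← coe_mul, ← coe_mul, ← map_mul, ← map_mul, Subtype.coe_inj, ← mul_inv_eq_one, ← map_inv, ← map_mul, p2]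
    simp [y2, h]))
  obtain ⟨i, f⟩ := (p2 (c * (y ^ l)⁻¹)).mp (by rw [map_mul, map_inv, map_zpow, mul_inv_eq_one]; exact Subtype.ext e.symm)
  have cm : Commute Wm (el ja) := (W_comm (J0_GU ja_J)).symm
  refine Set.mem_of_eq_of_mem (show ρ c = Wm ^ i * el ja ^ l by simpa [y2, eq_mul_inv_iff_mul_eq, eq_comm] using f)
    ((zpowers _).mul_mem (zpow_mem (mem_zpowers_iff.mpr ⟨(22 : ℕ), ?_⟩) i) (zpow_mem (mem_zpowers_iff.mpr ⟨(12 : ℕ), ?_⟩) l)) <;>
    simp only [zpow_natCast, cm.mul_pow] <;> rw [← pow_mod_orderOf Wm, ← pow_mod_orderOf (el ja), orderOf_W, ord_ja] <;> simp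

theorem N_commQ {n : centralizer ({z} : Set G)} (hn : n ∈ NX x) {q : G} (hq : q ∈ Q) (e : ρ n (p q) = p q)
    (h : ρ n * Wm = Wm * ρ n ∨ q * q = 1) : (n : G) * q = q * n := by
  by_cases i : ρ n * Wm = Wm * ρ n
  · exact m.y_comm j.hx (j.N_comm hn i) hq e
  have f := (j.nx.mp hn).resolve_left fun f => i (by
    have := congrArg ρ (mul_inv_eq_iff_eq_mul.mp f); rwa [map_mul, map_mul, j.hx] at this)
  exact (m.uniq hq (m.conj_mem n hq) (by rw [m.act _ hq, e])).elim mul_inv_eq_iff_eq_mul.mp fun g => (m.lx.ne_one (sgn_aux m.lx.zz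
    (mem_centralizer_singleton_iff.mp x.2) (mem_centralizer_singleton_iff.mp n.2) (m.lx.cent q hq) (congrArg Subtype.val j.x3)
    (congrArg Subtype.val f) g (h.resolve_left i) (m.lx.mem_z.mp (m.tr_mem j.hx hq)))).elim

end JF

namespace JC
variable (k : JC m x b d t Φ)
include k

theorem ex_rep (l : Fin 23) : ∃ r : centralizer ({z} : Set G), k.j.vz r = vc (zw l) ∧ ρ r = el (zd l).g ∧ z ∈ zpowers (r : G) := by
  obtain ⟨a, a1, a2⟩ := k.j.ex (vc (zw l)) (zd_R (zd_mem l)).2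
  by_cases h : 2 ∣ orderOf a
  · obtain ⟨τ, t1, t2⟩ := lfZ_ok _ _ (zd_R (zd_mem l)).1
    have := (z_ok l).2.2.1
    rw [← CV.ord (zd_R (zd_mem l)).1 (zVL_ok _ (zd_mem l)), t2, ifB_eq] at this
    exact ⟨a, a1, a2, (k.mem_cz h).mpr (a1 ▸ a2 ▸ (t1 _ (z_ok l).1).mp (by simpa using this))⟩
  obtain ⟨b1, b2⟩ := k.j.fib.mpr (Or.inr rfl : zc z * a = a ∨ _)
  refine ⟨_, b1.trans a1, b2.trans a2, ⟨(orderOf a : ℕ), ?_⟩⟩
  show (z * a) ^ ((orderOf a : ℕ) : ℤ) = z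
  rw [zpow_natCast, (show Commute z a from (mem_centralizer_singleton_iff.mp a.2).symm).mul_pow, ← orderOf_coe, pow_orderOf_eq_one, mul_one,
    ← pow_mod_orderOf, m.lx.ord, orderOf_coe, show orderOf a % 2 = 1 by omega, pow_one]

theorem ns {l : Fin 23} {r h : centralizer ({z} : Set G)} (r1 : k.j.vz r = vc (zw l)) (r2 : ρ r = el (zd l).g)
    (r3 : z ∈ zpowers (r : G)) (h1 : k.j.vz h = vc (zw l)) (h2 : ρ h = el (zd l).g) (h3 : z ∈ zpowers (h : G)) : IsConj (r : G) h := by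
  rcases k.j.fib.mp ⟨h1.trans r1.symm, h2.trans r2.symm⟩ with rfl | rfl
  · rfl
  have R := (zd_R (zd_mem l)).1
  rcases (z_ok l).2.2.2 with ⟨e1, e2⟩ | ⟨e1, e2, e3, e4⟩
  · have a1 : ((r ^ (zd l).n :) : G) ∈ Q := (m.ker _).mp (by
      rw [map_pow, r2, ← CV.ord R (zVL_ok _ (zd_mem l)), pow_orderOf_eq_one])
    have a2 := (m.zero a1).mp (by
      rw [← k.j.vz_Q a1, k.j.aff.vec_pow, r1, r2, (spN_spec R (z_ok l).1 _).2, Nat.eq_of_beq_eq_true e2, vc_zero])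
    have a3 : ∀ {g : G}, z ∈ zpowers g → g ^ (zd l).n ≠ 1 := fun h e => by
      have := (two_dvd m.lx.ord h).trans (orderOf_dvd_of_pow_eq_one e); omega
    refine (a3 h3 ?_).elim
    show (z * r) ^ _ = 1
    rw [(show Commute z r from (mem_centralizer_singleton_iff.mp r.2).symm).mul_pow,
      show (r : G) ^ _ = z from (m.lx.mem_z.mp a2).resolve_left (a3 r3), ← pow_succ, ← orderOf_dvd_iff_pow_eq_one, m.lx.ord]; omega
  obtain ⟨u, hu, e⟩ := m.surj (vc (zu l))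
  obtain ⟨q, n, hq, hn, rfl⟩ := k.j.dec r
  rw [k.j.vz_eq hq hn] at r1
  rw [map_mul, (m.ker q).mpr hq, one_mul] at r2
  have c := k.j.N_commQ hn hu (by rw [r2, e, (R_ap R e1).2, e2]) (e4.imp (fun f => (inner_iff (k.j.mem n)).mp (by
    have := R_ap R (x := 1) (by norm_num)
    rw [r2, (R_ap R (by norm_num)).2, this.2, (R_ap R_W this.1).2, Nat.eq_of_beq_eq_true f])) fun f =>
    (m.sq hu).mpr (e ▸ by_contra fun g => by simp [(QT_iff e1).mpr g] at f))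
  refine isConj_iff.mpr ⟨u, ?_⟩
  rw [coe_mul, coe_mul, coe_mul, ← conj_mul, ← c, mul_inv_cancel_right, m.lx.conj_eq_of_ne hu hq (by
    rw [Ne, m.comm_ort hu hq e r1, e3]; simp), mul_assoc]; rfl

theorem nconj {l l' : Fin 23} (hl : l < l') {r h a : centralizer ({z} : Set G)} (r1 : k.j.vz r = vc (zw l))
    (r2 : ρ r = el (zd l).g) (h1 : k.j.vz h = vc (zw l')) (h2 : ρ h = el (zd l').g) : a * r * a⁻¹ ≠ h := by
  rintro rfl
  have R := (zd_R (zd_mem l)).1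
  have R' := (zd_R (zd_mem l')).1
  have o := CV.ord R (zVL_ok _ (zd_mem l))
  have ha := k.j.mem a
  have e1 : ρ a * el (zd l).g * (ρ a)⁻¹ = el (zd l').g := by rw [← r2, ← h2]; simp
  have e2 : (zd l).n = (zd l').n := by
    rw [← o, ← CV.ord R' (zVL_ok _ (zd_mem l')), ← e1]; exact ((MulAut.conj _).orderOf_eq _).symm
  have e3 := k.j.aff.conj a r
  rw [h1, r1, r2, e1] at e3
  have e4 := k.j.aff.conj a (r ^ (zd l).n)
  rw [← conj_pow, k.j.aff.vec_pow, k.j.aff.vec_pow, map_pow, r1, r2, h1, h2, (spN_spec R (z_ok l).1 _).2, ← o, pow_orderOf_eq_one, o,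
    e2, (spN_spec R' (z_ok l').1 _).2, mul_one, mul_inv_cancel, add_right_comm, Equiv.Perm.coe_one, id, add_self, zero_add] at e4
  have i : ∀ l, zi l = true ↔ el (zd l).g * Wm = Wm * el (zd l).g := fun l => by
    have R := (zd_R (zd_mem l)).1
    have := R_ap R (x := 1) (by norm_num)
    rw [← inner_iff (zd_R (zd_mem l)).2, (R_ap R (by norm_num)).2, this.2, (R_ap R_W this.1).2,
      vc_iff (R_ap R (by norm_num)).1 (R_ap R_W this.1).1, zi, Nat.beq_eq]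
  have := z_sep l l' hl e2 (Bool.eq_iff_iff.mpr (by
    rw [zb, zb, Nat.beq_eq, Nat.beq_eq, ← vc_iff (b4.ap_lt (spN_spec R (z_ok l).1 _).1 (z_ok l).1) (by norm_num),
      ← vc_iff (b4.ap_lt (spN_spec R' (z_ok l').1 _).1 (z_ok l').1) (by norm_num), e4, e2, vc_zero, ← (ρ a).injective.eq_iff,
      k.j.aff.zero])) (Bool.eq_iff_iff.mpr (by
    rw [i, i]; exact ⟨fun f => e1 ▸ inn ha f, fun f => by simpa [← e1, mul_assoc] using inn (inv_mem ha) f⟩))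
  have n5 := nc5
  simp only [List.mem_cons, Prod.mk.injEq, List.not_mem_nil, or_false, allB_iff, andB_iff] at this n5
  rcases this with ⟨rfl, rfl⟩ | ⟨rfl, rfl⟩ | ⟨rfl, rfl⟩ | ⟨rfl, rfl⟩ | ⟨rfl, rfl⟩
  · rw [M.eq_of R R_W (by decide +kernel)] at e1
    exact (XJ_W ha).elim (fun f => ne_of_neB hv hpt R' R_W (by decide +kernel) (e1.symm.trans f))
      fun f => ne_of_neB hv hpt R' R_W2 (by decide +kernel) (e1.symm.trans f)
  · obtain ⟨i, hi, l, hl, s⟩ := J4D.cent2 ha (mul_inv_eq_iff_eq_mul.mp e1)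
    exact ncB_spec R s (by decide) (by decide) (n5 i hi l hl).1 e1 _ e3
  · have f := congrArg (· ^ 12) e1
    simp only [conj_pow, M.eq_of (R_pow R 12) R_ja (by decide +kernel), M.eq_of (R_pow R' 12) R_ja (by decide +kernel)] at f
    obtain ⟨i, f⟩ := k.j.cent_ja ha (mul_inv_eq_iff_eq_mul.mp f)
    refine ne_of_neB hv hpt R R' (by decide +kernel) ((mul_inv_eq_iff_eq_mul.mpr ?_).symm.trans e1)
    exact f ▸ Commute.zpow_left (M.eq_of (M.R_mul (M.R_mul R_W R_ja) R) (M.R_mul R (M.R_mul R_W R_ja)) (by decide +kernel)) i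
  · have f := congrArg (· ^ 6) e1
    simp only [conj_pow, M.eq_of (R_pow R 6) zg1.1 (by decide +kernel), M.eq_of (R_pow R' 6) zg1.1 (by decide +kernel)] at f
    obtain ⟨c, s, e⟩ := zC1_ch.forall nc3 ((eq_of_le_of_card_ge zC1_le' (by
      have := zD1_cl.1.card zg1.2; rw [XJ_card] at this; rw [zC1_card]; omega)).ge
      (mem_inf.mpr ⟨ha, mem_centralizer_singleton_iff.mpr (mul_inv_eq_iff_eq_mul.mp f)⟩))
    exact ncB_spec R s (by decide) (by decide) e e1 _ e3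
  · have f := congrArg (· ^ 2) e1
    simp only [conj_pow, M.eq_of (R_pow R 2) R_jb (by decide +kernel), M.eq_of (R_pow R' 2) R_jb (by decide +kernel)] at f
    obtain ⟨i, hi, l, hl, s⟩ := J4D.cent2 ha (mul_inv_eq_iff_eq_mul.mp f)
    exact ncB_spec R s (by decide) (by decide) (n5 i hi l hl).2 e1 _ e3

theorem kc_z : kc {g : G | (∃ u ∈ zpowers g, IsConj z u) ∧ ¬ 7 ∣ orderOf g} = 23 := by
  choose r r1 r2 r3 using k.ex_rep
  refine (kc_idx (fun l => (r l : G)) (fun l => ?_) ?_ fun l l' h => ?_).trans (Nat.card_fin _)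
  · refine ⟨⟨z, r3 l, IsConj.refl z⟩, fun h => (z_ok l).2.1 (h.trans ?_)⟩
    have a1 : ((r l ^ (zd l).n :) : G) ∈ Q := (m.ker _).mp (by
      rw [map_pow, r2, ← CV.ord (zd_R (zd_mem l)).1 (zVL_ok _ (zd_mem l)), pow_orderOf_eq_one])
    rw [orderOf_dvd_iff_pow_eq_one, mul_comm, pow_mul, show 4 = 2 * 2 from rfl, pow_mul, pow_two, pow_two]
    rcases m.lx.mem_z.mp (m.lx.sq _ a1) with e | e <;> rw [show (r l : G) ^ _ * (r l : G) ^ _ = _ from e]
    exacts [mul_one _, m.lx.zz]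
  · rintro g ⟨⟨u, u1, u2⟩, h7⟩
    obtain ⟨h, h1, h2, h3, h4⟩ := conj_into u2 u1
    obtain ⟨τ, ht, u, hu, e⟩ := xj_cov (fun _ => k.j.cent_ja) (k.j.mem ⟨h, h1⟩) fun f =>
      h7 (h4 ▸ f.trans ((orderOf_map_dvd _ _).trans (orderOf_coe _).symm.dvd))
    obtain ⟨D, hD, rfl⟩ := List.mem_map.mp ht
    obtain ⟨a, rfl⟩ := k.j.hr.ge hu
    obtain ⟨v, hv, f⟩ := vc_surj (k.j.vz (a * ⟨h, h1⟩ * a⁻¹))
    have zm : ∀ a b : centralizer ({z} : Set G), z ∈ zpowers (b : G) → z ∈ zpowers ((a * b * a⁻¹ :) : G) := fun a b ⟨i, e⟩ =>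
      ⟨i, conj_zpow.trans (by rw [show (b : G) ^ i = z from e]; exact mul_inv_eq_iff_eq_mul.mpr (mem_centralizer_singleton_iff.mp a.2))⟩
    have e' : ρ (a * ⟨h, h1⟩ * a⁻¹) = el D.g := by simpa using e
    have h5 := zm a ⟨h, h1⟩ h3
    obtain ⟨w, hw, c, -, c1, c2⟩ := CV.cov k.j.aff XB0_tab (by decide) (fun u hu => k.j.ex 0 hu) (fun _ _ _ => k.j.ex _ (one_mem _))
      lfZ_ok (zd_R hD).1 (zVL_ok D hD) hv f.symm e' rfl (f ▸ e' ▸ (k.mem_cz ((two_dvd m.lx.ord h5).trans (orderOf_coe _).dvd)).mp h5)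
    obtain ⟨l, l1, l2⟩ := z_all D hD w hw
    exact ⟨l, (k.ns (r1 l) (r2 l) (r3 l) (l2 ▸ c1) (l1 ▸ c2) (zm _ _ h5)).trans
      (((isConj_iff.mpr ⟨(a : G), rfl⟩).trans (isConj_iff.mpr ⟨(c : G), rfl⟩)).symm.trans h2)⟩
  · obtain ⟨c, e⟩ := isConj_iff.mp h
    have hc := conj_cent m.lx.ord (r3 l) (r3 l') e
    rcases lt_trichotomy l l' with f | f | f
    · exact (k.nconj f (a := ⟨c, hc⟩) (r1 l) (r2 l) (r1 l') (r2 l') (Subtype.ext e)).elim
    · exact f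
    · exact (k.nconj f (a := ⟨c, hc⟩⁻¹) (r1 l') (r2 l') (r1 l) (r2 l) (Subtype.ext (by simp [← e, mul_assoc]))).elim

end JC

def tLL' (l : Fin 6) : ℕ × ℕ := tLL.getD l (0, 0)
def td (l : Fin 6) : CV := tVL.getD (tLL' l).1 tV0

theorem td_mem (l : Fin 6) : td l ∈ tVL := by
  rw [td, List.getD_eq_getElem _ _ ((by decide : ∀ l : Fin 6, (tLL' l).1 < tVL.length) l)]; exact List.getElem_mem _
theorem td_R {d : CV} (h : d ∈ tVL) : M.R d.g (el d.g) ∧ el d.g ∈ KL := R_in (tRL_in _ (List.mem_map_of_mem h))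
theorem t_all : ∀ d ∈ tVL, ∀ w ∈ d.ws, ∃ l, (td l).g = d.g ∧ (tLL' l).2 = w := by decide +kernel
theorem t_ok : ∀ l, (tLL' l).2 < 4096 ∧ ¬ 7 ∣ (td l).n * 2 ∧ lfT (td l).g (td l).n (fun t => ifB (t (tLL' l).2) 1 0) = 1 ∧
    okT (tLL' l).2 = true ∧ ∀ l', (td l).n = (td l').n → l = l' := by decide +kernel

theorem JC.kc_t (k : JC m x b d t Φ) : kc {g : G | (∃ u ∈ zpowers g, IsConj (t Du) u) ∧ ¬ 7 ∣ orderOf g} = 6 := by
  obtain ⟨κ, s⟩ := k.tk
  have o2 := ord2 k.t2.1 k.t2.2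
  have o := fun l => CV.ord (td_R (td_mem l)).1 (tVL_ok _ (td_mem l))
  choose r r1 r2 using fun l => s.ex (t_ok l).1 (Nat.eq_of_beq_eq_true (t_ok l).2.2.2.1) (TK.LW (td_R (td_mem l)).2)
  have r3 : ∀ l, t Du ∈ zpowers (r l : G) := fun l => by
    obtain ⟨τ, t1, t2⟩ := lfT_ok _ _ (td_R (td_mem l)).1
    have := (t_ok l).2.2.1
    rw [← o, t2, ifB_eq] at this
    exact s.mem_ct.mpr (r1 l ▸ r2 l ▸ (t1 _ (t_ok l).1).mp (by simpa using this))
  refine (kc_idx (fun l => (r l : G)) (fun l => ?_) ?_ fun l l' h => ?_).trans (Nat.card_fin _)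
  · refine ⟨⟨_, r3 l, IsConj.refl _⟩, fun h => (t_ok l).2.1 (h.trans ?_)⟩
    rw [orderOf_dvd_iff_pow_eq_one, pow_mul, pow_two]
    exact k.h.A_sq ((k.ker (r l ^ (td l).n)).mp (th_inj (by
      rw [← MonoidHom.comp_apply, map_pow, r2, ← o, pow_orderOf_eq_one, map_one])))
  · rintro g ⟨⟨u, u1, u2⟩, h7⟩
    obtain ⟨h, h1, h2, h3, h4⟩ := conj_into u2 u1
    let h' : normalizer (m.AG : Set G) := ⟨h, k.tN h1⟩
    obtain ⟨τ, ht, u, hu, e⟩ := kl_cov (s.cent.mp (show (h' : G) ∈ _ from h1)) fun f =>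
      h7 (h4 ▸ f.trans ((orderOf_map_dvd _ _).trans (orderOf_coe _).symm.dvd))
    obtain ⟨D, hD, rfl⟩ := List.mem_map.mp ht
    obtain ⟨a, -, rfl⟩ := s.ex0 (TK.LW hu)
    obtain ⟨v, hv, f⟩ := vc_surj (s.vt (a * h' * a⁻¹))
    have e' : th.comp Φ (a * h' * a⁻¹) = el D.g := by simpa using e
    obtain ⟨i, h3⟩ := h3
    obtain ⟨w, hw, c, -, c1, c2⟩ := CV.cov s.aff tL_tab (by decide) (fun u hu => s.ex0 (TK.LW hu))
      (fun _ h e => s.ex h (Nat.eq_of_beq_eq_true e) (one_mem _)) lfT_ok (td_R hD).1 (tVL_ok D hD) hv f.symm e'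
      (Nat.beq_eq ▸ s.par hv f.symm) (f ▸ e' ▸ s.mem_ct.mp ⟨i, conj_zpow.trans (by
        rw [show (h' : G) ^ i = t Du from h3]; exact mul_inv_eq_iff_eq_mul.mpr (mem_centralizer_singleton_iff.mp (s.cent.mpr hu)))⟩)
    obtain ⟨l, l1, l2⟩ := t_all D hD w hw
    exact ⟨l, s.inj ((r1 l).trans (l2 ▸ c1.symm)) ((r2 l).trans (l1 ▸ c2.symm)) ▸
      (((isConj_iff.mpr ⟨(a : G), rfl⟩).trans (isConj_iff.mpr ⟨(c : G), rfl⟩)).symm.trans h2)⟩
  · obtain ⟨c, e⟩ := isConj_iff.mp h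
    have hc := k.tN (conj_cent o2 (r3 l) (r3 l') e)
    have f := congrArg (th.comp Φ) (show ⟨c, hc⟩ * r l * ⟨c, hc⟩⁻¹ = r l' from Subtype.ext e)
    rw [map_mul, map_mul, map_inv, r2, r2] at f
    exact (t_ok l).2.2.2.2 l' (by rw [← o, ← o, ← f]; exact ((MulAut.conj _).orderOf_eq _).symm)

end Cfsg.Agent.LL.U6
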