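import Cfsg.Agent.H21.Ja4
import Cfsg.Agent.H11.Count

/-! Counting in groups with affine coordinates. -/

set_option autoImplicit false
set_option maxRecDepth 100000
set_option linter.style.haveILetI false

namespace Cfsg.Agent.LL.U6

open Cfsg Cfsg.Agent.H16 MulAction Mdl Subgroup Finset

/-- affine coordinates on a group -/
structure Aff {X : Type*} [Group X] (vec : X → V6) (lin : X →* Γ) : Prop where
  mul : ∀ a b, vec (a * b) = vec a + lin a (vec b)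
  add : ∀ a u v, lin a (u + v) = lin a u + lin a v

/-- a transversal for a conjugacy class -/
structure Cl (K : Subgroup Γ) (g : Γ) (n : ℕ) (u : ℕ → Γ) : Prop where
  mem : ∀ i < n, u i ∈ K
  inj : Set.InjOn (fun i => u i * g * (u i)⁻¹) (range n)
  surj : ∀ k ∈ K, ∃ i < n, u i * g * (u i)⁻¹ = k * g * k⁻¹

section
variable {K : Subgroup Γ} {g g' : Γ} {n n' : ℕ} {u u' : ℕ → Γ}

theorem Cl.of_card (hg : g ∈ K) (h1 : ∀ i < n, u i ∈ K) (h2 : Set.InjOn (fun i => u i * g * (u i)⁻¹) (range n))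
    {C : Subgroup Γ} (hC : C ≤ K ⊓ centralizer {g}) (h3 : Nat.card K ≤ n * Nat.card C) : Cl K g n u := ⟨h1, h2, fun k hk => by
  have a := H11.card_isConj_mul (⟨g, hg⟩ : K)
  rw [Nat.card_congr (centEquiv K ⟨g, hg⟩).toEquiv] at a
  have b := card_le_of_le hC
  let f : Fin n → {y : K // IsConj ⟨g, hg⟩ y} := fun i => ⟨_, isConj_iff.mpr ⟨⟨_, h1 i i.2⟩, rfl⟩⟩
  obtain ⟨i, e⟩ := (Function.Injective.bijective_of_nat_card_le (f := f) (fun i j e => Fin.ext (h2 (by simp) (by simp)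
    (congrArg (fun y => (y.1 : Γ)) e))) (by
    rw [Nat.card_fin]
    exact Nat.le_of_mul_le_mul_right (a.le.trans (h3.trans (Nat.mul_le_mul_left _ b))) Nat.card_pos)).2
    ⟨_, isConj_iff.mpr ⟨⟨k, hk⟩, rfl⟩⟩
  exact ⟨i, i.2, congrArg (fun y => (y.1 : Γ)) e⟩⟩

open Classical in
noncomputable def clS (g : Γ) (n : ℕ) (u : ℕ → Γ) : Finset Γ := (range n).image fun i => u i * g * (u i)⁻¹

theorem Cl.disj (c : Cl K g n u) (c' : Cl K g' n' u') (h : n ≠ n') : Disjoint (clS g n u) (clS g' n' u') := by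
  have k : ∀ {g g' n n' u u' y}, Cl K g n u → Cl K g' n' u' → y ∈ clS g n u → y ∈ clS g' n' u' → n ≤ n' := by
    intro g g' n n' u u' y c c' a b
    obtain ⟨i, hi, rfl⟩ := mem_image.mp a
    obtain ⟨j, hj, e⟩ := mem_image.mp b
    rw [← card_range n, ← card_image_of_injOn c.inj]
    refine (card_le_card fun y hy => ?_).trans (card_image_le.trans (card_range n').le : #(clS g' n' u') ≤ n')
    obtain ⟨l, hl, rfl⟩ := mem_image.mp hy
    obtain ⟨m, hm, f⟩ := c'.surj _ (mul_mem (mul_mem (c.mem l (mem_range.mp hl)) (inv_mem (c.mem i (mem_range.mp hi))))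
      (c'.mem j (mem_range.mp hj)))
    exact mem_image.mpr ⟨m, mem_range.mpr hm, by rw [f, cjcj', e]; group⟩
  exact disjoint_left.mpr fun y a b => h ((k c c' a b).antisymm (k c' c b a))
where cjcj' {a b c : Γ} : a * b * c * (a * b)⁻¹ = a * (b * c * b⁻¹) * a⁻¹ := by group

theorem sum4 {g0 g1 g2 g3 : Γ} {n0 n1 n2 n3 : ℕ} {u0 u1 u2 u3 : ℕ → Γ} (c0 : Cl K g0 n0 u0) (c1 : Cl K g1 n1 u1)
    (c2 : Cl K g2 n2 u2) (c3 : Cl K g3 n3 u3) (hn : [n0, n1, n2, n3].Nodup) {A : Γ → ℕ}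
    (h : ∀ g, A g ≠ 0 → ∃ k ∈ K, g = k * g0 * k⁻¹ ∨ g = k * g1 * k⁻¹ ∨ g = k * g2 * k⁻¹ ∨ g = k * g3 * k⁻¹) :
    ∑ g, A g = ∑ i ∈ range n0, A (u0 i * g0 * (u0 i)⁻¹) + ∑ i ∈ range n1, A (u1 i * g1 * (u1 i)⁻¹) +
      ∑ i ∈ range n2, A (u2 i * g2 * (u2 i)⁻¹) + ∑ i ∈ range n3, A (u3 i * g3 * (u3 i)⁻¹) := by
  classical
  simp only [List.nodup_cons, List.mem_cons, List.not_mem_nil, or_false, not_or] at hn
  have k : ∀ {g n u k}, Cl K g n u → k ∈ K → k * g * k⁻¹ ∈ clS g n u := fun c hk =>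
    let ⟨i, hi, e⟩ := c.surj _ hk; mem_image.mpr ⟨i, mem_range.mpr hi, e⟩
  rw [← sum_subset (subset_univ (clS g0 n0 u0 ∪ clS g1 n1 u1 ∪ clS g2 n2 u2 ∪ clS g3 n3 u3)) fun g _ hg => by_contra fun e => by
      obtain ⟨a, ha, e⟩ := h g e
      rcases e with rfl | rfl | rfl | rfl <;> simp [k c0 ha, k c1 ha, k c2 ha, k c3 ha] at hg,
    sum_union (by simp [c0.disj c3, c1.disj c3, c2.disj c3, hn]), sum_union (by simp [c0.disj c2, c1.disj c2, hn]),
    sum_union (c0.disj c1 hn.1.1), clS, clS, clS, clS, sum_image c0.inj, sum_image c1.inj, sum_image c2.inj, sum_image c3.inj]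

end

variable {X : Type*} [Group X] {vec : X → V6} {lin : X →* Γ}

namespace Aff
variable (h : Aff vec lin)
include h

theorem zero (a : X) : lin a 0 = 0 := by simpa using h.add a 0 0
theorem one : vec 1 = 0 := by simpa using h.mul 1 1

theorem inv (a : X) : vec a⁻¹ = (lin a)⁻¹ (vec a) := by
  have := h.mul a a⁻¹
  rw [mul_inv_cancel, h.one, ← add_self (vec a), add_right_inj] at this
  rw [this]; simp

theorem conj (a b : X) : vec (a * b * a⁻¹) = vec a + lin a (vec b) + (lin a * lin b * (lin a)⁻¹) (vec a) := by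
  rw [h.mul, h.mul, h.inv, map_mul]; rfl

end Aff

variable [Fintype X]

open Classical in
/-- the weight of a fibre -/
noncomputable def Wt (vec : X → V6) (lin : X →* Γ) (F : X → ℕ) (v : V6) (g : Γ) : ℕ := ∑ a with vec a = v ∧ lin a = g, F a

theorem sum_Wt (F : X → ℕ) (f : V6 → Γ → ℕ) : ∑ a, F a * f (vec a) (lin a) = ∑ g, ∑ v, Wt vec lin F v g * f v g := by
  classical
  simp only [Wt, sum_filter, sum_mul]
  rw [sum_congr rfl fun g _ => sum_comm, sum_comm]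
  refine sum_congr rfl fun a _ => ?_
  rw [sum_eq_single (lin a) (fun g _ n => sum_eq_zero fun v _ => by simp [n.symm]) (by simp),
    sum_eq_single (vec a) (fun g _ n => by simp [n.symm]) (by simp)]
  simp

theorem Wt_ne {F : X → ℕ} {v : V6} {g : Γ} (h : Wt vec lin F v g ≠ 0) : ∃ a, vec a = v ∧ lin a = g ∧ F a ≠ 0 := by
  obtain ⟨a, ha, e⟩ := exists_ne_zero_of_sum_ne_zero h
  exact ⟨a, (mem_filter.mp ha).2.1, (mem_filter.mp ha).2.2, e⟩

theorem Aff.Wt_conj (h : Aff vec lin) {F : X → ℕ} {a : X} (hF : ∀ b, F (a * b * a⁻¹) = F b) (v : V6) (g : Γ) :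
    Wt vec lin F (vec a + lin a v + (lin a * g * (lin a)⁻¹) (vec a)) (lin a * g * (lin a)⁻¹) = Wt vec lin F v g := by
  refine (sum_equiv (MulAut.conj a).toEquiv (fun b => ?_) fun b _ => (hF b).symm).symm
  simp only [mem_filter, mem_univ, true_and, MulEquiv.toEquiv_eq_coe, MulEquiv.coe_toEquiv, MulAut.conj_apply, h.conj, map_mul,
    map_inv, mul_left_inj, mul_right_inj]
  exact and_congr_left fun e => by simp [e]

theorem Aff.Wt_lin (h : Aff vec lin) {F : X → ℕ} {a : X} (hF : ∀ b, F (a * b * a⁻¹) = F b) (ha : vec a = 0) {g : Γ}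
    (hg : g 0 = 0) (v : V6) : Wt vec lin F (lin a v) (lin a * g * (lin a)⁻¹) = Wt vec lin F v g := by
  have e : (lin a).symm 0 = 0 := (Equiv.symm_apply_eq _).mpr (h.zero a).symm
  simpa [ha, e, hg, h.zero] using h.Wt_conj hF v g

noncomputable def sumQ (N : ℕ) (f : ℕ → ℕ) : ℕ := sumN2 (blk N) 64 fun i => ifB (Nat.blt i N) (f i) 0
noncomputable def orQ (N : ℕ) (f : ℕ → ℕ) : ℕ := orN2 (blk N) 64 fun i => ifB (Nat.blt i N) (f i) 0

theorem sumQ_eq (N : ℕ) (f : ℕ → ℕ) : sumQ N f = ∑ i ∈ range N, f i := by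
  rw [sumQ, sumN2_eq, ← sum_subset (s₁ := range N) (fun i h => mem_range.mpr (lt_blk (mem_range.mp h))) fun i _ h => by
    simp_all [ifB_eq]]
  exact sum_congr rfl fun i h => by simp_all [ifB_eq]

theorem testBit_orQ {N : ℕ} {f : ℕ → ℕ} {j : ℕ} (h : (orQ N f).testBit j = true) : ∃ i < N, (f i).testBit j = true := by
  obtain ⟨i, -, e⟩ := (testBit_orN2 _ _ _ _).mp h
  by_cases hi : i < N
  · exact ⟨i, hi, by simpa [ifB_eq, hi] using e⟩
  · simp [ifB_eq, hi] at e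

noncomputable def uA (L : N.Lv) (c : ℕ) : ℕ :=
  force (L.u o (Nat.land c 2047)) fun a => force (L.u o (Nat.shiftRight c 11)) (mul12 a)
noncomputable def uB (L : N.Lv) (c : ℕ) : ℕ :=
  force (L.t o (Nat.shiftRight c 11)) fun a => force (L.t o (Nat.land c 2047)) (mul12 a)
noncomputable def cOk (L : N.Lv) (c : ℕ) : Bool := andB (Nat.blt (Nat.land c 2047) L.m) (Nat.blt (Nat.shiftRight c 11) L.m)

section
variable {K : Subgroup Γ} {L : N.Lv} {g : ℕ} {γ : Γ}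

theorem pr_u (h : N.TabIn M K L) {c : ℕ} (e : cOk L c = true) :
    el (uA L c) ∈ K ∧ M.R (uA L c) (el (uA L c)) ∧ M.R (uB L c) (el (uA L c))⁻¹ := by
  simp only [cOk, andB_iff, Nat.blt_eq] at e
  obtain ⟨a, ha, r, r'⟩ := h _ e.1
  obtain ⟨b, hb, s, s'⟩ := h _ e.2
  have k : M.R (uA L c) (a * b) := by simp only [uA, force_eq]; exact M.R_mul r s
  rw [← R_fun k (R_el k)]
  exact ⟨mul_mem ha hb, k, by simp only [uB, force_eq, mul_inv_rev]; exact M.R_mul s' r'⟩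

/-- runs `f` on the conjugating element with index `c` and on the conjugate -/
noncomputable def wC {α : Type} (L : N.Lv) (g c : ℕ) (f : ℕ → ℕ → α) : α :=
  force c fun c => force (uA L c) fun a => force (uB L c) fun b => force (cj3 o a g b) (f a)

noncomputable def keyL (a : ℕ) (xs : List ℕ) : ℕ :=
  List.rec (motive := fun _ => ℕ) 0 (fun x _ ih => Nat.add (Nat.mul ih 4096) (mul12Ap a x)) xs

theorem keyL_congr {a b : ℕ} {xs : List ℕ} (h : ∀ x ∈ xs, mul12Ap a x = mul12Ap b x) : keyL a xs = keyL b xs := by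
  induction xs with
  | nil => rfl
  | cons x xs ih =>
    show Nat.add (Nat.mul (keyL a xs) 4096) (mul12Ap a x) = Nat.add (Nat.mul (keyL b xs) 4096) (mul12Ap b x)
    rw [ih fun y hy => h y (List.mem_cons_of_mem _ hy), h x List.mem_cons_self]

noncomputable def clB (L : N.Lv) (g T n : ℕ) (xs : List ℕ) : Bool := andB (allL xs fun x => Nat.blt x 4096) (andB
  (allN n fun i => cOk L (get 24 T i)) (incr n fun i => wC L g (get 24 T i) fun _ a => keyL a xs))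

theorem cl_of (h : N.TabIn M K L) (r : M.R g γ) (hg : γ ∈ K) {C : Subgroup Γ} (hC : C ≤ K ⊓ centralizer {γ}) {T n : ℕ}
    {xs : List ℕ} (h3 : Nat.card K ≤ n * Nat.card C) (e : clB L g T n xs = true) :
    Cl K γ n (fun i => el (uA L (get 24 T i))) ∧ ∀ i < n, cOk L (get 24 T i) = true := by
  simp only [clB, andB_iff, allN_iff, allL_iff, Nat.blt_eq, wC, force_eq] at e
  have k := fun i hi => pr_u h (e.2.1 i hi)
  have l := fun i hi => R_cj3 (k i hi).2.1 (k i hi).2.2 r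
  refine ⟨Cl.of_card hg (fun i hi => (k i hi).1) (fun i hi j hj f => ?_) hC h3, e.2.1⟩
  replace hi : i < n := by simpa using hi
  replace hj : j < n := by simpa using hj
  beta_reduce at f
  have a : ∀ {x}, x < 4096 → _ = _ := fun hx => M.P_inj (M.P_ap (l i hi) (P_vc hx)) (f.symm ▸ M.P_ap (l j hj) (P_vc hx))
  exact incr_inj e.2.2 hi hj (keyL_congr fun x hx => a (e.1 x hx))

noncomputable def crB (L : N.Lv) (g w C nc KT nk P k : ℕ) : Bool := andB (andB (Nat.blt w 4096) (allN nc fun i => cOk L (get 24 C i)))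
  (force (orQ nc fun i => force (mul12Ap (uA L (get 24 C i)) w) fun y => orN nk fun j => force (get 12 KT j) fun k =>
    bit (Nat.xor y (Nat.xor k (mul12Ap g k)))) fun R => allN 4096 fun x => impB (Nat.beq (get 2 P x) k) (tb R x))

theorem Aff.Wt_pc (h : Aff vec lin) {F : X → ℕ} (hF : ∀ a, lin a ∈ K → ∀ b, F (a * b * a⁻¹) = F b)
    (hl : ∀ u ∈ K, ∃ a, vec a = 0 ∧ lin a = u) (hL : N.TabIn M (K ⊓ centralizer {γ}) L) (r : M.R g γ) {w C nc KT nk P k : ℕ}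
    (ht : ∀ j < nk, ∃ a, vec a = vc (get 12 KT j) ∧ lin a = 1) (e : crB L g w C nc KT nk P k = true) {x : ℕ} (hx : x < 4096)
    (f : get 2 P x = k) : Wt vec lin F (vc x) γ = Wt vec lin F (vc w) γ := by
  simp only [crB, andB_iff, allN_iff, Nat.blt_eq, force_eq, impB_iff, Nat.beq_eq, tb_eq] at e
  obtain ⟨i, hi, e1⟩ := testBit_orQ (e.2 x hx f)
  obtain ⟨j, hj, e2⟩ := (testBit_orN _ _ _).mp e1
  obtain ⟨u1, u2, -⟩ := pr_u hL (e.1.2 i hi)
  obtain ⟨a, a1, a2⟩ := hl _ u1.1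
  obtain ⟨b, b1, b2⟩ := ht j hj
  have k1 := h.Wt_lin (hF a (a2 ▸ u1.1)) a1 (g := γ) (by simpa using R_add r 0 0) (vc w)
  have k2 := h.Wt_conj (hF b (b2 ▸ one_mem _)) (lin a (vc w)) γ
  rw [a2, mem_centralizer_singleton_iff.mp u1.2, mul_inv_cancel_right] at k1
  rw [← k1, ← a2, ← k2, (testBit_bit _ _).mp e2, b1, b2, a2, (R_ap u2 e.1.1).2]
  simp only [one_mul, inv_one, mul_one, Equiv.Perm.coe_one, id]
  rw [(R_ap r (get_lt 12 _ _)).2, add_comm (vc (get _ _ _)), add_assoc, ← vc_xor, ← vc_xor]; rfl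

end

/-- a partition of a part of the space into three listed pieces -/
structure Pc where
  P : ℕ
  e : ℕ → ℕ
  n : ℕ → ℕ

noncomputable def Pc.ok (c : Pc) : Bool := allB 3 fun k => force (c.e k) fun e => force (c.n k) fun n => andB (incr n (get 12 e))
  (andB (allN n fun j => Nat.beq (get 2 c.P (get 12 e j)) (Nat.succ k))
    (Nat.beq (cntN 4096 fun x => Nat.beq (get 2 c.P x) (Nat.succ k)) n))

noncomputable def Pc.sm (c : Pc) (ε φ : ℕ → ℕ) : ℕ :=
  sumN 3 fun k => ifB (Nat.beq (ε k) 0) 0 (Nat.mul (ε k) (force (c.e k) fun e => sumQ (c.n k) fun j => φ (get 12 e j)))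

theorem Pc.sm_eq (c : Pc) (ε φ : ℕ → ℕ) : c.sm ε φ = ∑ k ∈ range 3, ε k * ∑ j ∈ range (c.n k), φ (get 12 (c.e k) j) := by
  simp only [Pc.sm, sumN_eq, sumQ_eq, force_eq, ifB_eq, Nat.beq_eq]
  exact sum_congr rfl fun k _ => by split_ifs with h <;> simp [*]

theorem Pc.sum {c : Pc} (h : c.ok = true) {w φ : V6 → ℕ} {ε : ℕ → ℕ} (h0 : ∀ x < 4096, get 2 c.P x = 0 → w (vc x) = 0)
    (h1 : ∀ x < 4096, ∀ k, get 2 c.P x = k + 1 → w (vc x) = ε k) : ∑ v, w v * φ v = c.sm ε fun x => φ (vc x) := by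
  simp only [Pc.ok, allB_iff, force_eq, andB_iff, allN_iff, Nat.beq_eq, cntN_eq] at h
  rw [c.sm_eq, ← sum_bij (s := range 4096) (f := fun x => w (vc x) * φ (vc x)) (fun x _ => vc x) (by simp)
    (fun x hx y hy => vc_inj (mem_range.mp hx) (mem_range.mp hy)) (fun v _ => by simpa using vc_surj v) fun _ _ => rfl,
    ← sum_fiberwise_of_maps_to (t := range 4) (g := get 2 c.P) fun x _ => mem_range.mpr (get_lt 2 _ _), sum_range_succ',
    sum_eq_zero (s := filter _ _) fun x hx => by simp_all, add_zero]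
  refine sum_congr rfl fun k hk => ?_
  obtain ⟨a, b, d⟩ := h k (mem_range.mp hk)
  have i : Set.InjOn (get 12 (c.e k)) (range (c.n k)) := fun i hi j hj => incr_inj a (by simpa using hi) (by simpa using hj)
  rw [← sum_image (f := fun x => φ (vc x)) i, eq_of_subset_of_card_le (s := image _ _)
    (t := {x ∈ range 4096 | get 2 c.P x = k + 1}) (fun x hx => by
      obtain ⟨j, hj, rfl⟩ := mem_image.mp hx
      exact mem_filter.mpr ⟨mem_range.mpr (get_lt 12 _ _), b j (mem_range.mp hj)⟩) (by rw [card_image_of_injOn i, card_range, ← d]),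
    mul_sum]
  exact sum_congr rfl fun x hx => by rw [h1 x (by simp_all) k (mem_filter.mp hx).2]

/-- the sum `v + g v + ⋯` with `n` terms -/
def nv (g : Γ) (v : V6) : ℕ → V6
  | 0 => 0
  | n + 1 => v + g (nv g v n)

omit [Fintype X] in
theorem Aff.vec_pow (h : Aff vec lin) (a : X) (n : ℕ) : vec (a ^ n) = nv (lin a) (vec a) n := by
  induction n with
  | zero => rw [pow_zero, h.one]; rfl
  | succ n ih => rw [pow_succ', h.mul, ih]; rfl

noncomputable def spN (a k : ℕ) : ℕ := Nat.rec (motive := fun _ => ℕ) 0 (fun _ ih => force ih fun s => Nat.xor mul12One (mul12 a s)) k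

theorem ap_xor (a b : ℕ) {x : ℕ} (hx : x < 4096) : mul12Ap (a ^^^ b) x = mul12Ap a x ^^^ mul12Ap b x := by
  rw [b4.apS_eq _ hx, b4.apS_eq _ hx, b4.apS_eq _ hx, apS, apS, apS]
  induction 6 + 6 with
  | zero => simp [xc_zero]
  | succ n ih =>
    rw [xc_succ, xc_succ, xc_succ, ih, get_xor]
    split_ifs
    · ac_rfl
    · simp

theorem spN_spec {a x : ℕ} {g : Γ} (r : M.R a g) (hx : x < 4096) (k : ℕ) :
    EB (6 + 6) (spN a k) ∧ nv g (vc x) k = vc (mul12Ap (spN a k) x) := by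
  induction k with
  | zero => exact ⟨fun k _ => by simp [spN, get_eq], by rw [show mul12Ap (spN a 0) x = 0 from (ap_xor 0 0 hx).trans (Nat.xor_self _), vc_zero]; rfl⟩
  | succ k ih =>
    rw [show spN a (k + 1) = mul12One ^^^ mul12 a (spN a k) from force_eq _ _]
    exact ⟨fun j hj => get_xor 32 _ _ _ ▸ Nat.xor_lt_two_pow (b4.eb_one j hj) (b4.eb_mul r.2.1 _ j hj), by
      rw [ap_xor _ _ hx, b4.ap_one hx, b4.ap_mul _ ih.1 hx, vc_xor, ← (R_ap r (b4.ap_lt ih.1 hx)).2, ← ih.2]; rfl⟩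

noncomputable def ordF (a fuel : ℕ) : ℕ → ℕ → ℕ := Nat.rec (motive := fun _ => ℕ → ℕ → ℕ) (fun _ _ => 0) (fun _ ih k P =>
  ifB (Nat.beq P mul12One) k (ifB (neB o pts P mul12One) (force (mul12 a P) (ih (Nat.succ k))) 0)) fuel

theorem ordF_spec {a : ℕ} {g : Γ} (r : M.R a g) (fuel : ℕ) {k P : ℕ} (s : M.R P (g ^ k)) (hk : 0 < k)
    (h : ∀ j < k, 0 < j → g ^ j ≠ 1) (e : ordF a fuel k P ≠ 0) : orderOf g = ordF a fuel k P := by
  induction fuel generalizing k P with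
  | zero => exact (e rfl).elim
  | succ n ih =>
    have : ordF a (n + 1) k P = ifB (Nat.beq P mul12One) k (ifB (neB o pts P mul12One)
      (force (mul12 a P) (ordF a n (k + 1))) 0) := rfl
    rw [this, ifB_eq, ifB_eq, force_eq] at e ⊢
    split_ifs at e ⊢ with h1 h2
    · exact (orderOf_eq_iff hk).mpr ⟨M.eq_of s M.R_one h1, h⟩
    · exact ih (pow_succ' g k ▸ M.R_mul r s) k.succ_pos (fun j hj h0 => (Nat.lt_succ_iff_lt_or_eq.mp hj).elim (h j · h0)
        fun f => f ▸ ne_of_neB hv hpt s M.R_one h2) e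
    · exact (e rfl).elim

/-- the data for a conjugacy class -/
structure CD where
  L : N.Lv
  g : ℕ
  T : ℕ
  n : ℕ
  c : Pc

noncomputable def CD.u (d : CD) (i : ℕ) : Γ := el (uA d.L (get 24 d.T i))

noncomputable def CD.sm (d : CD) (ε : ℕ → ℕ) (f : V6 → Γ → ℕ) : ℕ :=
  ∑ i ∈ range d.n, d.c.sm ε fun x => f (d.u i (vc x)) (d.u i * el d.g * (d.u i)⁻¹)

structure CD.Ok (d : CD) (K : Subgroup Γ) : Prop where
  tab : N.TabIn M K d.L
  r : M.R d.g (el d.g)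
  cl : Cl K (el d.g) d.n d.u ∧ ∀ i < d.n, cOk d.L (get 24 d.T i) = true
  pc : d.c.ok = true

theorem CD.sm_one (d : CD) (ε : ℕ → ℕ) : d.sm ε (fun _ _ => 1) = d.n * ∑ k ∈ range 3, ε k * d.c.n k := by
  simp [CD.sm, Pc.sm_eq]

/-- the weights are constant on the pieces -/
def CD.W (d : CD) (vec : X → V6) (lin : X →* Γ) (F : X → ℕ) (ε : ℕ → ℕ) : Prop := ∀ x < 4096,
  (get 2 d.c.P x = 0 → Wt vec lin F (vc x) (el d.g) = 0) ∧ ∀ k, get 2 d.c.P x = k + 1 → Wt vec lin F (vc x) (el d.g) = ε k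

theorem Aff.master (h : Aff vec lin) {K : Subgroup Γ} {F : X → ℕ} (hF : ∀ a, lin a ∈ K → ∀ b, F (a * b * a⁻¹) = F b)
    (hl : ∀ u ∈ K, ∃ a, vec a = 0 ∧ lin a = u) {d0 d1 d2 d3 : CD} (c0 : d0.Ok K) (c1 : d1.Ok K) (c2 : d2.Ok K) (c3 : d3.Ok K)
    (hn : [d0.n, d1.n, d2.n, d3.n].Nodup) (hc : ∀ a, F a ≠ 0 → ∃ k ∈ K, lin a = k * el d0.g * k⁻¹ ∨ lin a = k * el d1.g * k⁻¹ ∨
      lin a = k * el d2.g * k⁻¹ ∨ lin a = k * el d3.g * k⁻¹) {ε0 ε1 ε2 ε3 : ℕ → ℕ} (w0 : d0.W vec lin F ε0)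
    (w1 : d1.W vec lin F ε1) (w2 : d2.W vec lin F ε2) (w3 : d3.W vec lin F ε3) (f : V6 → Γ → ℕ) :
    ∑ a, F a * f (vec a) (lin a) = d0.sm ε0 f + d1.sm ε1 f + d2.sm ε2 f + d3.sm ε3 f := by
  have k : ∀ {d : CD} {ε}, d.Ok K → d.W vec lin F ε → ∑ i ∈ range d.n, ∑ v, Wt vec lin F v (d.u i * el d.g * (d.u i)⁻¹) *
      f v (d.u i * el d.g * (d.u i)⁻¹) = d.sm ε f := fun {d ε} c w => sum_congr rfl fun i hi => by
    obtain ⟨a, a1, a2⟩ := hl _ (c.cl.1.mem i (mem_range.mp hi))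
    rw [← Pc.sum c.pc (w := fun v => Wt vec lin F v (el d.g)) (φ := fun v => f (d.u i v) _) (fun x hx => (w x hx).1) fun x hx => (w x hx).2]
    exact (sum_equiv (d.u i) (by simp) fun v _ => by
      rw [← a2, h.Wt_lin (hF a (a2 ▸ c.cl.1.mem i (mem_range.mp hi))) a1 (by simpa using R_add c.r 0 0)]).symm
  rw [sum_Wt, sum4 c0.cl.1 c1.cl.1 c2.cl.1 c3.cl.1 hn fun g e => by
    obtain ⟨v, -, e⟩ := exists_ne_zero_of_sum_ne_zero e
    obtain ⟨a, -, rfl, e'⟩ := Wt_ne (left_ne_zero_of_mul e)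
    exact hc a e', k c0 w0, k c1 w1, k c2 w2, k c3 w3]

/-- evaluation of the sums; `lf m k` is the test for a matrix `m` of order `k` -/
noncomputable def CD.ev (d : CD) (ε : ℕ → ℕ) (lf : ℕ → ℕ → ((ℕ → Bool) → ℕ) → ℕ) (w h : ℕ) : ℕ :=
  sumQ d.n fun i => wC d.L d.g (get 24 d.T i) fun u g => force (mul12 g h) fun m => force (ordF m 40 1 m) fun k =>
    ifB (Nat.beq k 0) 1000000 (force (mul12Ap g w) fun c => lf m k fun t =>
      d.c.sm ε fun x => ifB (force (Nat.xor (mul12Ap u x) c) t) 1 0)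

open Classical in
theorem CD.ev_spec {d : CD} {K : Subgroup Γ} (c : d.Ok K) {ε : ℕ → ℕ} {lf : ℕ → ℕ → ((ℕ → Bool) → ℕ) → ℕ} {w h s : ℕ} {η : Γ}
    (r : M.R h η) (hw : w < 4096) {cd : V6 → Γ → Prop} (hl : ∀ m μ, M.R m μ → ∃ t : ℕ → Bool,
      (∀ x < 4096, t x = true ↔ cd (vc x) μ) ∧ ∀ f, lf m (orderOf μ) f = f t) (e : d.ev ε lf w h = s) (hs : s < 1000000) :
    d.sm ε (fun v g => if cd (v + g (vc w)) (g * η) then 1 else 0) = s := by
  rw [CD.ev, sumQ_eq] at e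
  refine Eq.trans (sum_congr rfl fun i hi => ?_) e
  have k := (single_le_sum (fun _ _ => Nat.zero_le _) hi).trans_lt (e ▸ hs)
  obtain ⟨-, r1, r2⟩ := pr_u c.tab (c.cl.2 i (mem_range.mp hi))
  have r3 := R_cj3 r1 r2 c.r
  have r4 := M.R_mul r3 r
  obtain ⟨t, t1, t2⟩ := hl _ _ r4
  simp only [wC, force_eq, ifB_eq, Nat.beq_eq] at k ⊢
  split_ifs at k ⊢ with h0
  · omega
  refine Eq.trans ?_ ((t2 _).symm.trans (congrFun (congrArg _ (ordF_spec r4 40 (by rwa [pow_one]) one_pos (by omega) h0)) _))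
  rw [Pc.sm_eq, Pc.sm_eq]
  refine sum_congr rfl fun k _ => congrArg _ (sum_congr rfl fun j _ => if_congr ?_ rfl rfl)
  have := R_ap r1 (get_lt 12 (d.c.e k) j)
  exact (iff_of_eq (congrArg (cd · _) ((congrArg₂ _ this.2 (R_ap r3 hw).2).trans (vc_xor _ _).symm))).trans
    (t1 _ (Nat.xor_lt_two_pow (n := 12) this.1 (R_ap r3 hw).1)).symm

end Cfsg.Agent.LL.U6
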