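import Cfsg.Agent.H21.Jo1
import Cfsg.Agent.H21.Todd2

/-! The action of `M24` on the Golay cocode by bit matrices. -/

set_option autoImplicit false
set_option maxRecDepth 100000

namespace Cfsg.Agent.LL.U6

open Cfsg Cfsg.Agent.H16 MulAction Mdl Subgroup
open scoped Pointwise symmDiff

/-- the syndrome -/
noncomputable def sy (S : Finset GolayPt) : V6 := vc (H16.syn (msk S))

theorem msk_sd (S T : Finset GolayPt) : msk (S ∆ T) = msk S ^^^ msk T :=
  toSet_inj (msk_lt _) (Nat.xor_lt_two_pow (msk_lt _) (msk_lt _)) (by simp [toSet_xor, toSet_msk])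

theorem sy_sd (S T : Finset GolayPt) : sy (S ∆ T) = sy S + sy T := by rw [sy, msk_sd, H16.syn_xor, vc_xor]; rfl

theorem sy_eq {S T : Finset GolayPt} : sy S = sy T ↔ S ∆ T ∈ gSets := by
  rw [← toSet_msk (S ∆ T), toSet_mem_iff (msk_lt _), msk_sd, ← syn_eq_iff]
  exact ⟨vc_inj (H16.syn_lt (msk_lt _)) (H16.syn_lt (msk_lt _)), congrArg vc⟩

theorem sy_to {a : ℕ} (h : a < 2 ^ 24) : sy (toSet a) = vc (H16.syn a) := by rw [sy, msk_toSet h]

theorem sy_sh {x : ℕ} (h : x < 4096) : sy (toSet (x <<< 12)) = vc x := by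
  rw [sy_to (by rw [Nat.shiftLeft_eq]; omega), syn_shift]

theorem sy_surj (v : V6) : ∃ S, sy S = v := let ⟨_, hx, e⟩ := vc_surj v; ⟨_, (sy_sh hx).trans e⟩

theorem sy_smul (g : M24) {S T : Finset GolayPt} (h : sy S = sy T) : sy (g • S) = sy (g • T) :=
  sy_eq.mpr (by rw [← Finset.smul_finset_symmDiff]; exact M24_smul_mem_gSets g (sy_eq.mp h))

theorem sy_even {S : Finset GolayPt} {x : ℕ} (hx : x < 4096) (h : sy S = vc x) : Even S.card ↔ pc24 (x <<< 12) % 2 = 0 := by
  have := card_of_mem_gSets (sy_eq.mp (h.trans (sy_sh hx).symm))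
  have := card_symmDiff_add S (toSet (x <<< 12))
  rw [Nat.even_iff, ← card_toSet]; omega

noncomputable def th : M24 →* Γ := MonoidHom.toHomPerm
  { toFun := fun g v => sy (g • (sy_surj v).choose)
    map_one' := funext fun v => by rw [one_smul]; exact (sy_surj v).choose_spec
    map_mul' := fun g h => funext fun v => by rw [mul_smul]; exact sy_smul g (sy_surj _).choose_spec.symm }

theorem th_sy (g : M24) (S : Finset GolayPt) : th g (sy S) = sy (g • S) := sy_smul g (sy_surj _).choose_spec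

theorem th_add (g : M24) (u v : V6) : th g (u + v) = th g u + th g v := by
  obtain ⟨S, rfl⟩ := sy_surj u
  obtain ⟨T, rfl⟩ := sy_surj v
  rw [← sy_sd, th_sy, th_sy, th_sy, Finset.smul_finset_symmDiff, sy_sd]

noncomputable def cy (p : ℕ) : ℕ := pk 32 12 fun k => H16.syn (bit (get 5 p (Nat.add 12 k)))

theorem R_cy {g : M24} {p : ℕ} (r : Rep gpt 24 g (get 5 p)) : M.R (cy p) (th g) := by
  have a : ∀ k < 12, bit (get 5 p (12 + k)) < 2 ^ 24 := fun k hk => by
    rw [bit_eq]; exact Nat.pow_lt_pow_right (by norm_num) (r (12 + k) (by omega)).1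
  have b : ∀ k < 12, get 32 (cy p) k = H16.syn (bit (get 5 p (12 + k))) := fun k hk =>
    get_pk (fun i hi => (H16.syn_lt (a i hi)).trans (by norm_num)) hk
  have c : EB (6 + 6) (cy p) := fun k hk => b k hk ▸ H16.syn_lt (a k hk)
  refine ⟨trivial, c, fun x hx => ⟨b4.ap_lt c hx, b4.map_vec q6 (AddMonoidHom.mk' (th g) (th_add g)) (fun k hk => ?_) hx⟩⟩
  change th g (vc _) = vc _
  rw [b k hk, ← sy_to (a k hk), toSet_bit (r _ (by omega)).1, ← (r _ (by omega)).2,
    ← sy_sh (Nat.pow_lt_pow_right (by norm_num) hk : 2 ^ k < 2 ^ 12), th_sy, Nat.shiftLeft_eq, ← pow_add, ← bit_eq,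
    toSet_bit (by omega), Finset.smul_finset_singleton, add_comm]

theorem th_inj : Function.Injective th := (MonoidHom.ker_eq_bot_iff _).mp (haveI := simple_M24
  (Normal.eq_bot_or_eq_top inferInstance).resolve_right fun e =>
    ne_of_neB hv hpt (R_cy rep2A) M.R_one (by decide +kernel) (e.ge (mem_top t2A)))

theorem inL_cy {K : Subgroup M24} {P S : List ℕ} (h : ∀ p ∈ P, InK gpt 24 K (get 5 p)) (e : subB S (mapL cy P) = true) :
    M.InL (K.map th) S := fun a ha => by
  obtain ⟨p, hp, rfl⟩ := List.mem_map.mp (mapL_eq _ _ ▸ subB_spec e a ha)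
  obtain ⟨g, hg, r⟩ := h p hp
  exact ⟨_, mem_map_of_mem _ hg, R_cy r⟩

noncomputable abbrev KL : Subgroup Γ := L22.map th
noncomputable abbrev KW : Subgroup Γ := (⊤ : Subgroup M24).map th

theorem KL_card : Nat.card KL = 887040 := (card_map_of_injective th_inj).trans card_L22

theorem inKL {P S : List ℕ} (h : andB (allL P (fixAll [8388609])) (subB S (mapL cy P)) = true) : M.InL KL S :=
  inL_cy (inK_L22 (andB_iff.mp h).1) (andB_iff.mp h).2

theorem inKW {P S : List ℕ} (h : andB (allL P isM24) (subB S (mapL cy P)) = true) : M.InL KW S :=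
  inL_cy (inK_top_of_allL (andB_iff.mp h).1) (andB_iff.mp h).2

theorem tab_tree {K : Subgroup Γ} {S : List (ℕ × ℕ)} (h : M.InL K (S.map Prod.fst)) {L : N.Lv}
    (e : andB (allP S invB) (allQ L.m (N.treeB o S L)) = true) : N.TabIn M K L :=
  (N.tab_of_tree (prL_of h (andB_iff.mp e).1) (allQ_iff.mp (andB_iff.mp e).2)).1

theorem inL_cent {K : Subgroup Γ} {S : List ℕ} (h : M.InL K S) {a : ℕ} {g : Γ} (r : M.R a g) (e : commB o a S = true) :
    M.InL (K ⊓ centralizer {g}) S := fun p hp => let ⟨k, hk, s⟩ := in_clo h p hp; ⟨k, clo_le_cent h r e hk, s⟩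

end Cfsg.Agent.LL.U6
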