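import Cfsg.Agent.H21.Jo4

/-! The tests deciding whether a cyclic subgroup contains a given involution. -/

set_option autoImplicit false
set_option maxRecDepth 100000

namespace Cfsg.Agent.LL.U6

open Cfsg Cfsg.Agent.H16 MulAction Mdl Subgroup

def cz (v : V6) (g : Γ) : Prop := hf (nv g v (orderOf g)) (nv g v (orderOf g)) ≠ 0 ∨ nv g v (orderOf g) = 0 ∧
  (orderOf g % 2 = 1 ∨ (g ^ (orderOf g / 2)) (vc 64) = Wm ((g ^ (orderOf g / 2)) (vc 1)) ∧
    hf (nv g v (orderOf g / 2)) (nv g v (orderOf g / 2)) ≠ 0)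

def ct (v : V6) (g : Γ) : Prop := nv g v (orderOf g) = vc t0

noncomputable def lfZ (m k : ℕ) (f : (ℕ → Bool) → ℕ) : ℕ := force (spN m k) fun N => force (Nat.div k 2) fun l =>
  ifB (Nat.beq (Nat.mod k 2) 1) (f fun x => force (mul12Ap N x) fun y => orB (tb QT y) (Nat.beq y 0))
    (ifB (force (itF (mul12Ap m) l 64) fun a => force (itF (mul12Ap m) l 1) fun c => Nat.beq a (mul12Ap cW c))
      (force (spN m l) fun N2 => f fun x => force (mul12Ap N x) fun y => orB (tb QT y) (andB (Nat.beq y 0) (tb QT (mul12Ap N2 x))))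
      (f fun x => tb QT (mul12Ap N x)))

noncomputable def lfT (m k : ℕ) (f : (ℕ → Bool) → ℕ) : ℕ := force (spN m k) fun N => f fun x => Nat.beq (mul12Ap N x) t0

theorem QT_iff {x : ℕ} (hx : x < 4096) : tb QT x = true ↔ hf (vc x) (vc x) ≠ 0 := by
  have := allQ_iff.mp (by decide +kernel : allQ 4096 (fun x => force (herm4 6 x x) fun a =>
    ifB (tb QT x) (notB (Nat.beq a 0)) (Nat.beq a 0)) = true) x hx
  rw [force_eq, ifB_eq] at this
  split_ifs at this with h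
  · exact iff_of_true h fun e => by simpa [notB_iff, hf_eq e] using this
  · exact iff_of_false h fun e => e (hf_of (Nat.eq_of_beq_eq_true this))

theorem vc_iff {x y : ℕ} (hx : x < 4096) (hy : y < 4096) : vc x = vc y ↔ x = y := ⟨vc_inj hx hy, congrArg vc⟩

theorem lfT_ok (m : ℕ) (μ : Γ) (r : M.R m μ) : ∃ t : ℕ → Bool, (∀ x < 4096, t x = true ↔ ct (vc x) μ) ∧
    ∀ f, lfT m (orderOf μ) f = f t := ⟨_, fun x hx => by
  rw [ct, (spN_spec r hx _).2, vc_iff (b4.ap_lt (spN_spec r hx _).1 hx) (by decide), Nat.beq_eq], fun _ => force_eq _ _⟩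

theorem lfZ_ok (m : ℕ) (μ : Γ) (r : M.R m μ) : ∃ t : ℕ → Bool, (∀ x < 4096, t x = true ↔ cz (vc x) μ) ∧
    ∀ f, lfZ m (orderOf μ) f = f t := by
  have k : ∀ {x} l, x < 4096 → itF (mul12Ap m) l x < 4096 ∧ vc (itF (mul12Ap m) l x) = (μ ^ l) (vc x) := fun l hx =>
    P_iff.mp (M.P_itF (fun _ _ h => M.P_ap r h) l (P_vc hx))
  have k1 := k (orderOf μ / 2) (x := 1) (by norm_num)
  have k2 := k (orderOf μ / 2) (x := 64) (by norm_num)
  have l : ∀ {x} n, x < 4096 → mul12Ap (spN m n) x < 4096 := fun n hx => b4.ap_lt (spN_spec r hx _).1 hx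
  simp only [lfZ, force_eq, ifB_eq, Nat.beq_eq, cz, ← k1.2, ← k2.2, (R_ap R_W k1.1).2, vc_iff k2.1 (R_ap R_W k1.1).1]
  split_ifs with h1 h2 <;> refine ⟨_, fun x hx => ?_, fun _ => rfl⟩ <;>
    rw [(spN_spec r hx _).2, (spN_spec r hx _).2, ← QT_iff (l _ hx), ← QT_iff (l _ hx), ← vc_zero, vc_iff (l _ hx) (by norm_num)]
  · simp [orB_iff, show orderOf μ % 2 = 1 from h1]
  · simp [orB_iff, andB_iff, show ¬ orderOf μ % 2 = 1 from h1, show itF _ (orderOf μ / 2) _ = mul12Ap cW (itF _ (orderOf μ / 2) _) from h2]; rfl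
  · simp [show ¬ orderOf μ % 2 = 1 from h1, show ¬ itF _ (orderOf μ / 2) _ = mul12Ap cW (itF _ (orderOf μ / 2) _) from h2]

end Cfsg.Agent.LL.U6
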