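import Cfsg.Agent.H21.Jo5

/-! Counting in the centralizer of a central involution. -/

set_option autoImplicit false
set_option maxRecDepth 100000

namespace Cfsg.Agent.LL.U6

open Cfsg Cfsg.Agent.H16

theorem ez00 : zD0.ev (nth 0 [1, 2, 0]) lfZ 3891 mul12One = 704 := by decide +kernel
theorem ez01 : zD1.ev (nth 0 [1, 2, 0]) lfZ 3891 mul12One = 3840 := by decide +kernel
theorem ez02 : zD2.ev (nth 0 [1, 0, 0]) lfZ 3891 mul12One = 0 := by decide +kernel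
theorem ez10 : zD0.ev (nth 0 [1, 2, 0]) lfZ 0 cf = 0 := by decide +kernel
theorem ez11 : zD1.ev (nth 0 [1, 2, 0]) lfZ 0 cf = 9217 := by decide +kernel
theorem ez12 : zD2.ev (nth 0 [1, 0, 0]) lfZ 0 cf = 0 := by decide +kernel
theorem ez20 : zD0.ev (nth 0 [1, 2, 0]) lfZ 3 cf = 64 := by decide +kernel
theorem ez21 : zD1.ev (nth 0 [1, 2, 0]) lfZ 3 cf = 47968 := by decide +kernel
theorem ez22 : zD2.ev (nth 0 [1, 0, 0]) lfZ 3 cf = 0 := by decide +kernel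
theorem ez30 : zD0.ev (nth 0 [1, 2, 0]) lfZ 0 cs1 = 0 := by decide +kernel
theorem ez31 : zD1.ev (nth 0 [1, 2, 0]) lfZ 0 cs1 = 0 := by decide +kernel
theorem ez32 : zD2.ev (nth 0 [1, 0, 0]) lfZ 0 cs1 = 5505 := by decide +kernel
theorem ez40 : zD0.ev (nth 0 [1, 2, 0]) lfZ 0 cs2 = 640 := by decide +kernel
theorem ez41 : zD1.ev (nth 0 [1, 2, 0]) lfZ 0 cs2 = 33280 := by decide +kernel
theorem ez42 : zD2.ev (nth 0 [1, 0, 0]) lfZ 0 cs2 = 0 := by decide +kernel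

end Cfsg.Agent.LL.U6
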