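import Cfsg.Agent.H21.Jo5

/-! Counting in the centralizer of a duad. -/

set_option autoImplicit false
set_option maxRecDepth 100000

namespace Cfsg.Agent.LL.U6

open Cfsg Cfsg.Agent.H16

theorem et00 : tD0.ev (nth 0 [1, 0, 0]) lfT 27 mul12One = 1 := by decide +kernel
theorem et01 : tD1.ev (nth 0 [0, 1, 0]) lfT 27 mul12One = 0 := by decide +kernel
theorem et02 : tD2.ev (nth 0 [0, 1, 0]) lfT 27 mul12One = 0 := by decide +kernel
theorem et03 : tD3.ev (nth 0 [0, 1, 0]) lfT 27 mul12One = 0 := by decide +kernel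
theorem et04 : tD3.ev (nth 0 [1, 0, 0]) lfT 27 mul12One = 0 := by decide +kernel
theorem et10 : tD0.ev (nth 0 [1, 0, 0]) lfT 15 mul12One = 0 := by decide +kernel
theorem et11 : tD1.ev (nth 0 [0, 1, 0]) lfT 15 mul12One = 0 := by decide +kernel
theorem et12 : tD2.ev (nth 0 [0, 1, 0]) lfT 15 mul12One = 2688 := by decide +kernel
theorem et13 : tD3.ev (nth 0 [0, 1, 0]) lfT 15 mul12One = 0 := by decide +kernel
theorem et14 : tD3.ev (nth 0 [1, 0, 0]) lfT 15 mul12One = 0 := by decide +kernel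
theorem et20 : tD0.ev (nth 0 [1, 0, 0]) lfT 0 kA = 0 := by decide +kernel
theorem et21 : tD1.ev (nth 0 [0, 1, 0]) lfT 0 kA = 7681 := by decide +kernel
theorem et22 : tD2.ev (nth 0 [0, 1, 0]) lfT 0 kA = 0 := by decide +kernel
theorem et23 : tD3.ev (nth 0 [0, 1, 0]) lfT 0 kA = 0 := by decide +kernel
theorem et24 : tD3.ev (nth 0 [1, 0, 0]) lfT 0 kA = 0 := by decide +kernel

end Cfsg.Agent.LL.U6
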