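import Cfsg.Agent.H21.Jo5

/-! Counting in the centralizer of a duad. -/

set_option autoImplicit false
set_option maxRecDepth 100000

namespace Cfsg.Agent.LL.U6

open Cfsg Cfsg.Agent.H16

theorem et30 : tD0.ev (nth 0 [1, 0, 0]) lfT 0 kBb = 16 := by decide +kernel
theorem et31 : tD1.ev (nth 0 [0, 1, 0]) lfT 0 kBb = 44352 := by decide +kernel
theorem et32 : tD2.ev (nth 0 [0, 1, 0]) lfT 0 kBb = 0 := by decide +kernel
theorem et33 : tD3.ev (nth 0 [0, 1, 0]) lfT 0 kBb = 0 := by decide +kernel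
theorem et34 : tD3.ev (nth 0 [1, 0, 0]) lfT 0 kBb = 0 := by decide +kernel
theorem et40 : tD0.ev (nth 0 [1, 0, 0]) lfT 0 kC = 0 := by decide +kernel
theorem et41 : tD1.ev (nth 0 [0, 1, 0]) lfT 0 kC = 0 := by decide +kernel
theorem et42 : tD2.ev (nth 0 [0, 1, 0]) lfT 0 kC = 0 := by decide +kernel
theorem et43 : tD3.ev (nth 0 [0, 1, 0]) lfT 0 kC = 26241 := by decide +kernel
theorem et50 : tD0.ev (nth 0 [1, 0, 0]) lfT 60 kC = 0 := by decide +kernel
theorem et51 : tD1.ev (nth 0 [0, 1, 0]) lfT 60 kC = 0 := by decide +kernel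
theorem et52 : tD2.ev (nth 0 [0, 1, 0]) lfT 60 kC = 0 := by decide +kernel
theorem et54 : tD3.ev (nth 0 [1, 0, 0]) lfT 60 kC = 26241 := by decide +kernel

end Cfsg.Agent.LL.U6
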