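import Cfsg.Agent.H21.JoY
import Cfsg.Agent.H21.Jo6
import Cfsg.Agent.H21.Jo7
import Cfsg.Agent.H21.Jo8
import Cfsg.Agent.S0213

/-! The classes of involutions and the order of a simple group of Janko-four type. -/

set_option autoImplicit false
set_option maxRecDepth 100000
set_option linter.style.haveILetI false

namespace Cfsg.Agent.LL.U6

open Cfsg Cfsg.Agent.H16 Cfsg.Agent.H3 Cfsg.Agent.H10 MulAction Mdl Subgroup Finset
open scoped Pointwise

theorem Cl.card {K : Subgroup Γ} {g : Γ} {n : ℕ} {u : ℕ → Γ} (c : Cl K g n u) (hg : g ∈ K) :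
    n * Nat.card ↥(K ⊓ centralizer {g}) = Nat.card K := by
  rw [← H11.card_isConj_mul (⟨g, hg⟩ : K), Nat.card_congr (centEquiv K ⟨g, hg⟩).toEquiv, ← Nat.card_eq_of_bijective
    (fun i : Fin n => (⟨_, isConj_iff.mpr ⟨⟨_, c.mem i i.2⟩, rfl⟩⟩ : {y : K // IsConj ⟨g, hg⟩ y})) ⟨fun i j e => Fin.ext
    (c.inj (by simp) (by simp) (congrArg (fun y => (y.1 : Γ)) e)), fun ⟨y, hy⟩ => by
      obtain ⟨a, rfl⟩ := isConj_iff.mp hy
      obtain ⟨i, hi, e⟩ := c.surj _ a.2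
      exact ⟨⟨i, hi⟩, Subtype.ext (Subtype.ext e)⟩⟩, Nat.card_fin]

variable {G : Type*} [Group G]

open Classical in
/-- the indicator function of a class -/
noncomputable def cI (u a : G) : ℕ := if IsConj u a then 1 else 0

theorem cI_conj (u a b : G) : cI u (a * b * a⁻¹) = cI u b := by
  rw [cI, cI, isConj_congr (isConj_iff.mpr ⟨a, rfl⟩ : IsConj b _)]
theorem cI_one {u a : G} (h : IsConj u a) : cI u a = 1 := if_pos h
theorem cI_zero {u a : G} (h : ¬ IsConj u a) : cI u a = 0 := if_neg h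
theorem cI_ne {u a : G} (h : cI u a ≠ 0) : IsConj u a := by_contra fun n => h (cI_zero n)

theorem sq_of {u a : G} (hu : u * u = 1 ∧ u ≠ 1) (h : IsConj u a) : a * a = 1 ∧ a ≠ 1 := by
  obtain ⟨g, rfl⟩ := isConj_iff.mp h
  exact ⟨by rw [conj_mul, hu.1]; simp, mt conj_eq_one_iff.mp hu.2⟩

theorem pair_cent {a b u : G} (ha : a * a = 1) (hb : b * b = 1) (hu : u * u = 1) (h : u ∈ zpowers (a * b)) :
    a ∈ centralizer {u} ∧ b ∈ centralizer {u} := by
  obtain ⟨n, rfl⟩ := h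
  have k : ∀ c, c * (a * b) * c⁻¹ = (a * b)⁻¹ → c ∈ centralizer {(a * b) ^ n} := fun c e => mem_centralizer_singleton_iff.mpr (by
    rw [← mul_inv_eq_iff_eq_mul, ← conj_zpow, e, inv_zpow, inv_eq_of_mul_eq_one_left hu])
  rw [mul_inv_rev, inv_eq_of_mul_eq_one_left ha, inv_eq_of_mul_eq_one_left hb] at k
  exact ⟨k a (by rw [← mul_assoc, ha, one_mul, inv_eq_of_mul_eq_one_left ha]),
    k b (by rw [inv_eq_of_mul_eq_one_left hb, mul_assoc, mul_assoc, hb, mul_one])⟩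

theorem even_ord [Finite G] {a b : G} (ha : a * a = 1) (hb : b * b = 1) (h : ¬ IsConj a b) : 2 ∣ orderOf (a * b) := by
  by_contra n
  obtain ⟨l, e⟩ : ∃ l, orderOf (a * b) = l + 1 + l := ⟨orderOf (a * b) / 2, by omega⟩
  have h1 := pow_orderOf_eq_one (a * b)
  have h2 : a * (a * b) ^ l * a⁻¹ = ((a * b) ^ l)⁻¹ := by
    rw [← conj_pow, ← mul_assoc, ha, one_mul, ← inv_pow, mul_inv_rev, inv_eq_of_mul_eq_one_left hb]
  rw [e, pow_add, pow_succ', mul_assoc, mul_assoc, mul_eq_one_iff_inv_eq, inv_eq_of_mul_eq_one_left ha] at h1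
  refine h (isConj_iff.mpr ⟨(a * b) ^ l, ?_⟩)
  rw [← h2, ← mul_assoc, ← mul_assoc, mul_assoc _ a a, ha, mul_one, ← mul_left_inj a, inv_mul_cancel_right,
    mul_eq_one_iff_eq_inv.mp (show (a * b) ^ l * (a * b) ^ l * (a * b) = 1 by
      rw [← pow_add, ← pow_succ, show l + l + 1 = l + 1 + l by omega, ← e, pow_orderOf_eq_one]), mul_inv_rev,
    inv_eq_of_mul_eq_one_left ha, inv_eq_of_mul_eq_one_left hb]

open Classical in
theorem card_sum {X : Subgroup G} [Fintype X] {P : G → Prop} (h : ∀ a, P a → a ∈ X) :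
    Nat.card {a // P a} = ∑ a : X, if P a then 1 else 0 := by
  rw [← card_filter, ← Fintype.card_subtype, ← Nat.card_eq_fintype_card]
  exact Nat.card_congr ⟨fun a => ⟨⟨a, h a a.2⟩, a.2⟩, fun a => ⟨a.1, a.2⟩, fun _ => rfl, fun _ => rfl⟩

open Classical in
theorem card_sum2 {X : Subgroup G} [Fintype X] {P : G × G → Prop} (h : ∀ a b, P (a, b) → a ∈ X ∧ b ∈ X) :
    Nat.card {a // P a} = ∑ a : X, ∑ b : X, if P (a, b) then 1 else 0 := by
  rw [← Fintype.sum_prod_type', ← card_filter, ← Fintype.card_subtype, ← Nat.card_eq_fintype_card]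
  exact Nat.card_congr ⟨fun a => ⟨(⟨a.1.1, (h _ _ a.2).1⟩, ⟨a.1.2, (h _ _ a.2).2⟩), a.2⟩, fun a => ⟨(a.1.1, a.1.2), a.2⟩,
    fun _ => rfl, fun _ => rfl⟩

/-- the number of partners -/
noncomputable def nC (v u b : G) : ℕ := Nat.card {a // IsConj v a ∧ u ∈ zpowers (a * b)}

theorem nC_conj [Finite G] (v : G) {u g : G} (h : g ∈ centralizer {u}) (b : G) : nC v u (g * b * g⁻¹) = nC v u b :=
  (Nat.card_congr ((MulAut.conj g).toEquiv.subtypeEquiv fun a => and_congr (isConj_congr (isConj_iff.mpr ⟨g, rfl⟩)) (by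
    have e : g * u * g⁻¹ = u := mul_inv_eq_iff_eq_mul.mpr (mem_centralizer_singleton_iff.mp h)
    change _ ↔ u ∈ zpowers (g * a * g⁻¹ * _)
    rw [conj_mul]
    exact exists_congr fun n => by
      simp only [conj_zpow]; conv_rhs => rw [← e]
      simp))).symm

open Classical in
theorem nC_sum {X : Subgroup G} [Fintype X] {u v b : G} (hX : centralizer {u} ≤ X) (hu : u * u = 1) (hv : v * v = 1 ∧ v ≠ 1)
    (hb : b * b = 1) : nC v u b = ∑ a : X, if IsConj v a ∧ u ∈ zpowers (a * b) then 1 else 0 := by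
  convert card_sum (P := fun a => IsConj v a ∧ u ∈ zpowers (a * b)) fun a h => hX (pair_cent (sq_of hv h.1).1 hb hu h.2).1
  rfl

theorem pairs1 {X : Subgroup G} [Fintype X] {u v w : G} (hX : centralizer {u} ≤ X) (hu : u * u = 1) (hv : v * v = 1 ∧ v ≠ 1)
    (hw : w * w = 1 ∧ w ≠ 1) : Nat.card {p : G × G // IsConj v p.1 ∧ IsConj w p.2 ∧ u ∈ zpowers (p.1 * p.2)} =
    ∑ b : X, cI w b * nC v u b := by
  classical
  rw [card_sum2 fun a b h => (pair_cent (sq_of hv h.1).1 (sq_of hw h.2.1).1 hu h.2.2).imp (hX ·) (hX ·), sum_comm]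
  refine sum_congr rfl fun b _ => ?_
  by_cases c : IsConj w (b : G)
  · rw [cI_one c, one_mul, nC_sum hX hu hv (sq_of hw c).1]; simp only [c, true_and]
  · simp only [c, cI_zero c, false_and, and_false, if_false, sum_const_zero, zero_mul]

theorem pairs2 {u v w : G} (hv : v * v = 1 ∧ v ≠ 1) (hw : w * w = 1 ∧ w ≠ 1) :
    Nat.card {p : G × G // IsConj v p.1 ∧ IsConj w p.2 ∧ u ∈ zpowers (p.1 * p.2)} =
    Nat.card {p : G × G // IsConj w p.1 ∧ IsConj v p.2 ∧ u ∈ zpowers (p.1 * p.2)} := by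
  have k : ∀ {a b : G}, a * a = 1 → b * b = 1 → u ∈ zpowers (a * b) → u ∈ zpowers (b * a) := fun h h' e => by
    rwa [← zpowers_inv, mul_inv_rev, inv_eq_of_mul_eq_one_left h, inv_eq_of_mul_eq_one_left h'] at e
  exact Nat.card_congr ((Equiv.prodComm G G).subtypeEquiv fun p => ⟨fun h => ⟨h.2.1, h.1, k (sq_of hv h.1).1 (sq_of hw h.2.1).1 h.2.2⟩,
    fun h => ⟨h.2.1, h.1, k (sq_of hw h.1).1 (sq_of hv h.2.1).1 h.2.2⟩⟩)

theorem card_pairs [Finite G] (u v : G) : Nat.card {p : G × G // IsConj u p.1 ∧ IsConj v p.2 ∧ p.1 * p.2 = p.2 * p.1} *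
    Nat.card (centralizer {u}) = Nat.card G * Nat.card {b // IsConj v b ∧ b ∈ centralizer {u}} := by
  haveI := Fintype.ofFinite {a // IsConj u a}
  have k : ∀ a : {a // IsConj u a}, Nat.card {b // IsConj v b ∧ a * b = b * a} = Nat.card {b // IsConj v b ∧ b ∈ centralizer {u}} := by
    rintro ⟨a, ha⟩
    obtain ⟨g, rfl⟩ := isConj_iff.mp ha
    exact (Nat.card_congr ((MulAut.conj g).toEquiv.subtypeEquiv fun b => and_congr (isConj_congr (isConj_iff.mpr ⟨g, rfl⟩)) (by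
      rw [mem_centralizer_singleton_iff, eq_comm]; exact (MulAut.conj g).injective.eq_iff.symm.trans (by simp [mul_assoc])))).symm
  rw [← H11.card_isConj_mul u, mul_right_comm, Nat.card_congr (⟨fun a => ⟨⟨a.1.1, a.2.1⟩, a.1.2, a.2.2⟩,
    fun a => ⟨(a.1, a.2), a.1.2, a.2.2⟩, fun _ => rfl, fun _ => rfl⟩ : _ ≃ Σ a : {a // IsConj u a}, {b // IsConj v b ∧ a * b = b * a}),
    Nat.card_sigma, sum_congr rfl fun a _ => k a, sum_const, card_univ, Nat.card_eq_fintype_card (α := {a // IsConj u a}), smul_eq_mul]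

theorem pairs_eq [Finite G] (u v : G) : Nat.card {b // IsConj v b ∧ b ∈ centralizer {u}} * Nat.card (centralizer {v}) =
    Nat.card {b // IsConj u b ∧ b ∈ centralizer {v}} * Nat.card (centralizer {u}) := by
  have a := card_pairs u v
  have b := card_pairs v u
  rw [Nat.card_congr ((Equiv.prodComm G G).subtypeEquiv (q := fun p => IsConj u p.1 ∧ IsConj v p.2 ∧ p.1 * p.2 = p.2 * p.1)
    fun p => ⟨fun h => ⟨h.2.1, h.1, h.2.2.symm⟩, fun h => ⟨h.2.1, h.1, h.2.2.symm⟩⟩)] at b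
  refine Nat.eq_of_mul_eq_mul_left (Nat.card_pos (α := G)) ?_
  rw [← mul_assoc, ← a, ← mul_assoc, ← b]; ring

theorem TK.cardC [Finite G] {z : G} {V : Subgroup G} {t Φ κ} (k : TK z V t Φ κ) (h : centralizer {t Du} ≤ normalizer (V : Set G)) :
    Nat.card (centralizer {t Du}) = 1816657920 := by
  let f : centralizer {t Du} →* KL := ((th.comp Φ).comp (inclusion h)).codRestrict _ fun a => k.cent.mp a.2
  rw [← card_ker_mul f fun g => let ⟨a, _, e⟩ := k.ex0 (TK.LW g.2); ⟨⟨a, k.cent.mpr (e ▸ g.2)⟩, Subtype.ext e⟩, KL_card,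
    show f.ker = V.subgroupOf _ from Subgroup.ext fun a => Subtype.ext_iff.trans ((map_eq_one_iff th th_inj).trans (k.ker _)),
    Nat.card_congr (subgroupOfEquivOfLe fun a ha => mem_centralizer_singleton_iff.mpr (k.h.comm ha (k.h.mem _))).toEquiv, k.h.cardA]
  norm_num

variable [Finite G] {z : G} {Q : Subgroup G} {ρ : centralizer ({z} : Set G) →* Γ} {p : G → V6} {m : FT z Q ρ p}
  {x : centralizer ({z} : Set G)} {b : ℕ → G} {d : ℕ → centralizer ({z} : Set G)} {t : Finset GolayPt → G}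
  {Φ : normalizer (m.AG : Set G) →* M24}

omit [Finite G] in
theorem JF.cardC (j : JF m x) : Nat.card (centralizer {z}) = 21799895040 := by
  rw [← card_mul_index ρ.ker, index_ker, j.hr, XJ_card, show ρ.ker = Q.subgroupOf _ from Subgroup.ext m.ker,
    Nat.card_congr (subgroupOfEquivOfLe m.lx.le_centralizer).toEquiv, m.card]
  norm_num

namespace JC
variable (k : JC m x b d t Φ)
include k

theorem ntz : ¬ IsConj z (t Du) := k.h.not_conj Du_card
omit [Finite G] in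
theorem z2 : z * z = 1 ∧ z ≠ 1 := ⟨m.lx.zz, m.lx.ne_one⟩
omit [Finite G] in
theorem t2 : t Du * t Du = 1 ∧ t Du ≠ 1 := ⟨k.h.sq _, k.h.ne_one Du_card⟩
theorem tN : centralizer {t Du} ≤ normalizer (m.AG : Set G) := k.h.cent_duad k.j.u11 (k.h.mem _) k.ntz k.t2.2

omit [Finite G] in
theorem du_conj {S : Finset GolayPt} (s : S.card = 2) : IsConj (t Du) (t S) := by
  obtain ⟨σ, rfl⟩ : S ∈ orbit M24 Du := by rw [orbit_subset_eq (by rw [Du_card]; omega)]; exact s.trans Du_card.symm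
  obtain ⟨n, rfl⟩ := k.surj σ
  exact isConj_iff.mpr ⟨n, k.act n _ (by simp [Du_card])⟩

theorem inv2 {y : G} (h : y * y = 1) (n : y ≠ 1) : IsConj z y ∨ IsConj (t Du) y := or_iff_not_imp_left.mpr fun f => by
  obtain ⟨a, ha, e⟩ := k.invol h
  obtain ⟨S, s, rfl⟩ := (k.h.duad a ha (sq_of ⟨h, n⟩ e).2).mp (mt (·.trans e.symm) f)
  exact (k.du_conj s).trans e.symm

theorem sum1 {y : G} (h : y * y = 1) (n : y ≠ 1) : cI z y + cI (t Du) y = 1 := by
  rcases k.inv2 h n with e | e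
  · rw [cI_one e, cI_zero fun f => k.ntz (e.trans f.symm)]
  · rw [cI_one e, cI_zero fun f => k.ntz (f.trans e.symm)]

variable [Fintype (centralizer ({z} : Set G))]

/-- the weights in the centralizer -/
noncomputable def wz (u : G) (v c : ℕ) : ℕ := Wt k.j.vz ρ (fun a => cI u a) (vc v) (el c)

theorem wz_eq (u : G) {v c : ℕ} {h : centralizer ({z} : Set G)} (h1 : k.j.vz h = vc v) (h2 : ρ h = el c) :
    k.wz u v c = cI u h + cI u (z * h) := by rw [wz, ← h1, ← h2, k.j.Wt_eq]; rfl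

theorem wz_Q (u : G) {v : ℕ} {q : G} (hq : q ∈ Q) (e : p q = vc v) : k.wz u v mul12One = cI u q + cI u (z * q) :=
  k.wz_eq u (h := ⟨q, m.lx.le_centralizer hq⟩) ((k.j.vz_Q hq).trans e) (((m.ker _).mpr hq).trans el_one.symm)

theorem wz_add {v c : ℕ} (r : M.R c (el c) ∧ el c ∈ XJ) (e : andB (andB (Nat.blt v 4096) (Nat.beq (mul12Ap c v) v)) (andB
    (andB (isOne o (o.mul c c)) (orB (notB (Nat.beq v 0)) (neB o pts c o.one))) (orB (notB (tb QT v))
    (notB (Nat.beq (mul12Ap c 64) (mul12Ap cW (mul12Ap c 1)))))) = true) : k.wz z v c + k.wz (t Du) v c = 2 := by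
  simp only [andB_iff, orB_iff, notB_iff, Nat.blt_eq, Nat.beq_eq] at e
  obtain ⟨⟨a1, a2⟩, ⟨a3, a4⟩, a5⟩ := e
  obtain ⟨h, h1, h2⟩ := k.j.ex (vc v) r.2
  have s : h * h = 1 := by_contra fun n => by
    have := (k.sigma (h2 ▸ isOne_spec (M.R_mul r.1 r.1) a3) (by rw [h1, h2, (R_ap r.1 a1).2, a2])).mp n
    rw [h1, h2, ← QT_iff a1, (R_ap r.1 (by norm_num)).2, (R_ap r.1 (by norm_num)).2, (R_ap R_W (R_ap r.1 (by norm_num)).1).2,
      vc_iff (R_ap r.1 (by norm_num)).1 (R_ap R_W (R_ap r.1 (by norm_num)).1).1] at this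
    exact a5.elim (· this.2) (· this.1)
  have n : ∀ a, k.j.vz a = k.j.vz h ∧ ρ a = ρ h → (a : G) ≠ 1 := fun a f e => by
    rw [show a = 1 from Subtype.ext e, k.j.aff.one, map_one, h1, h2, ← vc_zero, vc_iff (by norm_num) a1] at f
    exact a4.elim (· f.1.symm) fun l => ne_of_neB hv hpt r.1 M.R_one l f.2.symm
  have s' : (h : G) * h = 1 := congrArg Subtype.val s
  rw [k.wz_eq z h1 h2, k.wz_eq _ h1 h2, add_add_add_comm, k.sum1 s' (n h ⟨rfl, rfl⟩), k.sum1 (y := z * h) (by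
    rw [(show Commute (h : G) z from mem_centralizer_singleton_iff.mp h.2).mul_mul_mul_comm, s', m.lx.zz, one_mul])
    (n (zc z * h) (k.j.fib.mpr (Or.inr rfl)))]

theorem zm {u : G} (hu : u * u = 1 ∧ u ≠ 1) {φ : V6 → Γ → ℕ} (hφ : ∀ a b : centralizer ({z} : Set G), IsConj u (b : G) →
    φ (k.j.vz (a * b * a⁻¹)) (ρ (a * b * a⁻¹)) = φ (k.j.vz b) (ρ b)) (f : V6 → Γ → ℕ) :
    ∑ a : centralizer ({z} : Set G), cI u a * φ (k.j.vz a) (ρ a) * f (k.j.vz a) (ρ a) = zD0.sm (nth 0 [k.wz u 0 mul12One * φ (vc 0)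
      (el mul12One), k.wz u 15 mul12One * φ (vc 15) (el mul12One), k.wz u 3891 mul12One * φ (vc 3891) (el mul12One)]) f +
      zD1.sm (nth 0 [k.wz u 0 cf * φ (vc 0) (el cf), k.wz u 213 cf * φ (vc 213) (el cf), k.wz u 3 cf * φ (vc 3) (el cf)]) f +
      zD2.sm (nth 0 [k.wz u 0 cs1 * φ (vc 0) (el cs1), 0, 0]) f + zD3.sm (nth 0 [k.wz u 0 cs2 * φ (vc 0) (el cs2), 0, 0]) f :=
  k.zmaster (F := fun a => cI u a * φ (k.j.vz a) (ρ a)) (fun a b => by
    by_cases c : IsConj u (b : G)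
    · rw [hφ a b c]; exact congrArg (· * _) (cI_conj u a b)
    · rw [cI_zero c, show cI u (a * b * a⁻¹ :) = 0 from (cI_conj u a b).trans (cI_zero c), zero_mul, zero_mul])
    (fun a n => Subtype.ext (sq_of hu (cI_ne (left_ne_zero_of_mul n))).1) (w := fun v c => k.wz u v c * φ (vc v) (el c))
    (fun _ _ => Wt_mul φ _ _) f

theorem wz0 : k.wz z 0 mul12One = 1 ∧ k.wz (t Du) 0 mul12One = 0 := by
  have e : p 1 = vc 0 := ((m.zero (one_mem _)).mpr (one_mem _)).trans vc_zero.symm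
  rw [k.wz_Q _ (one_mem _) e, k.wz_Q _ (one_mem _) e, mul_one, cI_one (IsConj.refl z), cI_zero (mt IsConj.symm k.ntz),
    cI_zero fun h => (sq_of k.z2 h).2 rfl, cI_zero fun h => (sq_of k.t2 h).2 rfl]
  exact ⟨rfl, rfl⟩

theorem wzB : k.wz z 3891 mul12One = 0 := by
  obtain ⟨q, hq, e⟩ := m.surj (vc 3891)
  have l : ∀ q ∈ Q, p q = vc 3891 → cI z q = 0 := fun q hq e => cI_zero fun f => by
    obtain ⟨g, hg, l⟩ := m.toJ k.j.hr hq f fun l => absurd (vc_inj (by norm_num) (by norm_num)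
      (e.symm.trans ((l ▸ m.p_z).trans vc_zero.symm))) (by norm_num)
    exact absurd (inOrb_of XA_ch P1' hg (x := 3891) (P_iff.mpr ⟨by norm_num, (l.trans e).symm⟩)) (by decide +kernel)
  rw [k.wz_Q _ hq e, l q hq e, l _ (mul_mem m.lx.mem hq) ((m.p_zmul hq).trans e)]

theorem wzq : k.wz (t Du) 3 cf ≠ 1 := by
  obtain ⟨q, hq, e⟩ := m.surj (vc vq)
  have s0 : q * q = 1 := congrArg Subtype.val (qq (m := m) hq e (by decide +kernel))
  obtain ⟨h, f⟩ := k.c.cls2 hq e k.j.hr (mul_mem m.lx.mem hq) (by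
    rw [mul_assoc z, ((show Commute q z from m.lx.cent q hq).mul_left (mem_centralizer_singleton_iff.mp (d 1).2)).mul_mul_mul_comm,
      m.lx.zz, one_mul, mul_assoc, ← mul_assoc (d 1 : G), k.c.d_q0 hq e, mul_assoc, k.c.dd, mul_one, s0])
    (by rw [m.p_zmul hq, e]; exact nW0 (by decide +kernel))
  rw [k.wz_eq _ (v := 3) (c := cf) (h := ⟨q, m.lx.le_centralizer hq⟩ * d 1) ((k.j.vz_eq hq (k.j.nx.mpr (Or.inl (mul_inv_eq_iff_eq_mul.mpr
    (k.c.dx 1))))).trans e) (by rw [map_mul, (m.ker _).mpr hq, one_mul, k.c.pd]; exact congrArg el (by decide +kernel))]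
  change cI _ (q * d 1) + cI _ (z * (q * d 1)) ≠ 1
  rw [← mul_assoc, ← f, cI_conj]; omega

theorem wzA [IsSimpleGroup G] (hG : ¬ IsMulCommutative G) : k.wz z 15 mul12One = 2 := by
  obtain ⟨q, hq, e⟩ := m.surj (vc 15)
  rw [k.wz_Q _ hq e, cI_one (k.j.ofJ hG hq (one_mem _) e.symm),
    cI_one (k.j.ofJ hG (mul_mem m.lx.mem hq) (one_mem _) ((m.p_zmul hq).trans e).symm)]

end JC

namespace TK
variable {V : Subgroup G} {Φ : normalizer (V : Set G) →* M24} {κ : M24 →* normalizer (V : Set G)} (k : TK z V t Φ κ)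
  [Fintype (normalizer (V : Set G))]
include k

/-- the weights in the normalizer -/
noncomputable def wt (u : G) (v c : ℕ) : ℕ := Wt k.vt (th.comp Φ) (fun a => cI u a) (vc v) (el c)

omit [Finite G] in
theorem wt_eq (u : G) {v c : ℕ} {h : normalizer (V : Set G)} (h1 : k.vt h = vc v) (h2 : th.comp Φ h = el c) :
    k.wt u v c = cI u h := by rw [wt, ← h1, ← h2, k.Wt_eq]

theorem wtS {v : ℕ} (e : andB (Nat.blt v 4096) (Nat.beq (pc24 (v <<< 12)) 4) = true) : k.wt z v mul12One = 1 := by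
  simp only [andB_iff, Nat.blt_eq, Nat.beq_eq, ← card_toSet] at e
  rw [k.wt_eq z (h := k.tn _) ((k.vt_tn (by rw [e.2]; decide)).trans (sy_sh e.1)) (by simp [k.Φ_tn, el_one])]
  exact cI_one (k.h.tetrad e.2)

omit [Finite G] in
theorem wtAB (u : G) : k.wt u 0 kBb = k.wt u 0 kA ∧ k.wt u 4055 kBb = k.wt u 5 kA := by
  obtain ⟨r, hr⟩ := R_in (inKW (P := pABC) (S := [kAB]) (by decide +kernel) _ List.mem_cons_self)
  obtain ⟨a, a1, a2⟩ := k.ex0 hr
  have := fun v => k.aff.Wt_lin (F := fun a => cI u a) (cI_conj u a ·) a1 (g := el kA) (by simpa using R_add tg1.1 0 0) v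
  rw [a2, cjM_spec r tg1.1 tg2.1 (by decide +kernel)] at this
  exact ⟨by rw [wt, wt, ← this, (R_ap r (by norm_num)).2, show mul12Ap kAB 0 = 0 by decide +kernel],
    by rw [wt, wt, ← this, (R_ap r (by norm_num)).2, show mul12Ap kAB 5 = 4055 by decide +kernel]⟩

omit [Finite G] in
theorem wtT (u : G) : (∀ x < 4096, get 2 tP1.P x = 2 → k.wt u x kA = k.wt u 5 kA) ∧
    ∀ x < 4096, get 2 tP2.P x = 2 → k.wt u x kBb = k.wt u 4055 kBb :=
  ⟨k.pc le_rfl (fun a _ => (cI_conj u a ·)) tm1 tg1.1 tk1 tc12, k.pc le_rfl (fun a _ => (cI_conj u a ·)) tm2 tg2.1 tk2 tc22⟩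

omit [Finite G] in
theorem nz {D : CD} {e f : ℕ} (h : D.W k.vt (th.comp Φ) (fun a => cI z a) (nth 0 [e, f, 0])) {a : normalizer (V : Set G)}
    (ha : IsConj z a) {g : M24} (r : M.R D.g (th g)) (c : IsConj (Φ a) g) : e = 1 ∨ f = 1 := by
  obtain ⟨u, rfl⟩ := isConj_iff.mp c
  obtain ⟨v, hv, l⟩ := vc_surj (k.vt (κ u * a * (κ u)⁻¹))
  have a1 := k.wt_eq z l.symm (c := D.g) (by simpa [k.sec] using R_fun r (R_el r))
  replace a1 : k.wt z v D.g = 1 := a1.trans ((cI_conj z _ _).trans (cI_one ha))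
  rcases n : get 2 D.c.P v with _ | n'
  · exact absurd (a1.symm.trans ((h v hv).1 n)) one_ne_zero
  · have := nth_mem 0 [e, f, 0] n'
    rw [← (h v hv).2 _ n, show Wt _ _ _ _ _ = 1 from a1] at this
    simpa [eq_comm] using this

end TK

theorem sol {a b c d e f g h i : ℕ} (ha : a < 2) (hb : b < 2) (hc : c < 2) (hd : d < 2) (he : e < 3) (hf : f < 3) (hg : g < 3)
    (hh : h < 3) (hi : i < 3) (h1 : a = 1 ∨ b = 1) (h2 : c = 1 ∨ d = 1) (h3 : g ≠ 1)
    (h4 : 2772 + 1155 * (e * 16 + f * 48 + g * 96) + 990 * (h * 64) + 4158 * (i * 64) =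
      (1771 + 1155 * (a * 16 + b * 112) + 330 * (a * 16 + b * 112) + 1386 * (c * 32 + d * 32)) * 12) :
    a = 1 ∧ b = 0 ∧ c + d = 1 ∧ e = 1 ∧ f = 0 ∧ g = 2 ∧ h = 1 ∧ i = 2 := by
  interval_cases a <;> interval_cases b <;> interval_cases c <;> interval_cases d <;> interval_cases g <;> interval_cases i <;> omega

theorem sm1 (D : CD) (a b c : ℕ) : D.sm (nth 0 [a, b, c]) (fun _ _ => 1) = D.n * (a * D.c.n 0 + b * D.c.n 1 + c * D.c.n 2) := by
  rw [CD.sm_one, sum_range_succ, sum_range_succ, sum_range_one]; delta nth; rfl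

theorem sm0 (D : CD) (f : V6 → Γ → ℕ) : D.sm (nth 0 [0, 0, 0]) f = 0 := sum_eq_zero fun _ _ => by
  rw [Pc.sm_eq, sum_range_succ, sum_range_succ, sum_range_one, show nth 0 [0, 0, 0] 2 = 0 by decide +kernel,
    show nth 0 [0, 0, 0] 1 = 0 by decide +kernel, nth_zero, zero_mul, zero_mul, zero_mul]; rfl

open Classical in
/-- the indicator function of the stabiliser -/
noncomputable def iL (_ : V6) (g : Γ) : ℕ := if g ∈ KL then 1 else 0

theorem nz8 : (zD0.n = 1 ∧ zP0.n 0 = 1 ∧ zP0.n 1 = 693 ∧ zP0.n 2 = 1386 ∧ zD1.n = 1155 ∧ zP1.n 0 = 16 ∧ zP1.n 1 = 48 ∧ zP1.n 2 = 96 ∧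
    zD2.n = 990 ∧ zP2.n 0 = 64 ∧ zD3.n = 4158 ∧ zP3.n 0 = 64) ∧ tD0.n = 1 ∧ tP0.n 0 = 276 ∧ tP0.n 1 = 231 ∧ tP0.n 2 = 1540 ∧
    tD1.n = 1155 ∧ tP1.n 0 = 16 ∧ tP1.n 1 = 112 ∧ tD2.n = 330 ∧ tP2.n 0 = 16 ∧ tP2.n 1 = 112 ∧ tD3.n = 1386 ∧ tP3.n 0 = 32 ∧
    tP3.n 1 = 32 := by decide +kernel

theorem zsum (a b c d e f g h : ℕ) : zD0.sm (nth 0 [a, b, c]) (fun _ _ => 1) + zD1.sm (nth 0 [d, e, f]) (fun _ _ => 1) +
    zD2.sm (nth 0 [g, 0, 0]) (fun _ _ => 1) + zD3.sm (nth 0 [h, 0, 0]) (fun _ _ => 1) =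
    a + b * 693 + c * 1386 + 1155 * (d * 16 + e * 48 + f * 96) + 990 * (g * 64) + 4158 * (h * 64) := by
  simp only [sm1, show zD0.c = zP0 from rfl, show zD1.c = zP1 from rfl, show zD2.c = zP2 from rfl, show zD3.c = zP3 from rfl, nz8.1]
  ring

theorem tsum (a b c d e f g h i : ℕ) : tD0.sm (nth 0 [a, b, c]) (fun _ _ => 1) + tD1.sm (nth 0 [d, e, 0]) (fun _ _ => 1) +
    tD2.sm (nth 0 [f, g, 0]) (fun _ _ => 1) + tD3.sm (nth 0 [h, i, 0]) (fun _ _ => 1) =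
    a * 276 + b * 231 + c * 1540 + 1155 * (d * 16 + e * 112) + 330 * (f * 16 + g * 112) + 1386 * (h * 32 + i * 32) := by
  simp only [sm1, show tD0.c = tP0 from rfl, show tD1.c = tP1 from rfl, show tD2.c = tP2 from rfl, show tD3.c = tP3 from rfl, nz8.2]
  ring

namespace JC
variable (k : JC m x b d t Φ) {κ : M24 →* normalizer (m.AG : Set G)} (s : TK z m.AG t Φ κ)
  [Fintype (centralizer ({z} : Set G))] [Fintype (normalizer (m.AG : Set G))]
include k s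

omit [Fintype (centralizer ({z} : Set G))] in
theorem wt_add {v c : ℕ} (r : M.R c (el c) ∧ el c ∈ KL) (e : andB (andB (Nat.blt v 4096) (Nat.beq (mul12Ap c v) v)) (andB
    (andB (isOne o (o.mul c c)) (orB (notB (Nat.beq v 0)) (neB o pts c o.one))) (Nat.beq (pc24 (v <<< 12) % 2) 0)) = true) :
    s.wt z v c + s.wt (t Du) v c = 1 := by
  simp only [andB_iff, orB_iff, notB_iff, Nat.blt_eq, Nat.beq_eq] at e
  obtain ⟨⟨a1, a2⟩, ⟨a3, a4⟩, a5⟩ := e
  obtain ⟨h, h1, h2⟩ := s.ex a1 a5 (TK.LW r.2)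
  rw [s.wt_eq z h1 h2, s.wt_eq _ h1 h2]
  refine k.sum1 (congrArg Subtype.val (s.sq (h2 ▸ isOne_spec (M.R_mul r.1 r.1) a3) (by rw [h1, h2, (R_ap r.1 a1).2, a2]))) fun e => ?_
  rw [show h = 1 from Subtype.ext e, s.aff.one, ← vc_zero, vc_iff (by norm_num) a1] at h1
  rw [show h = 1 from Subtype.ext e, map_one] at h2
  exact a4.elim (· h1.symm) fun l => ne_of_neB hv hpt r.1 M.R_one l h2.symm

omit k [Finite G] [Fintype (centralizer ({z} : Set G))] in
theorem wt_L (u : G) {c : ℕ} (h : el c ∈ KL) (v : ℕ) (φ : V6 → Γ → ℕ) : Wt s.vt (th.comp Φ)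
    (fun a => cI u a * (iL (s.vt a) (th.comp Φ a) * φ (s.vt a) (th.comp Φ a))) (vc v) (el c) = s.wt u v c * φ (vc v) (el c) := by
  rw [Wt_mul (fun v g => iL v g * φ v g), iL, if_pos h, one_mul]; rfl

omit k [Finite G] [Fintype (centralizer ({z} : Set G))] in
theorem tm {u : G} (hu : u * u = 1 ∧ u ≠ 1) {φ : V6 → Γ → ℕ} (hφ : ∀ a, th.comp Φ a ∈ KL → ∀ b : normalizer (m.AG : Set G), IsConj u (b : G) →
    φ (s.vt (a * b * a⁻¹)) (th.comp Φ (a * b * a⁻¹)) = φ (s.vt b) (th.comp Φ b)) {e0 e1 e2 : ℕ}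
    (h0 : ∀ S, S.card = 2 → cI u (t S) * φ (sy S) 1 = e0) (h1 : ∀ x, s.wt u 5 kA * φ (vc x) (el kA) = e1)
    (h2 : ∀ x, s.wt u 5 kA * φ (vc x) (el kBb) = e2) (f : V6 → Γ → ℕ) :
    ∑ a : normalizer (m.AG : Set G), cI u a * (iL (s.vt a) (th.comp Φ a) * φ (s.vt a) (th.comp Φ a)) * f (s.vt a) (th.comp Φ a) =
      tD0.sm (nth 0 [e0, s.wt u 27 mul12One * φ (vc 27) (el mul12One), s.wt u 15 mul12One * φ (vc 15) (el mul12One)]) f +
      tD1.sm (nth 0 [s.wt u 0 kA * φ (vc 0) (el kA), e1, 0]) f + tD2.sm (nth 0 [s.wt u 0 kA * φ (vc 0) (el kBb), e2, 0]) f +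
      tD3.sm (nth 0 [s.wt u 0 kC * φ (vc 0) (el kC), s.wt u 60 kC * φ (vc 60) (el kC), 0]) f := by
  rw [← wt_L s u tg0.2, ← wt_L s u tg0.2, ← wt_L s u tg1.2, ← wt_L s u tg3.2, ← wt_L s u tg3.2, ← (s.wtAB u).1, ← wt_L s u tg2.2]
  refine s.tmaster (fun a ha b => ?_) (fun a n => ?_) (fun _ _ => rfl) (fun a n => ?_) (fun S e => ?_) (fun x hx f => ?_)
    (fun x hx f => ?_) f
  · by_cases c : IsConj u (b : G)
    · rw [hφ a ha b c, iL, iL, map_mul, map_mul, map_inv, mul_mem_cancel_right (inv_mem ha), mul_mem_cancel_left ha]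
      exact congrArg (· * _) (cI_conj u a b)
    · rw [cI_zero c, show cI u (a * b * a⁻¹ :) = 0 from (cI_conj u a b).trans (cI_zero c), zero_mul, zero_mul]
  · exact (sq_of hu (cI_ne (left_ne_zero_of_mul n))).imp Subtype.ext (mt (congrArg Subtype.val))
  · exact by_contra fun c => n (by simp [iL, show th (Φ a) ∉ KL from c])
  · rw [← h0 S e, s.vt_tn (by simp [e]), MonoidHom.comp_apply, s.Φ_tn, map_one, iL, if_pos (one_mem _), one_mul]; rfl
  · rw [wt_L s u tg1.2, (s.wtT u).1 x hx f, h1]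
  · rw [wt_L s u tg2.2, (s.wtT u).2 x hx f, (s.wtAB u).2, h2]

variable [IsSimpleGroup G] (hG : ¬ IsMulCommutative G)
include hG

theorem ab : (s.wt z 0 kA = 1 ∨ s.wt z 5 kA = 1) ∧ (s.wt z 0 kC = 1 ∨ s.wt z 60 kC = 1) := by
  obtain ⟨q0, h0, e0⟩ := m.surj (vc vq)
  obtain ⟨q1, h1, e1⟩ := m.surj (vc vn)
  obtain ⟨q, hq, e⟩ := m.surj (vc xA)
  have l : ∀ {q v}, q ∈ Q → p q = vc v → andB (Nat.blt v 4096) (inOrb o J00 v) = true → IsConj z q := fun hq e f => by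
    obtain ⟨g, hg, f⟩ := inOrb_spec (XA_ch.tabIn J00 List.mem_cons_self) P1' (P_vc (Nat.blt_eq.mp (andB_iff.mp f).1)) (andB_iff.mp f).2
    exact k.j.ofJ hG hq hg (f.trans e.symm)
  have sq : ∀ a : normalizer (m.AG : Set G), cI z a ≠ 0 → a * a = 1 ∧ a ≠ 1 := fun a n =>
    (sq_of k.z2 (cI_ne n)).imp Subtype.ext (mt (congrArg Subtype.val))
  have rA := rep_elt (nth 0 pABC 0) (by decide +kernel)
  have rC := rep_elt (nth 0 pABC 2) (by decide +kernel)
  generalize elt (nth 0 pABC 0) _ = u at rA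
  generalize elt (nth 0 pABC 2) _ = v at rC
  have a1 : M.R kA (th u) := (show cy (nth 0 pABC 0) = kA by decide +kernel) ▸ R_cy rA
  have c1 : M.R kC (th v) := (show cy (nth 0 pABC 2) = kC by decide +kernel) ▸ R_cy rC
  have i : ∀ {c u}, M.R c (th u) → andB (isOne o (o.mul c c)) (neB o pts c o.one) = true → u * u = 1 ∧ u ≠ 1 := fun r e =>
    ⟨th_inj (by rw [map_mul, map_one]; exact isOne_spec (M.R_mul r r) (andB_iff.mp e).1),
      fun f => ne_of_neB hv hpt r M.R_one (andB_iff.mp e).2 (f ▸ map_one _)⟩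
  refine ⟨s.nz (s.W1 (fun a _ => (cI_conj z a ·)) sq (fun _ _ => rfl) (s.wtT z).1) (a := ⟨q, m.Q_norm hq⟩)
    (l hq e (by decide +kernel)) a1 ?_, s.nz (s.W3 (fun a _ => (cI_conj z a ·)) sq (w := s.wt z) fun _ _ => rfl)
    (a := ⟨q1, m.Q_norm h1⟩) (l h1 e1 (by decide +kernel)) c1 ?_⟩
  · rw [show Φ ⟨q, m.Q_norm hq⟩ = Φ ⟨q0, m.Q_norm h0⟩ from mul_inv_eq_one.mp (by
      rw [← map_inv, ← map_mul, k.ker]
      exact Co.A0_AG ⟨mul_mem hq (inv_mem h0), by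
        change W0 (p (q * q0⁻¹)); rw [m.mul hq (inv_mem h0), m.p_inv h0, e, e0, ← vc_xor]; exact W0_of (by decide +kernel)⟩)]
    exact (k.is2A h0 e0).symm.trans (conj2A (i a1 (by decide +kernel)).1 (i a1 (by decide +kernel)).2
      ((rA 0 (by norm_num)).2.trans (congrArg gpt (by decide +kernel))))
  · obtain ⟨g, f | f⟩ := k.two h0 e0 h1 e1 (i c1 (by decide +kernel)).1 (i c1 (by decide +kernel)).2
    · obtain ⟨y, -, -, -, -, -, -, -, -, -, hy, -⟩ := k.tri h0 e0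
      have := mem_fixSet.mpr hy
      rw [← f, fixSet_conj, rC.fixSet_eq, show fixMask 5 24 (nth 0 pABC 2) = 0 by decide +kernel] at this
      simp [Finset.mem_smul_finset, mem_toSet] at this
    · exact (isConj_iff.mpr ⟨g, f⟩).symm

attribute [local irreducible] JC.wz TK.wt

theorem wts : s.wt z 0 kA = 1 ∧ s.wt z 5 kA = 0 ∧ s.wt z 0 kC + s.wt z 60 kC = 1 ∧ k.wz (t Du) 0 cf = 1 ∧ k.wz (t Du) 213 cf = 0 ∧
    k.wz (t Du) 3 cf = 2 ∧ k.wz (t Du) 0 cs1 = 1 ∧ k.wz (t Du) 0 cs2 = 2 := by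
  classical
  have a := pairs_eq z (t Du)
  rw [k.j.cardC, s.cardC k.tN, card_sum (X := centralizer {z}) fun _ h => h.2, card_sum fun _ h => k.tN h.2,
    sum_congr rfl (g := fun a : centralizer {z} => cI (t Du) a * 1 * 1) fun a _ => by simp [cI],
    k.zm k.t2 (φ := fun _ _ => 1) (fun _ _ _ => rfl) fun _ _ => 1,
    sum_congr rfl (g := fun a : normalizer (m.AG : Set G) => cI z a * (iL (s.vt a) (th.comp Φ a) * 1) * 1)
      fun a _ => by
        rw [cI, iL, s.cent]; by_cases h : IsConj z (a : G) <;> by_cases h' : th.comp Φ a ∈ KL <;> simp only [h, h'] <;> simp, tm s k.z2 (φ := fun _ _ => 1) (fun _ _ _ _ => rfl)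
      (fun S e => by rw [cI_zero (k.h.not_conj e)]) (fun _ => mul_one _) (fun _ => mul_one _) fun _ _ => 1,
    zsum, tsum, k.wz0.2, s.wtS (by decide +kernel), s.wtS (by decide +kernel)] at a
  have b1 := k.wz_add (v := 15) zg0 (by decide +kernel)
  have b2 := k.wz_add (v := 3891) zg0 (by decide +kernel)
  have b3 := k.wz_add (v := 0) zg1 (by decide +kernel)
  have b4 := k.wz_add (v := 213) zg1 (by decide +kernel)
  have b5 := k.wz_add (v := 3) zg1 (by decide +kernel)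
  have b6 := k.wz_add (v := 0) zg2 (by decide +kernel)
  have b7 := k.wz_add (v := 0) zg3 (by decide +kernel)
  have c1 := k.wt_add s (v := 0) tg1 (by decide +kernel)
  have c2 := k.wt_add s (v := 5) tg1 (by decide +kernel)
  have c3 := k.wt_add s (v := 0) tg3 (by decide +kernel)
  have c4 := k.wt_add s (v := 60) tg3 (by decide +kernel)
  rw [k.wzA hG] at b1
  rw [k.wzB] at b2
  rw [show k.wz (t Du) 15 mul12One = 0 by omega, show k.wz (t Du) 3891 mul12One = 2 by omega] at a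
  refine sol ?_ ?_ ?_ ?_ ?_ ?_ ?_ ?_ ?_ (k.ab s hG).1 (k.ab s hG).2 k.wzq
    (Nat.eq_of_mul_eq_mul_right (by norm_num : 0 < 1816657920) (by linarith only [a]))
  all_goals clear a; omega

theorem wts' : k.wz z 0 cf = 1 ∧ k.wz z 213 cf = 2 ∧ k.wz z 3 cf = 0 ∧ k.wz z 0 cs1 = 1 ∧ k.wz z 0 cs2 = 0 ∧
    k.wz (t Du) 15 mul12One = 0 ∧ k.wz (t Du) 3891 mul12One = 2 ∧ s.wt (t Du) 0 kA = 0 ∧ s.wt (t Du) 5 kA = 1 ∧
    s.wt (t Du) 27 mul12One = 0 ∧ s.wt (t Du) 15 mul12One = 0 ∧ s.wt (t Du) 0 kC = s.wt z 60 kC ∧ s.wt (t Du) 60 kC = s.wt z 0 kC := by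
  have := k.wts s hG
  have b1 := k.wz_add (v := 15) zg0 (by decide +kernel)
  have b2 := k.wz_add (v := 3891) zg0 (by decide +kernel)
  have b3 := k.wz_add (v := 0) zg1 (by decide +kernel)
  have b4 := k.wz_add (v := 213) zg1 (by decide +kernel)
  have b5 := k.wz_add (v := 3) zg1 (by decide +kernel)
  have b6 := k.wz_add (v := 0) zg2 (by decide +kernel)
  have b7 := k.wz_add (v := 0) zg3 (by decide +kernel)
  have c1 := k.wt_add s (v := 0) tg1 (by decide +kernel)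
  have c2 := k.wt_add s (v := 5) tg1 (by decide +kernel)
  have c3 := k.wt_add s (v := 0) tg3 (by decide +kernel)
  have c4 := k.wt_add s (v := 60) tg3 (by decide +kernel)
  have c5 := k.wt_add s (v := 27) tg0 (by decide +kernel)
  have c6 := k.wt_add s (v := 15) tg0 (by decide +kernel)
  rw [k.wzA hG] at b1
  rw [k.wzB] at b2
  rw [s.wtS (by decide +kernel)] at c5 c6
  omega

open Classical in
theorem az : Nat.card {p : G × G // IsConj z p.1 ∧ IsConj (t Du) p.2 ∧ z ∈ zpowers (p.1 * p.2)} = 29236337328 := by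
  obtain ⟨-, -, -, a1, a2, a3, a4, a5⟩ := k.wts s hG
  obtain ⟨b1, b2, b3, b4, b5, b6, b7, -⟩ := k.wts' s hG
  let φ : V6 → Γ → ℕ := fun w η => ∑ a : centralizer {z}, cI z a * 1 * if cz (k.j.vz a + ρ a w) (ρ a * η) then 1 else 0
  have h1 : ∀ b : centralizer {z}, IsConj (t Du) (b : G) → nC z z b = φ (k.j.vz b) (ρ b) := fun b c => by
    rw [nC_sum le_rfl m.lx.zz k.z2 (sq_of k.t2 c).1]
    refine sum_congr rfl fun a _ => ?_
    by_cases e : IsConj z (a : G)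
    · rw [cI_one e, ← k.j.aff.mul, ← map_mul, ← k.mem_cz ((even_ord (sq_of k.z2 e).1 (sq_of k.t2 c).1 fun f =>
        k.ntz ((e.trans f).trans c.symm)).trans (orderOf_coe (a * b)).dvd)]
      simp only [e, true_and, one_mul]; rfl
    · simp only [e, cI_zero e, false_and, if_false, zero_mul]
  have h2 : ∀ {w h r0 r1 r2}, M.R h (el h) → w < 4096 → zD0.ev (nth 0 [1, 2, 0]) lfZ w h = r0 → zD1.ev (nth 0 [1, 2, 0]) lfZ w h = r1 →
      zD2.ev (nth 0 [1, 0, 0]) lfZ w h = r2 → r0 + r1 + r2 < 1000000 → φ (vc w) (el h) = r0 + r1 + r2 := fun r hw e0 e1 e2 l => by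
    refine (k.zm k.z2 (φ := fun _ _ => 1) (fun _ _ _ => rfl) fun v g => if cz (v + g _) (g * _) then 1 else 0).trans ?_
    rw [k.wz0.1, k.wzA hG, k.wzB, b1, b2, b3, b4, b5, sm0, CD.ev_spec zD0_ok r hw lfZ_ok e0 (by omega),
      CD.ev_spec zD1_ok r hw lfZ_ok e1 (by omega), CD.ev_spec zD2_ok r hw lfZ_ok e2 (by omega), add_zero]
  rw [pairs1 le_rfl m.lx.zz k.z2 k.t2, sum_congr rfl (g := fun b : centralizer {z} => cI (t Du) b * φ (k.j.vz b) (ρ b) * 1) fun b _ => by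
      by_cases c : IsConj (t Du) (b : G)
      · rw [h1 b c, mul_one]
      · rw [cI_zero c, zero_mul, zero_mul, zero_mul], k.zm k.t2 (fun a b c => by
      rw [← h1 b c, ← h1 _ (c.trans (isConj_iff.mpr ⟨(a : G), rfl⟩))]; exact nC_conj z a.2 b) fun _ _ => 1, zsum, k.wz0.2, b6, b7, a1,
    a2, a3, a4, a5, h2 zg0.1 (by norm_num) ez00 ez01 ez02 (by norm_num), h2 zg1.1 (by norm_num) ez10 ez11 ez12 (by norm_num),
    h2 zg1.1 (by norm_num) ez20 ez21 ez22 (by norm_num), h2 zg2.1 (by norm_num) ez30 ez31 ez32 (by norm_num),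
    h2 zg3.1 (by norm_num) ez40 ez41 ez42 (by norm_num)]
  norm_num

open Classical in
theorem at' : Nat.card {p : G × G // IsConj z p.1 ∧ IsConj (t Du) p.2 ∧ t Du ∈ zpowers (p.1 * p.2)} = 1544188503 := by
  obtain ⟨a1, a2, a3, -⟩ := k.wts s hG
  obtain ⟨-, -, -, -, -, -, -, b1, b2, b3, b4, b5, b6⟩ := k.wts' s hG
  let φ : V6 → Γ → ℕ := fun w η => ∑ a : normalizer (m.AG : Set G), cI (t Du) a * (iL (s.vt a) (th.comp Φ a) * 1) *
    if ct (s.vt a + th.comp Φ a w) (th.comp Φ a * η) then 1 else 0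
  have h1 : ∀ b : normalizer (m.AG : Set G), IsConj z (b : G) → nC (t Du) (t Du) b = φ (s.vt b) (th.comp Φ b) := fun b c => by
    rw [nC_sum k.tN k.t2.1 k.t2 (sq_of k.z2 c).1]
    refine sum_congr rfl fun a _ => ?_
    rw [← s.aff.mul, ← map_mul, ← s.mem_ct]
    by_cases e : IsConj (t Du) (a : G) ∧ t Du ∈ zpowers ((a : G) * b)
    · rw [if_pos e, cI_one e.1, Subgroup.coe_mul, if_pos e.2, iL, if_pos (s.cent.mp (pair_cent (sq_of k.t2 e.1).1 (sq_of k.z2 c).1 k.t2.1 e.2).1)]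
    · rw [if_neg e]
      rcases not_and_or.mp e with e | e
      · rw [cI_zero e, zero_mul, zero_mul]
      · exact ((congrArg _ (if_neg e)).trans (mul_zero _)).symm
  have h2 : ∀ {w h r0 r1 r2 r3}, M.R h (el h) → w < 4096 → tD0.ev (nth 0 [1, 0, 0]) lfT w h = r0 →
      tD1.ev (nth 0 [0, 1, 0]) lfT w h = r1 → tD2.ev (nth 0 [0, 1, 0]) lfT w h = r2 →
      tD3.ev (nth 0 [s.wt z 60 kC, s.wt z 0 kC, 0]) lfT w h = r3 → r0 + r1 + r2 + r3 < 1000000 →
      φ (vc w) (el h) = r0 + r1 + r2 + r3 := fun r hw e0 e1 e2 e3 l => by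
    refine (tm s k.t2 (φ := fun _ _ => 1) (fun _ _ _ _ => rfl) (fun S e => by rw [cI_one (k.du_conj e)]) (fun _ => mul_one _)
      (fun _ => mul_one _) fun v g => if ct (v + g _) (g * _) then 1 else 0).trans ?_
    rw [b1, b2, b3, b4, b5, b6, mul_one, mul_one, mul_one, mul_one, CD.ev_spec tD0_ok r hw lfT_ok e0 (by omega),
      CD.ev_spec tD1_ok r hw lfT_ok e1 (by omega), CD.ev_spec tD2_ok r hw lfT_ok e2 (by omega),
      CD.ev_spec tD3_ok r hw lfT_ok e3 (by omega)]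
  rw [pairs2 k.z2 k.t2, pairs1 k.tN k.t2.1 k.t2 k.z2, sum_congr rfl (g := fun b : normalizer (m.AG : Set G) => cI z b *
      (iL (s.vt b) (th.comp Φ b) * φ (s.vt b) (th.comp Φ b)) * 1) fun b _ => by
      by_cases c : IsConj z (b : G)
      · rw [← h1 b c, mul_one, iL]
        split_ifs with e
        · rw [one_mul]
        · rw [nC_sum k.tN k.t2.1 k.t2 (sq_of k.z2 c).1, sum_eq_zero fun a _ => if_neg fun f =>
            e (s.cent.mp (pair_cent (sq_of k.t2 f.1).1 (sq_of k.z2 c).1 k.t2.1 f.2).2), mul_zero 0]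
      · rw [cI_zero c, zero_mul, zero_mul, zero_mul], tm s k.z2 (fun a ha b c => by
      rw [← h1 b c, ← h1 _ (c.trans (isConj_iff.mpr ⟨(a : G), rfl⟩))]; exact nC_conj _ (s.cent.mpr ha) b) (e0 := 0) (e1 := 0) (e2 := 0)
      (fun S e => by rw [cI_zero (k.h.not_conj e), zero_mul]) (fun _ => by rw [a2, zero_mul]) (fun _ => by rw [a2, zero_mul])
      fun _ _ => 1, tsum, a1, s.wtS (by decide +kernel), s.wtS (by decide +kernel)]
  obtain ⟨c, e⟩ | ⟨c, e⟩ : s.wt z 0 kC = 1 ∧ s.wt z 60 kC = 0 ∨ s.wt z 0 kC = 0 ∧ s.wt z 60 kC = 1 := by omega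
  all_goals rw [c, e] at h2 ⊢
  · rw [h2 tg0.1 (by norm_num) et00 et01 et02 et03 (by norm_num), h2 tg0.1 (by norm_num) et10 et11 et12 et13 (by norm_num),
      h2 tg1.1 (by norm_num) et20 et21 et22 et23 (by norm_num), h2 tg2.1 (by norm_num) et30 et31 et32 et33 (by norm_num),
      h2 tg3.1 (by norm_num) et40 et41 et42 et43 (by norm_num)]
    norm_num
  · rw [h2 tg0.1 (by norm_num) et00 et01 et02 et04 (by norm_num), h2 tg0.1 (by norm_num) et10 et11 et12 et14 (by norm_num),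
      h2 tg1.1 (by norm_num) et20 et21 et22 et24 (by norm_num), h2 tg2.1 (by norm_num) et30 et31 et32 et34 (by norm_num),
      h2 tg3.1 (by norm_num) et50 et51 et52 et54 (by norm_num)]
    norm_num

omit s [Fintype (centralizer ({z} : Set G))] [Fintype (normalizer (m.AG : Set G))] in
theorem ord : Nat.card G = 86775571046077562880 := by
  obtain ⟨κ, s⟩ := k.tk
  haveI := Fintype.ofFinite (centralizer ({z} : Set G))
  haveI := Fintype.ofFinite (normalizer (m.AG : Set G))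
  rw [S0213.result z (t Du) m.lx.ord (ord2 k.t2.1 k.t2.2) k.ntz fun y h => k.inv2 (H11.mul_self_of_orderOf_two h)
    (H11.ne_one_of_orderOf_two h), k.az s hG, k.at' s hG, k.j.cardC, s.cardC k.tN]

omit s [Fintype (centralizer ({z} : Set G))] [Fintype (normalizer (m.AG : Set G))] in
theorem cls5 (y u : centralizer ({z} : Set G)) (hy : y * y = 1) (hu : orderOf u = 5) (c : Commute y u) (h : IsConj z (y : G)) :
    (y : G) ∈ Q := by
  obtain ⟨κ, s⟩ := k.tk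
  haveI := Fintype.ofFinite (centralizer ({z} : Set G))
  haveI := Fintype.ofFinite (normalizer (m.AG : Set G))
  haveI : Fact (Nat.Prime 5) := ⟨Nat.prime_five⟩
  have u5 : orderOf (ρ u) = 5 := orderOf_eq_prime (by rw [← map_pow, ← hu, pow_orderOf_eq_one, map_one]) fun e => by
    have := orderOf_dvd_natCard (⟨_, (m.ker u).mp e⟩ : Q)
    rw [orderOf_mk, orderOf_coe, hu, m.card] at this; omega
  obtain ⟨g, hg, e⟩ := cls4 (k.j.mem y) (by rw [← map_mul, hy, map_one])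
  have l : ∀ {γ n v}, Cl XJ γ n v → γ ∈ XJ → ρ y = g * γ * g⁻¹ → n * 5 ∣ 2661120 := fun {γ n v} a b e => by
    rw [← XJ_card, ← a.card b, ← u5, ← (MulAut.conj g⁻¹).orderOf_eq]
    refine Nat.mul_dvd_mul_left _ (Subgroup.orderOf_dvd_natCard _ ⟨XJ.mul_mem (XJ.mul_mem (XJ.inv_mem hg) (k.j.mem u)) (XJ.inv_mem (XJ.inv_mem hg)), ?_⟩)
    rw [show γ = g⁻¹ * ρ y * g⁻¹⁻¹ by rw [e]; group]
    exact mem_centralizer_singleton_iff.mpr ((c.map ρ).symm.conj g⁻¹)
  rcases e with e | e | e | e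
  · exact (m.ker y).mp (by simpa [el_one] using e)
  · exact absurd (l zD1_cl.1 zg1.2 e) (by norm_num)
  · exact absurd (l zD2_cl.1 zg2.2 e) (by norm_num)
  obtain ⟨a, rfl⟩ := k.j.hr.ge hg
  obtain ⟨v, hv, f⟩ := vc_surj (k.j.vz (a⁻¹ * y * a⁻¹⁻¹))
  have w := (k.zW (F := fun a => cI z a) (fun a => (cI_conj z a ·)) (fun a n => Subtype.ext (sq_of k.z2 (cI_ne n)).1)
    (w := fun v c => Wt k.j.vz ρ (fun a => cI z a) (vc v) (el c)) fun _ _ => rfl).2.2.2 v hv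
  have a1 := k.j.Wt_eq (fun a => cI z a) (a⁻¹ * y * a⁻¹⁻¹)
  rw [← f, show ρ (a⁻¹ * y * a⁻¹⁻¹) = el cs2 by simp [e, mul_assoc], show cI z (a⁻¹ * y * a⁻¹⁻¹ :) = 1 from
    (cI_conj z _ _).trans (cI_one h)] at a1
  have a2 := (k.wts' s hG).2.2.2.2.1
  rw [wz] at a2
  rw [a2] at w
  rcases n : get 2 zD3.c.P v with _ | n'
  · exact absurd (a1.symm.trans (w.1 n)) (by omega)
  · have := nth_mem 0 [0, 0, 0] n'
    rw [← w.2 _ n, show Wt _ _ _ _ (el zD3.g) = _ from a1] at this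
    simp at this

end JC

end Cfsg.Agent.LL.U6
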