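import Cfsg.Agent.H21.JoZ

/-! Affine coordinates on the normalizer of the elementary abelian subgroup of order `2 ^ 11`. -/

set_option autoImplicit false
set_option maxRecDepth 100000
set_option linter.style.haveILetI false

namespace Cfsg.Agent.LL.U6

open Cfsg Cfsg.Agent.H16 Cfsg.Agent.H3 Cfsg.Agent.H10 MulAction Mdl Subgroup Finset
open scoped Pointwise symmDiff

variable {G : Type*} [Group G] {z : G} {V : Subgroup G} {t : Finset GolayPt → G} {Φ : normalizer (V : Set G) →* M24}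
  {κ : M24 →* normalizer (V : Set G)}

/-- a splitting -/
structure TK (z : G) (V : Subgroup G) (t : Finset GolayPt → G) (Φ : normalizer (V : Set G) →* M24)
    (κ : M24 →* normalizer (V : Set G)) : Prop where
  h : MS z V t
  ker : ∀ n, Φ n = 1 ↔ (n : G) ∈ V
  act : ∀ (n : normalizer (V : Set G)) S, Even S.card → n * t S * (n : G)⁻¹ = t (Φ n • S)
  sec : ∀ g, Φ (κ g) = g

theorem JC.tk [Finite G] {Q : Subgroup G} {ρ : centralizer ({z} : Set G) →* Γ} {p : G → V6} {m : FT z Q ρ p} {x b d}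
    {Φ : normalizer (m.AG : Set G) →* M24} (k : JC m x b d t Φ) : ∃ κ, TK z m.AG t Φ κ := by
  obtain ⟨K, hK⟩ := k.split
  obtain ⟨-, ψ, h⟩ := hK.iso k.h.toMS
  refine ⟨(inclusion hK.le).comp ψ.symm.toMonoidHom, k.h.toMS, k.ker, k.act, fun g => Subtype.ext (k.h.perm_eq fun S s => ?_)⟩
  exact (k.act _ S (by simp [s])).symm.trans ((h (ψ.symm g) S (by simp [s])).trans (by rw [ψ.apply_symm_apply]; rfl))

/-- the duad -/
noncomputable abbrev Du : Finset GolayPt := toSet 8388609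
theorem Du_card : Du.card = 2 := by rw [card_toSet]; decide +kernel

namespace TK
variable (k : TK z V t Φ κ)
include k

def tn (S : Finset GolayPt) : normalizer (V : Set G) := ⟨t S, le_normalizer (k.h.mem S)⟩

theorem dec (n : normalizer (V : Set G)) : ∃ S, Even S.card ∧ n = k.tn S * κ (Φ n) := by
  obtain ⟨S, s, e⟩ := k.h.surj _ ((k.ker (n * (κ (Φ n))⁻¹)).mp (by simp [k.sec]))
  exact ⟨S, s, eq_comm.mp (eq_mul_inv_iff_mul_eq.mp (Subtype.ext e))⟩

noncomputable def vt (n : normalizer (V : Set G)) : V6 := sy (k.dec n).choose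

theorem Φ_tn (S : Finset GolayPt) : Φ (k.tn S) = 1 := (k.ker _).mpr (k.h.mem S)

theorem t_eq {S T : Finset GolayPt} (s : Even S.card) (s' : Even T.card) : t S = t T ↔ sy S = sy T := by
  rw [sy_eq, ← k.h.ker _ (even_sd s s'), k.h.mul, mul_eq_one_iff_eq_inv, inv_eq_of_mul_eq_one_right (k.h.sq T)]

theorem vt_eq {S : Finset GolayPt} (s : Even S.card) (g : M24) : k.vt (k.tn S * κ g) = sy S := by
  obtain ⟨a, b⟩ := (k.dec (k.tn S * κ g)).choose_spec
  refine ((k.t_eq s a).mp (congrArg Subtype.val (mul_right_cancel (b.trans ?_) : k.tn S = k.tn _))).symm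
  exact congrArg (_ * κ ·) (by rw [map_mul, k.Φ_tn, k.sec, one_mul])

theorem vt_tn {S : Finset GolayPt} (s : Even S.card) : k.vt (k.tn S) = sy S := by simpa using k.vt_eq s 1

theorem aff : Aff k.vt (th.comp Φ) := ⟨fun a b => by
  obtain ⟨S, s, e⟩ := k.dec a
  obtain ⟨T, s', f⟩ := k.dec b
  generalize hg : Φ a = g at e
  generalize Φ b = h at f
  subst e f
  have : k.tn S * κ g * (k.tn T * κ h) = k.tn (S ∆ (g • T)) * κ (g * h) := Subtype.ext (by
    have := k.act (κ g) T s'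
    rw [k.sec] at this
    simp [tn, k.h.mul, ← this, mul_assoc])
  rw [this, k.vt_eq (even_sd s (by simpa using s')), k.vt_eq s, k.vt_eq s', sy_sd, MonoidHom.comp_apply, hg, th_sy],
  fun a => th_add _⟩

theorem inj {a b : normalizer (V : Set G)} (h1 : k.vt a = k.vt b) (h2 : th.comp Φ a = th.comp Φ b) : a = b := by
  obtain ⟨S, s, e⟩ := k.dec a
  obtain ⟨T, s', f⟩ := k.dec b
  rw [e, f, k.vt_eq s, k.vt_eq s'] at h1
  rw [e, f, th_inj h2, show k.tn S = k.tn T from Subtype.ext ((k.t_eq s s').mpr h1)]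

theorem ex {x : ℕ} (hx : x < 4096) (e : pc24 (x <<< 12) % 2 = 0) {g : Γ} (hg : g ∈ KW) : ∃ a, k.vt a = vc x ∧ th.comp Φ a = g := by
  obtain ⟨g, -, rfl⟩ := hg
  exact ⟨k.tn _ * κ g, (k.vt_eq ((sy_even hx (sy_sh hx)).mpr e) g).trans (sy_sh hx), by simp [k.Φ_tn, k.sec]⟩

theorem ex0 {g : Γ} (hg : g ∈ KW) : ∃ a, k.vt a = 0 ∧ th.comp Φ a = g := vc_zero ▸ k.ex (by norm_num) (by decide +kernel) hg

theorem par {a : normalizer (V : Set G)} {x : ℕ} (hx : x < 4096) (e : k.vt a = vc x) : pc24 (x <<< 12) % 2 = 0 :=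
  (sy_even hx e).mp (k.dec a).choose_spec.1

theorem sq {a : normalizer (V : Set G)} (h1 : th.comp Φ a * th.comp Φ a = 1) (h2 : th.comp Φ a (k.vt a) = k.vt a) : a * a = 1 :=
  k.inj (by rw [k.aff.mul, h2, add_self, k.aff.one]) (by rw [map_mul, h1, map_one])

theorem cent {a : normalizer (V : Set G)} : (a : G) ∈ centralizer {t Du} ↔ th.comp Φ a ∈ KL := by
  rw [mem_centralizer_singleton_iff, ← mul_inv_eq_iff_eq_mul, k.act a _ (by simp [Du_card]), MonoidHom.comp_apply,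
    mem_map_iff_mem th_inj, mem_stabilizer_iff]
  exact ⟨k.h.inj (by simp [Du_card]) (by simp [Du_card]) (by simp [Du_card]), congrArg t⟩

theorem mem_ct {h : normalizer (V : Set G)} : t Du ∈ zpowers (h : G) ↔ ct (k.vt h) (th.comp Φ h) := by
  rw [ct, ← k.aff.vec_pow, show vc t0 = k.vt (k.tn Du) from ((k.vt_tn (by simp [Du_card])).trans
    ((sy_to (by norm_num)).trans (congrArg vc (by decide +kernel)))).symm]
  have a0 := pow_orderOf_eq_one (th.comp Φ h)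
  have a1 : th.comp Φ (h ^ orderOf (th.comp Φ h)) = th.comp Φ (k.tn Du) := by rw [map_pow, a0]; simp [k.Φ_tn]
  refine ⟨fun ⟨l, f⟩ => congrArg k.vt (Subtype.ext ?_), fun f => ?_⟩
  · obtain ⟨i, rfl⟩ : (orderOf (th.comp Φ h) : ℤ) ∣ l := orderOf_dvd_iff_zpow_eq_one.mpr (by
      rw [← map_zpow, show h ^ l = k.tn Du from Subtype.ext f]; simp [k.Φ_tn])
    have a2 := k.h.A_sq ((k.ker _).mp ((th_inj a1).trans (k.Φ_tn _)))
    have a3 : t Du ∈ zpowers ((h ^ orderOf (th.comp Φ h) :) : G) := ⟨i, by simpa [zpow_mul] using f⟩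
    by_cases c : ((h ^ orderOf (th.comp Φ h) :) : G) = 1
    · exact absurd (by rwa [c, zpowers_one_eq_bot, mem_bot] at a3) (k.h.ne_one Du_card)
    · exact (((mem_zpowers_two (ord2 a2 c)).mp a3).resolve_left (k.h.ne_one Du_card)).symm
  · exact Set.mem_of_eq_of_mem (congrArg Subtype.val (k.inj f a1)).symm (npow_mem_zpowers (h : G) _)

variable [Fintype (normalizer (V : Set G))] {F : normalizer (V : Set G) → ℕ}

theorem Wt_eq (h : normalizer (V : Set G)) : Wt k.vt (th.comp Φ) F (k.vt h) (th.comp Φ h) = F h := by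
  classical
  rw [Wt, ← sum_singleton F]
  exact sum_congr (by ext a; simpa using ⟨fun e => k.inj e.1 e.2, fun e => e ▸ ⟨rfl, rfl⟩⟩) fun _ _ => rfl

theorem pc {K : Subgroup Γ} (hK : K ≤ KW) (hF : ∀ a, th.comp Φ a ∈ K → ∀ b, F (a * b * a⁻¹) = F b) {L : N.Lv}
    {g w C nc KT nk P l : ℕ} (h : N.TabIn M (K ⊓ centralizer {el g}) L) (r : M.R g (el g))
    (hk : allB nk (fun j => Nat.beq (Nat.mod (pc24 (Nat.shiftLeft (get 12 KT j) 12)) 2) 0) = true)
    (e : crB L g w C nc KT nk P l = true) : ∀ x < 4096, get 2 P x = l →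
    Wt k.vt (th.comp Φ) F (vc x) (el g) = Wt k.vt (th.comp Φ) F (vc w) (el g) := fun _ hx f =>
  k.aff.Wt_pc hF (fun _ hu => k.ex0 (hK hu)) h r (fun j hj => k.ex (get_lt _ _ _) (Nat.eq_of_beq_eq_true (allB_iff.mp hk j hj))
    (one_mem _)) e hx f

theorem z0 (h2 : ∀ a, F a ≠ 0 → a * a = 1) {g P : ℕ} (r : M.R g (el g)) (e : allN 4096 (fun x => impB (Nat.beq (get 2 P x) 0)
    (orB (notB (Nat.beq (Nat.mod (pc24 (Nat.shiftLeft x 12)) 2) 0)) (notB (Nat.beq (mul12Ap g x) x)))) = true) :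
    ∀ x < 4096, get 2 P x = 0 → Wt k.vt (th.comp Φ) F (vc x) (el g) = 0 := fun x hx f => Wt_zero fun a a1 a2 => by_contra fun n => by
  have s := k.aff.fix (a := a) (by rw [h2 a n, k.aff.one])
  rw [a1, a2, (R_ap r hx).2, vc_iff (R_ap r hx).1 hx] at s
  have := allN_iff.mp e x hx
  simp only [impB_iff, orB_iff, notB_iff, Nat.beq_eq] at this
  exact (this f).elim (· (k.par hx a1)) (· s)

omit k in
theorem LW : KL ≤ KW := map_mono le_top

variable (hF : ∀ a, th.comp Φ a ∈ KL → ∀ b, F (a * b * a⁻¹) = F b) (h2 : ∀ a, F a ≠ 0 → a * a = 1 ∧ a ≠ 1) {w : ℕ → ℕ → ℕ}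
  (hw : ∀ x c, Wt k.vt (th.comp Φ) F (vc x) (el c) = w x c)
include hF h2 hw

theorem W0 {e : ℕ} (h : ∀ S, S.card = 2 → F (k.tn S) = e) : tD0.W k.vt (th.comp Φ) F (nth 0 [e, w 27 mul12One, w 15 mul12One]) :=
  CD.W_of (fun x hx f => Wt_zero fun a a1 a2 => by_contra fun n => by
    have := allN_iff.mp tz0 x hx
    simp only [impB_iff, orB_iff, notB_iff, Nat.beq_eq] at this
    obtain rfl := (this f).resolve_left (· (k.par hx a1))
    exact (h2 a n).2 (k.inj (by rw [a1, vc_zero, k.aff.one]) (a2.trans (el_one.trans (map_one _).symm)))) (fun x hx f => by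
    obtain ⟨i, hi, e⟩ := anyB_iff.mp (impB_iff.mp (allN_iff.mp tdu x hx) (Nat.beq_eq.mpr f))
    obtain ⟨j, hj, e⟩ := anyB_iff.mp e
    have a : ∀ i < 24, ∀ j < i, bit i ^^^ bit j < 2 ^ 24 ∧ pc24 (bit i ^^^ bit j) = 2 := by decide +kernel
    have s := (card_toSet _).trans (a i hi j hj).2
    rw [← h _ s, ← k.Wt_eq (F := F), k.vt_tn (by simp [s]), sy_to (a i hi j hj).1, ← Nat.eq_of_beq_eq_true e]
    exact congrArg _ (el_one.trans (by simp [k.Φ_tn])))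
    (hw _ _ ▸ k.pc LW hF tt0 tg0.1 tk0 tc02) (hw _ _ ▸ k.pc LW hF tt0 tg0.1 tk0 tc03)

theorem W1 {e : ℕ} (h : ∀ x < 4096, get 2 tP1.P x = 2 → w x kA = e) : tD1.W k.vt (th.comp Φ) F (nth 0 [w 0 kA, e, 0]) :=
  CD.W_of (k.z0 (fun a n => (h2 a n).1) tg1.1 tz1) (hw _ _ ▸ k.pc LW hF tt1 tg1.1 tk1 tc11) (fun x hx f => (hw _ _).trans (h x hx f))
    (no_pc (by decide +kernel))

theorem W2 {e : ℕ} (h : ∀ x < 4096, get 2 tP2.P x = 2 → w x kBb = e) : tD2.W k.vt (th.comp Φ) F (nth 0 [w 0 kBb, e, 0]) :=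
  CD.W_of (k.z0 (fun a n => (h2 a n).1) tg2.1 tz2) (hw _ _ ▸ k.pc LW hF tt2 tg2.1 tk2 tc21) (fun x hx f => (hw _ _).trans (h x hx f))
    (no_pc (by decide +kernel))

theorem W3 : tD3.W k.vt (th.comp Φ) F (nth 0 [w 0 kC, w 60 kC, 0]) :=
  CD.W_of (k.z0 (fun a n => (h2 a n).1) tg3.1 tz3) (hw _ _ ▸ k.pc LW hF tt3 tg3.1 tk3 tc31)
    (hw _ _ ▸ k.pc LW hF tt3 tg3.1 tk3 tc32) (no_pc (by decide +kernel))

theorem tmaster (h3 : ∀ a, F a ≠ 0 → th.comp Φ a ∈ KL) {e0 e1 e2 : ℕ} (h0 : ∀ S, S.card = 2 → F (k.tn S) = e0)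
    (h1 : ∀ x < 4096, get 2 tP1.P x = 2 → w x kA = e1) (h2' : ∀ x < 4096, get 2 tP2.P x = 2 → w x kBb = e2) (f : V6 → Γ → ℕ) :
    ∑ a, F a * f (k.vt a) (th.comp Φ a) = tD0.sm (nth 0 [e0, w 27 mul12One, w 15 mul12One]) f + tD1.sm (nth 0 [w 0 kA, e1, 0]) f +
      tD2.sm (nth 0 [w 0 kBb, e2, 0]) f + tD3.sm (nth 0 [w 0 kC, w 60 kC, 0]) f :=
  k.aff.master hF (fun _ hu => k.ex0 (LW hu)) tD0_ok tD1_ok tD2_ok tD3_ok (by decide) (fun a n => by
    obtain ⟨c, ht, u, hu, r⟩ := clsL (h3 a n) (by rw [← map_mul, (h2 a n).1, map_one])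
    have e : th.comp Φ a = u⁻¹ * el c * u⁻¹⁻¹ := by rw [← R_fun r (R_el r)]; group
    simp only [List.mem_cons, List.not_mem_nil, or_false] at ht
    exact ⟨_, inv_mem hu, by
      rcases ht with rfl | rfl | rfl | rfl
      exacts [Or.inl e, Or.inr (Or.inl e), Or.inr (Or.inr (Or.inl e)), Or.inr (Or.inr (Or.inr e))]⟩)
    (k.W0 hF h2 hw h0) (k.W1 hF h2 hw h1) (k.W2 hF h2 hw h2') (k.W3 hF h2 hw) f

end TK

end Cfsg.Agent.LL.U6
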