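import Cfsg.Agent.H21.Jo5
import Cfsg.Agent.H21.Ja7

/-! Affine coordinates on the centralizer of the central involution. -/

set_option autoImplicit false
set_option maxRecDepth 100000
set_option linter.style.haveILetI false

namespace Cfsg.Agent.LL.U6

open Cfsg Cfsg.Agent.H16 Cfsg.Agent.H3 Cfsg.Agent.H10 MulAction Mdl Subgroup Finset
open scoped Pointwise

section
variable {X : Type*} [Group X] {vec : X → V6} {lin : X →* Γ}

theorem Aff.fix (h : Aff vec lin) {a : X} (e : vec (a * a) = 0) : lin a (vec a) = vec a := by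
  rwa [h.mul, ← add_self (vec a), add_right_inj] at e

variable [Fintype X] {F : X → ℕ}

theorem CD.W_of {d : CD} {a b c : ℕ} (h0 : ∀ x < 4096, get 2 d.c.P x = 0 → Wt vec lin F (vc x) (el d.g) = 0)
    (h1 : ∀ x < 4096, get 2 d.c.P x = 1 → Wt vec lin F (vc x) (el d.g) = a)
    (h2 : ∀ x < 4096, get 2 d.c.P x = 2 → Wt vec lin F (vc x) (el d.g) = b)
    (h3 : ∀ x < 4096, get 2 d.c.P x = 3 → Wt vec lin F (vc x) (el d.g) = c) : d.W vec lin F (nth 0 [a, b, c]) :=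
  fun x hx => ⟨h0 x hx, fun k e => by
    have := get_lt 2 d.c.P x
    obtain rfl | rfl | rfl : k = 0 ∨ k = 1 ∨ k = 2 := by omega
    all_goals delta nth
    exacts [h1 x hx e, h2 x hx e, h3 x hx e]⟩

theorem no_pc {P k : ℕ} (h : allN 4096 (fun x => notB (Nat.beq (get 2 P x) k)) = true) {q : ℕ → Prop} :
    ∀ x < 4096, get 2 P x = k → q x := fun x hx e => by simpa [notB_iff, e] using allN_iff.mp h x hx

theorem Wt_mul (φ : V6 → Γ → ℕ) (v : V6) (g : Γ) :
    Wt vec lin (fun a => F a * φ (vec a) (lin a)) v g = Wt vec lin F v g * φ v g := by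
  rw [Wt, Wt, sum_mul]
  exact sum_congr rfl fun a ha => by rw [(mem_filter.mp ha).2.1, (mem_filter.mp ha).2.2]

theorem Wt_zero {v : V6} {g : Γ} (h : ∀ a, vec a = v → lin a = g → F a = 0) : Wt vec lin F v g = 0 :=
  by_contra fun n => let ⟨a, h1, h2, h3⟩ := Wt_ne n; h3 (h a h1 h2)

end

theorem cls4 {g : Γ} (hg : g ∈ XJ) (h : g * g = 1) : ∃ k ∈ XJ, g = k * el mul12One * k⁻¹ ∨ g = k * el cf * k⁻¹ ∨
    g = k * el cs1 * k⁻¹ ∨ g = k * el cs2 * k⁻¹ := by
  haveI := XA_ch.finite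
  obtain ⟨t, ht, u, hu, r⟩ := N.Chain.classes hv hpt (PJ_NJ.trans NJ_XJ) PJ_ch (p := 2) (k := 8) (m := 10395) Nat.prime_two
    (by decide +kernel) XJ_card (by decide) (reps := r2) (prL_XJ (S := u2J) (by decide +kernel)).inL
    ((prL_top (S := r2.map fun a => (a, a)) (by decide +kernel)).inL.sub (by decide +kernel)) (j := 1) (by decide +kernel) hg
    (by rwa [pow_one, pow_two])
  have e : g = u⁻¹ * el t * u⁻¹⁻¹ := by rw [← R_fun r (R_el r)]; group
  rw [show r2 = [mul12One, cf, cs1, cs2] by decide +kernel] at ht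
  simp only [List.mem_cons, List.not_mem_nil, or_false] at ht
  exact ⟨_, inv_mem hu, by rcases ht with rfl | rfl | rfl | rfl <;> simp only [← e, true_or, or_true]⟩

theorem inner_iff {c : Γ} (hc : c ∈ XJ) : c (vc 64) = Wm (c (vc 1)) ↔ c * Wm = Wm * c := by
  rw [show vc 64 = Wm (vc 1) from ((R_ap R_W (by norm_num)).2.trans (congrArg vc (by decide +kernel))).symm]
  refine ⟨fun h => (XJ_W hc).elim mul_inv_eq_iff_eq_mul.mp fun e => ?_, fun h => DFunLike.congr_fun h _⟩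
  have a := DFunLike.congr_fun (mul_inv_eq_iff_eq_mul.mp e) (vc 1)
  replace a : Wm (c (vc 1)) = c (vc 1) := Wm.injective (a.symm.trans h)
  have b : c (vc 1) = c 0 := (funext fun i => (by decide : ∀ a : F4, ω * a = a → a = 0) _ (congrFun a i)).trans
    (by simpa using add_map (XJ_OG hc) 0 0 : c 0 = 0).symm
  exact absurd (vc_inj (by norm_num) (by norm_num) ((c.injective b).trans vc_zero.symm)) one_ne_zero

variable {G : Type*} [Group G] {z : G} {Q : Subgroup G} {ρ : centralizer ({z} : Set G) →* Γ} {p : G → V6} [Finite G]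
  {m : FT z Q ρ p} {x : centralizer ({z} : Set G)}

omit [Finite G] in
theorem FT.y_comm (m : FT z Q ρ p) (hx : ρ x = Wm) {y : centralizer ({z} : Set G)} (hy : y * x = x * y) {q : G} (hq : q ∈ Q)
    (h : ρ y (p q) = p q) : (y : G) * q = q * y := by
  rcases m.uniq hq (m.conj_mem y hq) (by rw [m.act _ hq, h]) with f | f
  · exact mul_inv_eq_iff_eq_mul.mp f
  have xz : x * z * (x : G)⁻¹ = z := mul_inv_eq_iff_eq_mul.mpr (mem_centralizer_singleton_iff.mp x.2)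
  have h1 := tr3_conj (x := (x : G)) (congrArg Subtype.val hy.symm) q
  have h2 : ∀ a ∈ Q, a * z = z * a := m.lx.cent
  have h3 := m.conj_mem x hq
  have k : ∀ a : G, x * (z * a) * (x : G)⁻¹ = z * (x * a * (x : G)⁻¹) := fun a => by rw [← conj_mul, xz]
  rw [f, m.lx.comm_of_mem_z (m.tr_mem hx hq) (mem_centralizer_singleton_iff.mp y.2), mul_inv_cancel_right, tr3, tr3,
    k, k, ← mul_assoc _ z, ← mul_assoc _ z, mul_left_inj, mul_assoc z q, h2 q hq, ← mul_assoc z z, m.lx.zz, one_mul,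
    mul_eq_left] at h1
  exact (m.lx.ne_one h1).elim

/-- the involution as an element of its centralizer -/
def zc (z : G) : centralizer ({z} : Set G) := ⟨z, mem_centralizer_singleton_iff.mpr rfl⟩

namespace JF
variable (j : JF m x)
include j

abbrev NX (x : centralizer ({z} : Set G)) := normalizer (zpowers x : Set (centralizer ({z} : Set G)))

open Classical in
noncomputable def nn (g : Γ) : centralizer ({z} : Set G) := if h : g ∈ XJ then (j.lift h).choose else 1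
noncomputable def vz (h : centralizer ({z} : Set G)) : V6 := p (h * (j.nn (ρ h))⁻¹ : centralizer ({z} : Set G))

theorem nn_spec {g : Γ} (h : g ∈ XJ) : ρ (j.nn g) = g ∧ j.nn g ∈ NX x := by
  rw [nn, dif_pos h]; exact ⟨(j.lift h).choose_spec.1, j.nx.mpr (j.lift h).choose_spec.2⟩

omit [Finite G] in
theorem mem (h : centralizer ({z} : Set G)) : ρ h ∈ XJ := j.hr.le ⟨h, rfl⟩

theorem N_comm {y : centralizer ({z} : Set G)} (h : y ∈ NX x) (e : ρ y * Wm = Wm * ρ y) : y * x = x * y :=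
  (j.nx.mp h).elim mul_inv_eq_iff_eq_mul.mp fun f => by
    have := congrArg ρ f
    rw [map_mul, map_mul, map_mul, j.hx, e, map_inv, mul_inv_cancel_right, left_eq_mul] at this
    simpa [this] using orderOf_W

theorem N_ker {y : centralizer ({z} : Set G)} (h : y ∈ NX x) (e : ρ y = 1) : (y : G) ∈ zpowers z :=
  m.Y_ker j.hx (j.N_comm h (by simp [e])) e

theorem vz_eq {q n : centralizer ({z} : Set G)} (hq : (q : G) ∈ Q) (hn : n ∈ NX x) : j.vz (q * n) = p q := by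
  have a := j.nn_spec (j.mem n)
  have b := j.N_ker (mul_mem hn (inv_mem a.2)) (by simp [a.1])
  have c := zpowers_le.mpr m.lx.mem b
  rw [vz, map_mul, (m.ker q).mpr hq, one_mul, mul_assoc, Subgroup.coe_mul, m.mul hq c, (m.zero c).mpr b, add_zero]

theorem vz_Q {q : centralizer ({z} : Set G)} (hq : (q : G) ∈ Q) : j.vz q = p q := by simpa using j.vz_eq hq (one_mem _)

theorem dec (h : centralizer ({z} : Set G)) : ∃ q n : centralizer ({z} : Set G), (q : G) ∈ Q ∧ n ∈ NX x ∧ h = q * n :=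
  ⟨h * (j.nn (ρ h))⁻¹, _, (m.ker _).mp (by simp [(j.nn_spec (j.mem h)).1]), (j.nn_spec (j.mem h)).2, by simp⟩

theorem aff : Aff j.vz ρ := ⟨fun a b => by
  obtain ⟨q, n, hq, hn, rfl⟩ := j.dec a
  obtain ⟨r, l, hr, hl, rfl⟩ := j.dec b
  rw [show q * n * (r * l) = q * (n * r * n⁻¹) * (n * l) by group, j.vz_eq (mul_mem hq (m.conj_mem n hr)) (mul_mem hn hl),
    j.vz_eq hq hn, j.vz_eq hr hl, map_mul, (m.ker q).mpr hq, one_mul, ← m.act n hr]
  exact m.mul hq (m.conj_mem n hr), fun a => add_map (m.og a)⟩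

theorem ex (v : V6) {g : Γ} (hg : g ∈ XJ) : ∃ a, j.vz a = v ∧ ρ a = g := by
  obtain ⟨q, hq, rfl⟩ := m.surj v
  exact ⟨⟨q, m.lx.le_centralizer hq⟩ * j.nn g, j.vz_eq hq (j.nn_spec hg).2, by rw [map_mul, (m.ker _).mpr hq, one_mul, (j.nn_spec hg).1]⟩

theorem fib {a h : centralizer ({z} : Set G)} : j.vz a = j.vz h ∧ ρ a = ρ h ↔ a = h ∨ a = zc z * h := by
  have e : j.vz (zc z) = 0 ∧ ρ (zc z) = 1 := ⟨(j.vz_Q m.lx.mem).trans m.p_z, (m.ker _).mpr m.lx.mem⟩
  refine ⟨fun ⟨h1, h2⟩ => ?_, ?_⟩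
  · have a1 : ((a * h⁻¹ : centralizer ({z} : Set G)) : G) ∈ Q := (m.ker _).mp (by simp [h2])
    have a2 := (m.zero a1).mp (by rw [← j.vz_Q a1, j.aff.mul, j.aff.inv, h1, h2]; simp [add_self])
    exact (m.lx.mem_z.mp a2).imp (fun e => mul_inv_eq_one.mp (Subtype.ext e)) fun e => mul_inv_eq_iff_eq_mul.mp (Subtype.ext e)
  · rintro (rfl | rfl)
    · exact ⟨rfl, rfl⟩
    · simp [j.aff.mul, e]

theorem Wt_eq [Fintype (centralizer ({z} : Set G))] (F : centralizer ({z} : Set G) → ℕ) (h : centralizer ({z} : Set G)) :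
    Wt j.vz ρ F (j.vz h) (ρ h) = F h + F (zc z * h) := by
  classical
  rw [Wt, ← sum_pair (f := F) fun e => m.lx.ne_one (congrArg Subtype.val (right_eq_mul.mp e))]
  exact sum_congr (by ext a; simp [j.fib]) fun _ _ => rfl

end JF

namespace JC
variable {b : ℕ → G} {d : ℕ → centralizer ({z} : Set G)} {t : Finset GolayPt → G} {Φ : normalizer (m.AG : Set G) →* M24}
  (k : JC m x b d t Φ)
include k

theorem N_sq {n : centralizer ({z} : Set G)} (hn : n ∈ JF.NX x) (h : ρ n * ρ n = 1) : n * n = 1 := by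
  haveI : Fact (Nat.Prime 2) := ⟨Nat.prime_two⟩
  haveI := XA_ch.finite
  obtain ⟨g, hg, e⟩ := syl_PJ.exists_conj_le (two_of_sq (B := zpowers (ρ n)) (by
    rintro _ ⟨l, rfl⟩; exact ((Commute.refl _).mul_zpow l).symm.trans (by rw [h, one_zpow]))) (zpowers_le.mpr (k.j.mem n))
  obtain ⟨a, a1⟩ := k.j.nn_spec hg
  have := k.sq_one (y := k.j.nn g * n * (k.j.nn g)⁻¹) (by
    rw [map_mul, map_mul, map_inv, a]; exact PJ_NJ (e (conj_mem_conj_smul.mpr (mem_zpowers _))))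
    (k.j.nx.mp (mul_mem (mul_mem a1 hn) (inv_mem a1))) (by rw [← map_mul, conj_mul, map_mul, map_mul, map_mul, h]; simp)
  rwa [conj_mul, conj_eq_one_iff] at this

theorem sigma {s : centralizer ({z} : Set G)} (h : ρ s * ρ s = 1) (e : ρ s (k.j.vz s) = k.j.vz s) :
    s * s ≠ 1 ↔ ρ s (vc 64) = Wm (ρ s (vc 1)) ∧ hf (k.j.vz s) (k.j.vz s) ≠ 0 := by
  rw [inner_iff (k.j.mem s)]
  obtain ⟨q, n, hq, hn, rfl⟩ := k.j.dec s
  rw [k.j.vz_eq hq hn, map_mul, (m.ker q).mpr hq, one_mul] at *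
  have n2 := k.N_sq hn h
  by_cases i : ρ n * Wm = Wm * ρ n
  · have c : n * q = q * n := Subtype.ext (m.y_comm k.j.hx (k.j.N_comm hn i) hq e)
    rw [mul_assoc, ← mul_assoc n, c, mul_assoc, n2, mul_one, and_iff_right i, Ne, Ne, ← m.sq hq, Subtype.ext_iff]; rfl
  refine iff_of_false (not_not.mpr ?_) fun f => i f.1
  have w := mul_inv_eq_iff_eq_mul.mp ((XJ_W (k.j.mem n)).resolve_left (mt mul_inv_eq_iff_eq_mul.mp i))
  obtain ⟨r, hr, er⟩ := m.surj (Wm (p q))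
  let r' : centralizer ({z} : Set G) := ⟨r, m.lx.le_centralizer hr⟩
  have a1 := m.conj_mem n (inv_mem hr)
  have a2 : p (r * (n * r⁻¹ * (n : G)⁻¹)) = p q := by
    rw [m.mul hr a1, m.act n (inv_mem hr), m.p_inv hr, er, show ρ n (Wm (p q)) = Wm (Wm (ρ n (p q))) from DFunLike.congr_fun w _,
      e, Wm_apply, Wm_apply, smul_smul, ← add_smul, show ω + ω * ω = 1 by decide, one_smul]
  have a3 : r' * n * r'⁻¹ * (r' * n * r'⁻¹) = 1 := by rw [conj_mul, n2]; simp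
  have a4 : k.j.vz (q * n) = k.j.vz (r' * n * r'⁻¹) ∧ ρ (q * n) = ρ (r' * n * r'⁻¹) := ⟨by
    rw [show r' * n * r'⁻¹ = r' * (n * r'⁻¹ * n⁻¹) * n by group, k.j.vz_eq hq hn, k.j.vz_eq (mul_mem hr a1) hn]; exact a2.symm, by
    simp [(m.ker q).mpr hq, (m.ker r').mpr hr]⟩
  rcases k.j.fib.mp a4 with f | f <;> rw [f]
  · exact a3
  · rw [(show Commute (r' * n * r'⁻¹) (zc z) from Subtype.ext (mem_centralizer_singleton_iff.mp (r' * n * r'⁻¹).2)).mul_mul_mul_comm,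
      a3, mul_one]
    exact Subtype.ext m.lx.zz

theorem mem_cz {h : centralizer ({z} : Set G)} (e : 2 ∣ orderOf h) : z ∈ zpowers (h : G) ↔ cz (k.j.vz h) (ρ h) := by
  rw [cz, ← k.j.aff.vec_pow, ← k.j.aff.vec_pow, ← map_pow]
  have a0 := pow_orderOf_eq_one (ρ h)
  have a1 : ((h ^ orderOf (ρ h) : centralizer ({z} : Set G)) : G) ∈ Q := (m.ker _).mp (by rwa [map_pow])
  have a2 : z ∈ zpowers (h : G) ↔ z ∈ zpowers ((h ^ orderOf (ρ h) : centralizer ({z} : Set G)) : G) := ⟨fun ⟨l, f⟩ => by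
    obtain ⟨i, rfl⟩ : (orderOf (ρ h) : ℤ) ∣ l := orderOf_dvd_iff_zpow_eq_one.mpr (by
      rw [← map_zpow, m.ker]; exact Set.mem_of_eq_of_mem f m.lx.mem)
    exact ⟨i, by simpa [zpow_mul] using f⟩, fun f => zpowers_le.mpr (npow_mem_zpowers (h : G) _) f⟩
  rw [a2, k.j.vz_Q a1]
  generalize hn : orderOf (ρ h) = n at *
  by_cases b1 : hf (p (h ^ n :)) (p (h ^ n :)) = 0
  swap
  · exact iff_of_true (Set.mem_of_eq_of_mem ((m.lx.mem_z.mp ((m.zero (mul_mem a1 a1)).mp (by rw [m.mul a1 a1, add_self]))).resolve_left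
      (mt (m.sq a1).mp b1)).symm (mul_mem (mem_zpowers _) (mem_zpowers _))) (Or.inl b1)
  have b2 := (m.sq a1).mpr b1
  have b3 : z ∈ zpowers ((h ^ n :) : G) ↔ p (h ^ n :) = 0 ∧ h ^ n ≠ 1 := ⟨fun f => by
    have : ((h ^ n :) : G) = z := by
      by_cases c : ((h ^ n :) : G) = 1
      · exact absurd (by simpa [c] using f) m.lx.ne_one
      · exact (((mem_zpowers_two (ord2 b2 c)).mp f).resolve_left m.lx.ne_one).symm
    exact ⟨(congrArg p this).trans m.p_z, fun c => m.lx.ne_one (this.symm.trans (congrArg Subtype.val c))⟩, fun f =>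
    Set.mem_of_eq_of_mem ((m.lx.mem_z.mp ((m.zero a1).mp f.1)).resolve_left fun c => f.2 (Subtype.ext c)).symm (mem_zpowers _)⟩
  rw [b3, or_iff_right (not_not.mpr b1)]
  refine and_congr_right fun c => ?_
  by_cases o : n % 2 = 1
  · exact iff_of_true (fun f => by have := e.trans (orderOf_dvd_of_pow_eq_one f); omega) (Or.inl o)
  have o' : h ^ n = h ^ (n / 2) * h ^ (n / 2) := by rw [← pow_add]; congr 1; omega
  rw [or_iff_right o, o']
  exact k.sigma (by rw [← map_mul, ← o', map_pow, a0]) (k.j.aff.fix (by rw [← o', k.j.vz_Q a1, c]))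

variable [Fintype (centralizer ({z} : Set G))] {F : centralizer ({z} : Set G) → ℕ} (hF : ∀ a b, F (a * b * a⁻¹) = F b)
  (h2 : ∀ a, F a ≠ 0 → a * a = 1) {w : ℕ → ℕ → ℕ} (hw : ∀ x c, Wt k.j.vz ρ F (vc x) (el c) = w x c)
include hF h2 hw

theorem zW : zD0.W k.j.vz ρ F (nth 0 [w 0 mul12One, w 15 mul12One, w 3891 mul12One]) ∧
    zD1.W k.j.vz ρ F (nth 0 [w 0 cf, w 213 cf, w 3 cf]) ∧ zD2.W k.j.vz ρ F (nth 0 [w 0 cs1, 0, 0]) ∧
    zD3.W k.j.vz ρ F (nth 0 [w 0 cs2, 0, 0]) := by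
  have hl : ∀ u ∈ XJ, ∃ a, k.j.vz a = 0 ∧ ρ a = u := fun u hu => k.j.ex 0 hu
  have pc : ∀ {L g w' C nc KT nk P l}, N.TabIn M (XJ ⊓ centralizer {el g}) L → M.R g (el g) → crB L g w' C nc KT nk P l = true →
      ∀ x < 4096, get 2 P x = l → Wt k.j.vz ρ F (vc x) (el g) = w w' g := fun h r e x hx f =>
    (k.j.aff.Wt_pc (fun a _ => hF a) hl h r (fun _ _ => k.j.ex _ (one_mem _)) e hx f).trans (hw _ _)
  have z0 : ∀ {g P} {B : ℕ → Bool}, M.R g (el g) → (∀ x < 4096, B x = true → tb QT x = true ∧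
      mul12Ap g 64 = mul12Ap cW (mul12Ap g 1)) → allN 4096 (fun x => impB (Nat.beq (get 2 P x) 0)
      (orB (notB (Nat.beq (mul12Ap g x) x)) (B x))) = true → ∀ x < 4096, get 2 P x = 0 → Wt k.j.vz ρ F (vc x) (el g) = 0 :=
    fun r hB e x hx f => Wt_zero fun a a1 a2 => by_contra fun n => by
      have s := h2 a n
      have s1 := k.j.aff.fix (a := a) (by rw [s, k.j.aff.one])
      have s2 := (k.sigma (by rw [← map_mul, s, map_one]) s1).mpr
      rw [a1, a2, (R_ap r hx).2, vc_iff (R_ap r hx).1 hx] at s1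
      have s3 := hB x hx (by simpa [impB_iff, orB_iff, notB_iff, f, s1] using allN_iff.mp e x hx)
      rw [a1, a2, ← QT_iff hx, (R_ap r (by norm_num)).2, (R_ap r (by norm_num)).2, (R_ap R_W (R_ap r (by norm_num)).1).2] at s2
      exact s2 ⟨congrArg vc s3.2, s3.1⟩ s
  exact ⟨CD.W_of (z0 zg0.1 (fun _ _ e => ⟨e, by decide +kernel⟩) zz0) (pc zt0 zg0.1 zc01) (pc zt0 zg0.1 zc02) (pc zt0 zg0.1 zc03),
    CD.W_of (z0 zg1.1 (fun _ _ e => ⟨e, by decide +kernel⟩) zz1) (pc zt1 zg1.1 zc11) (pc zt1 zg1.1 zc12) (pc zt1 zg1.1 zc13),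
    CD.W_of (z0 zg2.1 (by simp) zz2) (pc zt2 zg2.1 zc21) (no_pc (by decide +kernel)) (no_pc (by decide +kernel)),
    CD.W_of (z0 zg3.1 (by simp) zz3) (pc zt3 zg3.1 zc31) (no_pc (by decide +kernel)) (no_pc (by decide +kernel))⟩

theorem zmaster (f : V6 → Γ → ℕ) :
    ∑ a, F a * f (k.j.vz a) (ρ a) = zD0.sm (nth 0 [w 0 mul12One, w 15 mul12One, w 3891 mul12One]) f +
      zD1.sm (nth 0 [w 0 cf, w 213 cf, w 3 cf]) f + zD2.sm (nth 0 [w 0 cs1, 0, 0]) f + zD3.sm (nth 0 [w 0 cs2, 0, 0]) f :=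
  have ⟨a, b, c, e⟩ := k.zW hF h2 hw
  k.j.aff.master (fun a _ => hF a) (fun _ hu => k.j.ex 0 hu) zD0_ok zD1_ok zD2_ok zD3_ok (by decide)
    (fun a n => cls4 (k.j.mem a) (by rw [← map_mul, h2 a n, map_one])) a b c e f

end JC

end Cfsg.Agent.LL.U6
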