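import Cfsg.Agent.H21.Ju1

/-! Matching the coordinates on the centralizer of `z` and on the normalizer of the group of order `2 ^ 11`. -/

set_option autoImplicit false
set_option maxRecDepth 100000
set_option linter.style.haveILetI false

namespace Cfsg.Agent.LL.U6

open Cfsg Cfsg.Agent.H16 Cfsg.Agent.H3 Cfsg.Agent.H10 MulAction Mdl Subgroup
open scoped Pointwise symmDiff

variable {G : Type*} [Group G] [Finite G] {z : G} {Q : Subgroup G} {ρ : centralizer ({z} : Set G) →* Γ} {p : G → V6}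
  {m : FT z Q ρ p} {x : centralizer ({z} : Set G)} {b : ℕ → G} {d : ℕ → centralizer ({z} : Set G)} {t : Finset GolayPt → G}
  {Φ : normalizer (m.AG : Set G) →* M24} {κ : M24 →* normalizer (m.AG : Set G)}

noncomputable def aE (z : G) (b : ℕ → G) (d : ℕ → centralizer ({z} : Set G)) (u : ℕ) : G := av z b d (u ^^^ gm (u / 128))

theorem Co.ms' (c : Co m x b d) (h : AH m) : MS z m.AG (fun S => aE z b d (syn (msk S))) ∧
    (∀ u < 2048, IsConj z (aE z b d u) ↔ chi' u = true) ∧ ∀ g ∈ m.AG, ∃ u < 2048, aE z b d u = g := by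
  obtain ⟨h1, -, h2⟩ := c.final h
  have g2 : ∀ e, gm e < 2 := fun e => get_lt _ _ _
  have x2 : ∀ {a b}, a < 2 → b < 2 → a ^^^ b < 2 := Nat.xor_lt_two_pow (n := 1)
  have dv : ∀ u e, (u ^^^ gm e) / 128 = u / 128 := fun u e => by
    rw [Nat.xor_div_two_pow (n := 7), Nat.div_eq_of_lt (by have := g2 e; omega : gm e < 2 ^ 7), Nat.xor_zero]
  have lt : ∀ u < 2048, ∀ e, u ^^^ gm e < 2048 := fun u hu e => Nat.xor_lt_two_pow (n := 11) hu (by have := g2 e; omega)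
  let a u := av z b d (u ^^^ gm (u / 128))
  have a0 : a 0 = 1 := by simp [a, av, c.b_zero, c.d0, show gm 0 = 0 by decide +kernel]
  have a1 : ∀ u < 2048, ∀ v < 2048, a u * a v = a (u ^^^ v) := fun u hu v hv => by
    have e : (u ^^^ v) / 128 = u / 128 ^^^ v / 128 := Nat.xor_div_two_pow (n := 7)
    refine (c.av_mul (x2 (x2 (g2 _) (g2 _)) (g2 _)) (by rw [dv, dv]; exact h2 _ (by omega) _ (by omega))).trans (congrArg _ ?_)
    rw [e]; exact Nat.eq_of_testBit_eq fun i => by simp only [Nat.testBit_xor]; grind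
  have a2 : ∀ g ∈ m.AG, ∃ u < 2048, a u = g := fun g hg =>
    let ⟨u, hu, e⟩ := c.av_surj hg; ⟨_, lt u hu (u / 128), by simpa [a, dv] using e⟩
  have a3 : ∀ u < 2048, ∀ v < 2048, a u = a v → u = v := fun u hu v hv e => by
    have f := c.av_inj h.toAH0 (by simpa using lt u hu _) (by simpa using lt v hv _) e
    have f' := congrArg (· / 128) f
    simp only [dv] at f'
    simpa [f'] using f
  have a4 : ∀ u < 2048, IsConj z (a u) ↔ chi' u = true := fun u hu => by rw [chi', force_eq]; exact h1 _ (lt u hu _)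
  refine ⟨show MS z m.AG (fun S => a (syn (msk S))) from ⟨⟨fun S => c.av_mem _, fun S T => ?_, fun S e => ?_, fun g hg => ?_⟩,
    fun g hg n => ?_, c.cent_le h.toAH0, card_AG h.toAH0, ?_⟩, a4, a2⟩
  · rw [a1 _ (syn_lt _) _ (syn_lt _), ← syn_xor, ← msk_toSet (Nat.xor_lt_two_pow (msk_lt S) (msk_lt T)), toSet_xor,
      toSet_msk, toSet_msk]
  · exact Iff.trans ⟨fun f => a3 _ (syn_lt _) 0 (by norm_num) (f.trans a0.symm), fun f => f ▸ a0⟩ (syn_zero e)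
  · obtain ⟨u, hu, rfl⟩ := a2 g hg
    obtain ⟨S, e, rfl⟩ := syn_surj hu
    exact ⟨S, e, rfl⟩
  · obtain ⟨u, hu, rfl⟩ := a2 g hg
    rw [a4 u hu, syn_duad hu fun e => n (e ▸ a0)]
    exact exists_congr fun S => and_congr_right fun _ => ⟨congrArg a, a3 _ (syn_lt _) u hu⟩
  · obtain ⟨k, k1, k2⟩ := c.orb h.toAH0 h1
    rw [show cntB2 32 64 (chi false true true) = 1771 by decide +kernel] at k2
    omega

/-- explicit coordinates -/
structure JE (m : FT z Q ρ p) (x : centralizer ({z} : Set G)) (b : ℕ → G) (d : ℕ → centralizer ({z} : Set G))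
    (t : Finset GolayPt → G) (Φ : normalizer (m.AG : Set G) →* M24) : Prop extends JC m x b d t Φ where
  te : ∀ S, t S = aE z b d (syn (msk S))
  chi : ∀ u < 2048, IsConj z (aE z b d u) ↔ chi' u = true
  sj : ∀ g ∈ m.AG, ∃ u < 2048, aE z b d u = g

theorem JF.exists_je (j : JF m x) [IsSimpleGroup G] (hG : ¬ IsMulCommutative G) : ∃ b d t Φ, JE m x b d t Φ := by
  obtain ⟨b, d, t, Φ, k⟩ := j.exists_jc hG
  obtain ⟨h, a, a'⟩ := k.c.ms' (j.ah hG)
  obtain ⟨Φ, h1, h2, h3⟩ := h.exists_hom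
  exact ⟨b, d, _, Φ, ⟨j, k.c, ⟨h, k.h.f1⟩, k.a0, k.tab, h1, SetLike.ext_iff.mp h2, h3⟩, fun _ => rfl, a, a'⟩

omit [Finite G] in
theorem TK.conj (s : TK z m.AG t Φ κ) {q : normalizer (m.AG : Set G)} (h : Φ q = 1) :
    TK z m.AG t Φ ((MulAut.conj q).toMonoidHom.comp κ) := ⟨s.h, s.ker, s.act, fun g => by simp [h, s.sec]⟩

theorem even_tw (S : Finset GolayPt) (g : M24) : Even (S ∆ (g • S)).card := by
  have := card_symmDiff_add S (g • S)
  rw [Finset.card_smul_finset] at this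
  exact Nat.even_iff.mpr (by omega)

omit [Finite G] in
theorem TK.twist (s : TK z m.AG t Φ κ) (S : Finset GolayPt) : ∃ κ', TK z m.AG t Φ κ' ∧ ∀ g, (κ' g : G) = t (S ∆ (g • S)) * κ g := by
  refine ⟨MonoidHom.mk' (fun g => s.tn (S ∆ (g • S)) * κ g) fun g h => Subtype.ext ?_, ⟨s.h, s.ker, s.act, fun g => by
    simp [s.Φ_tn, s.sec]⟩, fun _ => rfl⟩
  have := s.act (κ g) _ (even_tw S h)
  rw [s.sec, Finset.smul_finset_symmDiff, ← mul_smul] at this
  have e : S ∆ ((g * h) • S) = (S ∆ (g • S)) ∆ ((g • S) ∆ ((g * h) • S)) := by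
    rw [symmDiff_assoc, ← symmDiff_assoc (g • S), symmDiff_self, bot_symmDiff]
  simp only [TK.tn, coe_mul, map_mul]
  rw [e, s.h.mul, ← this]; group

namespace Ju

def T (t : Finset GolayPt → G) (c : ℕ) : G := t (toSet (c <<< 12))
def HR (j : JF m x) (c : ℕ) (g : G) : Prop := ∃ h : g ∈ centralizer {z}, AR j.vz ρ c ⟨g, h⟩
def NR (s : TK z m.AG t Φ κ) (c : ℕ) (g : G) : Prop := ∃ h : g ∈ normalizer (m.AG : Set G), AR s.vt (th.comp Φ) c ⟨g, h⟩
/-- the letters -/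
noncomputable def A (κ : M24 →* normalizer (m.AG : Set G)) (t : Finset GolayPt → G) (τ : G) (i : ℕ) : G :=
  if i < 64 then κ (L i) else if i = 64 then τ else T t (i - 4096)

section
variable {j : JF m x} {c c' : ℕ} {g g' : G}
theorem HR.one : HR j p1 1 := ⟨one_mem _, AR.one j.aff⟩
theorem HR.mul (r : HR j c g) (s : HR j c' g') : HR j (pm c c') (g * g') :=
  let ⟨h, r⟩ := r; let ⟨h', s⟩ := s; ⟨mul_mem h h', r.mul j.aff s⟩
theorem HR.eq (r : HR j c g) (s : HR j c g') : g = g' ∨ g = z * g' :=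
  let ⟨_, r⟩ := r; let ⟨_, s⟩ := s
  (j.fib.mp ⟨r.1.trans s.1.symm, R_fun r.2 s.2⟩).imp (congrArg Subtype.val) (congrArg Subtype.val)
theorem HR.ne (r : HR j c g) (s : HR j c' g') (e : neP c c' = true) : g ≠ g' := by
  rintro rfl; exact r.2.ne s.2 e
theorem HR.of {w a : ℕ} {h : centralizer ({z} : Set G)} (hw : w < 4096) (h1 : j.vz h = vc w) (h2 : M.R a (ρ h)) : HR j (mk w a) h :=
  ⟨h.2, AR.mk' hw h1 h2⟩
theorem vz_N {h : centralizer ({z} : Set G)} (hn : h ∈ JF.NX x) : j.vz h = vc 0 := by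
  rw [← one_mul h, j.vz_eq (one_mem _) hn, vc_zero]; exact (m.zero (one_mem _)).mpr (one_mem _)
theorem HR.zl (r : HR j c g) : HR j c (z * g) :=
  let ⟨h, r⟩ := r
  have e := j.fib.mpr (Or.inr (rfl : zc z * ⟨g, h⟩ = _))
  ⟨mul_mem (zc z).2 h, e.1.trans r.1, Eq.mpr (congrArg (M.R _) e.2) r.2⟩
theorem HR.nx {h : centralizer ({z} : Set G)} (r : HR j c h) (e : lo c = 0) : h ∈ JF.NX x := by
  obtain ⟨a, a'⟩ := j.nn_spec (j.mem h)
  rcases j.fib.mp (⟨(r.2.1.trans (congrArg vc e)).trans (vz_N a').symm, a.symm⟩ : j.vz h = _ ∧ _) with f | f <;> rw [f]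
  exacts [a', mul_mem (j.nx.mpr (Or.inl (mul_inv_eq_iff_eq_mul.mpr (Subtype.ext (mem_centralizer_singleton_iff.mp x.2).symm)))) a']
end

section
variable (s : TK z m.AG t Φ κ) {c c' : ℕ} {g g' : G}
omit [Finite G]
theorem NR.one : NR s p1 1 := ⟨one_mem _, AR.one s.aff⟩
variable {s}
theorem NR.mul (r : NR s c g) (r' : NR s c' g') : NR s (pm c c') (g * g') :=
  let ⟨h, r⟩ := r; let ⟨h', r'⟩ := r'; ⟨mul_mem h h', AR.mul (a := ⟨g, h⟩) (b := ⟨g', h'⟩) s.aff r r'⟩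
theorem NR.eq (r : NR s c g) (r' : NR s c g') : g = g' :=
  let ⟨_, r⟩ := r; let ⟨_, r'⟩ := r'; congrArg Subtype.val (s.inj (r.1.trans r'.1.symm) (R_fun r.2 r'.2))
theorem NR.ne (r : NR s c g) (r' : NR s c' g') (e : neP c c' = true) : g ≠ g' := by
  rintro rfl; exact r.2.ne r'.2 e
variable (s)
theorem NR_T (e : evn c = true) : NR s (mk c mul12One) (T t c) := by
  simp only [evn, andB_iff, Nat.blt_eq, Nat.beq_eq] at e
  refine ⟨(s.tn _).2, AR.mk' e.1 ((s.vt_tn ((sy_even e.1 (sy_sh e.1)).mpr e.2)).trans (sy_sh e.1)) ?_⟩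
  rw [show th.comp Φ ⟨T t c, _⟩ = 1 from (congrArg th (s.Φ_tn _)).trans (map_one _)]; exact M.R_one
theorem NR_L {i : ℕ} (h : i < 36) : NR s (nth 0 CB i) (κ (L i)) := by
  refine ⟨(κ _).2, ?_, by simpa [s.sec] using (L_R h).2⟩
  have := s.vt_eq (S := ∅) (by simp) (L i)
  rw [show s.tn ∅ = 1 from Subtype.ext s.h.empty, one_mul, ← toSet_zero] at this
  exact this.trans ((sy_sh (x := 0) (by norm_num)).trans (congrArg vc (L_R h).1.symm))
theorem NR_A (τ : G) (i : ℕ) (h : np i = true) : NR s (nc i) (A κ t τ i) := by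
  simp only [np, nc, A, ifB_eq, Nat.blt_eq] at h ⊢
  split_ifs at h ⊢ with h1 h2
  · exact NR_L s (Nat.blt_eq.mp h)
  · simp [h2, andB_iff] at h
  · exact NR_T s (andB_iff.mp h).2
theorem NR_w (τ : G) {w : List ℕ} (h : allL w np = true) : NR s (ev nc w) (Gw (A κ t τ) w) := ev_rel (NR.one s) NR.mul (NR_A s τ) h
include s in
theorem N_eq (τ : G) (v w : List ℕ) (h : nE v w = true) : Gw (A κ t τ) v = Gw (A κ t τ) w := by
  simp only [nE, andB_iff, Nat.beq_eq] at h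
  exact (NR_w s τ h.1.1).eq (h.2 ▸ NR_w s τ h.1.2)
include s in
theorem N_ne (τ : G) (v w : List ℕ) (h : nN v w = true) : Gw (A κ t τ) v ≠ Gw (A κ t τ) w := by
  simp only [nN, andB_iff] at h
  exact (NR_w s τ h.1.1).ne (NR_w s τ h.1.2) h.2
end

theorem sh_lt {c : ℕ} (h : c < 4096) : c <<< 12 < 2 ^ 24 := by rw [Nat.shiftLeft_eq]; omega

variable (k : JE m x b d t Φ)
include k

theorem T_eq {c : ℕ} (h : c < 4096) : T t c = aE z b d (syn (c <<< 12)) := by rw [T, k.te, msk_toSet (sh_lt h)]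
theorem T_xor (c c' : ℕ) : T t (c ^^^ c') = T t c * T t c' := by rw [T, Nat.shiftLeft_xor_distrib, toSet_xor, k.h.mul]; rfl
theorem T_z : T t 834 = z := by
  rw [T_eq k (by norm_num), show syn (834 <<< 12) = 1 by decide +kernel]
  simp [aE, av, k.c.b_zero, k.c.d0, show gm 0 = 0 by decide +kernel]

theorem HR_a (u : ℕ) : HR k.j (mk (fx (u / 2 % 64)) (fe (u / 128))) (aE z b d u) := by
  have g2 : gm (u / 128) < 2 := get_lt _ _ _
  have e1 : (u ^^^ gm (u / 128)) / 128 = u / 128 := by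
    rw [Nat.xor_div_two_pow (n := 7), Nat.div_eq_of_lt (by omega : gm _ < 2 ^ 7), Nat.xor_zero]
  have e2 : (u ^^^ gm (u / 128)) / 2 = u / 2 := by rw [Nat.xor_div_two, Nat.div_eq_of_lt g2, Nat.xor_zero]
  rw [aE, av, e1, e2]
  generalize u ^^^ gm (u / 128) = n
  have q := mul_mem (pow_mem m.lx.mem n) (k.c.bA (u / 2 % 64)).1
  refine HR.of (h := ⟨_, m.lx.le_centralizer q⟩ * d (u / 128)) (fx_lt _) ?_ ?_
  · rw [k.j.vz_eq q (k.j.nx.mpr (Or.inl (mul_inv_eq_iff_eq_mul.mpr (k.c.dx _)))), m.mul (pow_mem m.lx.mem n) (k.c.bA _).1,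
      (m.zero (pow_mem m.lx.mem n)).mpr (npow_mem_zpowers z n), zero_add, k.c.pb _ (Nat.mod_lt _ (by norm_num))]
  · rw [map_mul, (m.ker _).mpr q, one_mul, k.c.pd]; exact (R_fe _).1

theorem HR_T {c : ℕ} (h : c < 4096) : HR k.j (tm c) (T t c) := by rw [tm, force_eq, T_eq k h]; exact HR_a k _

noncomputable def phB (c i : ℕ) : Bool := andB (Nat.blt i 36) (allB 11 fun l => force (get 12 DC l) fun a => force (mul12Ap (hi (nth 0 CB i)) a) fun a' =>
  andB (andB (andB (evn a) (evn a')) (Nat.beq (pm c (tm a)) (pm (tm a') c))) (andB (andB (notB (chi' (syn (Nat.shiftLeft a 12))))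
    (chi' (syn (Nat.shiftLeft (Nat.xor 834 a') 12)))) (Nat.beq (pm (nth 0 CB i) (mk a mul12One)) (pm (mk a' mul12One) (nth 0 CB i)))))

theorem phi (s : TK z m.AG t Φ κ) {c i : ℕ} {h : normalizer (m.AG : Set G)} (r : HR k.j c h) (e : phB c i = true) : Φ h = L i := by
  simp only [phB, andB_iff, allB_iff, force_eq, Nat.blt_eq, Nat.beq_eq, notB_iff] at e
  obtain ⟨i1, e⟩ := e
  suffices Φ ((κ (L i))⁻¹ * h) = 1 by rwa [map_mul, map_inv, s.sec, inv_mul_eq_one, eq_comm] at this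
  refine (k.ker _).mpr (k.h.cent fun a ha => ?_)
  obtain ⟨u, hu, rfl⟩ := k.sj a ha
  have lt : ∀ {a}, evn a = true → a < 4096 := fun e => Nat.blt_eq.mp (andB_iff.mp e).1
  have f := Nat.eq_of_beq_eq_true (allQ_iff.mp (by decide +kernel : allQ 2048 (fun u => Nat.beq
    (syn (Nat.shiftLeft (xc (get 12 DC) 11 (get 11 CTn u)) 12)) u) = true) u hu)
  rw [← f]
  refine (T_eq k (xc_lt (w := 12) (fun _ _ => get_lt _ _ _) _)) ▸ ?_
  refine xc_ind (P := fun c => Commute (T t c) ((κ (L i))⁻¹ * h :)) ?_ (fun a a' h1 h2 => T_xor k a a' ▸ h1.mul_left h2)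
    (fun l hl => ?_) _
  · rw [T, Nat.zero_shiftLeft, toSet_zero, k.h.empty]; exact Commute.one_left _
  obtain ⟨⟨⟨e1, e2⟩, e3⟩, ⟨e4, e5⟩, e6⟩ := e l hl
  have a1 := ((NR_L s i1).mul (NR_T s e1)).eq (e6 ▸ (NR_T s e2).mul (NR_L s i1))
  rcases (r.mul (HR_T k (lt e1))).eq (e3 ▸ (HR_T k (lt e2)).mul r) with a2 | a2
  · change _ * ((κ (L i) : G)⁻¹ * h) = (κ (L i) : G)⁻¹ * h * _
    rw [mul_assoc, a2, ← mul_assoc, ← mul_assoc, mul_left_inj, eq_inv_mul_iff_mul_eq, ← mul_assoc, a1, mul_inv_cancel_right]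
  · have l2 := Nat.xor_lt_two_pow (n := 12) (by norm_num : 834 < 2 ^ 12) (lt e2)
    have a3 := (k.chi _ (syn_lt _)).mpr e5
    rw [← mul_assoc, show ∀ c, z * T t c = T t (834 ^^^ c) from fun c => by rw [T_xor k, T_z k]] at a2
    exact (e4 ((k.chi _ (syn_lt _)).mp (T_eq k (lt e1) ▸ (T_eq k l2 ▸ a3 : IsConj z (T t _)).trans
      (isConj_iff.mpr ⟨(h : G), mul_inv_eq_iff_eq_mul.mpr a2⟩).symm))).elim

theorem lift (s : TK z m.AG t Φ κ) {c i : ℕ} {h : centralizer ({z} : Set G)} (r : HR k.j c h) (e : andB (N.sift o NJL (hi c)) (phB c i) = true) :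
    ∃ l < 64, ∃ e < 16, HR k.j (pm (mk (fx l) (fe e)) c) (κ (L i)) := by
  have hn := m.AG_norm (NJ_norm (NJ_ch.sift r.2.2 (andB_iff.mp e).1))
  have := phi k s (h := ⟨_, hn⟩) r (andB_iff.mp e).2
  obtain ⟨u, hu, f⟩ := k.sj _ ((k.ker (κ (L i) * ⟨_, hn⟩⁻¹)).mp (by rw [map_mul, map_inv, this, s.sec, mul_inv_cancel]))
  refine ⟨u / 2 % 64, Nat.mod_lt _ (by norm_num), u / 128, by omega, ?_⟩
  have := (HR_a k u).mul r
  rwa [f, coe_mul, coe_inv, inv_mul_cancel_right] at this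

theorem ex1 : ∃ κ, TK z m.AG t Φ κ ∧ (κ (L 0) : G) = x := by
  obtain ⟨κ, s⟩ := k.toJC.tk
  have r : HR k.j (mk 0 cW) x := HR.of (by norm_num) (vz_N (k.j.nx.mpr (Or.inl (mul_inv_cancel_right _ _)))) (k.j.hx ▸ R_W)
  have hn := m.AG_norm (NJ_norm (NJ_ch.sift (k.j.hx ▸ R_W : M.R cW (ρ x)) (by decide +kernel)))
  obtain ⟨q, h1, h2⟩ := conj_of_ker Φ (fun y => ⟨1, Subtype.ext (Subtype.ext (by
      simpa [pow_two] using k.h.A_sq ((k.ker _).mp y.2)))⟩) Nat.prime_three (by norm_num) (x := κ (L 0)) (y := ⟨_, hn⟩)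
    (Subtype.ext (by simpa [Gw, A, pow_succ, mul_assoc] using N_eq s 1 [0, 0, 0] [] (by decide +kernel)))
    (Subtype.ext (by simpa using congrArg Subtype.val k.j.x3)) ((s.sec _).trans (phi k s (h := ⟨_, hn⟩) r (by decide +kernel)).symm)
  exact ⟨_, s.conj h1, congrArg Subtype.val h2⟩

theorem lift0 (s : TK z m.AG t Φ κ) (hx : (κ (L 0) : G) = x) {σ σ' i : ℕ} (e : andB (andB (invB σ σ') (N.sift o NJL σ)) (andB (andB (andB
    (N.sift o NJL (hi (mk 0 σ))) (phB (mk 0 σ) i)) (nE [i, 0] [0, 0, i])) (andB (Nat.blt i 64) (allB 64 fun l => allB 16 fun e =>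
      impB (Nat.beq (lo (pm (mk (fx l) (fe e)) (mk 0 σ))) 0) (Nat.beq l 0)))) = true) :
    ∃ e < 16, HR k.j (pm (mk (fx 0) (fe e)) (mk 0 σ)) (κ (L i)) := by
  simp only [andB_iff (b := andB _ _), andB_iff (b := nE _ _), allB_iff, impB_iff, Nat.beq_eq, Nat.blt_eq, andB_iff (b := allB _ _)] at e
  obtain ⟨e1, ⟨e2, e3⟩, e4, e5⟩ := e
  obtain ⟨g, hg, r, -⟩ := sift_pr NJ_ch e1
  obtain ⟨a1, a2⟩ := k.j.nn_spec (NJ_XJ hg)
  obtain ⟨l, hl, e, he, h, f⟩ := lift k s (HR.of (by norm_num) (vz_N a2) (a1.symm ▸ r)) e2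
  have a3 : (⟨_, h⟩ : centralizer ({z} : Set G)) ∈ JF.NX x := k.j.nx.mpr (Or.inr (mul_inv_eq_iff_eq_mul.mpr (Subtype.ext (by
    simpa [Gw, A, e4, hx, mul_assoc] using N_eq s 1 _ _ e3))))
  obtain rfl := e5 l hl e he (vc_inj (lo_lt _) (by norm_num) (f.1.symm.trans (vz_N a3)))
  exact ⟨e, he, h, f⟩

omit k in
/-- the normalized splitting -/
structure LK (j : JF m x) (t : Finset GolayPt → G) (Φ : normalizer (m.AG : Set G) →* M24) (κ : M24 →* normalizer (m.AG : Set G)) : Prop where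
  s : TK z m.AG t Φ κ
  hx : (κ (L 0) : G) = x
  h7 : HR j (mk 0 cσ1) (κ (L 7))
  h8 : HR j (mk 0 cσ2) (κ (L 8))
  h9 : HR j (mk 1330 mul12One) (κ (L 9))

omit [Finite G] k in
theorem tw_T (s : TK z m.AG t Φ κ) {i g : ℕ} (hi' : i < 36) (hg : g < 4096) (e : evn (Nat.xor g (mul12Ap (hi (nth 0 CB i)) g)) = true) :
    t (toSet (g <<< 12) ∆ (L i • toSet (g <<< 12))) = T t (Nat.xor g (mul12Ap (hi (nth 0 CB i)) g)) := by
  simp only [evn, andB_iff, Nat.blt_eq, Nat.beq_eq] at e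
  refine (s.t_eq (even_tw _ _) ((sy_even e.1 (sy_sh e.1)).mpr e.2)).mpr ?_
  rw [sy_sd, ← th_sy, sy_sh hg, sy_sh e.1, (R_ap (L_R hi').2 hg).2]; exact (vc_xor _ _).symm

theorem ex2 : ∃ κ, TK z m.AG t Φ κ ∧ (κ (L 0) : G) = x ∧ HR k.j (mk 0 cσ1) (κ (L 7)) ∧ HR k.j (mk 0 cσ2) (κ (L 8)) := by
  obtain ⟨κ, s, hx⟩ := ex1 k
  obtain ⟨e1, l1, r1⟩ := lift0 k s hx (σ := cσ1) (σ' := cσ1') (i := 7) (by decide +kernel)
  obtain ⟨e2, l2, r2⟩ := lift0 k s hx (σ := cσ2) (σ' := cσ2') (i := 8) (by decide +kernel)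
  have := allB_iff.mp (allB_iff.mp (by decide +kernel : (allB 16 fun e1 => allB 16 fun e2 =>
    force (pm (mk (fx 0) (fe e1)) (mk 0 cσ1)) fun a => force (pm (mk (fx 0) (fe e2)) (mk 0 cσ2)) fun b => orB (neP (pm b b) p1)
      (orB (force (pm a (pm a a)) fun c => neP (pm c c) p1) (anyL gamL fun g => andB (andB (Nat.blt g 4096)
        (Nat.beq (Nat.xor g (mul12Ap (hi (nth 0 CB 0)) g)) 0)) (andB (force (Nat.xor g (mul12Ap (hi (nth 0 CB 7)) g)) fun c =>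
          andB (evn c) (Nat.beq (pm (tm c) a) (mk 0 cσ1))) (force (Nat.xor g (mul12Ap (hi (nth 0 CB 8)) g)) fun c =>
          andB (evn c) (Nat.beq (pm (tm c) b) (mk 0 cσ2))))))) = true) e1 l1) e2 l2
  simp only [force_eq, orB_iff, anyL_iff, andB_iff, Nat.beq_eq, Nat.blt_eq] at this
  rcases this with f | f | ⟨g, -, ⟨f1, f2⟩, ⟨f3, f4⟩, f5, f6⟩
  · exact ((r2.mul r2).ne HR.one f (by simpa [Gw, A] using N_eq s 1 [8, 8] [] (by decide +kernel))).elim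
  · exact (((r1.mul (r1.mul r1)).mul (r1.mul (r1.mul r1))).ne HR.one f (by
      simpa [Gw, A, mul_assoc] using N_eq s 1 [7, 7, 7, 7, 7, 7] [] (by decide +kernel))).elim
  obtain ⟨κ', s', a1⟩ := s.twist (toSet (g <<< 12))
  have lt : ∀ {a}, evn a = true → a < 4096 := fun e => Nat.blt_eq.mp (andB_iff.mp e).1
  refine ⟨κ', s', ?_, ?_, ?_⟩ <;> rw [a1]
  · rw [tw_T s (by norm_num) f1 (by rw [f2]; decide +kernel), f2, T, Nat.zero_shiftLeft, toSet_zero, k.h.empty, one_mul, hx]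
  · rw [tw_T s (by norm_num) f1 f3]; exact f4 ▸ (HR_T k (lt f3)).mul r1
  · rw [tw_T s (by norm_num) f1 f5]; exact f6 ▸ (HR_T k (lt f5)).mul r2

noncomputable def q4 (a b c d i : ℕ) : ℕ := ifB (Nat.beq i 0) a (ifB (Nat.beq i 7) b (ifB (Nat.beq i 8) c d))

theorem ex3 : ∃ κ, LK k.j t Φ κ := by
  obtain ⟨κ, s, hx, r1, r2⟩ := ex2 k
  obtain ⟨h, h1, h2⟩ := k.j.ex (vc 1330) (one_mem XJ)
  obtain ⟨l, hl, e, he, r⟩ := lift k s (i := 9) (HR.of (by norm_num) h1 (h2 ▸ M.R_one)) (by decide +kernel)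
  have r0 : HR k.j (mk 0 cW) (κ (L 0)) :=
    hx ▸ HR.of (by norm_num) (vz_N (k.j.nx.mpr (Or.inl (mul_inv_cancel_right _ _)))) (k.j.hx ▸ R_W)
  have := allB_iff.mp (allB_iff.mp (by decide +kernel : (allB 64 fun l => allB 16 fun e =>
    force (pm (mk (fx l) (fe e)) (mk 1330 mul12One)) fun a => orB (Nat.beq a (mk 1330 mul12One)) (anyL [0, 1, 2] fun i =>
      neP (ev (q4 (mk 0 cW) (mk 0 cσ1) (mk 0 cσ2) a) ([[9, 0, 9, 0, 9, 0],
        [7, 8, 7, 7, 7, 7, 9, 7, 7, 8, 7, 7, 7, 7, 7, 9], [7, 7, 7, 7, 7, 8, 7, 9, 7, 7, 7, 7, 7, 8, 7, 9]].getD i [])) p1)) = true) l hl) e he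
  rw [force_eq, orB_iff, anyL_iff, Nat.beq_eq] at this
  refine ⟨κ, s, hx, r1, r2, this.elim (· ▸ r) fun ⟨i, hi, f⟩ => ?_⟩
  have a : ∀ w, allL w (fun i => anyL [0, 7, 8, 9] (Nat.beq i)) = true → nE w [] = true → ¬ neP (ev (q4 (mk 0 cW)
      (mk 0 cσ1) (mk 0 cσ2) (pm (mk (fx l) (fe e)) (mk 1330 mul12One))) w) p1 = true := fun w h1 h2 f =>
    (ev_rel (R := HR k.j) (A := A κ t 1) HR.one HR.mul (fun i hi => by
      obtain ⟨i, hi, e⟩ := anyL_iff.mp hi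
      obtain rfl := Nat.eq_of_beq_eq_true e
      have n : ∀ a b c d, q4 a b c d 0 = a ∧ q4 a b c d 7 = b ∧ q4 a b c d 8 = c ∧ q4 a b c d 9 = d := by simp [q4, ifB_eq]
      fin_cases hi <;> rw [A, if_pos (by norm_num)] <;> simp only [n]
      exacts [r0, r1, r2, r]) h1).ne HR.one f (N_eq s 1 _ _ h2)
  fin_cases hi <;> exact (a _ (by decide +kernel) (by decide +kernel) f).elim

end Ju

end Cfsg.Agent.LL.U6
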