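import Cfsg.Agent.H21.Ju2

/-! An involution centralizing the trio subgroup of a complement `M₂₄`. -/

set_option autoImplicit false
set_option maxRecDepth 100000
set_option linter.style.haveILetI false

namespace Cfsg.Agent.LL.U6

open Cfsg Cfsg.Agent.H16 Cfsg.Agent.H3 Cfsg.Agent.H10 MulAction Mdl Subgroup
open scoped Pointwise symmDiff

variable {G : Type*} [Group G] [Finite G] {z : G} {Q : Subgroup G} {ρ : centralizer ({z} : Set G) →* Γ} {p : G → V6}
  {m : FT z Q ρ p} {x : centralizer ({z} : Set G)} {b : ℕ → G} {d : ℕ → centralizer ({z} : Set G)} {t : Finset GolayPt → G}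
  {Φ : normalizer (m.AG : Set G) →* M24} {κ : M24 →* normalizer (m.AG : Set G)}

namespace Ju

section
variable {j : JF m x}

theorem enum {u u' v : ℕ} {cons : List ℕ} {fin : ℕ → Bool} (hb : enB u u' cons fin = true)
    (hu : andB (andB (invB u u') (orB (N.sift o J0L u) (force (o.mul js u) (N.sift o J0L)))) (andB (Nat.beq (mul12Ap u 15) (lo v))
      (Nat.beq (hi v) mul12One)) = true) {h q : G} (hz : h * z = z * h) (hq : HR j v q) (hc : h * q = q * h)
    (hs : ∀ a ∈ cons, ∃ y, HR j a y ∧ h * y = y * h) : ∃ c, HR j c h ∧ fin c = true := by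
  obtain ⟨e1, e2⟩ := andB_iff.mp hu
  simp only [andB_iff, Nat.beq_eq] at e2
  obtain ⟨g, hg, r, r'⟩ := prL_XJ (S := [(u, u')]) (allP_iff.mpr fun p hp => by rw [List.mem_singleton.mp hp]; exact e1) _ List.mem_cons_self
  let h' : centralizer ({z} : Set G) := ⟨h, mem_centralizer_singleton_iff.mpr hz⟩
  have k : ∀ {a y}, HR j a y → h * y = y * h → ∃ γ, M.R (hi a) γ ∧ ρ h' * γ = γ * ρ h' ∧
      j.vz h' + ρ h' (vc (lo a)) = vc (lo a) + γ (j.vz h') := fun {a y} ⟨l, f⟩ e => by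
    have e' : h' * ⟨y, l⟩ = ⟨y, l⟩ * h' := Subtype.ext e
    refine ⟨_, f.2, by rw [← map_mul, e', map_mul], ?_⟩
    rw [← f.1, ← j.aff.mul, e', j.aff.mul]
  obtain ⟨γ, a1, -, a2⟩ := k hq hc
  rw [e2.2] at a1
  rw [show γ = 1 from R_fun a1 M.R_one, Equiv.Perm.one_apply, add_comm, add_left_inj, ← e2.1, ← (R_ap r (by norm_num)).2] at a2
  obtain ⟨c, a3, a4⟩ := (stab_ch XA_ch P1').forall hb (k := g⁻¹ * ρ h' * g) ⟨XJ.mul_mem (XJ.mul_mem (XJ.inv_mem hg) (j.mem _)) hg, by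
    change g⁻¹ (ρ h' (g (vc 15))) = vc 15
    rw [a2]; exact g.symm_apply_apply _⟩
  have a5 : M.R (o.mul u (o.mul c u')) (ρ h') := by simpa [mul_assoc] using M.R_mul r (M.R_mul a3 r')
  rw [force_eq] at a4
  change M.R (mul12 u (mul12 c u')) _ at a5
  generalize mul12 u (mul12 c u') = c at a4 a5
  rcases orB_iff.mp a4 with a4 | a4
  · obtain ⟨a, ha, f⟩ := anyL_iff.mp a4
    obtain ⟨y, y1, y2⟩ := hs a ha
    obtain ⟨γ, a6, a7, -⟩ := k y1 y2
    exact (ne_of_neB hv hpt (M.R_mul a5 a6) (M.R_mul a6 a5) (by rwa [force_eq, force_eq] at f) a7).elim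
  obtain ⟨w, hw, e⟩ := vc_surj (j.vz h')
  rcases orB_iff.mp (allQ_iff.mp a4 w hw) with a4 | a4
  · obtain ⟨a, ha, f⟩ := anyL_iff.mp a4
    obtain ⟨y, y1, y2⟩ := hs a ha
    obtain ⟨γ, a6, -, a7⟩ := k y1 y2
    have b1 := R_ap a5 (lo_lt a)
    have b2 := R_ap a6 hw
    rw [← e, b1.2, b2.2, ← vc_xor, ← vc_xor] at a7
    exact (notB_iff.mp f (Nat.beq_eq.mpr (vc_inj (Nat.xor_lt_two_pow (n := 12) hw b1.1)
      (Nat.xor_lt_two_pow (n := 12) (lo_lt a) b2.1) a7))).elim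
  · exact ⟨_, HR.of (h := h') hw e.symm a5, (force_eq _ _).symm.trans a4⟩

theorem HR.cx {c : ℕ} {g : G} (r : HR j c g) (e : andB (Nat.beq (lo c) 0) (Nat.beq (mul12 (hi c) cW) (mul12 cW (hi c))) = true) :
    g * x = x * g := by
  simp only [andB_iff, Nat.beq_eq] at e
  exact congrArg Subtype.val (j.N_comm (HR.nx (h := ⟨g, r.1⟩) r e.1) (R_fun (M.R_mul r.2.2 R_W) (by
    change M.R (mul12 _ _) _; rw [e.2]; exact M.R_mul R_W r.2.2)))

theorem HR.cq {c v : ℕ} {g q : G} (r : HR j c g) (h : g * x = x * g) (s : HR j v q)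
    (e : andB (Nat.beq (hi v) mul12One) (Nat.beq (mul12Ap (hi c) (lo v)) (lo v)) = true) : g * q = q * g := by
  simp only [andB_iff, Nat.beq_eq] at e
  have hq := (m.ker _).mp (R_fun (e.1 ▸ s.2.2) M.R_one)
  refine m.y_comm j.hx (y := ⟨g, r.1⟩) (Subtype.ext h) hq ?_
  rw [← j.vz_Q hq, s.2.1, (R_ap r.2.2 (lo_lt v)).2, e.2]
end

variable (k : JE m x b d t Φ) (l : LK k.j t Φ κ) {τ : G} (r : HR k.j tc τ)
include k

theorem HR.sq {c : ℕ} {g : G} (r : HR k.j c g) (e : andB (Nat.beq (lo c) 0) (Nat.beq (mul12 (hi c) (hi c)) mul12One) = true) :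
    g * g = 1 := by
  simp only [andB_iff, Nat.beq_eq] at e
  exact congrArg Subtype.val (k.toJC.N_sq (HR.nx (h := ⟨g, r.1⟩) r e.1) (R_fun (M.R_mul r.2.2 r.2.2) (by
    change M.R (mul12 _ _) _; rw [e.2]; exact M.R_one)))

theorem A_z (τ : G) : A κ t τ 4930 = z := by simpa [A] using T_z k
omit [Finite G] k in
theorem A_t (τ : G) : A κ t τ 64 = τ := by simp [A]

include l r

theorem HR_A (i : ℕ) (h : hp i = true) : HR k.j (hc i) (A κ t τ i) := by
  by_cases h1 : i < 64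
  · simp only [hp, ifB_eq, Nat.blt_eq, if_pos h1, andB_iff, notB_iff, Nat.beq_eq] at h
    have := allB_iff.mp (by decide +kernel : (allB 36 fun i => orB (Nat.beq (nth 0 HC i) 0) (andB (andB (nE [i] (SWL.getD i []))
      (allL (SWL.getD i []) fun i => anyL [7, 8, 9] (Nat.beq i))) (Nat.beq (ev hc (SWL.getD i [])) (hc i)))) = true) i h.1
    simp only [orB_iff, andB_iff (a := andB _ _), andB_iff (a := nE _ _), Nat.beq_eq] at this
    obtain ⟨⟨e1, e2⟩, e3⟩ := this.resolve_left h.2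
    rw [← e3, ← mul_one (A κ t τ i), show A κ t τ i * 1 = _ from N_eq l.s τ _ _ e1]
    refine ev_rel HR.one HR.mul (fun i hi => ?_) e2
    obtain ⟨i, hi, e⟩ := anyL_iff.mp hi
    obtain rfl := Nat.eq_of_beq_eq_true e
    fin_cases hi <;> rw [A, if_pos (by norm_num)]
    exacts [(by decide +kernel : mk 0 cσ1 = hc 7) ▸ l.h7, (by decide +kernel : mk 0 cσ2 = hc 8) ▸ l.h8,
      (by decide +kernel : mk 1330 mul12One = hc 9) ▸ l.h9]
  · simp only [hp, hc, A, ifB_eq, Nat.blt_eq, if_neg h1, Nat.beq_eq] at h ⊢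
    split_ifs
    exacts [r, HR_T k (by omega : i - 4096 < 4096)]

theorem HR_w {w : List ℕ} (h : allL w hp = true) : HR k.j (ev hc w) (Gw (A κ t τ) w) := ev_rel HR.one HR.mul (HR_A k l r) h
theorem H_eq (v w : List ℕ) (h : hE v w = true) : Gw (A κ t τ) v = Gw (A κ t τ) w ∨ Gw (A κ t τ) v = z * Gw (A κ t τ) w := by
  simp only [hE, andB_iff, Nat.beq_eq] at h
  exact (HR_w k l r h.1.1).eq (h.2 ▸ HR_w k l r h.1.2)
theorem H_ne (v w : List ℕ) (h : hN v w = true) : Gw (A κ t τ) v ≠ Gw (A κ t τ) w := by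
  simp only [hN, andB_iff] at h
  exact (HR_w k l r h.1.1).ne (HR_w k l r h.1.2) h.2

theorem en {u u' v : ℕ} {cs rs : List (List ℕ)} {f : ℕ → Bool} (hb : fL (cs.map (ev hc)) (fun cons => fL (rs.map (ev hc)) fun res =>
    enB u u' cons fun c => orB (f c) (anyL res (Nat.beq c))) = true)
    (hu : andB (andB (andB (invB u u') (orB (N.sift o J0L u) (force (o.mul js u) (N.sift o J0L)))) (andB (Nat.beq (mul12Ap u 15) (lo (hc v)))
      (Nat.beq (hi (hc v)) mul12One))) (andB (hp v) ((cs ++ rs).all fun w => allL w hp)) = true) {h : G} (hz : h * z = z * h)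
    (hc : h * A κ t τ v = A κ t τ v * h) (hs : ∀ w ∈ cs, h * Gw (A κ t τ) w = Gw (A κ t τ) w * h)
    (hf : ∀ c, HR k.j c h → ¬ f c = true) : ∃ w ∈ rs, h = Gw (A κ t τ) w ∨ h = z * Gw (A κ t τ) w := by
  obtain ⟨e1, e2⟩ := andB_iff.mp hu
  simp only [andB_iff, List.all_eq_true, List.mem_append] at e2
  rw [fL_eq, fL_eq] at hb
  obtain ⟨c, a1, a2⟩ := enum hb e1 hz (HR_A k l r v e2.1) hc fun a ha => by
    obtain ⟨w, hw, rfl⟩ := List.mem_map.mp ha
    exact ⟨_, HR_w k l r (e2.2 w (Or.inl hw)), hs w hw⟩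
  obtain ⟨a, ha, e⟩ := anyL_iff.mp ((orB_iff.mp a2).resolve_left (hf c a1))
  obtain ⟨w, hw, rfl⟩ := List.mem_map.mp ha
  exact ⟨w, hw, a1.eq (Nat.eq_of_beq_eq_true e ▸ HR_w k l r (e2.2 w (Or.inr hw)))⟩

theorem t_B : τ * τ = 1 ∧ τ * z = z * τ ∧ (∀ i < 6, Commute τ (A κ t τ i)) ∧ Commute τ (A κ t τ 4634) := by
  have a := r.sq k (by decide +kernel)
  have a0 := r.cx (by decide +kernel)
  have c : ∀ i, andB (hp i) (andB (Nat.beq (hi (hc i)) mul12One) (Nat.beq (mul12Ap (hi tc) (lo (hc i))) (lo (hc i)))) = true →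
      Commute τ (A κ t τ i) := fun i e => r.cq a0 (HR_A k l r i (andB_iff.mp e).1) (andB_iff.mp e).2
  have c' : ∀ i, andB (andB (hp i) (nE [i, i] [])) (andB (Nat.beq (lo (pm tc (hc i))) 0) (Nat.beq (mul12 (hi (pm tc (hc i))) (hi (pm tc (hc i))))
      mul12One)) = true → Commute τ (A κ t τ i) := fun i e => by
    obtain ⟨e, e'⟩ := andB_iff.mp e
    have b1 := (r.mul (HR_A k l r i (andB_iff.mp e).1)).sq k e'
    have b2 : A κ t τ i * A κ t τ i = 1 := by simpa [Gw] using N_eq l.s τ _ _ (andB_iff.mp e).2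
    rw [Commute, SemiconjBy, ← inv_eq_of_mul_eq_one_right b1, mul_inv_rev, inv_eq_of_mul_eq_one_right a, inv_eq_of_mul_eq_one_right b2]
  refine ⟨a, mem_centralizer_singleton_iff.mp r.1, fun i hi => ?_, c _ (by decide +kernel)⟩
  interval_cases i
  exacts [by rw [A, if_pos (by norm_num), l.hx]; exact a0, c' _ (by decide +kernel), c' _ (by decide +kernel), c' _ (by decide +kernel),
    c _ (by decide +kernel), c _ (by decide +kernel)]

omit k l r [Finite G] in
theorem cj_comm {a y y' τ : G} (h : a * a = 1) (e : a * y * a = y') (c : Commute τ y') : a * τ * a * y = y * (a * τ * a) := by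
  have i := inv_eq_of_mul_eq_one_right h
  calc _ = a * (τ * (a * y * a)) * a⁻¹ := by group
    _ = a * a * y * (a * τ * a⁻¹) := by rw [e, c.eq, ← e]; group
    _ = _ := by rw [h, i, one_mul]

omit r in
theorem ex_t : ∃ τ, HR k.j tc τ ∧ ∀ i < 7, Commute τ (κ (L i) : G) := by
  obtain ⟨g, hg, r, -⟩ := prL_XJ (S := [(cτ, cτ')]) (by decide +kernel) _ List.mem_cons_self
  obtain ⟨τ', h1, h2⟩ := k.j.ex (vc 0) hg
  have r : HR k.j tc τ' := HR.of (by norm_num) h1 (h2 ▸ r)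
  generalize (τ' : G) = τ at r
  obtain ⟨t2, tz, tB, tz'⟩ := t_B k l r
  have N := N_eq l.s τ
  have az := A_z k (κ := κ) τ
  have g2 : A κ t τ 6 * A κ t τ 6 = 1 := by simpa [Gw] using N [6, 6] [] (by decide +kernel)
  have gz : A κ t τ 6 * z * A κ t τ 6 = A κ t τ 4634 := by simpa [Gw, az, mul_assoc] using N [6, 4930, 6] [4634] (by decide +kernel)
  have gz' : A κ t τ 6 * A κ t τ 4634 * A κ t τ 6 = z := by simpa [Gw, az, mul_assoc] using N [6, 4634, 6] [4930] (by decide +kernel)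
  have n1 : A κ t τ 4634 * z ≠ 1 := by simpa [Gw, az] using N_ne l.s τ [4634, 4930] [] (by decide +kernel)
  have zz' : A κ t τ 4634 * z * A κ t τ 4634 = z := by simpa [Gw, az, mul_assoc] using N [4634, 4930, 4634] [4930] (by decide +kernel)
  have B : ∀ i w, andB (nE [6, i, 6] w) (allL w fun i => Nat.blt i 6) = true →
      A κ t τ 6 * τ * A κ t τ 6 * Gw (A κ t τ) [i] = Gw (A κ t τ) [i] * (A κ t τ 6 * τ * A κ t τ 6) := fun i w e =>
    cj_comm g2 (by simpa [Gw, mul_assoc] using N _ _ (andB_iff.mp e).1)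
      (Gw_comm (fun i hi => tB i (Nat.blt_eq.mp hi)) (andB_iff.mp e).2)
  obtain ⟨w, hw, e⟩ := en k l r (f := fun _ => false) (v := 4634) (u := cuz) (u' := cuz') (cs := [[22], [23], [24]]) (rs := W1)
    (by simpa only [show ∀ b, orB false b = b from fun b => by cases b <;> simp [orB]] using en1) (by decide +kernel) (cj_comm g2 gz tz') (cj_comm g2 gz' tz)
    (fun w hw => by
      fin_cases hw
      exacts [B 22 [0, 5, 0, 2, 1] (by decide +kernel), B 23 [4, 2, 3, 2, 5] (by decide +kernel),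
        B 24 [1, 3, 2, 0, 4, 5, 1] (by decide +kernel)]) (by simp)
  have fin : ∀ σ, HR k.j tc σ → (∀ i < 6, Commute σ (A κ t τ i)) → A κ t τ 6 * σ * A κ t τ 6 = σ →
      ∃ τ, HR k.j tc τ ∧ ∀ i < 7, Commute τ (κ (L i) : G) := fun σ h1 h2 h3 => ⟨σ, h1, fun i hi => by
    rw [show (κ (L i) : G) = A κ t τ i from (if_pos (by omega)).symm]
    by_cases e : i = 6
    · rw [e, Commute, SemiconjBy]; nth_rw 2 [← h3]; rw [← mul_assoc, ← mul_assoc, g2, one_mul]
    · exact h2 i (by omega)⟩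
  have bk : ∀ {y}, A κ t τ 6 * τ * A κ t τ 6 = y → τ = A κ t τ 6 * y * A κ t τ 6 := fun e => by
    rw [← e, ← mul_assoc, ← mul_assoc, g2, one_mul, mul_assoc, g2, mul_one]
  have no : ∀ v v', andB (nE (6 :: v ++ [6]) v') (hN [64] v') = true → A κ t τ 6 * τ * A κ t τ 6 ≠ Gw (A κ t τ) v := fun v v' e f =>
    H_ne k l r _ _ (andB_iff.mp e).2 (by
      rw [← N _ _ (andB_iff.mp e).1, List.cons_append, Gw_cons, Gw_cons, Gw_app, A_t, Gw_nil, mul_one, ← mul_assoc, Gw_cons, Gw_nil, mul_one]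
      exact bk f)
  have cj : ∀ u v, A κ t τ 6 * (u * v) * A κ t τ 6 = A κ t τ 6 * u * A κ t τ 6 * (A κ t τ 6 * v * A κ t τ 6) := fun u v => by
    simp only [mul_assoc]; rw [← mul_assoc (A κ t τ 6) (A κ t τ 6), g2, one_mul]
  fin_cases hw <;> rcases e with e | e
  · exact (no _ [] (by decide +kernel) e).elim
  · exact (no [4930] [4634] (by decide +kernel) (by rwa [Gw_cons, az])).elim
  · exact (no _ [4930] (by decide +kernel) e).elim
  · exact (no [4930, 4634] [4634, 4930] (by decide +kernel) (by rwa [Gw_cons, az])).elim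
  all_goals simp only [Gw_cons, Gw_nil, mul_one, A_t] at e
  · exact fin τ r tB e
  · have := bk e
    rw [cj, gz, e, ← mul_assoc, right_eq_mul] at this
    exact (n1 this).elim
  · have := bk e
    rw [cj, gz', e, mul_assoc, left_eq_mul] at this
    exact (n1 this).elim
  · refine fin (z * τ) r.zl (fun i hi => Commute.mul_left (mem_centralizer_singleton_iff.mp (HR_A k l r i (by
      interval_cases i <;> decide +kernel)).1).symm (tB i hi)) ?_
    rw [cj, gz, e, tz'.eq, ← mul_assoc, ← mul_assoc, zz']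

end Ju

end Cfsg.Agent.LL.U6
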