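import Cfsg.Agent.H21.Ju3

/-! The two long relations of the presentation of `J₄`. -/

set_option autoImplicit false
set_option maxRecDepth 100000
set_option linter.style.haveILetI false

namespace Cfsg.Agent.LL.U6

open Cfsg Cfsg.Agent.H16 Cfsg.Agent.H3 Cfsg.Agent.H10 MulAction Mdl Subgroup
open scoped Pointwise symmDiff

namespace Ju

section
variable {X : Type*} [Group X]

theorem tri {a b c : X} (ha : a * a = 1) (hb : b * b = 1) (hc : c * c = 1) (h : a * b * c = 1) : a = c * b ∧ Commute b c := by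
  have e : a = c * b := by
    rw [mul_assoc, mul_eq_one_iff_eq_inv, mul_inv_rev, inv_eq_of_mul_eq_one_right hb, inv_eq_of_mul_eq_one_right hc] at h; exact h
  refine ⟨e, ?_⟩
  rw [Commute, SemiconjBy, ← e, ← inv_eq_of_mul_eq_one_right ha, e, mul_inv_rev, inv_eq_of_mul_eq_one_right hb,
    inv_eq_of_mul_eq_one_right hc]

theorem om_z {τ s z r : X} (s2 : s * s = 1) (r2 : r * r = 1) (tz : Commute τ z) (tr : Commute τ r) (sr : Commute s r)
    (e : s * z * s = z * r) : Commute (τ * s * τ * s) z := by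
  have a : s * z = z * r * s := by rw [← e, mul_assoc (s * z), s2, mul_one]
  calc τ * s * τ * s * z = τ * s * (τ * z) * r * s := by rw [mul_assoc _ s z, a]; simp only [mul_assoc]
    _ = τ * (s * z) * (τ * r) * s := by rw [tz.eq]; simp only [mul_assoc]
    _ = τ * z * r * (s * r) * τ * s := by rw [a, tr.eq]; simp only [mul_assoc]
    _ = τ * z * (r * r) * s * τ * s := by rw [sr.eq]; simp only [mul_assoc]
    _ = z * (τ * s * τ * s) := by rw [r2, tz.eq]; simp only [mul_assoc, one_mul]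

theorem eps0 {τ s a b e r n : X} (t2 : τ * τ = 1) (s2 : s * s = 1) (e2 : e * e = 1) (h1 : τ * a * τ = b * e) (h2 : s * b * s = b * r)
    (h3 : s * a * s = a) (te : Commute τ e) (se : Commute s e) (tr : Commute τ r) (h : τ * s * τ * s = n) : a * e * r * e * n = n * a := by
  have a1 : τ * a = b * e * τ := by rw [← h1, mul_assoc _ τ, t2, mul_one]
  have a2 : s * b = b * r * s := by rw [← h2, mul_assoc _ s, s2, mul_one]
  have a3 : τ * b = a * e * τ := by
    rw [← mul_one b, ← e2, ← mul_assoc b, ← h1, mul_assoc a, ← te.eq]; simp only [← mul_assoc]; rw [t2, one_mul]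
  have a4 : s * a = a * s := by nth_rw 2 [← h3]; rw [mul_assoc _ s, s2, mul_one]
  subst h
  calc _ = a * e * r * (e * τ) * s * τ * s := by simp only [mul_assoc]
    _ = a * e * (r * τ) * (e * s) * τ * s := by rw [← te.eq]; simp only [mul_assoc]
    _ = a * e * τ * r * s * e * τ * s := by rw [← tr.eq, ← se.eq]; simp only [mul_assoc]
    _ = τ * (b * r * s) * e * τ * s := by rw [← a3]; simp only [mul_assoc]
    _ = τ * s * (b * e * τ) * s := by rw [← a2]; simp only [mul_assoc]
    _ = _ := by rw [← a1, mul_assoc _ s a, a4]; simp only [mul_assoc]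

theorem add3 {τ s c k l : X} (t2 : τ * τ = 1) (s2 : s * s = 1) (c2 : c * c = 1) (h : τ * s * τ * s = c) (sc : Commute s c)
    (tk : Commute τ k) (ck : Commute c k) (tl : Commute τ l) (cl : Commute c l) (e : s * (k * s * k⁻¹) * (l * s * l⁻¹) = 1) : c = 1 := by
  have a : τ * s = c * s * τ := by rw [← h, mul_assoc _ s s, s2, mul_one, mul_assoc _ τ τ, t2, mul_one]
  have b : ∀ {k}, Commute τ k → Commute c k → τ * (k * s * k⁻¹) = c * (k * s * k⁻¹) * τ := fun {k} h1 h2 => by
    rw [← mul_assoc, ← mul_assoc, h1.eq, mul_assoc k, a, ← mul_assoc c, ← mul_assoc c, h2.eq, mul_assoc _ k⁻¹, ← h1.inv_right.eq]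
    simp only [mul_assoc]
  have c1 := (ck.mul_right sc.symm).mul_right ck.inv_right
  have b1 := b tk ck
  have b2 := b tl cl
  generalize k * s * k⁻¹ = u at *
  generalize l * s * l⁻¹ = v at *
  have : τ * (s * u * v) = c * (s * u * v) * τ := by
    calc _ = c * s * (τ * u) * v := by rw [← mul_assoc, ← mul_assoc, a]; simp only [mul_assoc]
      _ = c * (s * c) * u * (τ * v) := by rw [b1]; simp only [mul_assoc]
      _ = c * c * s * (u * c) * v * τ := by rw [b2, sc.eq]; simp only [mul_assoc]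
      _ = s * c * u * v * τ := by rw [c2, ← c1.eq]; simp only [mul_assoc, one_mul]
      _ = _ := by rw [sc.eq]; simp only [mul_assoc]
  rwa [e, mul_one, mul_one, right_eq_mul] at this

/-- a conjugate of `τ` -/
def fw (A : ℕ → X) (τ : X) (w : List ℕ) : X := Gw A w * τ * (Gw A w)⁻¹
theorem fw_app (A : ℕ → X) (τ : X) (v w : List ℕ) : fw A τ (v ++ w) = Gw A v * fw A τ w * (Gw A v)⁻¹ := by
  simp [fw, Gw_app, mul_assoc]
theorem fw_sq (A : ℕ → X) {τ : X} (h : τ * τ = 1) (w : List ℕ) : fw A τ w * fw A τ w = 1 := by rw [fw, conj_mul, h]; simp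
end

variable {G : Type*} [Group G] [Finite G] {z : G} {Q : Subgroup G} {ρ : centralizer ({z} : Set G) →* Γ} {p : G → V6}
  {m : FT z Q ρ p} {x : centralizer ({z} : Set G)} {b : ℕ → G} {d : ℕ → centralizer ({z} : Set G)} {t : Finset GolayPt → G}
  {Φ : normalizer (m.AG : Set G) →* M24} {κ : M24 →* normalizer (m.AG : Set G)}
  (k : JE m x b d t Φ) (l : LK k.j t Φ κ) {τ : G} (r : HR k.j tc τ) (hK : ∀ i < 7, Commute τ (κ (L i) : G))

local notation "a" => A κ t τ
local notation "g" => Gw (A κ t τ)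
local notation "f" => fw (A κ t τ) τ

noncomputable def kE (v w u : List ℕ) : Bool := andB (nE v (w ++ u)) (allL u fun i => Nat.blt i 7)

section
include hK
omit [Finite G] in
theorem K_comm {u : List ℕ} (h : (allL u fun i => Nat.blt i 7) = true) : Commute τ (g u) :=
  Gw_comm (fun i hi => by have := Nat.blt_eq.mp hi; rw [A, if_pos (by omega)]; exact hK i this) h
include l
theorem tK (v u : List ℕ) (h : kE v [] u = true) : Commute τ (g v) :=
  N_eq l.s τ _ _ (andB_iff.mp h).1 ▸ K_comm hK (andB_iff.mp h).2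
theorem f_eq (v w u : List ℕ) (h : kE v w u = true) : f v = f w := by
  rw [fw, fw, N_eq l.s τ _ _ (andB_iff.mp h).1, Gw_app, cjcj, ← (K_comm hK (andB_iff.mp h).2).eq, mul_inv_cancel_right]
theorem fK (w v u : List ℕ) (h : kE (v ++ w) w u = true) : Commute (f w) (g v) :=
  (mul_inv_eq_iff_eq_mul.mp ((fw_app _ τ v w).symm.trans (f_eq k l hK _ _ _ h))).symm
end

include l r hK

theorem cube : a 13 * τ * (a 13 * τ) * (a 13 * τ) = 1 ∧ ∀ w, f (w ++ [13]) * f (w ++ [13, 13]) * f w = 1 := by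
  obtain ⟨t2, tz, -⟩ := t_B k l r
  have N := N_eq l.s τ
  have az := A_z k (κ := κ) τ
  have u3 : (a 13 * a 13)⁻¹ = a 13 := inv_eq_of_mul_eq_one_right (by simpa [Gw, mul_assoc] using N [13, 13, 13] [] (by decide +kernel))
  have e0 : f [13] * f [13, 13] * τ = a 13 * τ * (a 13 * τ) * (a 13 * τ) := by
    simp only [fw, Gw_cons, Gw_nil, mul_one, u3]; group
  have e1 : ∀ w, f (w ++ [13]) * f (w ++ [13, 13]) * f w = g w * (a 13 * τ * (a 13 * τ) * (a 13 * τ)) * (g w)⁻¹ := fun w => by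
    rw [fw_app, fw_app, ← e0, show f w = g w * τ * (g w)⁻¹ from rfl]; group
  suffices a 13 * τ * (a 13 * τ) * (a 13 * τ) = 1 from ⟨this, fun w => by rw [e1, this]; simp⟩
  refine (H_eq k l r [13, 64, 13, 64, 13, 64] [] (by decide +kernel)).elim (fun e => by simpa [Gw, A_t, mul_assoc] using e) fun e => ?_
  replace e : a 13 * τ * (a 13 * τ) * (a 13 * τ) = z := by simpa [Gw, A_t, mul_assoc] using e
  have uz : Commute z (g [13, 13]) := by simpa [Gw, az, mul_assoc, Commute, SemiconjBy] using N [4930, 13, 13] [13, 13, 4930] (by decide +kernel)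
  have tz' : Commute τ z := tz
  obtain ⟨a1, a2⟩ := tri (c := τ * z) (fw_sq _ t2 [13]) (fw_sq _ t2 [13, 13]) (by rw [tz'.symm.mul_mul_mul_comm, t2, m.lx.zz, one_mul])
    (by rw [← mul_assoc, e0, e, m.lx.zz])
  have a3 : Commute (f [13, 13]) τ := by
    have := a2.mul_right ((uz.mul_right tz'.symm).mul_right uz.inv_right).symm
    rwa [mul_assoc, m.lx.zz, mul_one] at this
  have a4 : Commute τ (f [13]) := a1 ▸ ((Commute.refl τ).mul_right tz').mul_right a3.symm
  have a5 : ∀ h : List ℕ, (allL h fun i => Nat.blt i 7) = true → Commute τ (f (h ++ [13])) := fun h e =>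
    fw_app _ τ h [13] ▸ ((K_comm hK e).mul_right a4).mul_right (K_comm hK e).inv_right
  have a6 := e1 [13, 6]
  rw [e, f_eq k l hK _ ([6] ++ [13]) [2, 0, 6, 5, 3, 2, 4, 3, 2] (by decide +kernel),
    f_eq k l hK ([13, 6] ++ [13, 13]) ([2, 4, 2, 6] ++ [13]) [1, 6, 0, 4, 0, 0, 1] (by decide +kernel),
    f_eq k l hK [13, 6] [13] [6] (by decide +kernel), show g [13, 6] * z * (g [13, 6])⁻¹ = a 4816 from mul_inv_eq_iff_eq_mul.mpr (by
      simpa [Gw, az, mul_assoc] using N [13, 6, 4930] [4816, 13, 6] (by decide +kernel))] at a6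
  have a7 := ((a5 [6] (by decide +kernel)).mul_right (a5 [2, 4, 2, 6] (by decide +kernel))).mul_right a4
  rw [a6] at a7
  exact (H_ne k l r [64, 4816] [4816, 64] (by decide +kernel) (by simpa [Gw, A_t] using a7.eq)).elim

theorem F (c c' e y y' e' : ℕ) (h : andB (andB (hE [64, c, 64] [c', e]) (hE [64, y, 64] [y', e']))
    (andB (nE [6, c, 6] [y]) (nE [6, c', e, 6] [y', e'])) = true) : τ * a c * τ = a c' * a e := by
  simp only [@andB_iff (andB _ _), @andB_iff (hE _ _), @andB_iff (nE _ _)] at h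
  have N := N_eq l.s τ
  have az := A_z k (κ := κ) τ
  refine (H_eq k l r _ _ h.1.1).elim (fun e => by simpa [Gw, A_t, mul_assoc] using e) fun h1 => ?_
  have h2 := H_eq k l r _ _ h.1.2
  have h3 := N _ _ h.2.1
  have h4 := N _ _ h.2.2
  have h5 := N [6, 4930] [4634, 6] (by decide +kernel)
  have h6 := (K_comm (t := t) hK (u := [6]) (by decide +kernel)).eq
  have h7 := N_ne l.s τ [4634] [] (by decide +kernel)
  have h8 := N_ne l.s τ [4634] [4930] (by decide +kernel)
  simp only [Gw_cons, Gw_nil, mul_one, A_t, az] at h1 h2 h3 h4 h5 h6 h7 h8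
  have : τ * (a y * τ) = a 4634 * (a y' * a e') := by
    calc _ = τ * a 6 * (a c * (a 6 * τ)) := by rw [← h3]; simp only [mul_assoc]
      _ = a 6 * (τ * (a c * τ)) * a 6 := by rw [← h6]; nth_rw 1 [h6]; simp only [mul_assoc]
      _ = a 6 * z * (a c' * (a e * a 6)) := by rw [h1]; simp only [mul_assoc]
      _ = _ := by rw [h5, ← h4]; simp only [mul_assoc]
  rw [this] at h2
  exact (h2.elim (fun e => h7 (mul_eq_right.mp e)) fun e => h8 (mul_right_cancel e)).elim

theorem Fs (v w v' w' : List ℕ) (e : τ * g v * τ = g w) (h : andB (nE (15 :: v ++ [16]) v') (nE (15 :: w ++ [16]) w') = true) :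
    f [15] * g v' * f [15] = g w' := by
  have N := N_eq l.s τ
  have i : (a 15)⁻¹ = a 16 := inv_eq_of_mul_eq_one_right (by simpa [Gw] using N [15, 16] [] (by decide +kernel))
  rw [← N _ _ (andB_iff.mp h).1, ← N _ _ (andB_iff.mp h).2]
  simp only [List.cons_append, Gw_cons, Gw_app, Gw_nil, mul_one, fw, ← e, ← i]; group

theorem rel12 : a 30 * τ * f [15] * (a 30 * τ * f [15]) = 1 := by
  obtain ⟨t2, tz, -⟩ := t_B k l r
  have N := N_eq l.s τ
  have az := A_z k (κ := κ) τ
  have g1 : ∀ i, g [i] = a i := fun i => mul_one _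
  have ln := (cube k l r hK).2
  have s2 := fw_sq (a) t2 [15]
  have c2 := fw_sq (a) t2 [14]
  have l1 := ln [17]
  rw [f_eq k l hK _ ([31] ++ [15]) [0, 6, 0, 4, 6, 1, 4] (by decide +kernel), f_eq k l hK ([17] ++ [13, 13]) [15] [5, 0, 6, 5, 0, 4, 6, 4]
    (by decide +kernel), f_eq k l hK [17] [14] [2, 6, 0, 5, 6, 2] (by decide +kernel)] at l1
  obtain ⟨l2, sc⟩ := tri (fw_sq _ t2 _) s2 c2 l1
  have l3 := ln [18]
  rw [f_eq k l hK _ [15] [0, 1, 6, 4, 0, 1, 6, 0, 4] (by decide +kernel), f_eq k l hK ([18] ++ [13, 13]) ([0] ++ [15]) [2, 0, 1, 4, 6, 0, 2]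
    (by decide +kernel), f_eq k l hK [18] ([2, 4] ++ [15]) [0, 1, 4, 1, 6, 2, 4, 2] (by decide +kernel), fw_app, fw_app] at l3
  have cw : f [14] = g [14, 64, 14] := by
    rw [fw, g1, inv_eq_of_mul_eq_one_right (by simpa [Gw] using N [14, 14] [] (by decide +kernel) : a 14 * a 14 = 1)]
    simp [Gw, A_t, mul_assoc]
  have tc' : Commute τ (f [14]) := (@tri G _ (τ * f [14]) _ _ (by
    have := (HR_w k l r (w := [64, 14, 64, 14]) (by decide +kernel)).sq k (by decide +kernel)
    rwa [Gw_cons, A_t, ← cw] at this) c2 t2 (by rw [mul_assoc τ, c2, mul_one, t2])).2.symm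
  have szs := Fs k l r hK [4690] [4690, 21] [4930] [4930, 19] (by
    simpa [Gw] using F k l r hK 4690 4690 21 4690 4690 21 (by decide +kernel)) (by decide +kernel)
  have sb := Fs k l r hK [4250] [4250, 34] [5102] [5102, 19] (by
    simpa [Gw] using F k l r hK 4250 4250 34 4250 4250 35 (by decide +kernel)) (by decide +kernel)
  have ta := F k l r hK 4268 5102 32 5472 6010 33 (by decide +kernel)
  have sa := Fs k l r hK [4808] [4808] [4268] [4268] (by
    have e : g [4808] = g [4, 0, 6] * z * (g [4, 0, 6])⁻¹ := eq_mul_inv_iff_mul_eq.mpr (by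
      simpa [Gw, az, mul_assoc] using N [4808, 4, 0, 6] [4, 0, 6, 4930] (by decide +kernel))
    have e' := K_comm (t := t) hK (u := [4, 0, 6]) (by decide +kernel)
    rw [(e ▸ (e'.mul_right tz).mul_right e'.inv_right : Commute τ _).eq, mul_assoc, t2, mul_one]) (by decide +kernel)
  have tr := tK k l hK [19] [3, 2, 4, 2, 3] (by decide +kernel)
  have sr := fK k l hK [15] [19] [1, 6, 1, 6] (by decide +kernel)
  have te := tK k l hK [32] [0, 0, 5, 0] (by decide +kernel)
  have se := fK k l hK [15] [32] [2, 1, 6, 1, 2, 3, 6] (by decide +kernel)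
  have σt := f_eq k l hK [29] [15] [0, 4, 0, 0, 6, 3] (by decide +kernel)
  have σs := f_eq k l hK ([29] ++ [15]) [] [3, 6, 0, 4, 0, 0] (by decide +kernel)
  have σc := fK k l hK [14] [29] [2, 5, 6, 5, 3, 2, 6] (by decide +kernel)
  have σ2 := N [29, 29] [] (by decide +kernel)
  have σz := N [29, 4930] [6686, 29] (by decide +kernel)
  have r2 := N [19, 19] [] (by decide +kernel)
  have e2 := N [32, 32] [] (by decide +kernel)
  have tb := tK k l hK [30] [6, 4, 3, 6, 4, 0] (by decide +kernel)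
  have bi := N [31, 30] [] (by decide +kernel)
  have bb := N [30, 30, 19, 20] [] (by decide +kernel)
  rw [fw_app, show f [] = τ by simp [fw, Gw]] at σs
  rw [fw_app] at l2
  rw [fw] at σt
  have P : ∀ i u v, andB (kE [i] [] u) (kE ([i] ++ [15]) [15] v) = true → Commute (τ * f [15] * τ * f [15]) (g [i]) := fun i u v e => by
    have e1 := tK k l hK _ _ (andB_iff.mp e).1
    have e2 := fK k l hK _ _ _ (andB_iff.mp e).2
    exact ((e1.mul_left e2).mul_left e1).mul_left e2
  have c1 : f [14] ≠ 1 := cw ▸ H_ne k l r _ [] (by decide +kernel)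
  have k2 := add3 (k := g [0]) (l := g [2, 4]) t2 s2 c2
  have k3 := fK k l hK [14] [0] [0, 0] (by decide +kernel)
  have k4 := fK k l hK [14] [2, 4] [0, 3, 4, 2, 3, 2, 3, 2] (by decide +kernel)
  have E := en k l r (h := τ * f [15] * τ * f [15]) (v := 19) (u := cur) (u' := cur')
    (cs := [[6686], [25], [26], [27], [28], [14, 64, 14]]) (rs := W2 ++ W2.map (· ++ [14, 64, 14]))
    (by simpa only [List.map_append, List.map_map, Function.comp_def] using en2) (by decide +kernel)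
  simp only [Gw_cons, Gw_nil, mul_one, az] at szs sb sa tr sr te se σt σs σc σ2 σz r2 e2 tb bi bb l2
  generalize f [15] = s at *
  have Ωz := om_z s2 r2 tz tr sr szs
  have Ωc : Commute (τ * s * τ * s) (f [14]) := ((tc'.mul_left sc).mul_left tc').mul_left sc
  have Ωσ : a 29 * (τ * s * τ * s) * (a 29)⁻¹ = (τ * s * τ * s)⁻¹ := by
    rw [← conj_mul, ← conj_mul, ← conj_mul, σt, σs]
    simp only [mul_inv_rev, inv_eq_of_mul_eq_one_right s2, inv_eq_of_mul_eq_one_right t2, mul_assoc]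
  obtain ⟨w, hw, e⟩ := E Ωz (((tr.mul_left sr).mul_left tr).mul_left sr) (fun w hw => by
    fin_cases hw
    · have := (Ωz.conj (a 29))
      rw [Ωσ, mul_inv_eq_iff_eq_mul.mpr σz] at this
      exact g1 _ ▸ (Commute.inv_left_iff.mp this).eq
    exacts [P 25 [4, 5, 6, 4, 6, 0] [0, 1, 6, 4, 0, 4] (by decide +kernel), P 26 [0, 0, 4, 0, 1, 3, 1] [0, 1, 6, 1, 4, 0, 4, 6] (by decide +kernel),
      P 27 [0, 0, 3, 4, 0, 3, 4] [2, 6, 3, 2, 3, 6, 3] (by decide +kernel), P 28 [2, 1, 4, 3, 1, 2] [2, 6, 5, 0, 3, 4] (by decide +kernel),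
      cw ▸ Ωc]) fun c h e => ((r.mul h).mul (r.mul h)).ne HR.one (by rwa [force_eq, force_eq] at e) (by
        simp only [← mul_assoc, t2, one_mul]
        rw [mul_assoc _ s s, s2, mul_one, mul_assoc _ τ τ, t2, mul_one, s2])
  have E2 : ∃ n ∈ W2 ++ W2.map (4930 :: ·), ∃ y, (y = 1 ∨ y = f [14]) ∧ τ * s * τ * s = g n * y := by
    have : ∃ n ∈ W2, ∃ y, (y = 1 ∨ y = f [14]) ∧ g w = g n * y := (List.mem_append.mp hw).elim (fun h => ⟨w, h, 1, Or.inl rfl, by simp⟩)
      fun h => let ⟨n, h1, h2⟩ := List.mem_map.mp h; ⟨n, h1, _, Or.inr rfl, by rw [← h2, Gw_app, cw]⟩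
    obtain ⟨n, h1, y, h2, h3⟩ := this
    exact e.elim (fun e => ⟨n, List.mem_append_left _ h1, y, h2, e.trans h3⟩) fun e =>
      ⟨_, List.mem_append_right _ (List.mem_map_of_mem h1), y, h2, by rw [e, h3, Gw_cons, az, mul_assoc]⟩
  obtain ⟨n, hn, y, hy, e⟩ := E2
  have y1 : Commute (τ * s * τ * s) y ∧ y * y = 1 ∧ a 29 * y * (a 29)⁻¹ = y := by
    rcases hy with rfl | rfl
    exacts [by simp, ⟨Ωc, c2, mul_inv_eq_iff_eq_mul.mpr σc.symm⟩]
  have y2 : g (29 :: n ++ 29 :: n) = g [] := by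
    have e' : g n = τ * s * τ * s * y := by rw [e, mul_assoc, y1.2.1, mul_one]
    rw [List.cons_append, Gw_cons, Gw_app, Gw_cons, Gw_nil, ← mul_assoc, ← mul_assoc]
    nth_rw 2 [← inv_eq_of_mul_eq_one_right σ2]
    rw [e', ← conj_mul, Ωσ, y1.2.2, y1.1.eq, mul_assoc, ← mul_assoc y, y1.2.1, one_mul, inv_mul_cancel]
  have y3 := ((by decide +kernel : ∀ n ∈ W2 ++ W2.map (4930 :: ·), nN (29 :: n ++ 29 :: n) [] = true ∨
    (nN (4268 :: 32 :: 19 :: 32 :: n) (n ++ [4268]) = true ∧ (n = [] ∨ n = [19, 20]))) n hn).resolve_left fun h => N_ne l.s τ _ _ h y2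
  rcases hy with rfl | rfl
  · exact (N_ne l.s τ _ _ y3.1 (by
      simpa [Gw_cons, Gw_app, Gw_nil, mul_assoc] using eps0 t2 s2 e2 ta sb sa te se tr (e.trans (mul_one _)))).elim
  rcases y3.2 with rfl | rfl
  · exact (c1 (k2 (e.trans (one_mul _)) sc (K_comm hK (by decide +kernel)) k3 (K_comm hK (by decide +kernel)) k4 l3)).elim
  simp only [Gw_cons, Gw_nil, mul_one] at e
  generalize f [14] = c at *
  have b1 : s * a 30 = a 30 * (c * s) := by
    rw [← l2, ← eq_inv_of_mul_eq_one_right bi, eq_inv_of_mul_eq_one_left bi]; group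
  calc _ = a 30 * (τ * a 30) * (c * s) * τ * s := by simp only [mul_assoc]; rw [← mul_assoc s, b1]; simp only [mul_assoc]
    _ = a 30 * a 30 * (τ * c) * s * τ * s := by rw [tb.eq]; simp only [mul_assoc]
    _ = a 30 * a 30 * (c * (τ * s * τ * s)) := by rw [tc'.eq]; simp only [mul_assoc]
    _ = _ := by rw [← Ωc.eq, e, mul_assoc _ c c, c2, mul_one, mul_assoc, bb]

end Ju

end Cfsg.Agent.LL.U6
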