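import Cfsg.Agent.H21.Ju4
import Cfsg.Agent.S1703

/-! A simple group of Janko-four type is `J₄`. -/

set_option autoImplicit false
set_option maxRecDepth 100000
set_option linter.style.haveILetI false

namespace Cfsg.Agent.LL.U6

open Cfsg Cfsg.Agent.H16 Cfsg.Agent.H3 Cfsg.Agent.H10 MulAction Mdl Subgroup
open scoped Pointwise symmDiff

variable {G : Type*} [Group G] [Finite G] {z : G} {Q : Subgroup G} {ρ : centralizer ({z} : Set G) →* Γ} {p : G → V6}
  {m : FT z Q ρ p} {x : centralizer ({z} : Set G)}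

open Ju in
theorem JF.isoJ4 [IsSimpleGroup G] (hG : ¬ IsMulCommutative G) (j : JF m x) : Spor.IsoJ4 G := by
  obtain ⟨b, d, t, Φ, k⟩ := j.exists_je hG
  obtain ⟨κ, l⟩ := ex3 k
  obtain ⟨τ, r, hK⟩ := ex_t k l
  have t2 := (t_B k l r).1
  have N := N_eq l.s τ
  have xi : (A κ t τ 10)⁻¹ = A κ t τ 10 := inv_eq_of_mul_eq_one_right (by simpa [Gw] using N [10, 10] [] (by decide +kernel))
  have yi : (A κ t τ 11)⁻¹ = A κ t τ 12 := inv_eq_of_mul_eq_one_right (by simpa [Gw] using N [11, 12] [] (by decide +kernel))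
  have yi' : (A κ t τ 12)⁻¹ = A κ t τ 11 := by rw [← yi, inv_inv]
  have ti : τ⁻¹ = τ := inv_eq_of_mul_eq_one_right t2
  have pw : ∀ w n, nE (List.replicate n w).flatten [] = true → Gw (A κ t τ) w ^ n = 1 := fun w n h => by
    rw [← Gw_nil (A κ t τ), ← N _ _ h]
    clear h
    induction n with
    | zero => exact pow_zero _
    | succ n ih => rw [List.replicate_succ, List.flatten_cons, Gw_app, ← ih, pow_succ']
  let f : Spor.J4.Gen → G := fun | .x => A κ t τ 10 | .y => A κ t τ 11 | .t => τ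
  have c1 := tK k l hK [10] [4, 6, 4] (by decide +kernel)
  have c2 := tK k l hK [11, 10, 11, 10, 12, 10, 12, 10, 11, 10, 11, 10, 11] [0, 2, 3, 4, 5, 3, 5] (by decide +kernel)
  have c3 := K_comm (t := t) hK (u := [6, 2, 4]) (by decide +kernel)
  have c4 := N ([6, 2, 4] ++ [11, 10, 12, 10, 11, 10, 12, 10] ++ [11]) ([13] ++ ([6, 2, 4] ++ [11, 10, 12, 10, 11, 10, 12, 10]))
    (by decide +kernel)
  have c5 := N ([15] ++ [10, 11, 10, 11, 10, 11, 11, 10, 11, 10, 11, 10, 11, 10, 11, 10, 11, 10, 11, 11]) [] (by decide +kernel)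
  have c6 := N [30] [11, 10, 11, 10, 11, 10, 11, 11, 10, 11, 10, 11, 10, 11, 11, 10, 11, 10, 11, 10, 11] (by decide +kernel)
  have c7 := (cube k l r hK).1
  have c8 := rel12 k l r hK
  have hf : ∀ w ∈ Spor.coxRelators Spor.J4.edges ∪ {w | w ∈ Spor.J4.extra}, FreeGroup.lift f w = 1 := by
    rintro w (⟨_, h, -⟩ | h)
    · simp [Spor.coxNodes, Spor.J4.edges] at h
    simp only [Spor.J4.extra, Set.mem_ofPred_eq, List.mem_cons, List.not_mem_nil, or_false] at h
    rcases h with rfl | rfl | rfl | rfl | rfl | rfl | rfl | rfl | rfl | rfl | rfl | rfl <;>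
      simp only [map_mul, map_pow, map_inv, FreeGroup.lift_apply_of, f]
    · simpa [Gw] using pw [10] 2 (by decide +kernel)
    · simpa [Gw] using pw [11] 3 (by decide +kernel)
    · simpa [Gw] using pw [10, 11] 23 (by decide +kernel)
    · simpa [Gw, xi, yi, mul_assoc] using pw [10, 12, 10, 11] 12 (by decide +kernel)
    · simpa [Gw, xi, yi, mul_assoc] using pw [10, 12, 10, 12, 10, 11, 10, 11] 5 (by decide +kernel)
    · rw [pow_three]
      simpa [Gw, xi, yi, mul_assoc] using pw [10, 11, 10, 11, 10, 12, 10, 11, 10, 12, 10, 11, 10, 12] 4 (by decide +kernel)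
    · simpa [Gw, xi, yi, mul_assoc, pow_three] using N [10, 11, 10, 11, 10, 12, 10, 11, 10, 11, 10, 12, 10, 11, 10, 11, 10, 12,
        10, 11, 10, 12, 10, 12, 10, 11, 10, 12, 10, 12, 10, 11, 10, 12, 10, 12] [] (by decide +kernel)
    · exact (pow_two τ).trans t2
    · rw [show _ * _ * _ * _ * _ = Gw (A κ t τ) [11, 10, 11, 10, 12, 10, 12, 10, 11, 10, 11, 10, 11] by
        simp [Gw, yi, mul_assoc, pow_three, pow_two], mul_assoc, mul_assoc, c2.eq]
      simp
    · rw [Gw_cons, Gw_nil, mul_one] at c1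
      rw [mul_assoc, mul_assoc, c1.eq]
      simp
    · rw [show _ * _ * _ * _ * _ * _ * _ * _ = Gw (A κ t τ) [11, 10, 12, 10, 11, 10, 12, 10] by simp [Gw, yi, mul_assoc]]
      rw [Gw_app, Gw_app, Gw_app, Gw_app] at c4
      generalize Gw (A κ t τ) [11, 10, 12, 10, 11, 10, 12, 10] = u, Gw (A κ t τ) [6, 2, 4] = v at *
      simp only [Gw_cons, Gw_nil, mul_one] at c4
      rw [show A κ t τ 11 * (u⁻¹ * τ * u) = (v * u)⁻¹ * (A κ t τ 13 * τ) * (v * u)⁻¹⁻¹ by
        rw [eq_inv_mul_iff_mul_eq.mpr c4, inv_inv]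
        calc _ = (v * u)⁻¹ * A κ t τ 13 * (v * τ) * u := by group
          _ = _ := by rw [← c3.eq]; group,
        conj_pow, pow_three', c7]
      simp
    · rw [show (A κ t τ 10 * A κ t τ 11) ^ 3 * _ * _ * _ = Gw (A κ t τ) [10, 11, 10, 11, 10, 11, 11, 10, 11, 10, 11, 10, 11, 10, 11, 10, 11, 10, 11, 11] by
        simp [Gw, mul_assoc, pow_succ], show _ ^ 3 = Gw (A κ t τ) [30] by rw [c6]; simp [Gw, mul_assoc, pow_succ]]
      rw [Gw_app, Gw_nil] at c5
      rw [← eq_inv_of_mul_eq_one_left c5, eq_inv_of_mul_eq_one_right c5, pow_two]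
      simpa [Gw, fw] using c8
  let ψ : Spor.J4 →* G := PresentedGroup.toGroup hf
  obtain ⟨h1, h2⟩ := S1703.result
  have i : Function.Injective ψ := (MonoidHom.ker_eq_bot_iff _).mp ((Normal.eq_bot_or_eq_top inferInstance).resolve_right fun e =>
    H_ne k l r [64] [] (by decide +kernel) (by
      have := e.ge (mem_top (PresentedGroup.of Spor.J4.Gen.t))
      rw [MonoidHom.mem_ker, PresentedGroup.toGroup.of] at this
      simpa [Gw, A_t] using this))
  exact ⟨(MulEquiv.ofBijective ψ ((Nat.bijective_iff_injective_and_card ψ).mpr ⟨i, h2.trans (k.toJC.ord hG).symm⟩)).symm⟩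

end Cfsg.Agent.LL.U6
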