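import Cfsg.Agent.H10.Xsp4
import Cfsg.Agent.H26.ES4
import Cfsg.Prelude.Def_MonsterType

/-! Passing the extraspecial-centralizer setting to a section. -/

set_option autoImplicit false
set_option linter.style.haveILetI false

namespace Cfsg.Agent.LL

open Cfsg Cfsg.Agent.H10 Subgroup

theorem exists_lift {X A D L : Type*} [Group X] [Group A] [Group D] [Group L] (α : X →* A) (φ : X →* L)
    (hk : ∀ x, α x = 1 → φ x = 1) (β : D →* A) (hβ : ∀ d, ∃ x, α x = β d) :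
    ∃ θ : D →* L, ∀ d x, α x = β d → θ d = φ x := by
  choose s hs using hβ
  have h : ∀ x y, α x = α y → φ x = φ y := fun x y e => by
    rw [← inv_mul_eq_one, ← map_inv, ← map_mul]
    exact hk _ (by rw [map_mul, map_inv, e, inv_mul_cancel])
  exact ⟨MonoidHom.mk' (fun d => φ (s d)) fun a b => by
    rw [← map_mul]; exact h _ _ (by simp [hs]), fun d x e => h _ _ ((hs d).trans e.symm)⟩

theorem sect {M H L : Type*} [Group M] [Group H] [Finite H] [Group L] (f : M →* H) (z : M) {R D : Subgroup M}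
    (hRD : R ≤ D) (hD : centralizer {f z} = D.map f) (θ : D →* L) (hθ : Function.Surjective θ)
    (hk : ∀ d : D, θ d = 1 ↔ f d ∈ R.map f) (hz : orderOf (f z) = 2) (hE : IsExtraspecial 2 (R.map f)) {w : ℕ}
    (hc : Nat.card (R.map f) = 2 ^ (2 * w + 1))
    (hC : ∀ d ∈ D, (∀ r ∈ R, f r * f d = f d * f r) → f d ∈ R.map f)
    (hO : ∀ T : Subgroup L, T.Normal → IsPGroup 2 T → T = ⊥)
    (hw : ∃ g : H, g * f z * g⁻¹ ∈ R.map f ∧ g * f z * g⁻¹ ≠ f z) :
    ∃ (Q : Subgroup (centralizer {f z})) (_ : Q.Normal), (∀ x, x ∈ Q ↔ (x : H) ∈ R.map f) ∧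
      IsExtraspecialCentralizerSetting (f z) Q w ∧ ∃ e : centralizer {f z} ⧸ Q ≃* L,
        ∀ (d : D) (h : f d ∈ centralizer {f z}), e (QuotientGroup.mk ⟨f d, h⟩) = θ d := by
  haveI : Fact (Nat.Prime 2) := ⟨Nat.prime_two⟩
  have h1 : ∀ c : centralizer {f z}, ∃ d : D, f d = c := fun c => by
    obtain ⟨d, hd, e⟩ := hD.le c.2; exact ⟨⟨d, hd⟩, e⟩
  obtain ⟨θ', h2⟩ := exists_lift (f.comp D.subtype) θ (fun x e => (hk x).mpr (by
    rw [show f x = 1 from e]; exact one_mem _)) (centralizer {f z}).subtype h1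
  have h3 : ∀ x, x ∈ θ'.ker ↔ (x : H) ∈ R.map f := fun x => by
    obtain ⟨d, e⟩ := h1 x
    rw [MonoidHom.mem_ker, h2 x d e, hk, e]
  have hs : Function.Surjective θ' := fun y => by
    obtain ⟨d, rfl⟩ := hθ y
    exact ⟨⟨f d, hD.ge ⟨d, d.2, rfl⟩⟩, h2 _ d rfl⟩
  have hle : R.map f ≤ centralizer {f z} := hD ▸ map_mono hRD
  have h4 : θ'.ker = (R.map f).subgroupOf _ := Subgroup.ext h3
  have eq : θ'.ker ≃* R.map f := (MulEquiv.subgroupCongr h4).trans (subgroupOfEquivOfLe hle)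
  have hc' : Nat.card θ'.ker = 2 ^ (2 * w + 1) := (Nat.card_congr eq.toEquiv).trans hc
  have h5 : pCore 2 (centralizer {f z}) = θ'.ker := by
    refine le_antisymm ((Subgroup.map_eq_bot_iff _).mp (hO _ (Normal.map inferInstance _ hs)
      ((pCore_isPGroup' 2 _).map _))) (le_pCore (IsPGroup.of_card hc'))
  refine ⟨θ'.ker, inferInstance, h3, ⟨hz, ?_, H26.isExtraspecial_congr hE eq.symm, hc', ?_⟩,
    QuotientGroup.quotientKerEquivOfSurjective θ' hs, fun d h => h2 _ d rfl⟩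
  · rw [← h5, fstar_eq_pCore_iff, h5]
    intro c hc
    obtain ⟨d, e⟩ := h1 c
    rw [h3, ← e]
    refine hC d d.2 fun r hr => ?_
    rw [e]
    exact congrArg Subtype.val (hc ⟨f r, hle ⟨r, hr, rfl⟩⟩ ((h3 _).mpr ⟨r, hr, rfl⟩))
  · obtain ⟨g, h, h'⟩ := hw
    exact ⟨g, ⟨hle h, (h3 _).mpr h⟩, h'⟩

end Cfsg.Agent.LL
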