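import Cfsg.Agent.H21.Monster
import Cfsg.Agent.H21.Sect
import Cfsg.Agent.S5429

/-! Groups of Monster type: the centralizer of a non-central involution of `Q`. -/

set_option autoImplicit false
set_option linter.style.haveILetI false

namespace Cfsg.Agent.LL

open Cfsg Cfsg.Agent.H16 Cfsg.Agent.H10 MulAction Subgroup

variable {G A : Type*} [Group G] [Group A]

theorem SymT_card_half [Finite G] {P : Subgroup G} {t z a : G} (h : SymT P t) (hz : z ∈ P) (ha : a ∈ P)
    (hne : a * z ≠ z * a) : Nat.card ↥(P ⊓ centralizer ({z} : Set G)) * 2 = Nat.card P := by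
  have h1 : (P ⊓ centralizer ({z} : Set G)).relIndex P = 2 := by
    rw [relIndex, index_eq_two_iff']
    refine ⟨⟨a, ha⟩, fun b => ?_⟩
    have := h.comm_mul_iff hz ha b.2
    simp only [mem_subgroupOf, mem_inf, coe_mul, mem_centralizer_singleton_iff, b.2, mul_mem ha b.2,
      true_and]
    rw [eq_comm, this, eq_comm (a := z * a), eq_comm (a := z * b)]
    by_cases hb : b * z = z * b <;> simp [hb, hne]
  rw [← h1, card_mul_relIndex inf_le_left]

namespace MT
variable {z : G} {Q : Subgroup G} {ρ : centralizer ({z} : Set G) →* A} {π : Co0 →* A}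
  {R : L → G → Prop} (m : MT z Q ρ π R)
include m

theorem R_zero {x : G} : R 0 x ↔ x ∈ zpowers z := by
  refine ⟨fun h => (m.zero h).mpr (Cg.refl _), fun h => ?_⟩
  obtain ⟨v, hv⟩ := m.ex' x (m.lx.zpowers_le h)
  exact m.cg hv ((m.zero hv).mp h).symm

theorem R_iff {v : L} {x y : G} (h : R v x) : R v y ↔ y = x ∨ y = z * x :=
  ⟨m.uniq h, by rintro (rfl | rfl); exacts [h, m.zmul h]⟩

theorem R_inv {v : L} {x : G} (h : R v x) : R v x⁻¹ := by
  rw [m.R_iff h]
  rcases m.lx.mem_z.mp (m.lx.sq x (m.mem h)) with e | e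
  · exact Or.inl (inv_eq_of_mul_eq_one_right e)
  · right; rw [inv_eq_iff_mul_eq_one, ← mul_assoc, m.lx.cent x (m.mem h), mul_assoc, e, m.lx.zz]

theorem comm_iff [Finite G] {v w : L} {x y : G} (h : R v x) (h' : R w y) :
    x * y = y * x ↔ (16 : ℤ) ∣ dotInt (v : V) w := by
  have h1 := m.sq_iff h
  have h2 := m.sq_iff h'
  have h3 := m.sq_iff (m.mul h h')
  rw [AddSubgroup.coe_add, sqNorm_add] at h3
  have h4 := sixteen_dvd v.2
  have h5 := sixteen_dvd w.2
  have h6 := eight_dvd_dot v.2 w.2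
  have hx := m.lx.mem_z.mp (m.lx.sq x (m.mem h))
  have hy := m.lx.mem_z.mp (m.lx.sq y (m.mem h'))
  have hz := m.lx.ne_one
  have hzz := m.lx.zz
  by_cases hc : x * y = y * x
  · have e : x * y * (x * y) = x * x * (y * y) := by
      rw [mul_assoc, ← mul_assoc y, ← hc]; group
    rw [e] at h3
    rcases hx with hx | hx <;> rcases hy with hy | hy <;> simp only [hx, hy, hz, hzz, mul_one, one_mul,
      true_iff, false_iff, hc] at h1 h2 h3 ⊢ <;> omega
  · have e : x * y * (x * y) = z * (x * x * (y * y)) := by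
      rw [mul_assoc, ← mul_assoc y, m.lx.mul_eq_of_ne (m.mem h') (m.mem h) (Ne.symm hc), ← mul_assoc,
        ← mul_assoc, m.lx.cent x (m.mem h)]; group
    rw [e] at h3
    rcases hx with hx | hx <;> rcases hy with hy | hy <;> simp only [hx, hy, hz, hzz, mul_one, one_mul,
      true_iff, false_iff, hc] at h1 h2 h3 ⊢ <;> omega

theorem type2_mem [Finite G] {P : Subgroup G} {s : G} (hp : LPr Q P z s) (hP : Nat.card P = 2 ^ 25)
    (hs : R (e8 pI) s) : ∃ u ∈ Q ⊓ P, ∃ v : L, R v u ∧ sqNorm (v : V) = 32 := by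
  have ha : (vL 0x84a109421294a52842108421084250 : V) = _ := coe_vL (by decide +kernel)
  have hb : (vL 0x84a1094212949d28421084210841d0 : V) = _ := coe_vL (by decide +kernel)
  have hm := mIs_E.mv (by decide +kernel) ha hb
  generalize vL 0x84a109421294a52842108421084250 = a at ha hm
  generalize vL 0x84a1094212949d28421084210841d0 = b at hb hm
  obtain ⟨y, hy, e⟩ : π (eps (cW 10558)) ∈ _ := (m.E_eq hp hP rfl hs).1.ge ⟨_, ⟨_, rfl⟩, rfl⟩
  obtain ⟨x, hx⟩ := m.ex a
  have h1 := m.mul (m.act e.symm hx) (m.cg (m.R_inv hx) (cg_neg a))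
  have h2 : x * s = s * x := (m.comm_iff hx hs).mpr (by rw [ha]; decide +kernel)
  refine ⟨_, ⟨m.mem h1, ?_⟩, _, h1, ?_⟩
  · rw [mul_assoc, mul_assoc, ← mul_assoc x]
    exact mul_mem hy.1 (hp.hP.conj_mem h2 (inv_mem hy.1))
  · rw [hm, AddSubgroup.coe_add, AddSubgroup.coe_neg, ha, hb]; decide +kernel

theorem exists_conj_mem [Finite G] (hw : ∃ g : G, g * z * g⁻¹ ∈ Q ∧ g * z * g⁻¹ ≠ z) {t : G} {v : L}
    (ht : R v t) (hv : sqNorm (v : V) = 32) :
    ∃ g : G, g * z * g⁻¹ ∈ Q ∧ g * z * g⁻¹ ≠ z ∧ t ∈ Q.map (MulAut.conj g).toMonoidHom := by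
  obtain ⟨g, h1, h2⟩ := hw
  have hp := m.lx.lpr h1 h2
  obtain ⟨w, hw, h⟩ := m.type4 hp (m.card_conj g)
  obtain ⟨k, hk⟩ := to_e8 h
  obtain ⟨u, hu, v', h3, h4⟩ := (m.shift k).type2_mem hp (m.card_conj g) (by rwa [← hk, inv_smul_smul])
  obtain ⟨c, hc, e⟩ := m.conj_of_norm h3 ht (Or.inl ⟨by rw [sqNorm_co, h4], hv⟩)
  have hc' := mem_centralizer_singleton_iff.mp hc
  obtain ⟨q, hq, rfl⟩ := hu.2
  refine ⟨c * g, ?_, fun e' => h2 ?_, q, hq, by rw [← e]; simp [mul_assoc]⟩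
  · have := m.lx.conj_mem hc' h1
    simpa [mul_assoc] using this
  · calc g * z * g⁻¹ = c⁻¹ * (c * g * z * (c * g)⁻¹) * c := by group
      _ = z := by rw [e', mul_assoc, ← hc', inv_mul_cancel_left]

theorem ker_perp [Finite G] {t : G} (ht : R U t) (c : centralizer ({z} : Set G))
    (h : ∀ x ∈ Q ⊓ centralizer ({t} : Set G), ∃ y ∈ closure ({t, z} : Set G), c * x * (c : G)⁻¹ = x * y) :
    (c : G) ∈ Q := by
  have hS : ∀ y ∈ closure ({t, z} : Set G), R 0 y ∨ R U y := by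
    intro y hy
    induction hy using closure_induction with
    | mem x hx => rcases hx with rfl | rfl
                  exacts [Or.inr ht, Or.inl (m.R_zero.mpr (mem_zpowers _))]
    | one => exact Or.inl (m.R_zero.mpr (one_mem _))
    | mul x y _ _ hx hy =>
      rcases hx with hx | hx <;> rcases hy with hy | hy <;> have := m.mul hx hy
      · left; simpa using this
      · right; simpa using this
      · right; simpa using this
      · left; exact m.cg this (Cg.symm ⟨U, by simp⟩)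
    | inv x _ hx => exact hx.imp m.R_inv m.R_inv
  have key : ∀ g, π g = ρ c → ∀ v : L, (16 : ℤ) ∣ dotInt (v : V) U → Cg (g • v) v ∨ Cg (g • v) (v + U) := by
    intro g hg v hv
    obtain ⟨x, hx⟩ := m.ex v
    obtain ⟨y, hy, e⟩ := h x ⟨m.mem hx, mem_centralizer_singleton_iff.mpr ((m.comm_iff hx ht).mpr hv)⟩
    have h1 := m.act hg hx
    rw [e] at h1
    exact (hS y hy).imp (fun h2 => by simpa using m.inj h1 (m.mul hx h2)) fun h2 => m.inj h1 (m.mul hx h2)
  have key2 : ∀ g, π g = ρ c → g ∈ K2 → g = 1 := by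
    intro g hg hK
    have h1 : ∀ w : L, sqNorm (w : V) = 32 → dotInt (U : V) w = 0 → g • w = w ∨ g • w = -w := by
      intro w hw hd
      have hn : sqNorm ((w + U : L) : V) = 64 := by
        rw [AddSubgroup.coe_add, sqNorm_add, dot_comm, hd, hw, norm_U]; rfl
      have hg' := sqNorm_co g w
      rcases key g hg w (by rw [dot_comm, hd]; simp) with e | e
      · rcases e.short (by omega) (by omega) with e | e | e
        exacts [Or.inl e, Or.inr e, by omega]
      · rcases e.short (by omega) (by omega) with e | e | e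
        · rw [e] at hg'; omega
        · rw [e, AddSubgroup.coe_neg, sqNorm_neg] at hg'; omega
        · omega
    exact eq_one_of_orth (mem_NU_of hK (h1 _ norm_U' dot_UU')) h1
  obtain ⟨g, hg⟩ := m.exists_π c
  rw [← m.ρ_ker, ← hg]
  rcases key g hg U (by rw [← sqNorm_eq_dot, norm_U]; norm_num) with e | e
  · rcases cg_U_iff.mp e with e | e
    · rw [key2 g hg e, map_one]
    · have := congrArg π (key2 _ (by simpa [m.π_neg1] using hg) e)
      simpa [m.π_neg1] using this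
  · refine (not_cg_zero (v := g • U) (fun e => ?_) (by rw [sqNorm_co, norm_U]; norm_num)
      (e.trans ⟨U, by simp⟩)).elim
    have := sqNorm_co g U
    rw [e, norm_U] at this; simp [sqNorm_zero] at this

theorem baby [Finite G] (hF : FstarOf (centralizer ({z} : Set G)) = Q)
    (hw : ∃ g : G, g * z * g⁻¹ ∈ Q ∧ g * z * g⁻¹ ≠ z) {t : G} (ht : R U t) (htz : ¬ IsConj z t)
    [hn : ((zpowers t).subgroupOf (centralizer ({t} : Set G))).Normal] :
    IsOfBabyMonsterType (centralizer ({t} : Set G) ⧸ (zpowers t).subgroupOf (centralizer ({t} : Set G))) := by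
  obtain ⟨g, h1, h2, h3⟩ := m.exists_conj_mem hw ht norm_U
  have hU0 : U ≠ 0 := fun e => by have := norm_U; rw [e] at this; simp [sqNorm_zero] at this
  have htZ := m.not_mem ht hU0 (by rw [norm_U]; norm_num)
  have htt := (m.sq_iff ht).mpr (by rw [norm_U])
  have ht2 : orderOf t = 2 := H11.orderOf_two_of (fun e => htZ (e ▸ one_mem _)) htt
  have hp := m.lx.lpr h1 h2
  obtain ⟨hL, x, hx, ex⟩ := S5429.result z m.lx.ord Q m.lx.le_centralizer hF m.lx.isExtraspecial 12
    (by norm_num) m.card g h1 (m.lx.center_eq ▸ hp.pr.t_not) t ht2 ⟨m.mem ht, h3⟩ htz _ rfl (fun c hc =>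
      ⟨m.ker_perp ht ⟨c, hc⟩, fun hc x hx => by
        by_cases e : c * x = x * c
        · exact ⟨1, one_mem _, by rw [e]; simp⟩
        · exact ⟨z, subset_closure (by simp), by rw [m.lx.conj_eq_of_ne hc hx.1 e, m.lx.cent x hx.1]⟩⟩)
  set M := centralizer ({t} : Set G) with hM
  set f := QuotientGroup.mk' ((zpowers t).subgroupOf M) with hf
  set P := (Q ⊓ M).subgroupOf M with hP
  have hf2 : ∀ x y : M, f x = f y ↔ (x : G) = y ∨ (x : G) = t * y := fun x y => by
    rw [← mul_inv_eq_one, ← map_inv, ← map_mul, hf, QuotientGroup.mk'_apply, QuotientGroup.eq_one_iff,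
      mem_subgroupOf, mem_zpowers_two ht2]
    simp [mul_inv_eq_iff_eq_mul]
  let z' : M := ⟨z, mem_centralizer_singleton_iff.mpr (m.lx.cent t (m.mem ht)).symm⟩
  have hmem : ∀ x : M, x ∈ P ↔ (x : G) ∈ Q := fun x => ⟨fun e => e.1, fun e => ⟨e, x.2⟩⟩
  have hmem2 : ∀ x : M, f x ∈ P.map f ↔ (x : G) ∈ Q := fun x => by
    refine ⟨fun ⟨r, hr, e⟩ => ?_, fun e => ⟨x, (hmem x).mpr e, rfl⟩⟩
    rcases (hf2 x r).mp e.symm with e | e <;> rw [e]
    exacts [hr.1, mul_mem (m.mem ht) hr.1]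
  let D := (centralizer ({z} : Set G)).subgroupOf M
  obtain ⟨q, hq, hqt⟩ := m.lx.exists_ne_comm (m.mem ht) htZ
  have hzt : IsConj t (z * t) := isConj_iff.mpr ⟨q, m.lx.conj_eq_of_ne hq (m.mem ht) hqt⟩
  have hD : centralizer {f z'} = D.map f := by
    refine le_antisymm (fun c hc => ?_) ?_
    · obtain ⟨c, rfl⟩ := QuotientGroup.mk'_surjective _ c
      have := mem_centralizer_singleton_iff.mp hc
      rw [← map_mul, ← map_mul, hf2] at this
      refine ⟨c, mem_centralizer_singleton_iff.mpr (this.resolve_right fun e => htz ?_), rfl⟩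
      refine (isConj_iff.mpr ⟨(c : G), ?_⟩).trans hzt.symm
      rw [mul_inv_eq_iff_eq_mul, ← m.lx.cent t (m.mem ht), mul_assoc]; exact e
    · rintro _ ⟨d, hd, rfl⟩
      rw [mem_centralizer_singleton_iff, ← map_mul, ← map_mul]
      exact congrArg f (Subtype.ext (mem_centralizer_singleton_iff.mp hd))
  let β : D →* A := ρ.comp ((M.subtype.comp D.subtype).codRestrict _ fun d => d.2)
  let α : Spor.Co2 →* A := π.comp (K2.subtype.comp sporCo2.toMonoidHom)
  have hα : ∀ x, α x = 1 → x = 1 := fun x e => by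
    rcases (m.π_ker _).mp e with e | e
    · exact sporCo2.injective (Subtype.ext (e.trans (by simp)))
    · have h := (sporCo2 x).2
      rw [show ((sporCo2 x : K2) : Co0) = neg1 from e, mem_stabilizer_iff, neg1_smul, neg_eq_iff_add_eq_zero,
        ← two_smul ℤ, smul_eq_zero] at h
      exact (hU0 (h.resolve_left (by norm_num))).elim
  have hβ : ∀ d, ∃ x, α x = β d := fun d => by
    obtain ⟨k, hk⟩ := m.π_surj (β d)
    rcases cg_U_iff.mp ((m.mem_bar_cent ht htZ (g := k)).mp ⟨⟨d.1, d.2⟩, ⟨d.2, d.1.2⟩, hk.symm⟩) with e | e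
    · exact ⟨sporCo2.symm ⟨k, e⟩, by simpa [α] using hk⟩
    · exact ⟨sporCo2.symm ⟨_, e⟩, by simpa [α, m.π_neg1] using hk⟩
  obtain ⟨θ, hθ⟩ := exists_lift α (MonoidHom.id _) hα β hβ
  have hθ' : ∀ d, α (θ d) = β d := fun d => by
    obtain ⟨x, hx⟩ := hβ d; rw [hθ d x hx]; exact hx
  have ho : orderOf (f z') = 2 := H11.orderOf_two_of (fun e => by
      rcases (hf2 z' 1).mp (e.trans (map_one f).symm) with e | e
      · exact m.lx.ne_one e
      · exact htZ (by rw [show t = z by simpa using e.symm]; exact mem_zpowers _))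
    (by rw [← map_mul, show z' * z' = 1 from Subtype.ext m.lx.zz, map_one])
  have hX := xs_of_isExtraspecial hL.1 (z := f z') (fun e => by rw [e, orderOf_one] at ho; omega)
    ((hmem2 z').mpr m.lx.mem) (by
      rintro _ ⟨r, hr, rfl⟩
      rw [← map_mul, ← map_mul]; exact congrArg f (Subtype.ext (m.lx.cent _ hr.1)))
  have hZ : ∀ x : M, f x ∈ zpowers (f z') ↔ R 0 x ∨ R U x := fun x => by
    rw [mem_zpowers_two ho, ← map_one f, hf2, hf2, m.R_zero, m.lx.mem_z, m.R_iff ht,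
      ← m.lx.cent t (m.mem ht)]
    simp only [OneMemClass.coe_one, mul_one, z']; tauto
  have hxM : x ∈ M := (sup_le inf_le_right inf_le_right : _ ≤ M) hx
  have ex' : g * z * g⁻¹ = x⁻¹ * z * x := by
    rw [mul_assoc x⁻¹, eq_inv_mul_iff_mul_eq, ← mul_inv_eq_iff_eq_mul, ex]
  obtain ⟨Q', hN, hQ', hS, e, he⟩ := sect f z' (R := P) (D := D) (fun r hr => m.lx.le_centralizer hr.1) hD θ
    (fun y => by
      obtain ⟨d, hd, e⟩ := (m.mem_bar_cent ht htZ).mpr (cg_U_iff.mpr (Or.inl (sporCo2 y).2))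
      exact ⟨⟨⟨d, hd.2⟩, d.2⟩, hθ _ y e.symm⟩)
    (fun d => by
      rw [hmem2, ← (m.ρ_ker ⟨d.1, d.2⟩)]
      exact ⟨fun e => by have := hθ' d; rw [e, map_one] at this; exact this.symm,
        fun e => hα _ ((hθ' d).trans e)⟩) ho hL.1 (w := 11)
    (by
      have h1 := SymT_card_half m.lx.toSymT (m.mem ht) hq hqt
      have h2 := card_map_mul_card_inf_ker f P
      rw [hf, QuotientGroup.ker_mk', inf_eq_right.mpr (fun y hy => (hmem y).mpr
        (zpowers_le.mpr (m.mem ht) hy)), card_subgroupOf_of_le inf_le_right,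
        card_subgroupOf_of_le (zpowers_le.mpr (mem_centralizer_singleton_iff.mpr rfl)), Nat.card_zpowers,
        ht2] at h2
      rw [m.card, ← hM] at h1
      rw [hf]; omega)
    (fun d _ h => map_subtype_le _ (hL.2.1.le (by rintro _ ⟨r, hr, rfl⟩; exact h r hr)))
    (fun T hT hp => by
      haveI := simple_K2
      haveI := sporCo2.isSimpleGroup
      haveI := Finite.of_equiv _ sporCo2.symm.toEquiv
      refine hT.eq_bot_or_eq_top.resolve_right fun e => ?_
      obtain ⟨k, hk⟩ := hp.exists_card_eq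
      rw [e, card_top, Nat.card_congr sporCo2.toEquiv, card_K2] at hk
      exact absurd (Nat.prime_three.dvd_of_dvd_pow (m := 2) (n := k) (by rw [← hk]; norm_num)) (by norm_num))
    ⟨(f ⟨x, hxM⟩)⁻¹, by
      rw [inv_inv, ← map_inv, ← map_mul, ← map_mul, hmem2]
      refine ⟨(ex' ▸ h1 : x⁻¹ * z * x ∈ Q), fun e => ?_⟩
      rcases (hf2 _ _).mp e with e | e
      · exact h2 (ex'.trans e)
      · refine htz ((isConj_iff.mpr ⟨x⁻¹, ?_⟩).trans hzt.symm)
        rw [inv_inv, ← m.lx.cent t (m.mem ht)]; exact e⟩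
  have hcen : ∀ q : Q', q ∈ center Q' ↔ (q.1.1 : _ ⧸ _) ∈ zpowers (f z') := fun q =>
    ⟨fun h => hX.zc _ ((hQ' _).mp q.2) fun r hr => congrArg (fun y : Q' => y.1.1)
      (Subgroup.mem_center_iff.mp h ⟨⟨r, hX.le_centralizer hr⟩, (hQ' _).mpr hr⟩),
    fun h => Subgroup.mem_center_iff.mpr fun r => Subtype.ext (Subtype.ext
      (hX.comm_of_mem_z h (mem_centralizer_singleton_iff.mp r.1.2)))⟩
  let j : P →* Q' := (((f.comp P.subtype).codRestrict _ fun r => hX.le_centralizer ⟨r, r.2, rfl⟩)).codRestrict _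
    fun r => (hQ' _).mpr ⟨r, r.2, rfl⟩
  have hj : ∀ q, ∃ r, j r = q := fun q => by
    obtain ⟨r, hr, e⟩ := (hQ' _).mp q.2
    exact ⟨⟨r, hr⟩, Subtype.ext (Subtype.ext e)⟩
  have hj1 : ∀ r : P, (QuotientGroup.mk (j r) : Q' ⧸ center Q') = 1 ↔ R 0 r ∨ R U r := fun r => by
    rw [QuotientGroup.eq_one_iff, hcen, ← hZ]; rfl
  have hj2 : ∀ {v} {r r' : P}, R v r → R v r' → (QuotientGroup.mk (j r) : Q' ⧸ center Q') =
      QuotientGroup.mk (j r') := fun {v r r'} h h' => by
    rw [← inv_mul_eq_one, ← QuotientGroup.mk_inv, ← QuotientGroup.mk_mul, ← map_inv, ← map_mul, hj1]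
    exact Or.inl (m.cg (m.mul (m.R_inv h) h') (Cg.symm ⟨v, by simp⟩))
  have hperp : ∀ {v x}, R v x → (v ∈ leechPerpU ↔ x ∈ M) := fun {v x} h => by
    rw [mem_centralizer_singleton_iff, m.comm_iff h ht]; rfl
  have hex : ∀ v : leechPerpU, ∃ r : P, R v r := fun v => by
    obtain ⟨x, hx⟩ := m.ex v
    exact ⟨⟨⟨x, (hperp hx).mp v.2⟩, (hmem _).mpr (m.mem hx)⟩, hx⟩
  choose s hs using hex
  refine ⟨_, Q', hN, hS, e, fun v => QuotientGroup.mk (j (s v)), fun v w => ?_, fun y => ?_, fun v => ?_, ?_⟩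
  · rw [← QuotientGroup.mk_mul, ← map_mul]
    exact hj2 (hs _) (m.mul (hs v) (hs w))
  · obtain ⟨q, rfl⟩ := QuotientGroup.mk_surjective y
    obtain ⟨r, rfl⟩ := hj q
    obtain ⟨v, hv⟩ := m.ex' r r.2.1
    exact ⟨⟨v, (hperp hv).mpr r.1.2⟩, hj2 (hs _) hv⟩
  · rw [hj1]
    refine or_congr ⟨fun h => by simpa [Cg] using m.inj (hs v) h, fun ⟨w, e⟩ => ?_⟩
      ⟨fun h => m.inj (hs v) h, fun h => m.cg (hs v) (Cg.symm h)⟩
    exact m.cg (hs v) (Cg.symm ⟨w, by simpa using e⟩)
  · intro h k hk v w hvw q hq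
    obtain ⟨d, hd, e1⟩ := hD.le h.2
    obtain ⟨r, rfl⟩ := hj q
    have e2 : h = ⟨f d, e1 ▸ h.2⟩ := Subtype.ext e1.symm
    rw [e2, he ⟨d, hd⟩] at hk
    have h4 := hθ' ⟨d, hd⟩
    rw [hk] at h4
    have hd' : ∀ r : P, d * r * d⁻¹ ∈ P := fun r =>
      (hmem _).mpr (m.lx.conj_mem (mem_centralizer_singleton_iff.mp hd) r.2.1)
    have h5 : R w (⟨_, hd' (s v)⟩ : P) := hvw ▸ m.act (g := sporCo2 k) h4 (hs v)
    beta_reduce at hq ⊢
    rw [hj2 (hs w) h5]
    have h6 : ∀ r : P, j ⟨_, hd' r⟩ = ⟨h * j r * h⁻¹, hN.conj_mem _ (j r).2 h⟩ := fun r =>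
      Subtype.ext (Subtype.ext (by simp [j, e2]))
    rw [← h6, QuotientGroup.eq, hcen, ← map_inv, ← map_mul]
    have h7 := (hcen _).mp (QuotientGroup.eq.mp hq)
    rw [← map_inv, ← map_mul] at h7
    have h8 : ∀ y ∈ zpowers (f z'), f d * y * (f d)⁻¹ ∈ zpowers (f z') := fun y hy => by
      rw [hX.comm_of_mem_z hy (mem_centralizer_singleton_iff.mp (e1 ▸ h.2)), mul_inv_cancel_right]; exact hy
    convert h8 _ h7 using 1
    simp [j, mul_assoc]

end MT

end Cfsg.Agent.LL
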