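import Cfsg.Agent.H21.Monster2
import Cfsg.Agent.H21.Mod2
import Cfsg.Agent.H21.PermQ
import Cfsg.Agent.H21.Sect
import Cfsg.Agent.H16.Norm
import Cfsg.Agent.H16.M24g

/-! Groups of Monster type: centralizers of elements of odd prime order. -/

set_option autoImplicit false
set_option linter.style.haveILetI false

namespace Cfsg.Agent.LL

open Cfsg Cfsg.Agent.H16 Cfsg.Agent.H10 MulAction Subgroup
open scoped Pointwise

variable {G A : Type*} [Group G] [Group A]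

theorem comm_of_sq {h x : G} (ho : Odd (orderOf h)) (e : h * h * x = x * (h * h)) : h * x = x * h := by
  obtain ⟨k, hk⟩ := ho
  have : (h * h) ^ (k + 1) = h := by
    rw [← pow_two, ← pow_mul, show 2 * (k + 1) = orderOf h + 1 by omega, pow_succ, pow_orderOf_eq_one, one_mul]
  rw [← this]; exact (Commute.pow_left e _)

theorem neg1_comm (g : Co0) : g * neg1 = neg1 * g := Subgroup.mem_center_iff.mp neg1_mem_center g

theorem neg1_mem_Z {b : Co0} (ho : Odd (orderOf b)) : neg1 ∈ zpowers (neg1 * b) := by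
  obtain ⟨k, hk⟩ := ho
  refine ⟨orderOf b, ?_⟩
  beta_reduce
  rw [zpow_natCast, Commute.mul_pow (neg1_comm b).symm, pow_orderOf_eq_one, mul_one, hk, pow_succ, pow_mul,
    pow_two, neg1_sq, one_pow, one_mul]

theorem b_mem_Z {b : Co0} (ho : Odd (orderOf b)) : b ∈ zpowers (neg1 * b) := by
  simpa [← mul_assoc, neg1_sq] using mul_mem (neg1_mem_Z ho) (mem_zpowers (neg1 * b))

theorem card_Z {b : Co0} (ho : Odd (orderOf b)) : Nat.card (zpowers (neg1 * b)) = 2 * orderOf b := by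
  have h2 : orderOf neg1 = 2 := H11.orderOf_two_of neg1_ne_one neg1_sq
  rw [Nat.card_zpowers, Commute.orderOf_mul_eq_mul_orderOf_of_coprime (neg1_comm b).symm
    (h2 ▸ (Nat.coprime_two_left.mpr ho)), h2]

theorem Z_le_cent (b : Co0) : zpowers (neg1 * b) ≤ centralizer {b} :=
  zpowers_le.mpr (mem_centralizer_singleton_iff.mpr (by rw [← mul_assoc, neg1_comm]))

theorem card_cent_NN (β : M24) : Nat.card ↥(centralizer {permHom β} ⊓ NN) =
    {c | c ∈ gSets ∧ β • c = c}.ncard * Nat.card (centralizer ({β} : Set M24)) := by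
  have h : ∀ σ c, mono σ c ∈ centralizer {permHom β} ↔ β • c.1 = c.1 ∧ σ ∈ centralizer ({β} : Set M24) := by
    intro σ c
    rw [mem_centralizer_singleton_iff, mem_centralizer_singleton_iff,
      show mono σ c * permHom β = mono (σ * β) c by simp only [mono_eq, map_mul, mul_assoc],
      show permHom β * mono σ c = mono (β * σ) ⟨β • c.1, M24_smul_mem_gSets β c.2⟩ by
        rw [mono_eq, mono_eq, ← eps_conj, map_mul]; group]
    exact ⟨fun e => ⟨(congrArg Subtype.val (mono_inj e).2).symm, (mono_inj e).1⟩, fun e => by simp only [e.1, e.2]⟩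
  rw [← Nat.card_coe_set_eq, ← Nat.card_prod]
  refine (Nat.card_congr (Equiv.ofBijective (fun x : {c | c ∈ gSets ∧ β • c = c} × centralizer ({β} : Set M24) =>
    (⟨mono x.2 ⟨x.1, x.1.2.1⟩, (h _ _).mpr ⟨x.1.2.2, x.2.2⟩, mono_mem_NN _ _⟩ : ↥(centralizer {permHom β} ⊓ NN)))
    ⟨fun x y e => ?_, ?_⟩)).symm
  · have := mono_inj (congrArg (fun t : ↥(centralizer {permHom β} ⊓ NN) => (t : Co0)) e)
    exact Prod.ext (Subtype.ext (congrArg (fun t : gSets => t.1) this.2)) (Subtype.ext this.1)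
  · rintro ⟨g, h1, h2⟩
    obtain ⟨σ, c, rfl⟩ := mem_NN.mp h2
    exact ⟨(⟨c, c.2, ((h _ _).mp h1).1⟩, ⟨σ, ((h _ _).mp h1).2⟩), rfl⟩

/-- the number of points outside the orbits of `ys` -/
noncomputable def outCnt (F : ℕ → ℕ → ℕ) (n : ℕ) (S ys : List ℕ) : ℕ :=
  force (List.rec 0 (fun y _ acc => Nat.lor (orbF F n S y) acc) ys) fun D => cntN n fun i => notB (tb D i)

theorem ncard_le_outCnt {Ω : Type*} [MulAction G Ω] {pt : ℕ → Ω} {n : ℕ} {K : Subgroup G} {F : ℕ → ℕ → ℕ}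
    {S ys : List ℕ} (hS : ∀ p ∈ S, InK pt n K (F p)) {X : Set Ω} (hX : ∀ x ∈ X, ∃ i < n, pt i = x)
    (hy : ∀ y ∈ ys, y < n ∧ ∀ g ∈ K, g • pt y ∉ X) : X.ncard ≤ outCnt F n S ys := by
  rw [outCnt, force_eq, cntN_eq, ← Set.ncard_coe_finset]
  refine (Set.ncard_le_ncard (fun x hx => ?_) ((Finset.finite_toSet _).image pt)).trans
    (Set.ncard_image_le (Finset.finite_toSet _))
  obtain ⟨i, hi, rfl⟩ := hX x hx
  refine ⟨i, ?_, rfl⟩
  simp only [Finset.coe_filter, Finset.mem_range, Set.mem_ofPred_eq, notB_iff, tb_eq]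
  refine ⟨hi, ?_⟩
  induction ys with
  | nil => simp
  | cons y ys ih =>
    change ¬ (_ ||| _ : ℕ).testBit i = true
    rw [Nat.testBit_or, Bool.or_eq_true, not_or]
    refine ⟨fun e => ?_, ih fun y h => hy y (List.mem_cons_of_mem _ h)⟩
    obtain ⟨h1, h2⟩ := hy y List.mem_cons_self
    obtain ⟨-, g, hg, e⟩ := orbF_sound hS h1 i e
    exact h2 g hg (e ▸ hx)

theorem cent_cg {b g : Co0} (hg : g ∈ centralizer {b}) {v : L} (h : Cg (b • v) v) : Cg (b • g • v) (g • v) := by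
  rw [← mul_smul, ← mem_centralizer_singleton_iff.mp hg, mul_smul]; exact h.smul g

theorem cent_bound {β : M24} {W k C S M : ℕ} (hb : K2Is (permHom β) M) (hF : fixChk2 W k C S M = true) {Ms ys : List ℕ}
    (hS : ∀ p ∈ Ms, InK (fpt W k) (2 ^ k) (centralizer {permHom β}) (xl 32 p k))
    (hy : ∀ y ∈ ys, y < 2 ^ k ∧ ∀ g ∈ centralizer {permHom β}, g • cpt (kap (e8 pI)) ≠ fpt W k y) {N c m : ℕ}
    (hN : outCnt (fun p => xl 32 p k) (2 ^ k) Ms ys = N) (hc : {c | c ∈ gSets ∧ β • c = c}.ncard = c)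
    (hm : Nat.card (centralizer ({β} : Set M24)) = m) : Nat.card (centralizer {permHom β}) ≤ N * (c * m) := by
  rw [card_eq_orbit_mul _ (cpt (kap (e8 pI))), stab_cpt_e8, card_cent_NN, hc, hm, ← hN]
  refine Nat.mul_le_mul_right _ (ncard_le_outCnt hS ?_ fun y h => ⟨(hy y h).1, fun g hg ⟨g', e⟩ =>
    (hy y h).2 (g⁻¹ * g') (mul_mem (inv_mem hg) g'.2) (by rw [mul_smul, inv_smul_eq_iff]; exact e)⟩)
  rintro _ ⟨g, rfl⟩
  obtain ⟨y, h1, h2⟩ := (hb.fix hF _).mp (cent_cg g.2 (cg_e8_iff.mpr (perm_mem_NN β)))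
  exact ⟨y, h1, by rw [fpt, ← h2, ← smul_cpt]; rfl⟩

theorem ne_of_short {W k : ℕ} {l : List (ℕ × ℕ)} (h : ∀ e ∈ l, e.2 < 2 ^ k ∧ isLv e.1 = true ∧
    kv e.1 = xl 32 W k e.2 ∧ sqNorm (vec e.1) < 64) (K : Subgroup Co0) :
    ∀ y ∈ l.map Prod.snd, y < 2 ^ k ∧ ∀ g ∈ K, g • cpt (kap (e8 pI)) ≠ fpt W k y := fun y hy => by
  obtain ⟨e, he, rfl⟩ := List.mem_map.mp hy
  obtain ⟨h1, h2, h3, h4⟩ := h e he
  refine ⟨h1, fun g _ e' => ?_⟩
  have h5 := coe_vL h2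
  rw [fpt, ← h3, ← kap_vec h5, smul_cpt, cpt_eq_iff] at e'
  have h6 : sqNorm ((g • e8 pI : L) : V) = 64 := by rw [sqNorm_co, sqNorm_e8]
  rw [← h5] at h4
  rcases e'.short h6.le h4.le with e | e | e
  · rw [e] at h6; omega
  · rw [e, AddSubgroup.coe_neg, sqNorm_neg] at h6; omega
  · omega

/-- matrices commuting with `mb`, with their matrices modulo two on the lattice and on a subspace -/
noncomputable def cenChk (W k mb : ℕ) (l : List (ℕ × ℕ × ℕ × ℕ)) : Bool :=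
  List.rec true (fun e _ r => andB (andB (andB (isCo e.1) (andB (mm e.1 mb e.2.1) (mm mb e.1 e.2.1)))
    (andB (chk2 e.1 e.2.2.1) (subChk2 W k e.2.2.1 e.2.2.2))) r) l

theorem inK_cen {b : Co0} {W k C mb : ℕ} (hb : MIs b mb) (hW : wChk W k C = true) {l : List (ℕ × ℕ × ℕ × ℕ)}
    (h : cenChk W k mb l = true) :
    ∀ p ∈ l.map fun e => e.2.2.2, InK (fpt W k) (2 ^ k) (centralizer {b}) (xl 32 p k) := by
  induction l with
  | nil => simp
  | cons e l ih =>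
    obtain ⟨h1, h2⟩ := andB_iff.mp h
    simp only [andB_iff] at h1
    obtain ⟨g, hg⟩ := exists_of_isCo h1.1.1
    rw [List.map_cons, List.forall_mem_cons]
    exact ⟨⟨g, mem_centralizer_singleton_iff.mpr ((hg.mm hb h1.1.2.1).unique (hb.mm hg h1.1.2.2)),
      (hg.k2 h1.2.1).rep hW h1.2.2⟩, ih h2⟩

theorem ncard_fix {b : Co0} {W k C S M : ℕ} (hb : K2Is b M) (hW : wChk W k C = true) (hF : fixChk2 W k C S M = true) :
    (kap '' {v | Cg (b • v) v}).ncard = 2 ^ k := by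
  have : kap '' {v | Cg (b • v) v} = xl 32 W k '' (Finset.range (2 ^ k)) := by
    ext x
    simp only [Set.mem_image, Set.mem_ofPred_eq, hb.fix hF, Finset.coe_range, Set.mem_Iio]
    exact ⟨fun ⟨v, ⟨y, h1, h2⟩, e⟩ => ⟨y, h1, h2 ▸ e⟩, fun ⟨y, h1, h2⟩ =>
      ⟨io x, ⟨y, h1, by rw [← h2, kap_io (wChk_lt hW y)]⟩, by rw [← h2, kap_io (wChk_lt hW y)]⟩⟩
  rw [this, Set.InjOn.ncard_image fun i hi j hj e => inj_fpt hW i (by simpa using hi) j (by simpa using hj)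
    (congrArg cpt e), Set.ncard_coe_finset, Finset.card_range]

theorem Z_fix {b : Co0} {W k C S M : ℕ} (hb : K2Is b M) (hW : wChk W k C = true) (hF : fixChk2 W k C S M = true) :
    ∀ g ∈ zpowers (neg1 * b), ∀ y < 2 ^ k, g • fpt W k y = fpt W k y := fun g hg y hy => by
  refine (zpowers_le (H := stabilizer Co0 (fpt W k y))).mpr ?_ hg
  have h := wChk_lt hW y
  rw [mem_stabilizer_iff, mul_smul, fpt, ← kap_io h, smul_cpt, cpt_eq_iff.mpr ((hb.fix hF _).mpr ⟨y, hy, kap_io h⟩),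
    neg1_cpt (kap_lt _)]

theorem fix_of_cg {b g : Co0} {W k C S M : ℕ} (hb : K2Is b M) (hW : wChk W k C = true) (hF : fixChk2 W k C S M = true)
    (hg : ∀ v, Cg (b • v) v → Cg (g • v) v) : ∀ y < 2 ^ k, g • fpt W k y = fpt W k y := fun y hy => by
  have h := wChk_lt hW y
  rw [fpt, ← kap_io h, smul_cpt, cpt_eq_iff.mpr (hg _ ((hb.fix hF _).mpr ⟨y, hy, kap_io h⟩))]

/-- what is needed about the centralizer of `b` -/
structure CData (b : Co0) (w : ℕ) {L : Type*} [Group L] (φ : centralizer {b} →* L) : Prop where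
  odd : Odd (orderOf b)
  surj : Function.Surjective φ
  ker : ∀ g, φ g = 1 ↔ (g : Co0) ∈ zpowers (neg1 * b)
  faith : ∀ g ∈ centralizer {b}, (∀ v, Cg (b • v) v → Cg (g • v) v) → g ∈ zpowers (neg1 * b)
  core : ∀ T : Subgroup L, T.Normal → IsPGroup 2 T → T = ⊥
  fix : (kap '' {v | Cg (b • v) v}).ncard = 2 ^ (2 * w)

theorem LX_conj_in_cent [Finite G] {Q B : Subgroup G} {z t : G} (h0 : LX Q z) (hB : B ≤ centralizer {z})
    (ho : Odd (Nat.card B)) (ht : t ∈ Q ⊓ centralizer (B : Set G)) (hc : IsConj z t) (hne : t ≠ z) :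
    ∃ y ∈ centralizer (B : Set G), y * z * y⁻¹ = t := by
  obtain ⟨g, rfl⟩ := isConj_iff.mp hc
  have h := h0.lpr ht.1 hne
  have hAQ : B ≤ normalizer (Q : Set G) := hB.trans h0.nQ
  have hR1 := h0.cA hAQ ho ⟨_, ht, h.pr.t_not⟩
  have hzP := mem_inf.mpr ⟨h.zP, (h0.cA_mem hAQ).2⟩
  have hR2 := h.hP.cA (fun a ha => h.hP.mem_normalizer (ht.2 a ha)) ho ⟨z, hzP, h.pr.symm.t_not⟩
  obtain ⟨x, hx, e1, -⟩ := (Pr.mk hR1.toSymT hR2.toSymT ht hzP h.ne).trans _ Pr.t_mem z Pr.z_mem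
    h.hP.ne_one h0.ne_one h.ne
  exact ⟨x, (sup_le inf_le_right inf_le_right : _ ≤ centralizer (B : Set G)) hx, e1⟩

namespace MT
variable {z : G} {Q : Subgroup G} {ρ : centralizer ({z} : Set G) →* A} {π : Co0 →* A}
  {R : L → G → Prop} (m : MT z Q ρ π R)
include m

theorem ncard_over (X : Set L) : {x | ∃ v, R v x ∧ kap v ∈ kap '' X}.ncard = 2 * (kap '' X).ncard := by
  choose σ hσ using m.ex
  have hf : (kap '' X).Finite := (Set.finite_lt_nat (2 ^ 24)).subset (by rintro _ ⟨v, -, rfl⟩; exact kap_lt v)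
  have h1 : ∀ {v w x}, R (io (kap v)) x → R (io (kap w)) x → kap v = kap w := fun {v w x} h h' =>
    kap_eq_iff.mpr (((cg_io v).trans (m.inj h h')).trans (cg_io w).symm)
  have : {x | ∃ v, R v x ∧ kap v ∈ kap '' X} =
      (fun y => σ (io y)) '' (kap '' X) ∪ (fun y => z * σ (io y)) '' (kap '' X) := by
    ext x
    constructor
    · rintro ⟨v, h, hv⟩
      exact (m.uniq (hσ _) (m.cg h (cg_io v).symm)).imp (fun e => ⟨_, hv, e.symm⟩) fun e => ⟨_, hv, e.symm⟩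
    · rintro (⟨_, ⟨v, hv, rfl⟩, rfl⟩ | ⟨_, ⟨v, hv, rfl⟩, rfl⟩)
      exacts [⟨v, m.cg (hσ _) (cg_io v), v, hv, rfl⟩, ⟨v, m.cg (m.zmul (hσ _)) (cg_io v), v, hv, rfl⟩]
  have h2 : Set.InjOn (fun y => σ (io y)) (kap '' X) := by
    rintro _ ⟨v, -, rfl⟩ _ ⟨w, -, rfl⟩ e
    beta_reduce at e
    exact h1 (hσ _) (e ▸ hσ _)
  have h3 : Set.InjOn (fun y => z * σ (io y)) (kap '' X) := fun a ha b hb e => h2 ha hb (mul_left_cancel e)
  rw [this, Set.ncard_union_eq _ (hf.image _) (hf.image _), h2.ncard_image, h3.ncard_image, two_mul]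
  rw [Set.disjoint_left]
  rintro _ ⟨_, ⟨v, -, rfl⟩, rfl⟩ ⟨_, ⟨w, -, rfl⟩, e⟩
  beta_reduce at e
  have h2 := h1 (m.zmul (hσ _)) (e ▸ hσ _)
  rw [h2] at e
  exact m.lx.ne_one (by simpa using e)

theorem mem_Z_iff {b g : Co0} (ho : Odd (orderOf b)) : g ∈ zpowers (neg1 * b) ↔ π g ∈ zpowers (π b) := by
  constructor
  · rintro ⟨k, rfl⟩; exact ⟨k, by simp [m.π_neg1]⟩
  · rintro ⟨k, e⟩
    have : π ((b ^ k)⁻¹ * g) = 1 := by rw [map_mul, map_inv, map_zpow, ← e]; simp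
    rw [← mul_mem_cancel_left (inv_mem (zpow_mem (b_mem_Z ho) k))]
    rcases (m.π_ker _).mp this with e | e <;> rw [e]
    exacts [one_mem _, neg1_mem_Z ho]

theorem comm_of_π {b g : Co0} (ho : Odd (orderOf b)) (e : π g * π b = π b * π g) : g ∈ centralizer {b} := by
  have : π (g * b * g⁻¹ * b⁻¹) = 1 := by simp [e]
  refine mem_centralizer_singleton_iff.mpr (comm_of_sq ho ?_).symm
  have h : g * b = g * b * g⁻¹ * b⁻¹ * (b * g) := by group
  rcases (m.π_ker _).mp this with e | e <;> rw [e] at h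
  · rw [one_mul] at h; rw [← mul_assoc, h, mul_assoc b g, h, mul_assoc]
  · rw [← mul_assoc g, h, mul_assoc neg1, mul_assoc b g, h, ← mul_assoc b neg1, neg1_comm b, mul_assoc neg1 b,
      ← mul_assoc neg1, neg1_sq, one_mul, mul_assoc]

theorem cent_iff {b : Co0} {h : centralizer ({z} : Set G)} (ho : Odd (orderOf (h : G))) (e : π b = ρ h) {v : L} {x : G}
    (hx : R v x) : h * x = x * h ↔ Cg (b • v) v := by
  have h1 := m.act e hx
  refine ⟨fun e' => m.inj (by rwa [e', mul_inv_cancel_right] at h1) hx, fun e' => comm_of_sq ho ?_⟩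
  have h2 := mem_centralizer_singleton_iff.mp h.2
  rcases m.uniq hx (m.cg h1 e'.symm) with e | e <;> rw [mul_inv_eq_iff_eq_mul] at e
  · rw [mul_assoc, e, ← mul_assoc, e, mul_assoc]
  · rw [mul_assoc, e, ← mul_assoc, ← mul_assoc, h2, mul_assoc z, e, ← mul_assoc, ← mul_assoc, m.lx.zz, one_mul,
      mul_assoc]

theorem eq_one_of [Finite G] {B : Subgroup G} (ho : Odd (Nat.card B)) {x : G} (h : x ∈ B) (h' : x ∈ Q) : x = 1 :=
  mem_bot.mp (disjoint_of_isPGroup_of_coprime m.lx.isPGroup ho.coprime_two_right ▸ mem_inf.mpr ⟨h', h⟩)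

theorem lift_cent [Finite G] {b g : Co0} {h : centralizer ({z} : Set G)} (ho : Odd (orderOf (h : G))) (e : π b = ρ h)
    (hg : g ∈ centralizer {b}) {K : Subgroup G} (hh : (h : G) ∈ K) {c : centralizer ({z} : Set G)} (hc : (c : G) ∈ K)
    (e' : π g = ρ c) : ∃ d : centralizer ({z} : Set G), (d : G) ∈ K ⊓ centralizer (zpowers (h : G) : Set G) ∧
      π g = ρ d := by
  haveI : Fact (Nat.Prime 2) := ⟨Nat.prime_two⟩
  obtain ⟨n, hn, h1⟩ := H1.exists_fixed_in_left_coset (A := zpowers (h : G)) (N := Q ⊓ K) (x := c)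
    (zpowers_le.mpr (le_normalizer_inf inf_le_left inf_le_right (mem_inf.mpr ⟨m.lx.nQ h.2, le_normalizer hh⟩)))
    (coprime_of_odd_of_isPGroup (by rwa [Nat.card_zpowers]) (m.lx.isPGroup.to_le inf_le_left))
    (Or.inr (isSolvable_of_isPGroup (p := 2) (m.lx.isPGroup.to_le inf_le_left))) (by
      rintro _ ⟨k, rfl⟩
      refine mem_inf.mpr ⟨(m.ρ_ker (c⁻¹ * (h ^ k * c * (h ^ k)⁻¹))).mp ?_, mul_mem (inv_mem hc) (mul_mem (mul_mem
        (zpow_mem hh k) hc) (inv_mem (zpow_mem hh k)))⟩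
      have : Commute (π b) (π g) := by
        rw [Commute, SemiconjBy, ← map_mul, ← map_mul, mem_centralizer_singleton_iff.mp hg]
      simp only [map_mul, map_inv, map_zpow, ← e, ← e', (this.zpow_left k).eq]; group)
  obtain ⟨h2, h3⟩ := mem_inf.mp hn
  exact ⟨c * ⟨n, m.lx.le_centralizer h2⟩, ⟨mul_mem hc h3, h1⟩, by
    rw [map_mul, (m.ρ_ker ⟨n, m.lx.le_centralizer h2⟩).mpr h2, mul_one, e']⟩

theorem odd_section [Finite G] {b : Co0} {w : ℕ} {L' : Type*} [Group L'] {φ : centralizer {b} →* L'} (hb : CData b w φ)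
    {h : centralizer ({z} : Set G)} (ho : Odd (orderOf (h : G))) (e : π b = ρ h) {s : G} (hs : s ∈ Q) (hc : IsConj z s)
    (hne : s ≠ z) (hsh : h * s = s * h) {B : Subgroup G} (hB : B = zpowers (h : G))
    [hn : (B.subgroupOf (centralizer (B : Set G))).Normal] :
    ∃ (z' : centralizer (B : Set G)) (_ : (z' : G) = z)
      (Q' : Subgroup (centralizer ({QuotientGroup.mk z'} : Set (_ ⧸ B.subgroupOf (centralizer (B : Set G))))))
      (_ : Q'.Normal), IsExtraspecialCentralizerSetting (QuotientGroup.mk z') Q' w ∧ Nonempty (_ ⧸ Q' ≃* L') ∧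
      {x | x ∈ Q' ∧ IsConj (QuotientGroup.mk z' : _ ⧸ B.subgroupOf (centralizer (B : Set G))) x}.ncard =
        1 + 2 * (kap '' {v | Cg (b • v) v ∧ sqNorm (v : V) = 64}).ncard := by
  have hBo : Odd (Nat.card B) := by rwa [hB, Nat.card_zpowers]
  have hBz : B ≤ centralizer {z} := hB ▸ zpowers_le.mpr h.2
  have hM : ∀ x, x ∈ centralizer (B : Set G) ↔ h * x = x * h := fun x => by
    rw [hB, H16.centralizer_zpowers, mem_centralizer_singleton_iff, eq_comm]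
  set M := centralizer (B : Set G) with hMd
  set f := QuotientGroup.mk' (B.subgroupOf M) with hf
  have hf2 : ∀ x y : M, f x = f y ↔ (x : G)⁻¹ * y ∈ B := fun x y => QuotientGroup.eq
  let z' : M := ⟨z, (hM z).mpr (mem_centralizer_singleton_iff.mp h.2)⟩
  let P := (Q ⊓ M).subgroupOf M
  let D := (centralizer ({z} : Set G)).subgroupOf M
  have hP : ∀ x : M, x ∈ P ↔ (x : G) ∈ Q := fun x => ⟨fun e => e.1, fun e => ⟨e, x.2⟩⟩
  have hinj : ∀ x ∈ P, ∀ y ∈ P, f x = f y → x = y := fun x hx y hy e => Subtype.ext (inv_mul_eq_one.mp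
    (m.eq_one_of hBo ((hf2 x y).mp e) (mul_mem (inv_mem hx.1) hy.1)))
  have hsq : ∀ a ∈ B, a * a ∈ Q → a = 1 := fun a ha e => by
    have h1 := orderOf_dvd_of_pow_eq_one ((pow_two a).trans (m.eq_one_of hBo (mul_mem ha ha) e))
    exact orderOf_eq_one_iff.mp (Nat.eq_one_of_dvd_coprimes hBo.coprime_two_left h1 (orderOf_dvd_natCard B ha))
  have hD : centralizer {f z'} = D.map f := by
    refine le_antisymm (fun c hc => ?_) ?_
    · obtain ⟨c, rfl⟩ := QuotientGroup.mk'_surjective _ c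
      have h1 := mem_centralizer_singleton_iff.mp hc
      rw [← map_mul, ← map_mul, hf2] at h1
      refine ⟨c, mem_centralizer_singleton_iff.mpr (inv_mul_eq_one.mp (hsq _ h1 ?_)), rfl⟩
      have h2 := mem_centralizer_singleton_iff.mp (hBz h1)
      change ((c : G) * z)⁻¹ * (z * c) * z = z * (((c : G) * z)⁻¹ * (z * c)) at h2
      change ((c : G) * z)⁻¹ * (z * c) * (((c : G) * z)⁻¹ * (z * c)) ∈ Q
      rw [mul_inv_rev, m.lx.inv_z] at h2 ⊢
      have : z * (c : G)⁻¹ * (z * c) * (z * (c : G)⁻¹ * (z * c)) = 1 := by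
        rw [mul_assoc z (c : G)⁻¹ (z * c), ← mul_assoc _ z, ← mul_assoc z (c : G)⁻¹, h2]
        simp [← mul_assoc, m.lx.zz]; simp [mul_assoc, m.lx.zz]
      rw [this]; exact one_mem _
    · rintro _ ⟨d, hd, rfl⟩
      rw [mem_centralizer_singleton_iff, ← map_mul, ← map_mul]
      exact congrArg f (Subtype.ext (mem_centralizer_singleton_iff.mp hd))
  let β : D →* A := ρ.comp ((M.subtype.comp D.subtype).codRestrict _ fun d => d.2)
  let α : centralizer {b} →* A := π.comp (centralizer {b}).subtype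
  have hβ : ∀ d, ∃ x, α x = β d := fun d => by
    obtain ⟨g, hg⟩ := m.π_surj (β d)
    refine ⟨⟨g, m.comm_of_π hb.odd ?_⟩, hg⟩
    rw [hg, e]
    exact ((map_mul ρ _ _).symm.trans (congrArg ρ (Subtype.ext ((hM _).mp d.1.2).symm))).trans (map_mul ρ _ _)
  obtain ⟨θ, hθ⟩ := exists_lift α φ (fun x e => (hb.ker x).mpr ((m.mem_Z_iff hb.odd).mpr
    ((show π x = 1 from e) ▸ one_mem _))) β hβ
  have hk : ∀ d : D, θ d = 1 ↔ f d ∈ P.map f := fun d => by
    obtain ⟨g, hg⟩ := hβ d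
    rw [hθ d g hg, hb.ker, m.mem_Z_iff hb.odd, show π g = β d from hg, e]
    constructor
    · rintro ⟨k, e⟩
      have h1 : (h : G) ^ k ∈ B := hB ▸ zpow_mem (mem_zpowers _) k
      refine ⟨d * (⟨h ^ k, zpow_mem ((hM _).mpr rfl) k⟩ : M)⁻¹, (hP _).mpr
        ((m.ρ_ker (⟨d.1, d.2⟩ * (h ^ k)⁻¹)).mp ?_), (hf2 _ _).mpr (by simpa using h1)⟩
      rw [map_mul, map_inv, map_zpow, mul_inv_eq_one]; exact e.symm
    · rintro ⟨r, hr, e⟩
      obtain ⟨k, e⟩ := hB.le ((hf2 _ _).mp e)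
      refine ⟨k, ?_⟩
      have := (m.ρ_ker ⟨r, m.lx.le_centralizer hr.1⟩).mpr hr.1
      beta_reduce at e ⊢
      rw [← map_zpow, ← one_mul (ρ _), ← this, ← map_mul]
      exact congrArg ρ (Subtype.ext (by simp [e]; rfl))
  have hX := m.lx.cA (hBz.trans m.lx.nQ) hBo ⟨s, ⟨hs, (hM s).mpr hsh⟩, fun e => (m.lx.mem_z.mp e).elim
    (fun e => m.lx.ne_one (isConj_one_right.mp (e ▸ hc).symm)) hne⟩
  have e1 : P ≃* P.map f := (MonoidHom.ofInjective (f := f.comp P.subtype) fun x y e =>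
    Subtype.ext (hinj _ x.2 _ y.2 e)).trans (MulEquiv.subgroupCongr (by rw [MonoidHom.range_comp, range_subtype]))
  have e2 := (subgroupOfEquivOfLe (inf_le_right : Q ⊓ M ≤ M)).symm.trans e1
  have hmem : ∀ (X : Set L) x, (∀ v ∈ X, Cg (b • v) v) → (∃ v, R v x ∧ kap v ∈ kap '' X) → x ∈ Q ⊓ M := by
    rintro X x hX ⟨v, h1, u, hu, e'⟩
    exact ⟨m.mem h1, (hM x).mpr ((m.cent_iff ho e (m.cg h1 (kap_eq_iff.mp e'))).mpr (hX u hu))⟩
  have hcj : ∀ r : M, (r : G) ∈ Q → IsConj z r → IsConj (f z') (f r) := fun r hr hc => by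
    by_cases e : (r : G) = z
    · rw [show r = z' from Subtype.ext e]
    obtain ⟨y, hy, e⟩ := LX_conj_in_cent m.lx hBz hBo ⟨hr, r.2⟩ hc e
    exact f.map_isConj (isConj_iff.mpr ⟨⟨y, hy⟩, Subtype.ext e⟩)
  obtain ⟨Q', hN, hQ', hS, e', -⟩ := sect f z' (R := P) (D := D) (fun r hr => m.lx.le_centralizer hr.1) hD θ
    (fun y => by
      obtain ⟨g, rfl⟩ := hb.surj y
      obtain ⟨c, hc⟩ := m.exists_ρ g
      obtain ⟨d, hd, e⟩ := m.lift_cent ho e g.2 (K := ⊤) trivial trivial hc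
      exact ⟨⟨⟨d, by rw [hMd, hB]; exact hd.2⟩, d.2⟩, hθ _ g e⟩) hk
    (H11.orderOf_two_of (fun e => m.lx.ne_one (congrArg Subtype.val (hinj z' ((hP _).mpr m.lx.mem) 1 (one_mem _)
      (e.trans (map_one f).symm)))) (by rw [← map_mul, show z' * z' = 1 from Subtype.ext m.lx.zz, map_one]))
    (H26.isExtraspecial_congr hX.isExtraspecial e2) (w := w)
    (by
      rw [← Nat.card_congr e2.toEquiv, pow_succ, ← hb.fix, mul_comm, ← m.ncard_over, ← Nat.card_coe_set_eq]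
      refine Nat.card_congr (Equiv.setCongr (Set.ext fun x => ⟨fun hx => ?_, hmem _ x fun _ h => h⟩))
      obtain ⟨v, hv⟩ := m.ex' x hx.1
      exact ⟨v, hv, v, (m.cent_iff ho e hv).mp ((hM x).mp hx.2), rfl⟩)
    (fun d hd H => by
      obtain ⟨g, hg⟩ := hβ ⟨d, hd⟩
      refine (hk ⟨d, hd⟩).mp ((hθ _ g hg).trans ((hb.ker g).mpr (hb.faith g g.2 fun v hv => ?_)))
      obtain ⟨x, hx⟩ := m.ex v
      have h1 := (hM x).mpr ((m.cent_iff ho e hx).mpr hv)
      have h2 := m.act hg hx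
      have h3 : d * ⟨x, h1⟩ * d⁻¹ = ⟨x, h1⟩ := hinj _ ((hP _).mpr (m.mem h2)) _ ((hP _).mpr (m.mem hx)) (by
        rw [map_mul, map_mul, ← H _ ((hP ⟨x, h1⟩).mpr (m.mem hx)), map_inv, mul_inv_cancel_right])
      exact m.inj ((show (d : G) * x * (d : G)⁻¹ = x from congrArg Subtype.val h3) ▸ h2) hx) hb.core
    (by
      obtain ⟨g, hg⟩ := isConj_iff.mp (hcj ⟨s, (hM s).mpr hsh⟩ hs hc)
      exact ⟨g, hg ▸ ⟨_, (hP _).mpr hs, rfl⟩, hg ▸ fun e => hne (congrArg Subtype.val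
        (hinj _ ((hP ⟨s, _⟩).mpr hs) _ ((hP z').mpr m.lx.mem) e))⟩)
  refine ⟨z', rfl, Q', hN, hS, ⟨e'⟩, ?_⟩
  have h1 : Subtype.val '' {x | x ∈ Q' ∧ IsConj (f z') (x : centralizer {f z'})} =
      f '' {r | r ∈ P ∧ IsConj z (r : G)} := by
    ext x
    constructor
    · rintro ⟨x, ⟨h1, h2⟩, rfl⟩
      obtain ⟨r, hr, e⟩ := (hQ' x).mp h1
      obtain ⟨y, hy⟩ := isConj_iff.mp h2
      obtain ⟨y, rfl⟩ := QuotientGroup.mk'_surjective _ y
      refine ⟨r, ⟨hr, isConj_iff.mpr ⟨y, (inv_mul_eq_one.mp (hsq _ ?_ ?_)).symm⟩⟩, e⟩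
      · exact (hf2 r (y * z' * y⁻¹)).mp (by rw [e, ← hy, map_mul, map_mul, map_inv])
      · have h3 := r.2 _ ((hf2 r (y * z' * y⁻¹)).mp (by rw [e, ← hy, map_mul, map_mul, map_inv]))
        change (r : G)⁻¹ * (y * z * (y : G)⁻¹) * r = r * ((r : G)⁻¹ * (y * z * (y : G)⁻¹)) at h3
        have h4 : (y : G) * z * (y : G)⁻¹ * (y * z * (y : G)⁻¹) = 1 := by rw [conj_mul, m.lx.zz]; simp
        generalize (y : G) * z * (y : G)⁻¹ = u at h3 h4
        rw [mul_inv_cancel_left, mul_assoc, inv_mul_eq_iff_eq_mul] at h3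
        rw [mul_assoc, ← mul_assoc u, ((Commute.inv_right h3).eq), mul_assoc, h4, mul_one]
        exact mul_mem (inv_mem hr.1) (inv_mem hr.1)
    · rintro ⟨r, ⟨h1, h2⟩, rfl⟩
      exact ⟨⟨f r, hD.ge ⟨r, m.lx.le_centralizer h1.1, rfl⟩⟩, ⟨(hQ' _).mpr ⟨r, h1, rfl⟩, hcj r h1.1 h2⟩, rfl⟩
  have hw : ∃ g : G, g * z * g⁻¹ ∈ Q ∧ g * z * g⁻¹ ≠ z := by
    obtain ⟨g, rfl⟩ := isConj_iff.mp hc; exact ⟨g, hs, hne⟩
  have h2 : Subtype.val '' {r | r ∈ P ∧ IsConj z (r : G)} =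
      insert z {x | ∃ v, R v x ∧ kap v ∈ kap '' {v | Cg (b • v) v ∧ sqNorm (v : V) = 64}} := by
    ext x
    constructor
    · rintro ⟨r, ⟨h1, h2⟩, rfl⟩
      by_cases e0 : (r : G) = z
      · exact Or.inl e0
      obtain ⟨v, hv, h3⟩ := m.type4' h1.1 h2 e0
      exact Or.inr ⟨v, hv, v, ⟨(m.cent_iff ho e hv).mp ((hM _).mp r.2), h3⟩, rfl⟩
    · rintro (rfl | hx)
      · exact ⟨z', ⟨(hP _).mpr m.lx.mem, IsConj.refl _⟩, rfl⟩
      have h3 := hmem _ x (fun _ h => h.1) hx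
      obtain ⟨v, hv, u, hu, e⟩ := hx
      exact ⟨⟨x, h3.2⟩, ⟨h3, (m.isConj_of_type4 hw (m.cg hv (kap_eq_iff.mp e)) hu.2).1⟩, rfl⟩
  rw [← Set.ncard_image_of_injective _ Subtype.val_injective]
  refine (congrArg Set.ncard h1).trans ?_
  rw [Set.InjOn.ncard_image fun x hx y hy => hinj x hx.1 y hy.1,
    ← Set.ncard_image_of_injective _ Subtype.val_injective, h2, Set.ncard_insert_of_notMem, m.ncard_over, add_comm]
  rintro ⟨v, hv, u, hu, e⟩
  exact (m.isConj_of_type4 hw (m.cg hv (kap_eq_iff.mp e)) hu.2).2 rfl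

end MT

end Cfsg.Agent.LL
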