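import Cfsg.Agent.H21.Monster3

/-! Groups of Monster type: reduction of elements of odd prime order to the Mathieu group. -/

set_option autoImplicit false
set_option linter.style.haveILetI false

namespace Cfsg.Agent.LL

open Cfsg Cfsg.Agent.H16 Cfsg.Agent.H10 MulAction Subgroup
open scoped Pointwise

variable {G A : Type*} [Group G] [Group A]

theorem central_iff [Finite G] {p : ℕ} [Fact p.Prime] {Y : Subgroup G} (hY : IsPGroup p Y)
    (hc : Y ≤ centralizer (Y : Set G)) : (∃ P : Sylow p G, Y ≤ (center (P : Subgroup G)).map (P : Subgroup G).subtype) ↔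
      p ^ (Nat.card G).factorization p ∣ Nat.card (centralizer (Y : Set G)) := by
  constructor
  · rintro ⟨P, hP⟩
    rw [← P.card_eq_multiplicity]
    refine card_dvd_of_le fun g hg y hy => ?_
    obtain ⟨y, h, rfl⟩ := hP hy
    exact (congrArg Subtype.val (Subgroup.mem_center_iff.mp h ⟨g, hg⟩)).symm
  · intro h
    obtain ⟨P, hP⟩ := (hY.comap_subtype (K := centralizer (Y : Set G))).exists_le_sylow
    have h1 := (Fact.out : p.Prime).pow_dvd_iff_le_factorization Nat.card_pos.ne' |>.mp h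
    have h2 := (Nat.factorization_le_iff_dvd Nat.card_pos.ne' Nat.card_pos.ne').mpr
      (card_subgroup_dvd_card (centralizer (Y : Set G))) p
    refine ⟨Sylow.ofCard ((P : Subgroup _).map (centralizer (Y : Set G)).subtype) (by
      rw [card_map_of_injective (subtype_injective _), P.card_eq_multiplicity, le_antisymm h2 h1]), fun y hy => ?_⟩
    refine ⟨⟨y, ⟨y, hc hy⟩, hP hy, rfl⟩, Subgroup.mem_center_iff.mpr ?_, rfl⟩
    rintro ⟨_, g, -, rfl⟩
    exact Subtype.ext (g.2 y hy).symm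

theorem fact_eq {p k N : ℕ} (hp : p.Prime) (h : p ^ k ∣ N) (h' : ¬ p ^ (k + 1) ∣ N) : N.factorization p = k := by
  have h0 : N ≠ 0 := fun e => h' (e ▸ dvd_zero _)
  rw [hp.pow_dvd_iff_le_factorization h0] at h h'
  omega

theorem cent_pair (z s : G) : centralizer ({z, s} : Set G) = centralizer {z} ⊓ centralizer {s} := by
  ext g; simp [mem_centralizer_iff]

theorem exists_conj_perm {p : ℕ} (hp : p.Prime) (h2 : p ≠ 2) {g : Co0} (hg : g ∈ NN) (h : g ^ p = 1) :
    ∃ c ∈ NN, ∃ β, c * g * c⁻¹ = permHom β := by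
  haveI : Fact p.Prime := ⟨hp⟩
  obtain ⟨P⟩ : Nonempty (Sylow p M24) := inferInstance
  obtain ⟨k, hk⟩ := P.isPGroup'.exists_card_eq
  obtain ⟨c, hc, β, -, e⟩ := exists_conj_mem_of_pow (K := NN) (R := (P : Subgroup M24).map permHom) (k := k)
    (m := 4096 * (P : Subgroup M24).index) (by rintro _ ⟨σ, -, rfl⟩; exact perm_mem_NN σ) hp
    (by rw [card_map_of_injective permHom_injective, hk])
    (by rw [card_NN, ← card_M24, ← (P : Subgroup M24).card_mul_index, hk]; ring)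
    (fun e => (hp.dvd_mul.mp e).elim (fun e => h2 ((Nat.prime_dvd_prime_iff_eq hp Nat.prime_two).mp
      (hp.dvd_of_dvd_pow (n := 12) e))) P.not_dvd_index) hg (j := 1) (by rwa [pow_one])
  exact ⟨c, hc, β, e.symm⟩

namespace MT
variable {z : G} {Q : Subgroup G} {ρ : centralizer ({z} : Set G) →* A} {π : Co0 →* A}
  {R : L → G → Prop} (m : MT z Q ρ π R)
include m

theorem shift_NN {s : G} (hs : R (e8 pI) s) {c : Co0} (hc : c ∈ NN) {g : Co0} {h : centralizer ({z} : Set G)}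
    (e : π g = ρ h) : ∃ π' R', MT z Q ρ π' R' ∧ R' (e8 pI) s ∧ π' (c * g * c⁻¹) = ρ h :=
  ⟨_, _, m.shift c, m.cg hs (cg_e8_iff.mpr (inv_mem hc)), by simpa [mul_assoc] using e⟩

theorem e8_not {s : G} (hs : R (e8 pI) s) : s ∉ zpowers z :=
  m.not_mem hs (fun e => by simpa [e, sqNorm_zero] using sqNorm_e8 pI) (sqNorm_e8 pI).le

theorem setup [Finite G] {s : G} (hs : s ∈ Q) (hc : IsConj z s) (hne : s ≠ z) {p : ℕ} (hp : p.Prime) (h2 : p ≠ 2)
    {B : Subgroup G} (hB : B ≤ centralizer {z, s}) (hBp : Nat.card B = p) {T : M24 → Prop}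
    (hT : ∀ β : M24, orderOf β = p → ∃ c β' j, T β' ∧ β' ≠ 1 ∧ c * β ^ (j : ℤ) * c⁻¹ = β') :
    ∃ π' R' h β, MT z Q ρ π' R' ∧ R' (e8 pI) s ∧ B = zpowers ((h : centralizer ({z} : Set G)) : G) ∧
      orderOf (h : G) = p ∧ (h : G) * s = s * h ∧ T β ∧ π' (permHom β) = ρ h := by
  haveI : Fact p.Prime := ⟨hp⟩
  rw [cent_pair] at hB
  have hg : ∀ x ∈ B, x ≠ 1 → B = zpowers x ∧ orderOf x = p := fun x hx h1 => by
    have h3 := ((Nat.dvd_prime hp).mp (hBp ▸ orderOf_dvd_natCard B hx)).resolve_left (mt orderOf_eq_one_iff.mp h1)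
    exact ⟨(eq_of_le_of_card_ge (zpowers_le.mpr hx) (by rw [Nat.card_zpowers, h3, hBp])).symm, h3⟩
  obtain ⟨x, hx, h1⟩ := (bot_or_exists_ne_one B).resolve_left fun e => hp.one_lt.ne' (by rw [← hBp, e, card_bot])
  obtain ⟨v, hv, h3⟩ := m.type4' hs hc hne
  obtain ⟨k, hk⟩ := to_e8 h3
  have m1 := m.shift k
  have hs1 : R (k⁻¹ • e8 pI) s := by rwa [← hk, inv_smul_smul]
  obtain ⟨g, e⟩ := m1.exists_π ⟨x, (hB hx).1⟩
  have h4 : g ∈ NN := cg_e8_iff.mp ((m1.mem_bar_cent hs1 (m1.e8_not hs1)).mp ⟨_, hB hx, e.symm⟩)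
  have h5 : (⟨x, (hB hx).1⟩ : centralizer ({z} : Set G)) ^ p = 1 :=
    Subtype.ext ((hg x hx h1).2 ▸ pow_orderOf_eq_one x)
  have h6 : (g ^ (p + 1)) ^ p = 1 := by
    obtain ⟨j, hj⟩ := (hp.odd_of_ne_two h2).add_one.two_dvd
    rw [← pow_mul, mul_comm, pow_mul, hj, pow_mul, pow_two]
    rcases (m1.π_ker (g ^ p)).mp (by rw [map_pow, e, ← map_pow, h5, map_one]) with e | e <;> simp [e, neg1_sq]
  obtain ⟨c, hc, β, e1⟩ := exists_conj_perm hp h2 (pow_mem h4 _) h6
  obtain ⟨π2, R2, m2, hs2, e2⟩ := m1.shift_NN hs1 hc (g := g ^ (p + 1)) (h := ⟨x, (hB hx).1⟩)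
    (by rw [map_pow, e, ← map_pow, pow_succ, h5, one_mul])
  rw [e1] at e2
  have hBo : Odd (Nat.card B) := hBp ▸ hp.odd_of_ne_two h2
  obtain ⟨d, β', j, h7, h8, h9⟩ := hT β (orderOf_eq_prime (permHom_injective (by
    rw [map_pow, ← e1, conj_pow, h6]; simp)) fun e => h1 (m.eq_one_of hBo hx ((m.ρ_ker ⟨x, _⟩).mp (by
      rw [← e2, e]; simp))))
  obtain ⟨π3, R3, m3, hs3, e3⟩ := m2.shift_NN hs2 (perm_mem_NN d) (g := permHom (β ^ j))
    (h := ⟨x, (hB hx).1⟩ ^ j) (by rw [map_zpow, map_zpow, map_zpow, e2])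
  rw [← map_inv, ← map_mul, ← map_mul, h9] at e3
  have h10 := hg _ (zpow_mem hx j) fun e => h8 (m3.perm_eq_one (one_mem _) (by
    rw [one_mul, e3, show (⟨x, _⟩ : centralizer ({z} : Set G)) ^ j = 1 from Subtype.ext e, map_one]))
  exact ⟨π3, R3, _, β', m3, hs3, h10.1, h10.2, mem_centralizer_singleton_iff.mp (hB (zpow_mem hx j)).2, h7, e3⟩

theorem card_pow [Finite G] {W : Subgroup G} (hW : W ≤ centralizer {z}) {X : Subgroup Co0}
    (e : (W.subgroupOf (centralizer {z})).map ρ = X.map π) {p : ℕ} (hp : p.Prime) (h2 : p ≠ 2) :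
    (Nat.card W).factorization p = (Nat.card X).factorization p := by
  haveI : Fact (Nat.Prime 2) := ⟨Nat.prime_two⟩
  have h1 := card_map_mul_card_inf_ker ρ (W.subgroupOf (centralizer {z}))
  have h3 := card_map_mul_card_inf_ker π X
  obtain ⟨a, ha⟩ : ∃ a, Nat.card ↥(W.subgroupOf (centralizer {z}) ⊓ ρ.ker) = 2 ^ a :=
    IsPGroup.exists_card_eq ((m.lx.isPGroup.comap_subtype (K := centralizer {z})).to_le
      fun x hx => (m.ρ_ker x).mp hx.2)
  obtain ⟨b, hb⟩ : ∃ a, Nat.card ↥(X ⊓ π.ker) = 2 ^ a := IsPGroup.exists_card_eq fun x => ⟨1, Subtype.ext (by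
    rcases (m.π_ker x).mp x.2.2 with e | e <;> simp [e, pow_two, neg1_sq])⟩
  rw [Nat.card_congr (subgroupOfEquivOfLe hW).toEquiv, e, ha] at h1
  haveI : Finite A := Finite.of_surjective π m.π_surj
  rw [← h1, ← h3, hb, Nat.factorization_mul Nat.card_pos.ne' (by positivity),
    Nat.factorization_mul Nat.card_pos.ne' (by positivity)]
  simp [Nat.prime_two.factorization, h2.symm]

theorem fact_pair [Finite G] {s : G} (hs : s ∈ Q) (hc : IsConj z s) (hne : s ≠ z) {p : ℕ} (hp : p.Prime) (h2 : p ≠ 2) :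
    (Nat.card (centralizer ({z, s} : Set G))).factorization p = (4096 * 244823040).factorization p := by
  obtain ⟨v, hv, h3⟩ := m.type4' hs hc hne
  obtain ⟨k, hk⟩ := to_e8 h3
  obtain ⟨g, rfl⟩ := isConj_iff.mp hc
  rw [cent_pair, ← card_NN]
  exact (m.shift k).card_pow inf_le_left ((m.shift k).X_eq (m.lx.lpr hs hne) rfl (i := pI)
    (by rwa [← hk, inv_smul_smul])) hp h2

theorem fact_cent [Finite G] {s : G} (hs : R (e8 pI) s) {b : Co0} (hb : Odd (orderOf b)) {h : centralizer ({z} : Set G)}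
    (ho : Odd (orderOf (h : G))) (e : π b = ρ h) (hsh : (h : G) * s = s * h) {p : ℕ} (hp : p.Prime) (h2 : p ≠ 2) :
    (Nat.card ↥(centralizer ({z, s} : Set G) ⊓ centralizer (zpowers (h : G) : Set G))).factorization p =
      (Nat.card ↥(centralizer {b} ⊓ NN)).factorization p := by
  rw [cent_pair]
  refine m.card_pow (inf_le_left.trans inf_le_left) (le_antisymm ?_ ?_) hp h2
  · rintro _ ⟨d, hd, rfl⟩
    obtain ⟨g, hg⟩ := m.exists_π d
    refine ⟨g, ⟨m.comm_of_π hb ?_, cg_e8_iff.mp ((m.mem_bar_cent hs (m.e8_not hs)).mp ⟨d, hd.1, hg.symm⟩)⟩, hg⟩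
    rw [hg, e, ← map_mul, ← map_mul]
    exact congrArg ρ (Subtype.ext (hd.2 _ (mem_zpowers _)).symm)
  · rintro _ ⟨g, hg, rfl⟩
    obtain ⟨c, hc, e'⟩ := (m.mem_bar_cent hs (m.e8_not hs)).mpr (cg_e8_iff.mpr hg.2)
    obtain ⟨d, hd, e'⟩ := m.lift_cent ho e hg.1 (K := centralizer {s}) (mem_centralizer_singleton_iff.mpr hsh) hc.2 e'.symm
    exact ⟨d, ⟨⟨d.2, hd.1⟩, hd.2⟩, e'.symm⟩

theorem central3 [Finite G] {s : G} (hs : R (e8 pI) s) (hc : IsConj z s) (hne : s ≠ z) {β : M24} (hb : orderOf β = 3)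
    {h : centralizer ({z} : Set G)} (ho : orderOf (h : G) = 3) (e : π (permHom β) = ρ h) (hsh : (h : G) * s = s * h) :
    (∃ P : Sylow 3 (centralizer ({z, s} : Set G)), (zpowers (h : G)).subgroupOf (centralizer ({z, s} : Set G)) ≤
      (center (P : Subgroup (centralizer ({z, s} : Set G)))).map (P : Subgroup (centralizer ({z, s} : Set G))).subtype) ↔
      27 ∣ {c | c ∈ gSets ∧ β • c = c}.ncard * Nat.card (centralizer ({β} : Set M24)) := by
  haveI : Fact (Nat.Prime 3) := ⟨Nat.prime_three⟩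
  have h1 : zpowers (h : G) ≤ centralizer ({z, s} : Set G) := by
    rw [cent_pair, zpowers_le]; exact ⟨h.2, mem_centralizer_singleton_iff.mpr hsh⟩
  have h2 : centralizer ((zpowers (h : G)).subgroupOf (centralizer ({z, s} : Set G)) : Set (centralizer ({z, s} : Set G))) =
      (centralizer ({z, s} : Set G) ⊓ centralizer (zpowers (h : G) : Set G)).subgroupOf _ := by
    ext x
    exact ⟨fun hx => ⟨x.2, fun y hy => congrArg Subtype.val (hx ⟨y, h1 hy⟩ hy)⟩, fun hx y hy => Subtype.ext (hx.2 y hy)⟩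
  rw [central_iff (Y := (zpowers (h : G)).subgroupOf _) (IsPGroup.comap_subtype (IsPGroup.of_card (n := 1) (by rw [Nat.card_zpowers, ho, pow_one]))) (by
    rw [h2]; exact fun x hx => ⟨x.2, le_centralizer _ hx⟩), h2,
    m.fact_pair (m.mem hs) hc hne Nat.prime_three (by norm_num), Nat.card_congr (subgroupOfEquivOfLe inf_le_left).toEquiv,
    Nat.prime_three.pow_dvd_iff_le_factorization Nat.card_pos.ne', m.fact_cent hs (by
      rw [orderOf_injective permHom permHom_injective, hb]; decide) (by rw [ho]; decide) e hsh Nat.prime_three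
      (by norm_num), ← Nat.prime_three.pow_dvd_iff_le_factorization Nat.card_pos.ne', card_cent_NN,
    fact_eq (N := 4096 * 244823040) (k := 3) Nat.prime_three (by norm_num) (by norm_num)]
  rfl

end MT

end Cfsg.Agent.LL
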