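import Cfsg.Agent.H21.Monster4

/-! Groups of Monster type: the certificate for the centralizer of a permutation matrix. -/

set_option autoImplicit false
set_option linter.style.haveILetI false

namespace Cfsg.Agent.LL

open Cfsg Cfsg.Agent.H16 Cfsg.Agent.H10 MulAction Subgroup
open scoped Pointwise

noncomputable def permChk (z m : ℕ) : Bool :=
  allB 24 fun k => allB 24 fun i => Nat.beq (ea m i k) (ifB (Nat.beq i (H16.get 5 z k)) 24 16)

theorem mIs_perm {β : M24} {z m : ℕ} (hr : Rep gpt 24 β (H16.get 5 z)) (h : permChk z m = true) :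
    MIs (permHom β) m := fun p => funext fun q => by
  obtain ⟨k, hk, rfl⟩ := exists_gpt p
  obtain ⟨i, hi, rfl⟩ := exists_gpt q
  have := Nat.eq_of_beq_eq_true (allB_spec (allB_spec h k hk) i hi)
  rw [perm_e8, (hr k hk).2, idx_gpt hk, col, tv_gpt _ _ _ hi, this, ifB_eq, coe_e8, Pi.single_apply]
  by_cases e : i = H16.get 5 z k
  · simp [e]
  · rw [if_neg fun e' => e (gpt_inj _ hi _ (hr k hk).1 e'), if_neg (by simpa using e)]; rfl

theorem cdata_perm {β : M24} {p z mb M W w C S n wp T N c m o : ℕ} [NeZero n] (hr : Rep gpt 24 β (H16.get 5 z))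
    (hp : orderOf β = p) (ho : Odd p) (h1 : permChk z mb = true) (h2 : chk2 mb M = true)
    (hW : wChk W (2 * w) C = true) (hF : fixChk2 W (2 * w) C S M = true) {l : List (ℕ × ℕ × ℕ × ℕ)}
    (hl : cenChk W (2 * w) mb l = true) {ys : List ℕ}
    (hy : ∀ y ∈ ys, y < 2 ^ (2 * w) ∧ ∀ g ∈ centralizer {permHom β}, g • cpt (kap (e8 pI)) ≠ fpt W (2 * w) y)
    (hN : outCnt (fun p => xl 32 p (2 * w)) (2 ^ (2 * w)) (l.map fun e => e.2.2.2) ys = N)
    (hc : Nat.beq (cntN 4096 fun i => Nat.beq (cF z i) i) c = true)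
    (hm : Nat.card (centralizer ({β} : Set M24)) = m) (hT : subOk (2 ^ (2 * w)) n T = true) {Q SG B : List ℕ}
    (hQ : Q.length = l.length)
    (h3 : allP ((l.map fun e => e.2.2.2).zip Q) (subRep (fun p => xl 32 p (2 * w)) n wp T) = true)
    (hw : n ≤ 2 ^ wp) {prog : List (List ℕ)} {sel : List ℕ} (h4 : sel.map (nth (pid wp n) (slp wp n prog Q)) = SG)
    (e : N * (c * m) = o * (2 * p)) (hB : allL B (fun b => Nat.blt b n) = true) (h5 : lbChain wp n B SG = o)
    (hn : Odd n) (h6 : orbF (H16.get wp) n Q 0 = 2 ^ n - 1) :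
    ∃ (P : Subgroup (Equiv.Perm (Fin n))) (α : centralizer {permHom β} →* P), CData (permHom β) w α ∧
      Nat.card P = o ∧ Gen (finPt n) n wp P Q ∧ Gen (finPt n) n wp P SG := by
  have hb := mIs_perm hr h1
  have hk := hb.k2 h2
  have hS := inK_cen hb hW hl
  have h7 : Odd (orderOf (permHom β)) := by rwa [orderOf_injective permHom permHom_injective, hp]
  have h8 := inK_sub hT (F := fun p => xl 32 p (2 * w)) (PQ := (l.map fun e => e.2.2.2).zip Q)
    (by rwa [List.map_fst_zip (by simp [hQ])]) h3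
  rw [List.map_snd_zip (by simp [hQ])] at h8
  have h9 : ∀ i < n, H16.get 16 T i < 2 ^ (2 * w) := fun i hi => Nat.blt_eq.mp (allN_iff.mp (andB_iff.mp hT).2 i hi)
  obtain ⟨P, α, a1, a2, a3, a4, a5, -, a6⟩ := quot_perm hw (inj_sub (inj_fpt hW) hT) (Z_le_cent _)
    (fun g hg i hi => Z_fix hk hW hF g hg _ (h9 i hi)) h8 h4 ((cent_bound hk hF hS hy hN
      (tabCode.ncard_fixed hr (andB_iff.mpr ⟨by rw [okT], hc⟩)) hm).trans (by
        rw [e, card_Z h7, orderOf_injective permHom permHom_injective, hp])) hB h5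
  exact ⟨P, α, ⟨h7, a1, a2, fun g hg h => (a2 ⟨g, hg⟩).mp (Subtype.ext (faith_finPt n ⊤ _ trivial fun i hi =>
    ((a6 ⟨g, hg⟩ fun i => i).mp (fun i hi => ⟨hi, fix_of_cg hk hW hF h _ (h9 i hi)⟩) i hi).2)),
    two_core_odd hn a4 h6, ncard_fix hk hW hF⟩, a3, a4, a5⟩

theorem CData.map {b : Co0} {w : ℕ} {L L' : Type*} [Group L] [Group L'] {φ : centralizer {b} →* L} (h : CData b w φ)
    (e : L ≃* L') : CData b w (e.toMonoidHom.comp φ) :=
  ⟨h.odd, e.surjective.comp h.surj, fun g => by simp [← h.ker], h.faith, fun T hT h2 => by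
    rw [← map_comap_eq_self_of_surjective (f := e.toMonoidHom) e.surjective T,
      h.core _ (hT.comap _) (h2.comap_of_injective _ e.injective), Subgroup.map_bot], h.fix⟩

theorem ncard_type4 {b : Co0} {W k C S M T c : ℕ} (hb : K2Is b M) (hW : wChk W k C = true)
    (hF : fixChk2 W k C S M = true) (hT : ∀ y < 2 ^ k, isLv (H16.get 120 T y) = true ∧
      kv (H16.get 120 T y) = xl 32 W k y ∧ sqNorm (vec (H16.get 120 T y)) ≤ 64)
    (hc : ((Finset.range (2 ^ k)).filter fun y => sqNorm (vec (H16.get 120 T y)) = 64).card = c) :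
    (kap '' {v | Cg (b • v) v ∧ sqNorm (v : V) = 64}).ncard = c := by
  rw [← hc, ← Set.ncard_coe_finset]
  refine Eq.trans ?_ (Set.InjOn.ncard_image (f := xl 32 W k) fun i hi j hj e => inj_fpt hW i
    (by simp at hi; exact hi.1) j (by simp at hj; exact hj.1) (congrArg cpt e))
  congr 1
  ext x
  simp only [Set.mem_image, Set.mem_ofPred_eq, hb.fix hF, Finset.coe_filter, Finset.mem_range]
  constructor
  · rintro ⟨v, ⟨⟨y, h1, h2⟩, h3⟩, rfl⟩
    obtain ⟨h4, h5, h6⟩ := hT y h1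
    have h7 := coe_vL h4
    refine ⟨y, ⟨h1, ?_⟩, h2.symm⟩
    rw [← h7] at h6 ⊢
    rcases (kap_eq_iff.mp (h2.trans (h5.symm.trans (kap_vec h7).symm))).short h3.le h6 with e | e | e
    · rw [← e, h3]
    · rw [e, AddSubgroup.coe_neg, sqNorm_neg] at h3; exact h3
    · exact e.2
  · rintro ⟨y, ⟨h1, h2⟩, rfl⟩
    obtain ⟨h4, h5, h6⟩ := hT y h1
    have h7 := coe_vL h4
    exact ⟨_, ⟨⟨y, h1, (kap_vec h7).trans h5⟩, h7 ▸ h2⟩, (kap_vec h7).trans h5⟩

theorem hT_prime {p m : ℕ} (hp : p.Prime) (hG : 244823040 = p * m) (hm : ¬ p ∣ m) {x : M24} (hx : orderOf x = p)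
    (β : M24) (h : orderOf β = p) : ∃ c β' j, β' = x ∧ β' ≠ 1 ∧ c * β ^ (j : ℤ) * c⁻¹ = β' := by
  obtain ⟨c, e⟩ := exists_conj_zpowers hp (card_M24.trans hG) hm hx (S := zpowers β) (by rw [Nat.card_zpowers, h])
  obtain ⟨j, e⟩ := e.ge (mem_zpowers _)
  exact ⟨c⁻¹, x, j, rfl, fun e => hp.one_lt.ne' (by rw [← hx, e, orderOf_one]), by
    rw [show β ^ j = _ from e]; group⟩

theorem hT_three (β : M24) (h : orderOf β = 3) :
    ∃ c β' j, (β' = t3A ∨ β' = t3B) ∧ β' ≠ 1 ∧ c * β ^ (j : ℤ) * c⁻¹ = β' := by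
  obtain ⟨c, rfl | rfl⟩ := class3 h
  · exact ⟨c⁻¹, _, 1, Or.inl rfl, fun e => by simpa [e] using orderOf_3A, by group⟩
  · exact ⟨c⁻¹, _, 1, Or.inr rfl, fun e => by simpa [e] using orderOf_3B, by group⟩

end Cfsg.Agent.LL
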