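import Cfsg.Agent.H21.Monster5

/-! Groups of Monster type: normalizers of subgroups of odd prime order. -/

set_option autoImplicit false
set_option linter.style.haveILetI false

namespace Cfsg.Agent.LL

open Cfsg Cfsg.Agent.H16 Cfsg.Agent.H10 MulAction Subgroup
open scoped Pointwise

theorem mIs_eps {i m : ℕ} (hi : i < 4096)
    (h : ∀ p q, (if p ∈ cset i then -1 else 1) * (Pi.single p 8 : V) q = col m (idx p) q) :
    MIs (eps ⟨cset i, mem_gSets_iff.mpr ⟨i, hi, rfl⟩⟩) m := fun p => funext fun q => by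
  rw [eps_e8, ← h]; split_ifs <;> simp [coe_e8]

theorem perm_conj_of {n e : Co0} (hn : n ∈ NN) (he : e ∈ Eps) {β γ : M24} (h : n * permHom β * n⁻¹ = e * permHom γ) :
    ∃ σ, σ * β * σ⁻¹ = γ := by
  obtain ⟨f, hf, σ, rfl⟩ := mem_NN'.mp hn
  refine ⟨σ, mul_inv_eq_one.mp (perm_mem_Eps ?_)⟩
  convert mul_mem (mul_mem (inv_mem hf) he) (Eps_conj γ hf) using 1
  rw [← mul_inv_eq_iff_eq_mul] at h
  rw [← h]; simp only [map_mul, map_inv]; group

end Cfsg.Agent.LL
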