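import Cfsg.Agent.H21.Monster5
import Cfsg.Agent.H21.U43

/-! Groups of Monster type: tools for the centralizer of a 3-central element. -/

set_option autoImplicit false
set_option linter.style.haveILetI false

namespace Cfsg.Agent.LL

open Cfsg Cfsg.Agent.H16 Cfsg.Agent.H10 MulAction Subgroup
open scoped Pointwise

theorem cdata_perm' {β : M24} {p z mb M W w C S n wp T N c m o : ℕ} [NeZero n] (hr : Rep gpt 24 β (H16.get 5 z))
    (hp : orderOf β = p) (ho : Odd p) (h1 : permChk z mb = true) (h2 : chk2 mb M = true)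
    (hW : wChk W (2 * w) C = true) (hF : fixChk2 W (2 * w) C S M = true) {l : List (ℕ × ℕ × ℕ × ℕ)}
    (hl : cenChk W (2 * w) mb l = true) {ys : List ℕ}
    (hy : ∀ y ∈ ys, y < 2 ^ (2 * w) ∧ ∀ g ∈ centralizer {permHom β}, g • cpt (kap (e8 pI)) ≠ fpt W (2 * w) y)
    (hN : outCnt (fun p => xl 32 p (2 * w)) (2 ^ (2 * w)) (l.map fun e => e.2.2.2) ys = N)
    (hc : Nat.beq (cntN 4096 fun i => Nat.beq (cF z i) i) c = true)
    (hm : Nat.card (centralizer ({β} : Set M24)) = m) (hT : subOk (2 ^ (2 * w)) n T = true) {Q SG B : List ℕ}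
    (hQ : Q.length = l.length)
    (h3 : allP ((l.map fun e => e.2.2.2).zip Q) (subRep (fun p => xl 32 p (2 * w)) n wp T) = true)
    (hw : n ≤ 2 ^ wp) {prog : List (List ℕ)} {sel : List ℕ} (h4 : sel.map (nth (pid wp n) (slp wp n prog Q)) = SG)
    (e : N * (c * m) = o * (2 * p)) (hB : allL B (fun b => Nat.blt b n) = true) (h5 : lbChain wp n B SG = o) :
    ∃ (P : Subgroup (Equiv.Perm (Fin n))) (α : centralizer {permHom β} →* P), 
      ((∀ T : Subgroup P, T.Normal → IsPGroup 2 T → T = ⊥) → CData (permHom β) w α) ∧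
      Nat.card P = o ∧ Gen (finPt n) n wp P Q ∧ Gen (finPt n) n wp P SG := by
  have hb := mIs_perm hr h1
  have hk := hb.k2 h2
  have hS := inK_cen hb hW hl
  have h7 : Odd (orderOf (permHom β)) := by rwa [orderOf_injective permHom permHom_injective, hp]
  have h8 := inK_sub hT (F := fun p => xl 32 p (2 * w)) (PQ := (l.map fun e => e.2.2.2).zip Q)
    (by rwa [List.map_fst_zip (by simp [hQ])]) h3
  rw [List.map_snd_zip (by simp [hQ])] at h8
  have h9 : ∀ i < n, H16.get 16 T i < 2 ^ (2 * w) := fun i hi => Nat.blt_eq.mp (allN_iff.mp (andB_iff.mp hT).2 i hi)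
  obtain ⟨P, α, a1, a2, a3, a4, a5, -, a6⟩ := quot_perm hw (inj_sub (inj_fpt hW) hT) (Z_le_cent _)
    (fun g hg i hi => Z_fix hk hW hF g hg _ (h9 i hi)) h8 h4 ((cent_bound hk hF hS hy hN
      (tabCode.ncard_fixed hr (andB_iff.mpr ⟨by rw [okT], hc⟩)) hm).trans (by
        rw [e, card_Z h7, orderOf_injective permHom permHom_injective, hp])) hB h5
  exact ⟨P, α, fun h6 => ⟨h7, a1, a2, fun g hg h => (a2 ⟨g, hg⟩).mp (Subtype.ext (faith_finPt n ⊤ _ trivial fun i hi =>
    ((a6 ⟨g, hg⟩ fun i => i).mp (fun i hi => ⟨hi, fix_of_cg hk hW hF h _ (h9 i hi)⟩) i hi).2)),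
    h6, ncard_fix hk hW hF⟩, a3, a4, a5⟩

theorem cent_eq_one {n w : ℕ} [NeZero n] {K : Subgroup (Equiv.Perm (Fin n))} {S : List ℕ}
    (hS : ∀ p ∈ S, InK (finPt n) n K (H16.get w p)) (ho : orbF (H16.get w) n S 0 = 2 ^ n - 1)
    (h : (allN n fun i => orB (Nat.beq i 0) (anyL S fun p => andB (Nat.beq (H16.get w p 0) 0)
      (notB (Nat.beq (H16.get w p i) i)))) = true) {τ : Equiv.Perm (Fin n)} (hτ : ∀ g ∈ K, g * τ = τ * g) : τ = 1 := by
  have h0 := Nat.pos_of_neZero n
  obtain ⟨i, hi, e⟩ := surj_finPt n (τ • finPt n 0)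
  have h1 : τ • finPt n 0 = finPt n 0 := by
    rcases orB_iff.mp (allN_iff.mp h i hi) with e' | e'
    · rw [← e, Nat.eq_of_beq_eq_true e']
    obtain ⟨p, hp, e'⟩ := anyL_iff.mp e'
    simp only [andB_iff, notB_iff, Nat.beq_eq] at e'
    obtain ⟨g, hg, hr⟩ := hS p hp
    refine (e'.2 (inj_finPt n _ (hr i hi).1 _ hi ?_)).elim
    rw [← (hr i hi).2, e, ← mul_smul, hτ g hg, mul_smul, (hr 0 h0).2, e'.1]
  refine faith_finPt n ⊤ _ trivial fun j hj => ?_
  obtain ⟨-, g, hg, e⟩ := orbF_sound hS h0 j (by simpa [ho] using hj)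
  rw [← e, ← mul_smul, ← hτ g hg, mul_smul, h1]

theorem core_of {P P' : Type*} [Group P] [Group P'] [Finite P] {α : P →* P'} (hα : Function.Surjective α)
    (hk : Nat.card α.ker = 3) {M : Subgroup P'} [M.Normal] [IsSimpleGroup M] (h3 : 3 ∣ Nat.card M)
    (hc : ∀ t, (∀ g ∈ M, g * t = t * g) → t = 1) (T : Subgroup P) (hT : T.Normal) (h2 : IsPGroup 2 T) : T = ⊥ := by
  haveI : Fact (Nat.Prime 2) := ⟨Nat.prime_two⟩
  haveI := Finite.of_surjective α hα
  haveI := hT.map α hα
  have h1 : (T.map α).subgroupOf M = ⊥ := (inferInstance : ((T.map α).subgroupOf M).Normal).eq_bot_or_eq_top.resolve_right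
    fun e => by
      obtain ⟨k, hk⟩ := ((h2.map α).comap_subtype (K := M)).exists_card_eq
      rw [show (T.map α).comap M.subtype = ⊤ from e, card_top] at hk
      exact absurd (Nat.prime_three.dvd_of_dvd_pow (hk ▸ h3)) (by norm_num)
  rw [← disjoint_of_isPGroup_of_coprime h2 (K := α.ker) (by rw [hk]; norm_num), left_eq_inf]
  refine fun t ht => hc _ fun g hg => commute_of_normal_of_disjoint M (T.map α) inferInstance inferInstance ?_ _ _ hg
    (mem_map_of_mem α ht)
  exact (subgroupOf_eq_bot.mp h1).symm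

theorem lf_of {C P P' U : Type*} [Group C] [Finite C] [Group P] [Group P'] [Group U] {Q : Subgroup C} [Q.Normal]
    (e : C ⧸ Q ≃* P) {α : P →* P'} (hα : Function.Surjective α) (hk : Nat.card α.ker = 3) {M : Subgroup P'}
    (h2 : M.index = 2) (f : M ≃* U) : ∃ (N M : Subgroup C) (_ : N.Normal) (_ : M.Normal), Q ≤ N ∧ N ≤ M ∧
      Nat.card N = 3 * Nat.card Q ∧ Nonempty (M ⧸ N.subgroupOf M ≃* U) ∧ M.index = 2 := by
  let β := e.toMonoidHom.comp (QuotientGroup.mk' Q)
  have hβ : Function.Surjective β := e.surjective.comp (QuotientGroup.mk'_surjective Q)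
  have h1 : β.ker = Q := by ext; simp [β]
  have h3 : Q ≤ (α.comp β).ker := fun x hx => by rw [← h1] at hx; simp [show β x = 1 from hx]
  have h4 := (M.index_comap_of_surjective (f := α.comp β) (hα.comp hβ)).trans h2
  refine ⟨(α.comp β).ker, M.comap (α.comp β), inferInstance, normal_of_index_eq_two h4, h3, ker_le_comap _ _, ?_,
    ⟨((QuotientGroup.quotientMulEquivOfEq ?_).trans (QuotientGroup.quotientKerEquivOfSurjective _
      (MonoidHom.subgroupComap_surjective_of_surjective (α.comp β) M (hα.comp hβ)))).trans f⟩, h4⟩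
  · rw [← card_map_mul_card_inf_ker β, h1, inf_eq_right.mpr h3, ← MonoidHom.comap_ker,
      map_comap_eq_self_of_surjective hβ, hk]
  · ext; exact ⟨fun h => Subtype.ext h, fun h => congrArg Subtype.val h⟩

end Cfsg.Agent.LL
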