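import Cfsg.Agent.H16.NEng3
import Cfsg.Agent.H16.MTab
import Cfsg.Agent.H16.Targ
import Cfsg.Agent.H12.SBridge
import Cfsg.Agent.H3.SylowIn

/-! The unitary space of dimension six over the field with four elements: a model by bit matrices. -/

set_option autoImplicit false
set_option maxRecDepth 100000

namespace Cfsg.Agent.LL

open Cfsg Cfsg.Agent.H16 MulAction Mdl Matrix
open scoped commutatorElement

section refine
variable {o : Ops} {G Ω : Type*} [Group G] [MulAction G Ω] {M : Mdl o G Ω}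

/-- the cells cut out by the invariant `hm` lie in the basic orbits -/
noncomputable def refB (o : Ops) (hm : ℕ → ℕ → ℕ) (en : (ℕ → Bool) → Bool) (lv : List N.Lv) : List ℕ → Bool :=
  List.rec (motive := fun _ => List ℕ → Bool) (fun _ => true) (fun L _ ih bs =>
    andB (en fun x => impB (andB (allL bs fun c => Nat.beq (hm x c) (hm L.b c)) (Nat.beq (hm x x) (hm L.b L.b)))
      (force (L.find x) fun i => andB (Nat.blt i L.m) (force (L.u o i) fun u => Nat.beq (o.ap u L.b) x)))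
      (ih (L.b :: bs))) lv

theorem refine {lv : List N.Lv} {H T : Subgroup G} (hc : N.Chain M lv H) (hHT : H ≤ T) {X : Set Ω}
    (hX : ∀ g ∈ T, ∀ v ∈ X, g • v ∈ X) {en : (ℕ → Bool) → Bool}
    (hen : ∀ f, en f = true → ∀ v ∈ X, ∃ x, M.P x v ∧ f x = true) (hb : ∀ L ∈ lv, ∀ β, M.P L.b β → β ∈ X)
    {hm : ℕ → ℕ → ℕ} (hi : ∀ g ∈ T, ∀ x y x' y' u v, M.P x u → M.P y v → M.P x' (g • u) → M.P y' (g • v) →
      hm x' y' = hm x y) {bs : List ℕ} (hbs : ∀ c ∈ bs, ∃ γ, M.P c γ ∧ ∀ g ∈ T, g • γ = γ)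
    (h : refB o hm en lv bs = true) : ∀ g ∈ T, ∃ u ∈ H, ∀ L ∈ lv, ∀ β, M.P L.b β → (u⁻¹ * g) • β = β := by
  induction lv generalizing H T bs with
  | nil => exact fun g _ => ⟨1, H.one_mem, by simp⟩
  | cons L lv ih =>
    intro g hg
    obtain ⟨β, h1, h2, -, -, h5⟩ := hc
    obtain ⟨h3, h4⟩ := andB_iff.mp h
    obtain ⟨x, hx, e⟩ := hen _ h3 _ (hX g hg β (hb L List.mem_cons_self β h1))
    simp only [impB_iff, andB_iff, allL_iff, Nat.beq_eq, force_eq, Nat.blt_eq] at e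
    obtain ⟨hi', e⟩ := e ⟨fun c hc => by
      obtain ⟨γ, hγ, hf⟩ := hbs c hc
      exact hi g hg _ _ _ _ _ _ h1 hγ hx (by rwa [hf g hg]), hi g hg _ _ _ _ _ _ h1 h1 hx hx⟩
    obtain ⟨u, hu, r, -⟩ := h2 _ hi'
    have e1 : u • β = g • β := M.P_fun (M.P_ap r h1) (e.symm ▸ hx)
    have e2 : (u⁻¹ * g) • β = β := by rw [mul_smul, ← e1, inv_smul_smul]
    obtain ⟨u', hu', e3⟩ := ih h5 (T := T ⊓ stabilizer G β) (inf_le_inf_right _ hHT) (fun g hg => hX g hg.1)
      (fun L hL => hb L (List.mem_cons_of_mem _ hL)) (fun g hg => hi g hg.1) (bs := L.b :: bs) (fun c hc => by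
        rcases List.mem_cons.mp hc with rfl | hc
        · exact ⟨β, h1, fun g hg => hg.2⟩
        · obtain ⟨γ, hγ, hf⟩ := hbs c hc
          exact ⟨γ, hγ, fun g hg => hf g hg.1⟩) h4 _ ⟨T.mul_mem (T.inv_mem (hHT hu)) hg, e2⟩
    refine ⟨u * u', H.mul_mem hu hu'.1, fun L' hL β' hβ => ?_⟩
    rw [_root_.mul_inv_rev, mul_assoc]
    rcases List.mem_cons.mp hL with rfl | hL
    · rw [M.P_fun hβ h1, mul_smul, e2, inv_smul_eq_iff]; exact (show u' • β = β from hu'.2).symm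
    · exact e3 L' hL β' hβ

end refine

namespace U6

noncomputable def mul12M : ℕ := (nat_lit 0x10000000100000001000000010000000100000001000000010000000100000001000000010000000100000001)
noncomputable def mul12Sp : ℕ := (nat_lit 0x20000000400000008000000100000002000000040000000800000010000000200000004000000080000001)
noncomputable def mul12One : ℕ := (nat_lit 0x8000000040000000200000001000000008000000040000000200000001000000008000000040000000200000001)
noncomputable def mul12 (a b : ℕ) : ℕ :=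
  (Nat.xor (Nat.xor (Nat.xor (Nat.xor (Nat.xor (Nat.xor (Nat.xor (Nat.xor (Nat.xor (Nat.xor (Nat.xor (Nat.xor (nat_lit 0) (Nat.mul (Nat.land (Nat.shiftRight a (nat_lit 0)) (nat_lit 4294967295)) (Nat.land (Nat.shiftRight b (nat_lit 0)) mul12M))) (Nat.mul (Nat.land (Nat.shiftRight a (nat_lit 32)) (nat_lit 4294967295)) (Nat.land (Nat.shiftRight b (nat_lit 1)) mul12M))) (Nat.mul (Nat.land (Nat.shiftRight a (nat_lit 64)) (nat_lit 4294967295)) (Nat.land (Nat.shiftRight b (nat_lit 2)) mul12M))) (Nat.mul (Nat.land (Nat.shiftRight a (nat_lit 96)) (nat_lit 4294967295)) (Nat.land (Nat.shiftRight b (nat_lit 3)) mul12M))) (Nat.mul (Nat.land (Nat.shiftRight a (nat_lit 128)) (nat_lit 4294967295)) (Nat.land (Nat.shiftRight b (nat_lit 4)) mul12M))) (Nat.mul (Nat.land (Nat.shiftRight a (nat_lit 160)) (nat_lit 4294967295)) (Nat.land (Nat.shiftRight b (nat_lit 5)) mul12M))) (Nat.mul (Nat.land (Nat.shiftRight a (nat_lit 192)) (nat_lit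 4294967295)) (Nat.land (Nat.shiftRight b (nat_lit 6)) mul12M))) (Nat.mul (Nat.land (Nat.shiftRight a (nat_lit 224)) (nat_lit 4294967295)) (Nat.land (Nat.shiftRight b (nat_lit 7)) mul12M))) (Nat.mul (Nat.land (Nat.shiftRight a (nat_lit 256)) (nat_lit 4294967295)) (Nat.land (Nat.shiftRight b (nat_lit 8)) mul12M))) (Nat.mul (Nat.land (Nat.shiftRight a (nat_lit 288)) (nat_lit 4294967295)) (Nat.land (Nat.shiftRight b (nat_lit 9)) mul12M))) (Nat.mul (Nat.land (Nat.shiftRight a (nat_lit 320)) (nat_lit 4294967295)) (Nat.land (Nat.shiftRight b (nat_lit 10)) mul12M))) (Nat.mul (Nat.land (Nat.shiftRight a (nat_lit 352)) (nat_lit 4294967295)) (Nat.land (Nat.shiftRight b (nat_lit 11)) mul12M)))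
noncomputable def mul12Ap (a x : ℕ) : ℕ := apB mul12M mul12Sp a x
theorem mul12_eq (a b : ℕ) : mul12 a b = mulB 12 (dig 32 12 fun _ => 1) a b := by
  rw [show (dig 32 12 fun _ => 1) = mul12M by decide +kernel]; delta mul12 mulB xs; rfl
theorem mul12Ap_eq (a x : ℕ) : mul12Ap a x = apB (dig 32 12 fun _ => 1) (dig 31 12 fun _ => 1) a x := by
  rw [show (dig 32 12 fun _ => 1) = mul12M by decide +kernel, show (dig 31 12 fun _ => 1) = mul12Sp by decide +kernel]; rfl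
noncomputable def cW : ℕ := (nat_lit 0x8200000041000000208000001040000008200000041000008000000040000000200000001000000008000000040)
noncomputable def cW2 : ℕ := (nat_lit 0x200000001000000008000000040000000200000001000008200000041000000208000001040000008200000041)
theorem b4 : B4 6 mul12 mul12Ap mul12One cW cW2 :=
  ⟨by decide, mul12_eq, mul12Ap_eq, by decide +kernel, by decide +kernel, by decide +kernel⟩

abbrev V6 : Type := Fin 6 → F4
abbrev Γ : Type := Equiv.Perm V6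
abbrev ω : F4 := el4 2

theorem q6 : Q4 ω (Fin.val : Fin 6 → ℕ) 6 :=
  ⟨Nat.card_eq_fintype_card.trans card_F4, by decide, fun z => z.2, fun k hk => ⟨⟨k, hk⟩, rfl⟩, Fin.val_injective,
    by norm_num, by norm_num⟩

/-- the vector with code `x` -/
def vc (x : ℕ) : V6 := vec4 ω Fin.val 6 x

noncomputable def o : Ops := linOps mul12 mul12Ap mul12One (6 + 6)

theorem vc_surj (v : V6) : ∃ x < 4096, vc x = v := q6.vec_surj v
theorem vc_inj {x y : ℕ} (hx : x < 4096) (hy : y < 4096) (e : vc x = vc y) : x = y := q6.vec_inj hx hy e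
theorem vc_xor (x y : ℕ) : vc (x ^^^ y) = vc x + vc y := q6.vec_xor x y
theorem vc_zero : vc 0 = 0 := Q4.vec_zero
theorem vc_om {x : ℕ} (hx : x < 4096) : vc (om 6 x) = ω • vc x := q6.vec_om hx

noncomputable def M : Mdl o Γ V6 := (b4.linOk q6).mdl ⊤ fun g _ e => Equiv.ext fun v => by
  obtain ⟨x, hx, rfl⟩ := vc_surj v
  exact e x hx

theorem P_iff {x : ℕ} {v : V6} : M.P x v ↔ x < 4096 ∧ vc x = v := ⟨fun h => ⟨h.1, h.2.2⟩, fun h => ⟨h.1, rfl, h.2⟩⟩
theorem P_vc {x : ℕ} (h : x < 4096) : M.P x (vc x) := P_iff.mpr ⟨h, rfl⟩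
theorem R_ap {a x : ℕ} {g : Γ} (r : M.R a g) (h : x < 4096) : mul12Ap a x < 4096 ∧ g (vc x) = vc (mul12Ap a x) :=
  r.2.2 x h

noncomputable def val (x : ℕ) : Bool := Nat.blt x 4096
theorem hv : M.Val val := fun _ e => ⟨_, P_vc (Nat.blt_eq.mp e)⟩
def pts : List ℕ := [1, 2, 4, 8, 16, 32, 64, 128, 256, 512, 1024, 2048]
theorem hpt : allL pts val = true := by decide +kernel
theorem en_all (f : ℕ → Bool) (h : allQ 4096 f = true) (v : V6) : ∃ x, M.P x v ∧ f x = true :=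
  let ⟨x, hx, e⟩ := vc_surj v; ⟨x, P_iff.mpr ⟨hx, e⟩, allQ_iff.mp h x hx⟩

noncomputable def invB (a a' : ℕ) : Bool :=
  andB (andB (ebB 12 a) (ebB 12 a')) (andB (Nat.beq (mul12 a a') mul12One) (Nat.beq (mul12 a' a) mul12One))

theorem pr_top {a a' : ℕ} (e : invB a a' = true) : M.Pr ⊤ a a' := by
  simp only [invB, andB_iff, Nat.beq_eq] at e
  have h1 : EB (6 + 6) a := eb_of e.1.1
  have h2 : EB (6 + 6) a' := eb_of e.1.2
  choose c hc hc' using vc_surj
  have k : ∀ x < 4096, c (vc x) = x := fun x hx => vc_inj (hc _) hx (hc' _)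
  have l : ∀ {a a'}, EB (6 + 6) a' → mul12 a a' = mul12One → ∀ v,
      vc (mul12Ap a (c (vc (mul12Ap a' (c v))))) = v := fun h e v => by
    rw [k _ (b4.ap_lt h (hc v)), ← b4.ap_mul _ h (hc v), e, b4.ap_one (hc v), hc']
  exact ⟨⟨fun v => vc (mul12Ap a (c v)), fun v => vc (mul12Ap a' (c v)), l h1 e.2.2, l h2 e.2.1⟩, trivial,
    ⟨trivial, h1, fun x hx => ⟨b4.ap_lt h1 hx, congrArg (fun y => vc (mul12Ap a y)) (k x hx)⟩⟩,
    trivial, h2, fun x hx => ⟨b4.ap_lt h2 hx, congrArg (fun y => vc (mul12Ap a' y)) (k x hx)⟩⟩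

theorem prL_of {K : Subgroup Γ} {S : List (ℕ × ℕ)} (h : M.InL K (S.map Prod.fst)) (e : allP S invB = true) :
    M.PrL K S := fun p hp =>
  let ⟨g, _, r⟩ := pr_top (allP_iff.mp e p hp); ⟨g, (h _ (List.mem_map_of_mem hp)).mem r.1, r⟩

theorem prL_slp {K : Subgroup Γ} {A : List ℕ} (h : M.InL K A) (prog : List (List ℕ)) {S : List (ℕ × ℕ)}
    (e : andB (slpK o prog (subB (S.map Prod.fst)) A) (allP S invB) = true) : M.PrL K S :=
  prL_of (h.of_slp prog (andB_iff.mp e).1) (andB_iff.mp e).2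

theorem R_add {a : ℕ} {g : Γ} (r : M.R a g) (u v : V6) : g (u + v) = g u + g v := by
  obtain ⟨x, hx, rfl⟩ := vc_surj u
  obtain ⟨y, hy, rfl⟩ := vc_surj v
  have h : x ^^^ y < 4096 := Nat.xor_lt_two_pow (n := 12) hx hy
  rw [← vc_xor, (R_ap r h).2, (R_ap r hx).2, (R_ap r hy).2, b4.apS_eq a h, b4.apS_eq a hx, b4.apS_eq a hy, apS_xor,
    vc_xor]

/-- the hermitian form -/
def hf (u v : V6) : F4 := hermForm 6 F4 2 u v

theorem hf_vc (x y : ℕ) : hf (vc x) (vc y) = e4 ω (herm4 6 x y) := q6.herm x y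

theorem herm4_lt (x y : ℕ) : herm4 6 x y < 4 := by
  have : ∀ n (f : ℕ → ℕ), (∀ i, f i < 2 ^ 2) → xs n f < 2 ^ 2 := fun n f h => by
    induction n with
    | zero => exact Nat.two_pow_pos _
    | succ n ih => exact Nat.xor_lt_two_pow ih (h n)
  exact this _ _ fun _ => get_lt _ _ _

theorem herm4_eq {x y x' y' : ℕ} (e : hf (vc x') (vc y') = hf (vc x) (vc y)) : herm4 6 x' y' = herm4 6 x y := by
  have : ∀ a < 4, ∀ b < 4, e4 ω a = e4 ω b → a = b := by decide
  exact this _ (herm4_lt _ _) _ (herm4_lt _ _) (by rwa [hf_vc, hf_vc] at e)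

theorem add4 : ∀ a b : F4, (a + b) ^ 2 = a ^ 2 + b ^ 2 := by decide
theorem cases4 : ∀ c : F4, c = 0 ∨ c = 1 ∨ c = ω ∨ c = ω * ω := by decide

theorem hf_add (u v : V6) : hf (u + v) (u + v) = hf u u + hf v v + (hf u v + hf u v ^ 2) := by
  have : ∀ a b : F4, (a + b) * (a + b) ^ 2 = a * a ^ 2 + b * b ^ 2 + (a * b ^ 2 + (a * b ^ 2) ^ 2) := by decide
  simp only [hf, hermForm, Fin.sum_univ_six, Pi.add_apply, this]
  simp only [add4]; ring

theorem hf_smul (c : F4) (u v : V6) : hf (c • u) v = c * hf u v := by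
  simp only [hf, hermForm, Pi.smul_apply, smul_eq_mul, Finset.mul_sum, mul_assoc]

noncomputable abbrev tP : GL (Fin 6) F4 →* Γ := toPermHom _ _

theorem tP_apply (g : GL (Fin 6) F4) (v : V6) : tP g v = (g : Matrix _ _ _) *ᵥ v := rfl

theorem tP_inj : Function.Injective tP := fun g h e => Units.ext (Matrix.ext_of_mulVec_single fun j => by
  rw [← tP_apply, e, tP_apply])

noncomputable def GUg : Subgroup Γ := (GU 6 F4 2).map tP
noncomputable def SUg : Subgroup Γ := (suGL 6 F4 2).map tP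

theorem SUg_le : SUg ≤ GUg := Subgroup.map_mono inf_le_right

theorem GU_add {g : Γ} (h : g ∈ GUg) (u v : V6) : g (u + v) = g u + g v := by
  obtain ⟨g, -, rfl⟩ := h; exact mulVec_add g.1 u v
theorem GU_smul {g : Γ} (h : g ∈ GUg) (c : F4) (v : V6) : g (c • v) = c • g v := by
  obtain ⟨g, -, rfl⟩ := h; exact mulVec_smul g.1 c v
theorem GU_hf {g : Γ} (h : g ∈ GUg) (u v : V6) : hf (g u) (g v) = hf u v := by
  obtain ⟨g, hg, rfl⟩ := h; exact hg u v

theorem mem_GUg {g : Γ} (h1 : ∀ u v, g (u + v) = g u + g v) (h2 : ∀ v, g (ω • v) = ω • g v)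
    (h3 : ∀ v, hf (g v) (g v) = hf v v) : g ∈ GUg := by
  have h0 : g 0 = 0 := by simpa using h1 0 0
  let f : V6 →ₗ[F4] V6 := ⟨⟨g, h1⟩, fun c v => by
    rcases cases4 c with rfl | rfl | rfl | rfl <;> simp [h0, h2, mul_smul]⟩
  have e : ∀ v, LinearMap.toMatrix' f *ᵥ v = g v := fun v => LinearMap.toMatrix'_mulVec f v
  obtain ⟨A, hA⟩ := Matrix.mulVec_injective_iff_isUnit.mp
    (show Function.Injective (LinearMap.toMatrix' f).mulVec from fun u v h => g.injective (by rwa [e, e] at h))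
  refine ⟨A, fun u v => ?_, Equiv.ext fun v => by rw [tP_apply, hA, e]⟩
  have k : ∀ u v, hf (g u) (g v) + hf (g u) (g v) ^ 2 = hf u v + hf u v ^ 2 := fun u v => by
    have := h3 (u + v)
    rwa [h1, hf_add, hf_add, h3, h3, add_right_inj] at this
  have l : ∀ s t : F4, s + s ^ 2 = t + t ^ 2 → ω * s + (ω * s) ^ 2 = ω * t + (ω * t) ^ 2 → s = t := by decide
  have := k (ω • u) v
  rw [h2, hf_smul, hf_smul] at this
  simp only [Units.coeHom_apply, hA, e]
  exact l _ _ (k u v) this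

theorem exists_det : ∃ dt : GUg →* F4ˣ, ∀ g, dt g = 1 ↔ (g : Γ) ∈ SUg := by
  let e := (GU 6 F4 2).equivMapOfInjective tP tP_inj
  refine ⟨(GeneralLinearGroup.det.comp (GU 6 F4 2).subtype).comp e.symm.toMonoidHom, fun g => ?_⟩
  obtain ⟨g, rfl⟩ := e.surjective g
  change GeneralLinearGroup.det (e.symm (e g) : GL (Fin 6) F4) = 1 ↔ _
  rw [e.symm_apply_apply]
  exact ⟨fun h => ⟨g, ⟨h, g.2⟩, rfl⟩, fun ⟨a, ha, h⟩ => tP_inj h ▸ ha.1⟩

theorem conj_SU {g x : Γ} (hg : g ∈ GUg) (hx : x ∈ SUg) : g * x * g⁻¹ ∈ SUg := by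
  obtain ⟨dt, h⟩ := exists_det
  refine (h (⟨g, hg⟩ * ⟨x, SUg_le hx⟩ * ⟨g, hg⟩⁻¹)).mp ?_
  rw [map_mul, map_mul, (h ⟨x, _⟩).mpr hx, map_inv, mul_one, mul_inv_cancel]

theorem equiv_SU : Nonempty (SU 6 F4 2 ≃* SUg) :=
  let ⟨e⟩ := suGL_equiv 6 F4 2; ⟨e.trans ((suGL 6 F4 2).equivMapOfInjective tP tP_inj)⟩

theorem card_SUg : Nat.card SUg = 27590492160 := by
  obtain ⟨e⟩ := equiv_SU
  have := H12.card_SU (q := 2) card_F4 (n := 6) (by norm_num)
  rw [show H12.guOrd 2 6 = 3 * 27590492160 by decide +kernel, Nat.card_congr e.toEquiv] at this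
  omega

noncomputable def guB (a a' : ℕ) : Bool := andB (linB 6 mul12 mul12One a a') (uniB 6 mul12Ap a)
noncomputable def suB (n a a' : ℕ) : Bool := andB (guB a a') (isOne o (powM o a n))

theorem in_GU {a a' : ℕ} (e : guB a a' = true) : M.In GUg a := by
  obtain ⟨g, -, r⟩ := exists_lin b4 q6 (andB_iff.mp e).1
  exact ⟨tP g, ⟨g, unitary r (andB_iff.mp e).2, rfl⟩, r⟩

theorem inL_SU {S : List (ℕ × ℕ)} {n : ℕ} (e : andB (Nat.beq (n % 3) 1) (allP S (suB n)) = true) :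
    M.InL SUg (S.map Prod.fst) := fun a ha => by
  obtain ⟨p, hp, rfl⟩ := List.mem_map.mp ha
  have := andB_iff.mp (allP_iff.mp (andB_iff.mp e).2 p hp)
  obtain ⟨_, ⟨g, hg, rfl⟩, r⟩ := in_GU this.1
  refine ⟨_, ⟨g, ⟨Units.ext (q6.det_eq_one (Nat.eq_of_beq_eq_true (andB_iff.mp e).1) (tP_inj ?_)), hg⟩, rfl⟩, r⟩
  rw [map_pow, map_one]; exact isOne_spec (R_pow r n) this.2

theorem GU_herm4 {g : Γ} (hg : g ∈ GUg) (x y x' y' : ℕ) (u v : V6) (h1 : M.P x u) (h2 : M.P y v)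
    (h3 : M.P x' (g • u)) (h4 : M.P y' (g • v)) : herm4 6 x' y' = herm4 6 x y :=
  herm4_eq (by rw [(P_iff.mp h1).2, (P_iff.mp h2).2, (P_iff.mp h3).2, (P_iff.mp h4).2]; exact GU_hf hg u v)

theorem GU_ext {g : Γ} (hg : g ∈ GUg) (h : ∀ i < 6, g (vc (2 ^ i)) = vc (2 ^ i)) : g = 1 := by
  obtain ⟨g, -, rfl⟩ := hg
  rw [show g = 1 from Units.ext (Matrix.ext_of_mulVec_single fun j => by
    rw [Units.val_one, one_mulVec, ← q6.vec_two_pow]; exact h j j.2), map_one]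

/-- multiplication by `ω` -/
noncomputable def Wm : Γ := toPerm (Units.mk0 ω q6.ne0)
theorem Wm_apply (v : V6) : Wm v = ω • v := rfl
theorem R_W : M.R cW Wm := ⟨trivial, b4.eb_W, fun _ hx => ⟨b4.ap_lt b4.eb_W hx, by
  rw [b4.ap_W q6 hx]; exact (vc_om hx).symm⟩⟩
theorem R_W2 : M.R cW2 (Wm * Wm) := b4.hW2 ▸ M.R_mul R_W R_W
theorem W_comm {g : Γ} (hg : g ∈ GUg) : g * Wm = Wm * g := Equiv.ext fun v => GU_smul hg ω v
theorem orderOf_W : orderOf Wm = 3 := orderOf_prime hv hpt R_W Nat.prime_three (by decide +kernel)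

/-- the scalars -/
noncomputable abbrev Z : Subgroup Γ := Subgroup.zpowers Wm
theorem card_Z : Nat.card Z = 3 := (Nat.card_zpowers _).trans orderOf_W
theorem mem_Z {g : Γ} : g ∈ Z ↔ g = 1 ∨ g = Wm ∨ g = Wm * Wm := by
  refine ⟨fun h => ?_, ?_⟩
  · obtain ⟨j, hj, rfl⟩ := exists_pow_of_mem (by norm_num) orderOf_W h
    interval_cases j <;> simp [sq]
  · rintro (rfl | rfl | rfl)
    exacts [one_mem _, Subgroup.mem_zpowers _, mul_mem (Subgroup.mem_zpowers _) (Subgroup.mem_zpowers _)]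
theorem Z_comm {g z : Γ} (hg : g ∈ GUg) (hz : z ∈ Z) : g * z = z * g := by
  obtain ⟨k, rfl⟩ := hz; exact (Commute.zpow_right (W_comm hg) k).eq

/-- `x * y` and `y * x` differ modulo the scalars -/
noncomputable def ncZ (x y : ℕ) : Bool := force (mul12 x y) fun a => force (mul12 y x) fun b =>
  andB (neB o pts a b) (andB (force (mul12 cW b) (neB o pts a)) (force (mul12 cW2 b) (neB o pts a)))

theorem ncZ_spec {x y : ℕ} {g h : Γ} (r : M.R x g) (s : M.R y h) (e : ncZ x y = true) : ⁅g, h⁆ ∉ Z := fun hz => by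
  simp only [ncZ, force_eq, andB_iff] at e
  have k : g * h = ⁅g, h⁆ * (h * g) := by rw [commutatorElement_def]; group
  rcases mem_Z.mp hz with h | h | h <;> rw [h] at k
  · exact ne_of_neB hv hpt (M.R_mul r s) (M.R_mul s r) e.1 (k.trans (one_mul _))
  · exact ne_of_neB hv hpt (M.R_mul r s) (M.R_mul R_W (M.R_mul s r)) e.2.1 k
  · exact ne_of_neB hv hpt (M.R_mul r s) (M.R_mul R_W2 (M.R_mul s r)) e.2.2 k

attribute [irreducible] mul12 mul12Ap invB ncZ guB suB

end U6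

end Cfsg.Agent.LL
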