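import Cfsg.Agent.H21.Su3
import Cfsg.Agent.H21.Cor

/-! The normalizer of the diagonal group and the centralizer of a central element of order three. -/

set_option autoImplicit false
set_option maxRecDepth 100000

namespace Cfsg.Agent.LL.U6

open Cfsg Cfsg.Agent.H16 Cfsg.Agent.H3 MulAction Mdl Subgroup
open scoped commutatorElement Pointwise

noncomputable def cm (x x' y y' : ℕ) : ℕ := force (cj3 o x y x') fun z => mul12 z y'

theorem R_cm {x x' y y' : ℕ} {g h : Γ} (r : M.R x g) (r' : M.R x' g⁻¹) (s : M.R y h) (s' : M.R y' h⁻¹) :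
    M.R (cm x x' y y') ⁅g, h⁆ := by
  rw [cm, force_eq]; exact M.R_mul (R_cj3 r r' s) s'

theorem pr_of_mem {S : List (ℕ × ℕ)} (hS : M.PrL ⊤ S) {g : Γ} (h : g ∈ {g | ∃ p ∈ S.map Prod.fst, M.R p g}) :
    ∃ s ∈ S, M.R s.1 g ∧ M.R s.2 g⁻¹ := by
  obtain ⟨p, hp, r⟩ := h
  obtain ⟨s, hs, rfl⟩ := List.mem_map.mp hp
  obtain ⟨σ, -, r1, r2⟩ := hS s hs
  exact ⟨s, hs, r, R_fun r1 r ▸ r2⟩

theorem comm_of {K : Subgroup Γ} {S : List ℕ} (h1 : M.InL K S) (h2 : K ≤ M.clo S)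
    (h : allL S (fun s => commB o s S) = true) : ∀ x ∈ K, ∀ y ∈ K, x * y = y * x := fun x hx y hy =>
  ((show M.clo S ≤ centralizer K from clo_le' fun p hp g r => mem_centralizer_iff.mpr fun z hz =>
    (N.comm_of_commB h1 h2 r (allL_iff.mp h p hp) z hz).symm) (h2 hy) x hx)

theorem Mon_D : NormBy Mon D := D_ch.normBy D_clo Mon_top le_rfl (by decide +kernel)
theorem P_Mon : P ≤ Mon := P_M0.trans M0_Mon
theorem P_K0 : P ≤ K0 := P_M0.trans M0_K0

theorem D_char (x : Γ) : x ∈ D ↔ x ∈ P ∧ ∀ u ∈ P, ∀ v ∈ P, ⁅x, ⁅u, v⁆⁆ ∈ Z := by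
  have hn : ∀ u ∈ {g | ∃ p ∈ PS.map Prod.fst, M.R p g}, u ∈ normalizer (D : Set Γ) := fun u hu =>
    mem_normalizer_of_conj_mem (Mon_D u (P_Mon (subset_closure hu)))
  refine ⟨fun hx => ⟨D_P hx, fun u hu v hv => ?_⟩, fun ⟨hx, h⟩ => ?_⟩
  · have h1 : (allP PS fun s s' => allP PS fun t t' => force (cm s s' t t') (N.sift o DL)) = true := by decide +kernel
    have : ⁅u, v⁆ ∈ D := cm_of_gens le_rfl hn (fun s hs => by
      rw [← commutatorElement_inv]
      refine inv_mem (cm_of_gens le_rfl hn (fun t ht => ?_) u hu)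
      obtain ⟨a, ha, r, r'⟩ := pr_of_mem P_top hs
      obtain ⟨b, hb, s, s'⟩ := pr_of_mem P_top ht
      exact D_ch.sift (R_cm r r' s s') ((force_eq _ _).symm.trans (allP_iff.mp (allP_iff.mp h1 a ha) b hb))) v hv
    rw [commutatorElement_eq_one_iff_mul_comm.mpr (comm_of D_in D_clo (by decide +kernel) x hx _ this)]
    exact one_mem _
  · have hp := P_pr P_in
    obtain ⟨a, ha, r, r'⟩ := hp.nth 0
    obtain ⟨b, hb, s, s'⟩ := hp.nth 5
    obtain ⟨c, hc, t, t'⟩ := hp.nth 6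
    obtain ⟨p, q, e⟩ := P_ch.forall (Lf := force (cm (nthP o.one PS 0).1 (nthP o.one PS 0).2 (nthP o.one PS 5).1
      (nthP o.one PS 5).2) fun w1 => force (cm (nthP o.one PS 0).1 (nthP o.one PS 0).2 (nthP o.one PS 6).1
      (nthP o.one PS 6).2) fun w2 p => orB (N.sift o DL p) (orB (ncZ p w1) (ncZ p w2))) (by decide +kernel) hx
    simp only [force_eq, orB_iff] at e
    rcases e with e | e | e
    exacts [D_ch.sift q e, absurd (h a ha b hb) (ncZ_spec q (R_cm r r' s s') e),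
      absurd (h a ha c hc) (ncZ_spec q (R_cm r r' t t') e)]

theorem Z_conj {g x : Γ} (hg : g ∈ GUg) : x ∈ Z ↔ g * x * g⁻¹ ∈ Z :=
  ⟨fun h => by rwa [Z_comm hg h, mul_inv_cancel_right], fun h => by
    have := Z_comm hg h
    rwa [show x = g * x * g⁻¹ from mul_left_cancel (a := g) (by rw [this]; group)]⟩

theorem norm_D_of_P {g : Γ} (hg : g ∈ GUg) (h : g ∈ normalizer (P : Set Γ)) : ∀ x ∈ D, g * x * g⁻¹ ∈ D :=
  fun _ hx => Cor.d (K := ⊤) (K0 := ⊤) (R := fun a b => b = g * a * g⁻¹) ⟨fun _ _ => ⟨_, trivial, rfl⟩,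
    fun k _ => ⟨g⁻¹ * k * g, trivial, by group⟩, by rintro a _ c _ rfl rfl; group, by rintro a _ rfl; group,
    by rintro a _ rfl; exact Z_conj hg, by rintro a _ rfl; exact mem_normalizer_iff.mp h a⟩ le_top D_char rfl hx

/-- the diagonal element of determinant `ω` -/
noncomputable def δ : Γ := (in_GU (a := cD) (a' := cD2) (by decide +kernel)).choose
theorem δ_GU : δ ∈ GUg := (in_GU (a := cD) (a' := cD2) (by decide +kernel)).choose_spec.1
theorem R_δ : M.R cD δ := (in_GU (a := cD) (a' := cD2) (by decide +kernel)).choose_spec.2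
theorem orderOf_δ : orderOf δ = 3 := orderOf_prime hv hpt R_δ Nat.prime_three (by decide +kernel)
noncomputable def DK : List (ℕ × ℕ) := [(mul12One, mul12One), (cD, cD2), (cD2, cD)]
theorem DK_pr : M.PrL (zpowers δ) DK :=
  prL_slp (A := [cD]) (.cons ⟨δ, mem_zpowers δ, R_δ⟩ .nil) [[], [0, 0]] (by decide +kernel)
theorem δz_GU : zpowers δ ≤ GUg := zpowers_le.mpr δ_GU

theorem δ_col : ∀ j i : Fin 6, vc (mul12Ap cD (2 ^ (j : ℕ))) i = if i = j then (if i = 5 then ω else 1) else 0 := by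
  decide +kernel

theorem tP_col (A : GL (Fin 6) F4) (i j : Fin 6) : tP A (vc (2 ^ (j : ℕ))) i = A.1 i j := by
  rw [show vc (2 ^ (j : ℕ)) = _ from q6.vec_two_pow j, tP_apply, Matrix.mulVec_single_one]; rfl

theorem δ_not : δ ∉ SUg := by
  rintro ⟨A, hA, e⟩
  have h0 : ∀ j : Fin 6, 2 ^ (j : ℕ) < 4096 := by decide
  have : A.1 = Matrix.diagonal fun i => if i = 5 then ω else 1 := Matrix.ext fun i j => by
    rw [Matrix.diagonal_apply, ← tP_col, e, (R_ap R_δ (h0 j)).2, δ_col]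
  have h1 := congrArg Units.val (MonoidHom.mem_ker.mp hA.1)
  rw [Matrix.GeneralLinearGroup.val_det_apply, this, Matrix.det_diagonal, Fin.prod_univ_six] at h1
  exact q6.ne1 (by simpa using h1)

theorem δ_cases {k : Γ} (hk : k ∈ zpowers δ) : k = 1 ∨ δ ∈ zpowers k := by
  obtain ⟨j, hj, rfl⟩ := exists_pow_of_mem (by norm_num) orderOf_δ hk
  interval_cases j
  · exact Or.inl rfl
  · exact Or.inr (by simp)
  · refine Or.inr ⟨2, ?_⟩
    change (δ ^ 2) ^ ((2 : ℕ) : ℤ) = δ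
    rw [zpow_natCast, ← pow_mul, show 2 * 2 = orderOf δ + 1 by rw [orderOf_δ], pow_succ, pow_orderOf_eq_one, one_mul]

theorem δ_SU {k : Γ} (hk : k ∈ zpowers δ) (h : k ∈ SUg) : k = 1 :=
  (δ_cases hk).resolve_right fun e => δ_not (zpowers_le.mpr h e)

theorem fix5 {g : Γ} (hg : g ∈ GUg) (h : ∀ i < 5, g (vc (2 ^ i)) = vc (2 ^ i)) : g ∈ zpowers δ := by
  obtain ⟨x, hx, e⟩ := en_all (fun x => impB (andB (allB 5 fun i => Nat.beq (herm4 6 x (2 ^ i)) (herm4 6 32 (2 ^ i)))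
    (Nat.beq (herm4 6 x x) (herm4 6 32 32))) (anyP DK fun c _ => andB (Nat.beq (mul12Ap c 32) x)
      (allB 5 fun i => Nat.beq (mul12Ap c (2 ^ i)) (2 ^ i)))) (by decide +kernel) (g (vc 32))
  simp only [impB_iff, andB_iff, allB_iff, Nat.beq_eq, anyP_iff] at e
  have l : ∀ i < 5, 2 ^ i < 4096 := fun i hi => Nat.pow_lt_pow_right (by norm_num) (show i < 12 by omega)
  have h0 := P_vc (x := 32) (by norm_num)
  obtain ⟨c, hc, e1, e2⟩ := e ⟨fun i hi => GU_herm4 hg _ _ _ _ _ _ h0 (P_vc (l i hi)) hx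
    ((h i hi).symm ▸ P_vc (l i hi) :), GU_herm4 hg _ _ _ _ _ _ h0 h0 hx hx⟩
  obtain ⟨k, hk, r, -⟩ := DK_pr c hc
  rwa [← inv_mul_eq_one.mp (GU_ext (mul_mem (inv_mem (δz_GU hk)) hg) fun i hi => ?_)]
  rw [Equiv.Perm.mul_apply, Equiv.Perm.inv_eq_iff_eq]
  by_cases h5 : i < 5
  · rw [h i h5, (R_ap r (l i h5)).2, e2 i h5]
  · rw [show i = 5 by omega, show 2 ^ 5 = 32 from rfl, (R_ap r (by norm_num)).2, e1, (P_iff.mp hx).2]

theorem fix_of {lv : List N.Lv} (e : (allB 5 fun i => anyL (lv.map N.Lv.b) (Nat.beq (2 ^ i))) = true) {g : Γ}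
    (h : ∀ L ∈ lv, ∀ β, M.P L.b β → g • β = β) : ∀ i < 5, g (vc (2 ^ i)) = vc (2 ^ i) := fun i hi => by
  obtain ⟨b, hb, e⟩ := anyL_iff.mp (allB_iff.mp e i hi)
  obtain ⟨L, hL, rfl⟩ := List.mem_map.mp hb
  exact h L hL _ (Nat.eq_of_beq_eq_true e ▸ P_vc (Nat.pow_lt_pow_right (by norm_num) (show i < 12 by omega)))

/-- `y` is a multiple of `x` -/
noncomputable def mulB (x y : ℕ) : Bool :=
  orB (Nat.beq y 0) (orB (Nat.beq y x) (force (om 6 x) fun z => orB (Nat.beq y z) (Nat.beq y (om 6 z))))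

theorem mulB_iff {x y : ℕ} (hx : x < 4096) (hy : y < 4096) : mulB x y = true ↔ ∃ c : F4, vc y = c • vc x := by
  simp only [mulB, orB_iff, Nat.beq_eq, force_eq]
  have h1 : om 6 x < 4096 := om_lt (d := 6) hx
  constructor
  · rintro (rfl | rfl | rfl | rfl)
    exacts [⟨0, by simp [vc_zero]⟩, ⟨1, by simp⟩, ⟨_, vc_om hx⟩, ⟨ω * ω, by rw [vc_om h1, vc_om hx, mul_smul]⟩]
  · rintro ⟨c, e⟩
    rcases cases4 c with rfl | rfl | rfl | rfl
    · exact Or.inl (vc_inj hy (by norm_num) (by rw [e, vc_zero, zero_smul]))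
    · exact Or.inr (Or.inl (vc_inj hy hx (by rw [e, one_smul])))
    · exact Or.inr (Or.inr (Or.inl (vc_inj hy h1 (by rw [e, vc_om hx]))))
    · exact Or.inr (Or.inr (Or.inr (vc_inj hy (om_lt (d := 6) h1) (by rw [e, vc_om h1, vc_om hx, mul_smul]))))

def L18 : List ℕ := [1, 2, 4, 8, 16, 32, 64, 128, 256, 512, 1024, 2048, 65, 130, 260, 520, 1040, 2080]

theorem norm_D {g : Γ} (hg : g ∈ GUg) (h : ∀ x ∈ D, g * x * g⁻¹ ∈ D) : ∃ m ∈ Mon, m⁻¹ * g ∈ zpowers δ := by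
  have hT : Mon ≤ GUg ⊓ normalizer (D : Set Γ) := fun m hm =>
    ⟨SUg_le (Mon_SU hm), mem_normalizer_of_conj_mem (Mon_D m hm)⟩
  have hg' : g ∈ GUg ⊓ normalizer (D : Set Γ) := ⟨hg, mem_normalizer_of_conj_mem h⟩
  obtain ⟨m, hm, e⟩ := refine Mon_ch hT (X := {v | v ≠ 0 ∧ ∀ d ∈ D, ∃ c : F4, d v = c • v}) (en := allL L18)
    (hm := herm4 6) (bs := []) (fun g hg v hv => ⟨fun e => hv.1 (g.injective (e.trans (by
      simpa using (GU_smul hg.1 0 0).symm))), fun d hd => by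
        obtain ⟨c, e⟩ := hv.2 _ ((mem_normalizer_iff.mp (inv_mem hg.2) d).mp hd)
        exact ⟨c, by rw [Equiv.Perm.smul_def, ← GU_smul hg.1, ← e]; simp⟩⟩)
    (fun f hf v hv => by
      obtain ⟨x, hx, e⟩ := en_all (fun x => orB (Nat.beq x 0) (orB (anyL L18 (Nat.beq x))
        (anyL dg fun d => force (mul12Ap d x) fun y => notB (mulB x y)))) (by decide +kernel) v
      simp only [orB_iff, Nat.beq_eq, anyL_iff, force_eq, notB_iff] at e
      obtain ⟨h1, rfl⟩ := P_iff.mp hx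
      rcases e with rfl | ⟨y, hy, rfl⟩ | ⟨d, hd, e⟩
      · exact absurd vc_zero hv.1
      · exact ⟨x, hx, allL_iff.mp hf x hy⟩
      · obtain ⟨d, hd, r⟩ := D_in d hd
        exact absurd ((mulB_iff h1 (R_ap r h1).1).mpr ((R_ap r h1).2 ▸ hv.2 d hd)) e)
    (fun L hL β hβ => by
      obtain ⟨h1, rfl⟩ := P_iff.mp hβ
      have : ∀ L ∈ MonL, 0 < L.b ∧ N.enumM o (fun p => force (mul12Ap p L.b) (mulB L.b)) DL o.one = true := by
        decide +kernel
      refine ⟨q6.vec_ne (this L hL).1 h1, fun d hd => ?_⟩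
      obtain ⟨p, r, e⟩ := D_ch.forall (this L hL).2 hd
      rw [force_eq, mulB_iff h1 (R_ap r h1).1] at e
      exact (R_ap r h1).2 ▸ e)
    (fun g hg => GU_herm4 hg.1) (by simp) (by decide +kernel) g hg'
  exact ⟨m, hm, fix5 (mul_mem (inv_mem (hT hm).1) hg) (fix_of (by decide +kernel) e)⟩

theorem norm_D' {g : Γ} (hg : g ∈ SUg) (h : ∀ x ∈ D, g * x * g⁻¹ ∈ D) : g ∈ Mon := by
  obtain ⟨m, hm, e⟩ := norm_D (SUg_le hg) h
  rwa [← inv_mul_eq_one.mp (δ_SU e (mul_mem (inv_mem (Mon_SU hm)) hg))]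

theorem in_a : M.In D cA := (D_ch.inL (A := [cA]) (.cons (pr_top (a' := mul12 cA cA) (by decide +kernel)).in .nil)
  (by decide +kernel)).head

theorem cent_a {a g : Γ} (r : M.R cA a) (hg : g ∈ SUg) (h : ⁅g, a⁆ ∈ Z) : g ∈ Ca := by
  have h1 : g * a = a * g := by
    have k : g * a = ⁅g, a⁆ * a * g := by rw [commutatorElement_def]; group
    have l : ∀ {c : ℕ} {z : Γ}, M.R c z → g * a = z * a * g → ∀ b < 4096, 0 < b → ∀ k < 2,
        mul12Ap cA b = itF (om 6) k b → (allQ 4096 fun x => orB (Nat.beq x 0)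
          (notB (Nat.beq (mul12Ap (mul12 c cA) x) (itF (om 6) k x)))) = true → False := by
      intro c z s e b hb h0 k hk e1 e2
      obtain ⟨x, hx, e3⟩ := en_all _ e2 (g (vc b))
      obtain ⟨h1, e4⟩ := P_iff.mp hx
      simp only [orB_iff, Nat.beq_eq, notB_iff] at e3
      have e5 := congrArg (· (vc b)) e
      simp only [Equiv.Perm.mul_apply] at e5
      rw [(R_ap r hb).2, e1, ← e4, ← Equiv.Perm.mul_apply z, (R_ap (M.R_mul s r) h1).2] at e5
      rcases e3 with rfl | e3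
      · exact q6.vec_ne h0 hb (g.injective (e4.symm.trans (vc_zero.trans (by
          simpa using (GU_smul (SUg_le hg) 0 0).symm))))
      refine e3 (vc_inj (R_ap (M.R_mul s r) h1).1 ?_ (e5.symm.trans ?_)) <;> interval_cases k
      · exact h1
      · exact (force_eq x (om 6)).trans_lt (om_lt (d := 6) h1)
      · exact e4.symm
      · change g (vc (force b (om 6))) = vc (force x (om 6))
        rw [force_eq, force_eq, vc_om hb, vc_om h1, GU_smul (SUg_le hg), e4]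
    rcases mem_Z.mp h with e | e | e <;> rw [e] at k
    · rwa [one_mul] at k
    · exact (l R_W k 8 (by norm_num) (by norm_num) 0 (by norm_num) (by decide +kernel) (by decide +kernel)).elim
    · exact (l R_W2 k 1 (by norm_num) (by norm_num) 1 (by norm_num) (by decide +kernel) (by decide +kernel)).elim
  have hT : Ca ≤ SUg ⊓ centralizer {a} := Ca_clo.trans (clo_le_cent (Ca_in.mono Ca_SU) r (by decide +kernel))
  obtain ⟨u, hu, e⟩ := refine Ca_ch hT (X := {v | ∃ c : F4, a v = c • v}) (bs := [])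
    (en := fun f => allQ 4096 fun x => impB (force (mul12Ap cA x) (mulB x)) (f x))
    (hm := fun x y => Nat.add (herm4 6 x y) (Nat.mul 4 (force (mul12Ap cA x) fun z => herm4 6 z y)))
    (fun g hg v ⟨c, e⟩ => ⟨c, by
      rw [Equiv.Perm.smul_def, ← GU_smul (SUg_le hg.1), ← e, ← Equiv.Perm.mul_apply, ← Equiv.Perm.mul_apply,
        mem_centralizer_singleton_iff.mp hg.2]⟩)
    (fun f hf v hv => by
      obtain ⟨x, hx, e⟩ := en_all _ hf v
      obtain ⟨h1, rfl⟩ := P_iff.mp hx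
      rw [impB_iff, force_eq, mulB_iff h1 (R_ap r h1).1, ← (R_ap r h1).2] at e
      exact ⟨x, hx, e hv⟩)
    (fun L hL β hβ => by
      obtain ⟨h1, rfl⟩ := P_iff.mp hβ
      have : ∀ L ∈ CaL, mulB L.b (mul12Ap cA L.b) = true := by decide +kernel
      have := (mulB_iff h1 (R_ap r h1).1).mp (this L hL)
      rwa [← (R_ap r h1).2] at this)
    (fun g hg x y x' y' u v h1 h2 h3 h4 => by
      rw [force_eq, force_eq, GU_herm4 (SUg_le hg.1) _ _ _ _ _ _ h1 h2 h3 h4,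
        GU_herm4 (SUg_le hg.1) _ _ (mul12Ap cA x') _ _ _ (M.P_ap r h1) h2 (by
          rw [← mul_smul, mem_centralizer_singleton_iff.mp hg.2, mul_smul]; exact M.P_ap r h3) h4]; rfl)
    (by simp) (by decide +kernel) g ⟨hg, mem_centralizer_singleton_iff.mpr h1⟩
  have h2 := mul_mem (inv_mem (Ca_SU hu)) hg
  rwa [← inv_mul_eq_one.mp (δ_SU (fix5 (SUg_le h2) (fix_of (by decide +kernel) e)) h2)]

end Cfsg.Agent.LL.U6
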