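import Cfsg.Agent.H21.Su4

/-! The subgroups `3.U4(3)` of `SU6(2)`. -/

set_option autoImplicit false
set_option maxRecDepth 100000

namespace Cfsg.Agent.LL.U6

open Cfsg Cfsg.Agent.H16 Cfsg.Agent.H3 MulAction Mdl Subgroup
open scoped commutatorElement Pointwise

abbrev U43 : Type := PSU 4 (FQ 3 2) 3

instance simpleU : IsSimpleGroup U43 := H12.PSU_simple (q := 3) (card_FQ 3 2) (n := 4) (by norm_num) (by norm_num)
theorem center_U : center U43 = ⊥ := center_eq_bot_of_simple (by rw [card_PSUU43]; norm_num)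
instance fact3 : Fact (Nat.Prime 3) := ⟨Nat.prime_three⟩

theorem syl {K : Subgroup Γ} (hP : P ≤ K) (h : Nat.card K = 9797760) : SylowIn 3 P K :=
  sylowIn_of_card (k := 7) (m := 4480) hP P_card h (by norm_num)

theorem sift_pr {K : Subgroup Γ} {lv : List N.Lv} (hc : N.Chain M lv K) {a a' : ℕ}
    (h : andB (invB a a') (N.sift o lv a) = true) : M.Pr K a a' :=
  let ⟨g, _, r⟩ := pr_top (andB_iff.mp h).1; ⟨g, hc.sift r.1 (andB_iff.mp h).2, r⟩

theorem card_of {K : Subgroup Γ} (π : K →* U43) (hs : Function.Surjective π) (hk : Nat.card π.ker = 3) :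
    Nat.card K = 9797760 := by rw [← card_ker_mul π hs, hk, card_PSUU43]

theorem ker_of {K : Subgroup Γ} (hK : K ≤ GUg) (hZ : Z ≤ K) (π : K →* U43) (hs : Function.Surjective π)
    (hk : Nat.card π.ker = 3) (g : K) : π g = 1 ↔ (g : Γ) ∈ Z := by
  have : Z.subgroupOf K = π.ker := eq_of_le_of_card_ge (fun z hz => by
    rw [MonoidHom.mem_ker, ← mem_bot, ← center_U, Subgroup.mem_center_iff]
    intro y
    obtain ⟨y, rfl⟩ := hs y
    rw [← map_mul, ← map_mul]; exact congrArg π (Subtype.ext (Z_comm (hK y.2) hz)))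
    (by rw [hk, Nat.card_congr (subgroupOfEquivOfLe hZ).toEquiv, card_Z])
  rw [← MonoidHom.mem_ker, ← this, mem_subgroupOf]

noncomputable def goodB (t t' : ℕ) (e : List ℕ) : Bool :=
  andB (andB (Nat.beq t (nth 0 e 0)) (anyP DK fun k k' => andB (Nat.beq k (nth 0 e 4)) (Nat.beq k' (nth 0 e 5))))
    (andB (andB (andB (invB (nth 0 e 1) (nth 0 e 2)) (N.sift o M0L (nth 0 e 1)))
      (andB (invB (nth 0 e 3) (mul12 (nth 0 e 3) (nth 0 e 3))) (N.sift o DL (nth 0 e 3))))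
      (Nat.beq (cj3 o (nth 0 e 1) (cj3 o t (nth 0 e 3) t') (nth 0 e 2)) (cj3 o (nth 0 e 4) cX (nth 0 e 5))))

noncomputable def badB (t t' : ℕ) (e : ℕ × List ℕ) : Bool :=
  andB (Nat.beq t e.1) (force (evM o (mg ++ [cj3 o t (nth o.one dg 0) t']) e.2) fun x =>
    andB (isOne o (powM o x 11)) (neB o pts x o.one))

theorem T16_chk : ∀ t ∈ T16, t.1 = mul12One ∨ (∃ e ∈ good, goodB t.1 t.2 e = true) ∨ ∃ e ∈ bad, badB t.1 t.2 e = true := by
  decide +kernel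

theorem good_spec {K : Subgroup Γ} (hM : M0 ≤ K) {t t' : ℕ} {τ : Γ} (r1 : M.R t τ) (r2 : M.R t' τ⁻¹)
    (hτ : ∀ d ∈ D, τ * d * τ⁻¹ ∈ K) {l : List ℕ} (h : goodB t t' l = true) :
    ∃ k ∈ zpowers δ, MulAut.conj k • K0 ≤ K := by
  obtain ⟨h3, h⟩ := andB_iff.mp h
  obtain ⟨h, h6⟩ := andB_iff.mp h
  obtain ⟨h4, h5⟩ := andB_iff.mp h
  obtain ⟨kk, hk, h⟩ := anyP_iff.mp (andB_iff.mp h3).2
  obtain ⟨k, hk', rk, rk'⟩ := DK_pr kk hk
  have rl := rk; have rl' := rk'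
  rw [Nat.eq_of_beq_eq_true (andB_iff.mp h).1] at rl
  rw [Nat.eq_of_beq_eq_true (andB_iff.mp h).2] at rl'
  obtain ⟨b, hb, rb, rb'⟩ := sift_pr M0_ch h4
  obtain ⟨d, hd, rd, -⟩ := sift_pr D_ch h5
  have h8 := R_cj3 rb rb' (R_cj3 r1 r2 rd)
  rw [Nat.eq_of_beq_eq_true h6] at h8
  have h7 : K0 ≤ K.comap (MulAut.conj k).toMonoidHom := K0_le fun p hp => by
    obtain ⟨x, hx, r⟩ := K0_in p hp
    refine ⟨x, ?_, r⟩
    have : ∀ p ∈ kg, p ∈ mg ∨ p = cX := by decide +kernel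
    rcases this p hp with h | h
    · exact hM (M0_ch.conj_mem M0_clo (U := DK) (by decide +kernel) hk rk rk' x ((M0_in p h).mem r))
    · change k * x * k⁻¹ ∈ K
      rw [h] at r
      rw [← R_fun h8 (R_cj3 rl rl' r)]
      exact mul_mem (mul_mem (hM hb) (hτ d hd)) (inv_mem (hM hb))
  exact ⟨k, hk', conj_smul_le_iff.mpr h7⟩

theorem bad_spec {K : Subgroup Γ} (hM : M0 ≤ K) {t t' : ℕ} {τ : Γ} (r1 : M.R t τ) (r2 : M.R t' τ⁻¹)
    (hτ : ∀ d ∈ D, τ * d * τ⁻¹ ∈ K) {l : ℕ × List ℕ} (h : badB t t' l = true) : 11 ∣ Nat.card K := by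
  have h := (andB_iff.mp h).2
  rw [force_eq] at h
  obtain ⟨d, hd, r⟩ := D_in.nth 0
  obtain ⟨x, hx, rx⟩ := InL.ev (K := K) (S := mg ++ [cj3 o t (nth o.one dg 0) t']) (fun p hp =>
    (List.mem_append.mp hp).elim (M0_in.mono hM p) fun h => by
      rw [List.mem_singleton.mp h]; exact ⟨_, hτ d hd, R_cj3 r1 r2 r⟩) l.2
  have := orderOf_dvd_natCard (⟨x, hx⟩ : K)
  rwa [← orderOf_coe, orderOf_prime hv hpt rx (by norm_num) h] at this

section
variable {K : Subgroup Γ} (hK : K ≤ SUg) (hP : P ≤ K) {R : Γ → Γ → Prop} (c : Cor K K0 Z P R)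
include hK hP c

theorem M0_le_of {A : Subgroup Γ} (h1 : A ≤ K) (h2 : Nat.card M0 ≤ Nat.card A) (h3 : ∀ k ∈ A, ∃ k0 ∈ M0, R k k0) :
    M0 ≤ K := by
  have h4 : A ≤ Mon := fun k hk =>
    let ⟨m, hm, r⟩ := h3 k hk
    norm_D' (hK (h1 hk)) (c.symm.norm P_K0 hP D_char r (Mon_D m (M0_Mon hm)))
  refine M0_le fun p hp => ?_
  obtain ⟨g, hg, r⟩ := M0_in p hp
  have : ∀ p ∈ mg, o.eqb (o.mul (powM o p 3) (powM o p 3)) p = true := by decide +kernel
  refine ⟨g, ?_, r⟩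
  rw [← M.eq_of (M.R_mul (R_pow r 3) (R_pow r 3)) r (this p hp)]
  exact h1 (sq_mem_of_card h4 (by rw [Mon_card]; rw [M0_card] at h2; omega) (pow_mem (M0_Mon hg) 3))

theorem exists_Ca : ∃ g ∈ K, g ∈ Ca ∧ g ∉ Mon := by
  obtain ⟨g0, hg0, r0, r0'⟩ := sift_pr K0_ch (a := cG) (a' := cG2) (by decide +kernel)
  obtain ⟨g, hg, e⟩ := c.exr g0 hg0
  obtain ⟨a, ha, ra⟩ := in_a
  obtain ⟨a0, -, ea⟩ := c.exl a (hP (D_P ha))
  have h1 : a0 * g0 = g0 * a0 := by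
    obtain ⟨p, q, e⟩ := P_ch.forall (Lf := fun p => orB (anyL pg (ncZ p)) (cjM o p cG cG)) (by decide +kernel)
      ((c.p ea).mp (D_P ha))
    rcases orB_iff.mp e with e | e
    · obtain ⟨s, hs, e⟩ := anyL_iff.mp e
      obtain ⟨u0, hu0, ru⟩ := P_in s hs
      obtain ⟨u, -, eu⟩ := c.exr u0 (P_K0 hu0)
      refine absurd ((c.z (c.comm ea eu)).mp ?_) (ncZ_spec q ru e)
      rw [commutatorElement_eq_one_iff_mul_comm.mpr
        (N.comm_of_commB P_in P_clo ra (by decide +kernel) u ((c.p eu).mpr hu0))]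
      exact one_mem _
    · exact mul_inv_eq_iff_eq_mul.mp (cjM_spec q r0 r0 e)
  refine ⟨g, hg, cent_a ra (hK hg) ((c.z (c.comm e ea)).mpr (by
    rw [commutatorElement_eq_one_iff_mul_comm.mpr h1.symm]; exact one_mem _)), fun hm => ?_⟩
  obtain ⟨d, hd, r⟩ := D_in.nth 0
  exact D_ch.not_mem (R_cj3 r0 r0' r) (by decide +kernel) (c.norm hP P_K0 D_char e (Mon_D g hm) d hd)

end

theorem Ca_cosets {g : Γ} (h : g ∈ Ca) : ∃ t ∈ T16, ∃ τ, M.R t.1 τ ∧ M.R t.2 τ⁻¹ ∧ τ⁻¹ * g ∈ Mon :=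
  cosets Mon_ch (S := cgP) (prL_top (by decide +kernel)) (prL_top (by decide +kernel)) List.mem_cons_self
    (by decide +kernel) (clo_mono (S := cg) (by decide +kernel) (Ca_clo h))

theorem cls_P {K : Subgroup Γ} (hK : K ≤ SUg) (hP : P ≤ K) (π : K →* U43) (hs : Function.Surjective π)
    (hk : Nat.card π.ker = 3) : ∃ k ∈ zpowers δ, MulAut.conj k • K0 = K := by
  obtain ⟨π0, hs0, hk0⟩ := exists_U
  have hc := card_of π hs hk
  have hD := D_P.trans hP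
  obtain ⟨R, c, hA⟩ := exists_cor π π0 hs hs0 (ker_of (hK.trans SUg_le) (Z_D.trans hD) π hs hk) hk0 (Z_D.trans D_P)
    (syl hP hc) (syl P_K0 K0_card)
  obtain ⟨A, h1, h2, h3⟩ := hA M0 M0_K0
  have hM := M0_le_of hK hP c h1 h2 h3
  obtain ⟨g, hg, h2, h3⟩ := exists_Ca hK hP c
  obtain ⟨t, ht, τ, r1, r2, hm⟩ := Ca_cosets h2
  have hτ : ∀ d ∈ D, τ * d * τ⁻¹ ∈ K := fun d hd => by
    have := mul_mem (mul_mem hg (hD (Mon_D _ (inv_mem hm) d hd))) (inv_mem hg)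
    convert this using 1; group
  rcases T16_chk t ht with h | ⟨l, -, h⟩ | ⟨l, -, h⟩
  · rw [h] at r1
    rw [R_fun r1 M.R_one, inv_one, one_mul] at hm
    exact absurd hm h3
  · obtain ⟨k, hk, e⟩ := good_spec hM r1 r2 hτ h
    exact ⟨k, hk, eq_of_le_of_card_ge e (by rw [card_conj_smul, hc, K0_card])⟩
  · have := bad_spec hM r1 r2 hτ h
    rw [hc] at this; omega

theorem cls {K : Subgroup Γ} (hK : K ≤ SUg) (π : K →* U43) (hs : Function.Surjective π)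
    (hk : Nat.card π.ker = 3) : ∃ g ∈ SUg, ∃ k ∈ zpowers δ, MulAut.conj k • K0 = MulAut.conj g • K := by
  obtain ⟨Q, h1, h2⟩ := Sylow.exists_subgroup_card_pow_prime (G := K) 3 (n := 7)
    (by rw [card_of π hs hk]; norm_num) |>.imp fun Q h => And.intro (map_subtype_le Q) h
  rw [← card_map_of_injective K.subtype_injective] at h2
  obtain ⟨g, hg, e⟩ := (sylowIn_of_card (k := 7) (m := 12615680) (h1.trans hK) h2 card_SUg (by norm_num)).exists_conj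
    (sylowIn_of_card (k := 7) (m := 12615680) (P_K0.trans K0_SU) P_card card_SUg (by norm_num))
  let f := conjEquiv g K (MulAut.conj g • K) fun _ => conj_mem_conj_smul.symm
  refine ⟨g, hg, cls_P (conj_smul_le_iff.mpr fun x hx => mul_mem (mul_mem hg (hK hx)) (inv_mem hg))
    (e ▸ conj_smul_mono g h1) (π.comp f.symm.toMonoidHom) (hs.comp f.symm.surjective) ?_⟩
  rw [← MonoidHom.comap_ker, ← map_equiv_eq_comap_symm', card_map_of_injective f.injective, hk]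

theorem Mon_K0 : NormBy Mon K0 := K0_ch.normBy K0_clo Mon_top le_rfl (by decide +kernel)

theorem norm_K0 {g : Γ} (hg : g ∈ GUg) (h : g ∈ normalizer (K0 : Set Γ)) : ∃ n ∈ K0, ∃ m ∈ Mon, g = n * m := by
  obtain ⟨n, hn, u, hu, rfl⟩ := (syl P_K0 K0_card).frattini h
  have h1 := (mul_mem_cancel_left (SUg_le (K0_SU hn))).mp hg
  obtain ⟨m, hm, e⟩ := norm_D h1 (norm_D_of_P h1 hu)
  have h2 : m⁻¹ * u ∈ normalizer (K0 : Set Γ) := mul_mem (inv_mem (mem_normalizer_of_conj_mem (Mon_K0 m hm)))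
    ((mul_mem_cancel_left (le_normalizer hn)).mp h)
  rcases δ_cases e with e | e
  · exact ⟨n, hn, u, inv_mul_eq_one.mp e ▸ hm, rfl⟩
  · obtain ⟨x, hx, r⟩ := K0_in.nth 2
    obtain ⟨k, -, r1, r2⟩ := DK_pr.nth 1
    rw [R_fun r1 R_δ] at r2
    exact absurd ((mem_normalizer_iff.mp (zpowers_le.mpr h2 e) x).mp hx)
      (K0_ch.not_mem (R_cj3 R_δ r2 r) (by decide +kernel))

theorem not_conj {g k k' : Γ} (hg : g ∈ SUg) (hk : k ∈ zpowers δ) (hk' : k' ∈ zpowers δ)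
    (e : MulAut.conj g • MulAut.conj k • K0 = MulAut.conj k' • K0) : k = k' := by
  obtain ⟨n, hn, m, hm, h⟩ := norm_K0 (g := k'⁻¹ * (g * k))
    (mul_mem (inv_mem (δz_GU hk')) (mul_mem (SUg_le hg) (δz_GU hk))) (by
      rw [mem_normalizer_iff_conj_smul, ← conj_smul_conj_smul, ← conj_smul_conj_smul, e, conj_inv_smul_conj_smul])
  have h1 := mul_mem (inv_mem (conj_SU (inv_mem (δz_GU hk')) hg)) (h ▸ mul_mem (K0_SU hn) (Mon_SU hm))
  exact (inv_mul_eq_one.mp (δ_SU (mul_mem (inv_mem hk') hk) (by convert h1 using 1; group))).symm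

end Cfsg.Agent.LL.U6
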