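import Cfsg.Agent.H16.Targ
import Cfsg.Prelude.Def_MonsterType

/-! Generators of the wreath product of `A₅` by a group of order two. -/

set_option autoImplicit false

namespace Cfsg.Agent.LL

open Cfsg Cfsg.Agent.H16 Equiv

def wpt (i : ℕ) : Fin 5 ⊕ Fin 5 := if i < 5 then Sum.inl (finPt 5 i) else Sum.inr (finPt 5 i)

theorem inj_wpt : Inj wpt 10 := by decide +kernel

theorem faith_wpt {K : Subgroup (Perm (Fin 5 ⊕ Fin 5))} : Faith wpt 10 K := faith_of_surj (by decide +kernel) K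

def wrS : List ℕ := [654820257825, 654820000545, 288317081445]

theorem gen_wr : Gen wpt 10 4 alternatingFiveWreathTwo wrS := by
  have h0 := gen_alt (k := 5) (w := 3) (S := [17937, 2257]) (by norm_num) (by norm_num) 7 [[0, 1, 0], [0, 0, 1]]
    [0, 1, 2] (by decide) (by decide +kernel)
  have h1 : ∀ σ : Perm (Fin 5), ∀ e ∈ [(17937, 654820257825), (2257, 654820000545)], Rep (finPt 5) 5 σ (H16.get 3 e.1) →
      Rep wpt 10 (σ.sumCongr (1 : Perm (Fin 5))) (H16.get 4 e.2) := by decide +kernel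
  have h2 : Rep wpt 10 (show Perm _ from Equiv.sumComm (Fin 5) (Fin 5)) (H16.get 4 288317081445) := by decide +kernel
  have h3 : ∀ σ ∈ alternatingGroup (Fin 5), σ.sumCongr (1 : Perm (Fin 5)) ∈ alternatingFiveWreathTwo := fun σ h =>
    Subgroup.subset_closure (Or.inl ⟨⟨σ, h⟩, 1, rfl⟩)
  obtain ⟨a, ha, ra⟩ := h0.1 17937 (by simp)
  obtain ⟨b, hb, rb⟩ := h0.1 2257 (by simp)
  have ra' := h1 a (_, _) List.mem_cons_self ra
  have rb' := h1 b (_, _) (List.mem_cons_of_mem _ List.mem_cons_self) rb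
  refine ⟨by simpa [wrS] using ⟨⟨_, h3 a ha, ra'⟩, ⟨_, h3 b hb, rb'⟩, _, Subgroup.subset_closure (Or.inr rfl), h2⟩,
    fun K _ h => ?_⟩
  have h4 : ∀ g, ∀ p ∈ wrS, Rep wpt 10 g (H16.get 4 p) → g ∈ K := fun g p hp r =>
    let ⟨_, h1, h2⟩ := h p hp; Rep.eq_of_faith (faith_wpt (K := ⊤)) trivial trivial h2 r ▸ h1
  have h5 := h0.2 (alternatingGroup _ ⊓ K.comap ((Perm.sumCongrHom _ _).comp (MonoidHom.inl _ _))) inf_le_left (by
    simpa using ⟨⟨a, ⟨ha, h4 _ _ (by simp [wrS]) ra'⟩, ra⟩, b, ⟨hb, h4 _ _ (by simp [wrS]) rb'⟩, rb⟩)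
  have h6 := h4 _ _ (by simp [wrS]) h2
  refine (Subgroup.closure_le _).mpr ?_
  rintro _ (⟨σ, τ, rfl⟩ | rfl)
  · refine Set.mem_of_eq_of_mem ?_ <| K.mul_mem (h5 σ.2).2 (K.mul_mem (K.mul_mem h6 (h5 τ.2).2) h6)
    ext (x | x) <;> rfl
  · exact h6

theorem le_card_wr : 7200 ≤ Nat.card alternatingFiveWreathTwo :=
  (Nat.le_of_ble_eq_true (by decide +kernel)).trans (lbChain_le inj_wpt [0, 1, 2, 5, 6, 7] (by decide) _ (InK.slp (by norm_num)
    [[0, 1, 0], [0, 0, 2, 2, 1], [2, 0, 4, 2], [2, 3, 2], [6, 6, 5, 5, 6, 3, 3, 3, 5, 6]] gen_wr.1))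

end Cfsg.Agent.LL
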